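import Cfsg.Agent.Aschbacher.Clifford

/-!
Burnside's theorem for absolutely irreducible matrix groups, and the count of `N` modulo scalars
when `N` is absolutely irreducible and commutative modulo scalars.
-/

set_option autoImplicit false

namespace CfsgLib.Aschbacher

open Matrix Module
open scoped MatrixGroups

variable {ι : Type} [Fintype ι] [DecidableEq ι] {F : Type*} [Field F]

/-- Burnside: an absolutely irreducible matrix group spans the whole matrix algebra. -/
theorem span_matrixSet_eq_top [Finite F] [Nonempty ι] {N : Subgroup (GL ι F)}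
    (h : Cfsg.Geo.ActsAbsolutelyIrreducibly (Cfsg.Geo.matrixSet N)) :
    Submodule.span F (Cfsg.Geo.matrixSet N) = ⊤ := by
  classical
  let e : Matrix ι ι F ≃ₐ[F] Module.End F (ι → F) := Matrix.toLinAlgEquiv'
  let A : Subalgebra F (Module.End F (ι → F)) :=
    (Algebra.adjoin F (Cfsg.Geo.matrixSet N)).map e.toAlgHom
  have hgen : ∀ x ∈ N, e x.val ∈ A := fun x hx =>
    ⟨x.val, Algebra.subset_adjoin ⟨x, hx, rfl⟩, rfl⟩
  have hsimple : IsSimpleModule A (ι → F) := by
    have : IsSimpleOrder (Submodule A (ι → F)) := ⟨fun W => ?_⟩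
    · exact ⟨⟩
    have hinv : IsInvariantUnder N (W.restrictScalars F) := by
      intro x hx v hv
      have := W.smul_mem (⟨e x.val, hgen x hx⟩ : A) hv
      exact this
    rcases eq_bot_or_top_of_invariant h.1 hinv with h0 | h1
    · exact Or.inl ((Submodule.restrictScalars_eq_bot_iff _ _ _).mp h0)
    · exact Or.inr ((Submodule.restrictScalars_eq_top_iff _ _ _).mp h1)
  have hend : ∀ φ : Module.End A (ι → F), ∃ c : F, ∀ v, φ v = c • v := by
    intro φ
    let φ' : Module.End F (ι → F) := φ.restrictScalars F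
    have hc : ∀ s ∈ Cfsg.Geo.matrixSet N, e.symm φ' * s = s * e.symm φ' := by
      rintro _ ⟨x, hx, rfl⟩
      apply e.injective
      rw [map_mul, map_mul, AlgEquiv.apply_symm_apply]
      refine LinearMap.ext fun v => ?_
      exact φ.map_smul (⟨e x.val, hgen x hx⟩ : A) v
    obtain ⟨c, hc⟩ := h.2 _ hc
    refine ⟨c, fun v => ?_⟩
    have : φ' = e (c • 1) := by rw [← hc, AlgEquiv.apply_symm_apply]
    rw [map_smul, map_one] at this
    exact LinearMap.congr_fun this v
  have htop : Algebra.adjoin F (Cfsg.Geo.matrixSet N) = ⊤ := by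
    refine eq_top_iff.mpr fun M _ => ?_
    let f : Module.End (Module.End A (ι → F)) (ι → F) :=
      { toFun := fun v => M *ᵥ v
        map_add' := mulVec_add M
        map_smul' := fun φ v => by
          obtain ⟨c, hc⟩ := hend φ
          simp [hc, mulVec_smul] }
    obtain ⟨⟨r, hr⟩, hrf⟩ := jacobson_density (R := A) f
      (Finset.univ.image fun i => (Pi.single i (1 : F) : ι → F))
    obtain ⟨M', hM', rfl⟩ := hr
    have : M = M' := by
      refine Matrix.ext_of_mulVec_single fun i => ?_
      exact hrf _ (Finset.mem_image_of_mem _ (Finset.mem_univ i))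
    exact this ▸ hM'
  have hmon : ((Submonoid.closure (Cfsg.Geo.matrixSet N) : Submonoid (Matrix ι ι F)) :
      Set (Matrix ι ι F)) = Cfsg.Geo.matrixSet N := by
    have : Cfsg.Geo.matrixSet N =
        ((N.toSubmonoid.map (Units.coeHom (Matrix ι ι F)) : Submonoid _) : Set _) := rfl
    rw [this, Submonoid.closure_eq]
  have h2 := congrArg Subalgebra.toSubmodule htop
  rw [Algebra.adjoin_eq_span, hmon, Algebra.top_toSubmodule] at h2
  exact h2

/-- A matrix commuting with all of an absolutely irreducible group is a scalar. -/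
lemma mem_scalars_of_commute [Nonempty ι] {N : Subgroup (GL ι F)}
    (h : Cfsg.Geo.ActsAbsolutelyIrreducibly (Cfsg.Geo.matrixSet N)) {g : GL ι F}
    (hg : ∀ x ∈ N, g * x = x * g) : g ∈ Cfsg.Geo.scalars ι F := by
  obtain ⟨c, hc⟩ := h.2 g.val (by
    rintro _ ⟨x, hx, rfl⟩
    exact congrArg Units.val (hg x hx))
  have hc0 : c ≠ 0 := fun e => by
    rw [e, zero_smul] at hc
    exact g.ne_zero hc
  exact (Cfsg.Geo.mem_scalars_iff g).mpr ⟨Units.mk0 c hc0, hc⟩

lemma scalars_commute {z : GL ι F} (hz : z ∈ Cfsg.Geo.scalars ι F) (g : GL ι F) :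
    z * g = g * z := by
  obtain ⟨c, hc⟩ := (Cfsg.Geo.mem_scalars_iff z).mp hz
  refine Units.ext ?_
  rw [Units.val_mul, Units.val_mul, hc, Matrix.smul_mul, Matrix.mul_smul, Matrix.one_mul,
    Matrix.mul_one]

lemma scalars_le_center : Cfsg.Geo.scalars ι F ≤ Subgroup.center (GL ι F) := fun _ hz =>
  Subgroup.mem_center_iff.mpr fun g => (scalars_commute hz g).symm

/-- An absolutely irreducible group in dimension at least 2 is not commutative. -/
lemma exists_not_commute (hn : 2 ≤ Fintype.card ι) {N : Subgroup (GL ι F)}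
    (h : Cfsg.Geo.ActsAbsolutelyIrreducibly (Cfsg.Geo.matrixSet N)) :
    ∃ x ∈ N, ∃ y ∈ N, x * y ≠ y * x := by
  by_contra! hcon
  have : Nonempty ι := Fintype.card_pos_iff.mp (by omega)
  obtain ⟨i, j, hij⟩ := Fintype.exists_pair_of_one_lt_card (α := ι) (by omega)
  have hu : (Pi.single j 1 : ι → F) ⬝ᵥ Pi.single i 1 = 0 := by simp [hij]
  obtain ⟨c, hc⟩ := h.2 (transvec (Pi.single i 1) (Pi.single j 1) hu).val (by
    rintro _ ⟨x, hx, rfl⟩
    exact congrArg Units.val (scalars_commute (mem_scalars_of_commute h (hcon x hx))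
      (transvec _ _ hu)).symm)
  have := congrFun (congrFun hc i) j
  simp [transvec, vecMulVec_apply, hij] at this

/-- Elements of `N` in distinct classes modulo scalars are linearly independent. -/
lemma linearIndependent_of_distinct_classes [Nonempty ι] {N : Subgroup (GL ι F)}
    (h : Cfsg.Geo.ActsAbsolutelyIrreducibly (Cfsg.Geo.matrixSet N))
    (hab : ∀ x ∈ N, ∀ y ∈ N, y * x * y⁻¹ * x⁻¹ ∈ Cfsg.Geo.scalars ι F)
    {α : Type*} (f : α → GL ι F) (hf : ∀ a, f a ∈ N)
    (hinj : ∀ a b, (f a)⁻¹ * f b ∈ Cfsg.Geo.scalars ι F → a = b) :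
    LinearIndependent F fun a => (f a).val := by
  classical
  have hex : ∀ (a : α) (y : N), ∃ c : F, y.1.val * (f a).val * (y.1⁻¹ : GL ι F).val =
      c • (f a).val := by
    intro a y
    obtain ⟨c, hc⟩ := (Cfsg.Geo.mem_scalars_iff _).mp (hab _ (hf a) _ y.2)
    refine ⟨c, ?_⟩
    have : y.1 * f a * y.1⁻¹ = y.1 * f a * y.1⁻¹ * (f a)⁻¹ * f a := by group
    have e := congrArg Units.val this
    rw [Units.val_mul (y.1 * f a * y.1⁻¹ * (f a)⁻¹), hc, Matrix.smul_mul, Matrix.one_mul] at e
    exact e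
  choose c hc using hex
  have huniq : ∀ {a b : F} {g : GL ι F}, a • g.val = b • g.val → a = b := fun {a b g} e =>
    smul_left_injective F g.ne_zero e
  let χ : α → N →* F := fun a =>
    { toFun := c a
      map_one' := huniq (g := f a) (by rw [← hc]; simp)
      map_mul' := fun y y' => huniq (g := f a) (by
        rw [← hc]
        have e : (y * y').1 * f a * (y * y').1⁻¹ =
            y.1 * (y'.1 * f a * y'.1⁻¹) * y.1⁻¹ := by simp [mul_assoc]
        have e' := congrArg Units.val e
        simp only [Units.val_mul] at e' ⊢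
        rw [e', hc a y', Matrix.mul_smul, Matrix.smul_mul, hc a y, smul_smul, mul_comm]) }
  have hχinj : Function.Injective χ := by
    intro a b hab'
    refine hinj a b (mem_scalars_of_commute h fun y hy => ?_)
    have hca : c a ⟨y, hy⟩ = c b ⟨y, hy⟩ := DFunLike.congr_fun hab' ⟨y, hy⟩
    obtain ⟨z, hz⟩ := (Cfsg.Geo.mem_scalars_iff _).mp (hab _ (hf a) _ hy)
    obtain ⟨z', hz'⟩ := (Cfsg.Geo.mem_scalars_iff _).mp (hab _ (hf b) _ hy)
    have key : ∀ (d : α) (w : GL ι F), y * f d * y⁻¹ * (f d)⁻¹ = w → ∀ (u : Fˣ),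
        w.val = (u : F) • 1 → (u : F) = c d ⟨y, hy⟩ := by
      intro d w hw u hu
      refine huniq (g := f d) ?_
      rw [← hc d ⟨y, hy⟩]
      have : (y * f d * y⁻¹).val = (w * f d).val := by rw [← hw]; simp
      simp only [Units.val_mul, hu, Matrix.smul_mul, Matrix.one_mul] at this
      exact this.symm
    have hzz : y * f a * y⁻¹ * (f a)⁻¹ = y * f b * y⁻¹ * (f b)⁻¹ := by
      refine Units.ext ?_
      rw [hz, hz', key a _ rfl z hz, key b _ rfl z' hz', hca]
    have hw := scalars_commute (hab _ (hf a) _ hy)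
    have e1 : y * f a * y⁻¹ = (y * f a * y⁻¹ * (f a)⁻¹) * f a := by group
    have e2 : y * f b * y⁻¹ = (y * f b * y⁻¹ * (f b)⁻¹) * f b := by group
    have e3 : y * ((f a)⁻¹ * f b) * y⁻¹ = (f a)⁻¹ * f b := by
      calc y * ((f a)⁻¹ * f b) * y⁻¹ = (y * f a * y⁻¹)⁻¹ * (y * f b * y⁻¹) := by group
        _ = _ := by rw [e1, e2, hzz]; group
    calc (f a)⁻¹ * f b * y = (y * ((f a)⁻¹ * f b) * y⁻¹) * y := by rw [e3]
      _ = y * ((f a)⁻¹ * f b) := by group
  rw [linearIndependent_iff']
  intro s g hg a ha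
  have hzero : ∀ i j, ∀ b ∈ s, g b * (f b).val i j = 0 := by
    intro i j
    have hli := (linearIndependent_monoidHom N F).comp χ hχinj
    refine linearIndependent_iff'.mp hli s (fun b => g b * (f b).val i j) (funext fun y => ?_)
    have := congrArg (fun M => (y.1.val * M * (y.1⁻¹ : GL ι F).val) i j) hg
    simp only [Matrix.mul_sum, Matrix.sum_mul, Matrix.mul_smul, Matrix.smul_mul, hc,
      Matrix.mul_zero, Matrix.zero_mul, Matrix.zero_apply, Matrix.sum_apply, Matrix.smul_apply,
      smul_eq_mul] at this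
    simpa [Finset.sum_apply, mul_comm, mul_left_comm, mul_assoc, χ] using this
  by_contra hga
  exact (f a).ne_zero (Matrix.ext fun i j => (mul_eq_zero.mp (hzero i j a ha)).resolve_left hga)

/-- `N` modulo scalars has order `n²` if `N` is absolutely irreducible and commutative modulo
scalars. -/
theorem card_quotient_scalars [Finite F] [Nonempty ι] {N : Subgroup (GL ι F)}
    (h : Cfsg.Geo.ActsAbsolutelyIrreducibly (Cfsg.Geo.matrixSet N))
    (hab : ∀ x ∈ N, ∀ y ∈ N, y * x * y⁻¹ * x⁻¹ ∈ Cfsg.Geo.scalars ι F) :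
    Nat.card (N ⧸ (Cfsg.Geo.scalars ι F).subgroupOf N) = Fintype.card ι * Fintype.card ι := by
  classical
  let Q := N ⧸ (Cfsg.Geo.scalars ι F).subgroupOf N
  have : Fintype Q := Fintype.ofFinite Q
  let f : Q → GL ι F := fun q => (q.out : N).1
  have hout : ∀ (q : Q) (x : N), QuotientGroup.mk x = q →
      (f q)⁻¹ * x.1 ∈ Cfsg.Geo.scalars ι F := by
    intro q x hx
    have := QuotientGroup.eq.mp (q.out_eq'.trans hx.symm)
    simpa [Subgroup.mem_subgroupOf] using this
  have hli : LinearIndependent F fun q : Q => (f q).val := by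
    refine linearIndependent_of_distinct_classes h hab f (fun q => (q.out : N).2) fun a b hab' => ?_
    rw [← a.out_eq', ← b.out_eq']
    exact QuotientGroup.eq.mpr (by simpa [Subgroup.mem_subgroupOf] using hab')
  have hspan : Submodule.span F (Set.range fun q : Q => (f q).val) = ⊤ := by
    rw [eq_top_iff, ← span_matrixSet_eq_top h, Submodule.span_le]
    rintro _ ⟨x, hx, rfl⟩
    obtain ⟨c, hc⟩ := (Cfsg.Geo.mem_scalars_iff _).mp (hout _ ⟨x, hx⟩ rfl)
    set q : Q := QuotientGroup.mk (⟨x, hx⟩ : N) with hq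
    have hxe : x.val = (c : F) • (f q).val := by
      calc x.val = (f q * ((f q)⁻¹ * x)).val := by rw [mul_inv_cancel_left]
        _ = (c : F) • (f q).val := by rw [Units.val_mul, hc, Matrix.mul_smul, Matrix.mul_one]
    show x.val ∈ Submodule.span F _
    rw [hxe]
    exact Submodule.smul_mem _ _ (Submodule.subset_span ⟨q, rfl⟩)
  have hcard := (finrank_span_eq_card hli).symm
  rw [hspan, finrank_top, finrank_matrix, finrank_self, mul_one] at hcard
  rw [Nat.card_eq_fintype_card]
  exact hcard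

end CfsgLib.Aschbacher
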