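import Cfsg.Agent.Eq.Def_GeometricClasses
import Cfsg.Agent.Aschbacher.Tensor
import Cfsg.Agent.Aschbacher.Basic
import Cfsg.Agent.Aschbacher.Clifford
import Cfsg.Agent.Aschbacher.CentreCases

/-!
A subalgebra normalised by an irreducible group is semisimple; when its centre consists of scalars
it is a copy of a full matrix algebra.
-/

set_option autoImplicit false

namespace CfsgLib.Aschbacher.Centre

open Matrix
open scoped Kronecker

variable {ι : Type} [Fintype ι] [DecidableEq ι] {F : Type*} [Field F]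

local notation "GLm" => Matrix.GeneralLinearGroup

lemma conjAlg_inv_apply (g : GLm ι F) (x : Matrix ι ι F) : conjAlg g⁻¹ (conjAlg g x) = x := by
  rw [← conjAlg_mul, inv_mul_cancel, conjAlg_one]

lemma conjAlg_apply_inv (g : GLm ι F) (x : Matrix ι ι F) : conjAlg g (conjAlg g⁻¹ x) = x := by
  rw [← conjAlg_mul, mul_inv_cancel, conjAlg_one]

lemma mulVec_comm_conjAlg (g : GLm ι F) (x : Matrix ι ι F) (v : ι → F) :
    x *ᵥ ((g : Matrix ι ι F) *ᵥ v) = (g : Matrix ι ι F) *ᵥ (conjAlg g⁻¹ x *ᵥ v) := by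
  rw [Matrix.mulVec_mulVec, Matrix.mulVec_mulVec, conjAlg_apply, inv_inv, ← mul_assoc, ← mul_assoc,
    ← Units.val_mul, mul_inv_cancel, Units.val_one, one_mul]

lemma Normalises.conjAlg_mem {G : Subgroup (GLm ι F)} {A : Subalgebra F (Matrix ι ι F)}
    (h : Normalises G A) {g : GLm ι F} (hg : g ∈ G) {x : Matrix ι ι F} (hx : x ∈ A) : conjAlg g x ∈ A :=
  h g hg x hx

lemma normalises_adjoin {G : Subgroup (GLm ι F)} {S : Set (Matrix ι ι F)}
    (h : ∀ g ∈ G, ∀ x ∈ S, conjAlg g x ∈ S) : Normalises G (Algebra.adjoin F S) := by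
  intro g hg x hx
  have h1 : (Algebra.adjoin F S).map (conjAlg g).toAlgHom ≤ Algebra.adjoin F S := by
    rw [AlgHom.map_adjoin, Algebra.adjoin_le_iff]
    rintro _ ⟨y, hy, rfl⟩
    exact Algebra.subset_adjoin (h g hg y hy)
  exact h1 ⟨x, hx, rfl⟩

/-- The centre of a subalgebra, as a subalgebra of the matrix algebra. -/
def centreAlg (A : Subalgebra F (Matrix ι ι F)) : Subalgebra F (Matrix ι ι F) :=
  A ⊓ Subalgebra.centralizer F (A : Set (Matrix ι ι F))

lemma mem_centreAlg {A : Subalgebra F (Matrix ι ι F)} {x : Matrix ι ι F} :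
    x ∈ centreAlg A ↔ x ∈ A ∧ ∀ y ∈ A, y * x = x * y := by
  simp [centreAlg, Algebra.mem_inf, Subalgebra.mem_centralizer_iff]

lemma Normalises.centreAlg {G : Subgroup (GLm ι F)} {A : Subalgebra F (Matrix ι ι F)}
    (h : Normalises G A) : Normalises G (centreAlg A) := by
  intro g hg x hx
  rw [mem_centreAlg] at hx ⊢
  refine ⟨h.conjAlg_mem hg hx.1, fun y hy => ?_⟩
  have := congrArg (conjAlg g) (hx.2 _ (h.conjAlg_mem (G.inv_mem hg) hy))
  rwa [map_mul, map_mul, conjAlg_apply_inv] at this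

lemma centreAlg_comm {A : Subalgebra F (Matrix ι ι F)} {x y : Matrix ι ι F} (hx : x ∈ centreAlg A)
    (hy : y ∈ centreAlg A) : x * y = y * x :=
  (mem_centreAlg.1 hy).2 x (mem_centreAlg.1 hx).1

/-! ### Semisimplicity -/

theorem isSemisimpleRing_of_normalized [Finite F] [Nonempty ι] {G : Subgroup (GLm ι F)}
    (hirr : Cfsg.Geo.ActsIrreducibly (Cfsg.Geo.matrixSet G)) {A : Subalgebra F (Matrix ι ι F)}
    (hA : Normalises G A) : IsSemisimpleRing A := by
  classical
  haveI : Finite A := inferInstance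
  haveI : IsArtinianRing A := isArtinian_of_finite
  rw [IsArtinianRing.isSemisimpleRing_iff_jacobson]
  set J := Ring.jacobson A with hJ
  let K : Submodule F (ι → F) := ⨅ j : J, LinearMap.ker (Matrix.toLin' ((j : A) : Matrix ι ι F))
  have hK : ∀ v, v ∈ K ↔ ∀ j : A, j ∈ J → (j : Matrix ι ι F) *ᵥ v = 0 := by
    intro v
    simp [K, Submodule.mem_iInf]
  have hmem : ∀ g, ∀ hg : g ∈ G, ∀ j : A, ∀ hj : j ∈ J, (⟨conjAlg g j, hA.conjAlg_mem hg j.2⟩ : A) ∈ J := by
    intro g hg j hj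
    rw [hJ, ← Ideal.jacobson_bot, Ideal.mem_jacobson_iff] at hj ⊢
    intro y
    obtain ⟨z, hz⟩ := hj ⟨conjAlg g⁻¹ y, hA.conjAlg_mem (G.inv_mem hg) y.2⟩
    refine ⟨⟨conjAlg g z, hA.conjAlg_mem hg z.2⟩, ?_⟩
    rw [Ideal.mem_bot] at hz ⊢
    have h0 := congrArg (fun a : A => conjAlg g (a : Matrix ι ι F)) hz
    simp only [Subalgebra.coe_sub, Subalgebra.coe_add, Subalgebra.coe_mul, Subalgebra.coe_one,
      Subalgebra.coe_zero, map_sub, map_add, map_mul, map_one, map_zero, conjAlg_apply_inv] at h0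
    apply Subtype.ext
    simpa using h0
  have hKG : ∀ g ∈ G, ∀ v ∈ K, (g : Matrix ι ι F) *ᵥ v ∈ K := by
    intro g hg v hv
    rw [hK] at hv ⊢
    intro j hj
    rw [mulVec_comm_conjAlg, hv ⟨_, hA.conjAlg_mem (G.inv_mem hg) j.2⟩ (hmem g⁻¹ (G.inv_mem hg) j hj),
      Matrix.mulVec_zero]
  obtain ⟨N, hN⟩ : IsNilpotent J := hJ ▸ Ideal.jacobson_bot (R := A) ▸ IsArtinianRing.isNilpotent_jacobson_bot
  have hne : K ≠ ⊥ := by
    intro hb
    have hstep : ∀ m : ℕ, ∀ v : ι → F, v ≠ 0 → ∃ x : A, x ∈ J ^ m ∧ (x : Matrix ι ι F) *ᵥ v ≠ 0 := by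
      intro m
      induction m with
      | zero =>
        intro v hv
        exact ⟨1, by rw [Submodule.pow_zero, Ideal.one_eq_top]; exact Submodule.mem_top, by simpa using hv⟩
      | succ m ih =>
        intro v hv
        obtain ⟨j, hj, hjv⟩ : ∃ j : A, j ∈ J ∧ (j : Matrix ι ι F) *ᵥ v ≠ 0 := by
          by_contra hc
          push Not at hc
          exact hv (by simpa [hb] using (hK _).2 hc)
        obtain ⟨x, hx, hxv⟩ := ih _ hjv
        refine ⟨x * j, ?_, by rwa [Subalgebra.coe_mul, ← Matrix.mulVec_mulVec]⟩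
        rw [Submodule.pow_succ]
        exact Ideal.mul_mem_mul hx hj
    obtain ⟨i⟩ := ‹Nonempty ι›
    obtain ⟨x, hx, hxv⟩ := hstep N (Pi.single i 1) (by simp)
    rw [hN] at hx
    have hx0 : x = 0 := Submodule.mem_bot A |>.1 hx
    exact hxv (by rw [hx0, Subalgebra.coe_zero, Matrix.zero_mulVec])
  have htop : K = ⊤ := eq_top_of_invariant hirr hne hKG
  rw [eq_bot_iff]
  intro j hj
  rw [Ideal.mem_bot]
  apply Subtype.ext
  apply Matrix.toLin'.injective
  refine LinearMap.ext fun v => ?_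
  simpa using (hK v).1 (htop ▸ Submodule.mem_top) j hj

/-! ### A centre of scalars -/

theorem exists_matrix_of_centre_eq_bot [Finite F] [Nonempty ι] {A : Subalgebra F (Matrix ι ι F)}
    (hss : IsSemisimpleRing A) (hc : centreAlg A ≤ ⊥) :
    ∃ (d : ℕ) (_ : NeZero d) (φ : Matrix (Fin d) (Fin d) F →ₐ[F] Matrix ι ι F),
      Function.Injective φ ∧ φ.range = A := by
  classical
  haveI : IsSimpleRing A := by
    rw [isSimpleRing_iff_isTwoSided_imp]
    refine ⟨inferInstance, fun I hI => ?_⟩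
    obtain ⟨J, hIJ⟩ := exists_isCompl I
    obtain ⟨e, he, f, hf, hef⟩ : ∃ e ∈ I, ∃ f ∈ J, e + f = 1 :=
      Submodule.mem_sup.1 (hIJ.sup_eq_top ▸ Submodule.mem_top)
    have hdis : ∀ z, z ∈ I → z ∈ J → z = 0 := fun z => Submodule.disjoint_def.1 hIJ.disjoint z
    have hxf : ∀ a, a ∈ I → a * f = 0 := fun a ha =>
      hdis _ (I.mul_mem_right f ha) (J.mul_mem_left a hf)
    have hxe : ∀ a, a ∈ I → a * e = a := fun a ha => by
      have : a * (e + f) = a := by rw [hef, mul_one]
      rwa [mul_add, hxf a ha, add_zero] at this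
    -- `f x e = 0`: it generates a left ideal of square zero
    have hfe : ∀ x, f * x * e = 0 := by
      intro x
      set g := f * x * e
      have hgg : ∀ y z : A, y * g * (z * g) = 0 := by
        intro y z
        have : e * z * f = 0 := hxf _ (I.mul_mem_right z he)
        calc y * (f * x * e) * (z * (f * x * e)) = y * f * x * (e * z * f) * x * e := by
              simp only [mul_assoc]
          _ = 0 := by simp [this]
      obtain ⟨L', hL⟩ := exists_isCompl (Ideal.span {g} : Ideal A)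
      obtain ⟨u, hu, v, hv, huv⟩ : ∃ u ∈ (Ideal.span {g} : Ideal A), ∃ v ∈ L', u + v = 1 :=
        Submodule.mem_sup.1 (hL.sup_eq_top ▸ Submodule.mem_top)
      obtain ⟨w, rfl⟩ := Ideal.mem_span_singleton'.1 hu
      have h1 : g * (w * g + v) = g := by rw [huv, mul_one]
      have h2 : g * (w * g) = 0 := by simpa using hgg 1 w
      rw [mul_add, h2, zero_add] at h1
      exact Submodule.disjoint_def.1 hL.disjoint g (Ideal.mem_span_singleton_self g)
        (h1 ▸ L'.mul_mem_left g hv)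
    have hcomm : ∀ x : A, x * e = e * x := by
      intro x
      have h1 : e * x * e = e * x := hxe _ (I.mul_mem_right x he)
      have h2 := hfe x
      rw [show f = 1 - e from eq_sub_of_add_eq' hef, sub_mul, sub_mul, one_mul, h1, sub_eq_zero] at h2
      exact h2
    have hmem : (e : Matrix ι ι F) ∈ centreAlg A :=
      mem_centreAlg.2 ⟨e.2, fun y hy => congrArg Subtype.val (hcomm ⟨y, hy⟩)⟩
    obtain ⟨c, hc'⟩ := Algebra.mem_bot.1 (hc hmem)
    have hee := congrArg Subtype.val (hxe e he)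
    rw [Subalgebra.coe_mul, ← hc', ← map_mul] at hee
    have hcc : c * c = c := (algebraMap F (Matrix ι ι F)).injective hee
    rcases eq_or_ne c 0 with h0 | h0
    · left
      have he0 : e = 0 := Subtype.ext (by rw [← hc', h0, map_zero]; rfl)
      rw [eq_bot_iff]
      intro a ha
      rw [Submodule.mem_bot, ← hxe a ha, he0, mul_zero]
    · right
      have h1 : c = 1 := by
        apply mul_left_cancel₀ h0
        rw [hcc, mul_one]
      have he1 : e = 1 := Subtype.ext (by rw [← hc', h1, map_one]; rfl)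
      rw [Ideal.eq_top_iff_one, ← he1]
      exact he
  haveI : Finite A := inferInstance
  haveI : IsArtinianRing A := isArtinian_of_finite
  obtain ⟨d, hd, D, _, _, _, ⟨Φ⟩⟩ := IsSimpleRing.exists_algEquiv_matrix_divisionRing_finite F A
  haveI : Finite D := Module.finite_of_finite F
  have hsurj : Function.Surjective (Algebra.ofId F D) := by
    intro z
    have hDc : ∀ u w : D, u * w = w * u := fun u w => (littleWedderburn D).mul_comm u w
    have hcent : ((Φ.symm (Matrix.scalar (Fin d) z) : A) : Matrix ι ι F) ∈ centreAlg A := by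
      refine mem_centreAlg.2 ⟨(Φ.symm _).2, fun y hy => ?_⟩
      suffices h : (⟨y, hy⟩ : A) * Φ.symm (Matrix.scalar (Fin d) z) = Φ.symm (Matrix.scalar (Fin d) z) * ⟨y, hy⟩ from
        congrArg Subtype.val h
      apply Φ.injective
      rw [map_mul, map_mul, AlgEquiv.apply_symm_apply]
      exact ((Matrix.scalar_commute z (fun w => hDc z w) _).eq).symm
    obtain ⟨c, hc'⟩ := Algebra.mem_bot.1 (hc hcent)
    refine ⟨c, ?_⟩
    have hz : Φ.symm (Matrix.scalar (Fin d) z) = algebraMap F A c := Subtype.ext hc'.symm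
    have hz2 := congrArg Φ hz
    rw [AlgEquiv.apply_symm_apply, AlgEquiv.commutes] at hz2
    have hz3 := congrFun (congrFun hz2 0) 0
    simpa [Matrix.algebraMap_matrix_apply, Algebra.ofId_apply] using hz3.symm
  let ψ : F ≃ₐ[F] D := AlgEquiv.ofBijective (Algebra.ofId F D) ⟨(Algebra.ofId F D).toRingHom.injective, hsurj⟩
  let Ψ : Matrix (Fin d) (Fin d) F ≃ₐ[F] A := ψ.mapMatrix.trans Φ.symm
  refine ⟨d, hd, A.val.comp Ψ.toAlgHom, Subtype.val_injective.comp Ψ.injective, ?_⟩
  ext x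
  constructor
  · rintro ⟨y, rfl⟩; exact (Ψ y).2
  · intro hx; exact ⟨Ψ.symm ⟨x, hx⟩, by simp⟩

/-- The scalar-centre case: a tensor decomposition normalised by the group. -/
theorem exists_tensor_of_centreAlg_eq_bot [Finite F] [Nonempty ι] {G : Subgroup (GLm ι F)}
    (hirr : Cfsg.Geo.ActsIrreducibly (Cfsg.Geo.matrixSet G)) {A : Subalgebra F (Matrix ι ι F)}
    (hA : Normalises G A) (hc : centreAlg A ≤ ⊥) :
    ∃ (d k : ℕ) (e : ι ≃ Fin d × Fin k) (P : GLm ι F), 0 < d ∧ 0 < k ∧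
      (∀ X, X ∈ A ↔ ∃ Y, X = tconj e P (Y ⊗ₖ (1 : Matrix (Fin k) (Fin k) F))) ∧
      G ≤ Cfsg.Geo.tensorProductSubgroup d k e P := by
  obtain ⟨d, hd, φ, -, hrange⟩ := exists_matrix_of_centre_eq_bot (isSemisimpleRing_of_normalized hirr hA) hc
  obtain ⟨k, e, P, hφ⟩ := exists_tensor φ
  have hk : 0 < k := by
    have h := Fintype.card_congr e
    rw [Fintype.card_prod, Fintype.card_fin, Fintype.card_fin] at h
    rcases Nat.eq_zero_or_pos k with h0 | h0
    · simp [h0] at h
    · exact h0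
  haveI : NeZero k := ⟨hk.ne'⟩
  have hmem : ∀ X, X ∈ A ↔ ∃ Y, X = tconj e P (Y ⊗ₖ (1 : Matrix (Fin k) (Fin k) F)) := by
    intro X
    rw [← hrange]
    constructor
    · rintro ⟨Y, rfl⟩; exact ⟨Y, hφ Y⟩
    · rintro ⟨Y, rfl⟩; exact ⟨Y, hφ Y⟩
  refine ⟨d, k, e, P, Nat.pos_of_ne_zero (NeZero.ne d), hk, hmem, fun g hg => ?_⟩
  refine mem_tensorProductSubgroup_of_normalizes e P fun Y => ?_
  exact (hmem _).1 (hA.conjAlg_mem hg ((hmem _).2 ⟨Y, rfl⟩))

end CfsgLib.Aschbacher.Centre
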