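import Cfsg.Agent.Eq.Def_GeometricClasses
import Cfsg.Agent.Aschbacher.SimpleAlgebra

/-!
The structure of a group all of whose non-scalar normal subgroups are absolutely irreducible: a minimal
one is abelian modulo scalars, or yields commuting copies of a matrix algebra, or a perfect core.
-/

set_option autoImplicit false

namespace CfsgLib.Aschbacher

open Matrix CfsgLib.Aschbacher.Centre
open scoped Kronecker commutatorElement

variable {ι : Type} [Fintype ι] [DecidableEq ι] {F : Type*} [Field F]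

local notation "GLm" => Matrix.GeneralLinearGroup

lemma matrix_scalar_of_mem_scalars {z : GLm ι F} (hz : z ∈ Cfsg.Geo.scalars ι F) :
    ∃ c : F, (z : Matrix ι ι F) = algebraMap F (Matrix ι ι F) c := by
  obtain ⟨c, hc⟩ := (Cfsg.Geo.mem_scalars_iff z).1 hz
  exact ⟨c, by rw [hc, Algebra.algebraMap_eq_smul_one]⟩

lemma mem_scalars_of_val_mem_bot [Nonempty ι] {g : GLm ι F}
    (hg : (g : Matrix ι ι F) ∈ (⊥ : Subalgebra F (Matrix ι ι F))) : g ∈ Cfsg.Geo.scalars ι F := by
  obtain ⟨c, hc⟩ := Algebra.mem_bot.1 hg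
  have hc0 : c ≠ 0 := by
    rintro rfl
    rw [map_zero] at hc
    exact g.ne_zero hc.symm
  exact (Cfsg.Geo.mem_scalars_iff g).2 ⟨Units.mk0 c hc0, by rw [← hc, Algebra.algebraMap_eq_smul_one]; rfl⟩

lemma commute_of_mem_scalars {z : GLm ι F} (hz : z ∈ Cfsg.Geo.scalars ι F) (g : GLm ι F) :
    g * z = z * g := by
  obtain ⟨c, hc⟩ := matrix_scalar_of_mem_scalars hz
  exact Units.ext (by rw [Units.val_mul, Units.val_mul, hc, Algebra.commutes])

/-! ### Density -/

theorem adjoin_eq_top_of_absIrred [Finite F] [Nonempty ι] {N : Subgroup (GLm ι F)}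
    (hN : Cfsg.Geo.ActsAbsolutelyIrreducibly (Cfsg.Geo.matrixSet N)) :
    Algebra.adjoin F (Cfsg.Geo.matrixSet N) = ⊤ := by
  set A := Algebra.adjoin F (Cfsg.Geo.matrixSet N)
  have hA : Normalises N A := normalises_adjoin (by
    rintro g hg _ ⟨x, hx, rfl⟩
    exact ⟨g * x * g⁻¹, N.mul_mem (N.mul_mem hg hx) (N.inv_mem hg), rfl⟩)
  have hc : centreAlg A ≤ ⊥ := by
    intro x hx
    obtain ⟨c, hc⟩ := hN.2 x (fun s hs => ((mem_centreAlg.1 hx).2 s (Algebra.subset_adjoin hs)).symm)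
    exact Algebra.mem_bot.2 ⟨c, by rw [hc, Algebra.algebraMap_eq_smul_one]⟩
  obtain ⟨d, k, e, P, hd, hk, hmem, -⟩ := exists_tensor_of_centreAlg_eq_bot hN.1 hA hc
  have hk1 : k = 1 := by
    by_contra hne
    haveI : NeZero k := ⟨hk.ne'⟩
    obtain ⟨c, hc'⟩ := hN.2 (tconj e P ((1 : Matrix (Fin d) (Fin d) F) ⊗ₖ Matrix.single (0 : Fin k) (0 : Fin k) 1))
      (fun s hs => by
        obtain ⟨Y, rfl⟩ := (hmem s).1 (Algebra.subset_adjoin hs)
        rw [← map_mul, ← map_mul, ← Matrix.mul_kronecker_mul, ← Matrix.mul_kronecker_mul, one_mul, mul_one,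
          one_mul, mul_one])
    rw [← Algebra.algebraMap_eq_smul_one, ← (tconj e P).commutes c] at hc'
    have h := (tconj e P).injective hc'
    let b : Fin k := ⟨1, by omega⟩
    have hb : (0 : Fin k) ≠ b := by simp [b, Fin.ext_iff]
    let a : Fin d := ⟨0, hd⟩
    have h0 := congrFun (congrFun h (a, 0)) (a, 0)
    have h1 := congrFun (congrFun h (a, b)) (a, b)
    simp [Matrix.kroneckerMap_apply, Matrix.algebraMap_matrix_apply] at h0
    simp [Matrix.kroneckerMap_apply, Matrix.algebraMap_matrix_apply, Matrix.single_apply, hb, ← h0] at h1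
  subst hk1
  rw [eq_top_iff]
  intro X _
  obtain ⟨Z, rfl⟩ := (tconj e P).surjective X
  refine (hmem _).2 ⟨Matrix.of fun i j => Z (i, 0) (j, 0), congrArg _ ?_⟩
  ext ⟨i, l⟩ ⟨j, m⟩
  rw [Subsingleton.elim l 0, Subsingleton.elim m 0]
  simp [Matrix.kroneckerMap_apply]

theorem absIrred_of_adjoin_eq_top {S : Set (Matrix ι ι F)} (hS : Algebra.adjoin F S = ⊤) :
    Cfsg.Geo.ActsAbsolutelyIrreducibly S := by
  constructor
  · intro W hW
    by_cases h : W = ⊥
    · exact Or.inl h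
    right
    let B : Subalgebra F (Matrix ι ι F) :=
      { carrier := {M | ∀ v ∈ W, M *ᵥ v ∈ W}
        mul_mem' := fun {a b} ha hb v hv => by rw [← Matrix.mulVec_mulVec]; exact ha _ (hb v hv)
        add_mem' := fun {a b} ha hb v hv => by rw [Matrix.add_mulVec]; exact W.add_mem (ha v hv) (hb v hv)
        algebraMap_mem' := fun c v hv => by
          rw [Algebra.algebraMap_eq_smul_one, Matrix.smul_mulVec, Matrix.one_mulVec]
          exact W.smul_mem c hv }
    have hB : Algebra.adjoin F S ≤ B := Algebra.adjoin_le fun s hs v hv => hW s hs ⟨v, hv, rfl⟩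
    rw [hS] at hB
    obtain ⟨v, hv, hv0⟩ := W.exists_mem_ne_zero_of_ne_bot h
    obtain ⟨j, hj⟩ := Function.ne_iff.1 hv0
    rw [eq_top_iff]
    intro u _
    have := hB (Algebra.mem_top : Matrix.of (fun i k => if k = j then u i * (v j)⁻¹ else 0) ∈ ⊤) v hv
    convert this using 1
    funext i
    simp [Matrix.mulVec, dotProduct, mul_assoc, inv_mul_cancel₀ hj]
  · intro M hM
    have hcen : M ∈ Subalgebra.center F (Matrix ι ι F) := by
      rw [Subalgebra.mem_center_iff]
      intro X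
      have hX : X ∈ Algebra.adjoin F S := hS ▸ Algebra.mem_top
      induction hX using Algebra.adjoin_induction with
      | mem x hx => exact (hM x hx).symm
      | algebraMap r => exact Algebra.commutes r M
      | add x y _ _ hx hy => rw [add_mul, mul_add, hx, hy]
      | mul x y _ _ hx hy => rw [mul_assoc, hy, ← mul_assoc, hx, mul_assoc]
    obtain ⟨c, hc⟩ : M ∈ Set.range (Matrix.scalar ι) := Matrix.mem_range_scalar_of_commute_single fun i j _ =>
      Subalgebra.mem_center_iff.1 hcen _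
    exact ⟨c, by rw [← hc]; simp [Matrix.smul_one_eq_diagonal]⟩

/-! ### Groups commutative modulo scalars -/

/-- For an absolutely irreducible group commutative modulo scalars the quotient has order `n²`. -/
theorem card_quotient_of_comm_scalar [Finite F] [Nonempty ι] {N : Subgroup (GLm ι F)}
    (hN : Cfsg.Geo.ActsAbsolutelyIrreducibly (Cfsg.Geo.matrixSet N))
    (hcomm : ∀ x ∈ N, ∀ y ∈ N, x * y * x⁻¹ * y⁻¹ ∈ Cfsg.Geo.scalars ι F) :
    Nat.card (N ⧸ (Cfsg.Geo.scalars ι F).subgroupOf N) = Fintype.card ι ^ 2 := by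
  classical
  set Q := N ⧸ (Cfsg.Geo.scalars ι F).subgroupOf N
  haveI : Fintype Q := Fintype.ofFinite _
  let s : Q → N := Quotient.out
  let f : Q → Matrix ι ι F := fun q => ((s q : GLm ι F) : Matrix ι ι F)
  have hf0 : ∀ q, f q ≠ 0 := fun q => (s q : GLm ι F).ne_zero
  have hχ : ∀ q, ∀ y : N, ∃ c : F, conjAlg (y : GLm ι F) (f q) = c • f q := by
    intro q y
    obtain ⟨c, hc⟩ := matrix_scalar_of_mem_scalars (hcomm _ y.2 _ (s q).2)
    refine ⟨c, ?_⟩
    have h : (y : GLm ι F) * (s q : GLm ι F) * (y : GLm ι F)⁻¹ =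
        ((y : GLm ι F) * (s q : GLm ι F) * (y : GLm ι F)⁻¹ * (s q : GLm ι F)⁻¹) * (s q : GLm ι F) := by group
    have h2 := congrArg Units.val h
    simp only [Units.val_mul] at h2 hc
    rw [hc, Algebra.algebraMap_eq_smul_one, Matrix.smul_mul, Matrix.one_mul] at h2
    rw [conjAlg_apply]
    exact h2
  choose χ hχ using hχ
  have huniq : ∀ q, ∀ a b : F, a • f q = b • f q → a = b := by
    intro q a b h
    by_contra hne
    have h0 : (a - b) • f q = 0 := by rw [sub_smul, h, sub_self]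
    exact hf0 q ((smul_eq_zero.1 h0).resolve_left (sub_ne_zero.2 hne))
  let χ' : Q → (N →* F) := fun q =>
    { toFun := χ q
      map_one' := huniq q _ _ (by rw [← hχ]; simp [conjAlg_one])
      map_mul' := fun a b => huniq q _ _ (by
        rw [← hχ, Subgroup.coe_mul, conjAlg_mul, hχ, map_smul, hχ, smul_smul, mul_comm]) }
  have hinj : Function.Injective χ' := by
    intro q q' hqq
    have hcent : ∀ y : N, conjAlg (y : GLm ι F) (((s q' : GLm ι F)⁻¹ : GLm ι F) * f q) =
        ((s q' : GLm ι F)⁻¹ : GLm ι F) * f q := by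
      intro y
      have h1 := hχ q y
      have h2 := hχ q' y
      have he : χ q y = χ q' y := DFunLike.congr_fun hqq y
      have hinv : ((s q' : GLm ι F)⁻¹ : GLm ι F).val * f q' = 1 := Units.inv_mul _
      have h3 : conjAlg (y : GLm ι F) (((s q' : GLm ι F)⁻¹ : GLm ι F) : Matrix ι ι F) * conjAlg (y : GLm ι F) (f q') = 1 := by
        rw [← map_mul, hinv, map_one]
      have hne : χ q' y ≠ 0 := by
        intro h0
        rw [h0, zero_smul] at h2
        rw [h2, mul_zero] at h3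
        exact zero_ne_one h3
      have h4 : conjAlg (y : GLm ι F) (((s q' : GLm ι F)⁻¹ : GLm ι F) : Matrix ι ι F) =
          (χ q' y)⁻¹ • (((s q' : GLm ι F)⁻¹ : GLm ι F) : Matrix ι ι F) := by
        rw [h2, Matrix.mul_smul] at h3
        have h5 := congrArg (fun M => (χ q' y)⁻¹ • (M * (((s q' : GLm ι F)⁻¹ : GLm ι F) : Matrix ι ι F))) h3
        simp only [Matrix.smul_mul, one_mul, mul_assoc, f, Units.mul_inv, mul_one, smul_smul,
          inv_mul_cancel₀ hne, one_smul] at h5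
        exact h5
      rw [map_mul, h4, h1, he, Matrix.smul_mul, Matrix.mul_smul, smul_smul, inv_mul_cancel₀ hne, one_smul]
    obtain ⟨c, hc⟩ := hN.2 _ (by
      rintro _ ⟨y, hy, rfl⟩
      have h := hcent ⟨y, hy⟩
      rw [conjAlg_apply] at h
      show (((s q' : GLm ι F)⁻¹ : GLm ι F) : Matrix ι ι F) * f q * (y : Matrix ι ι F) = (y : Matrix ι ι F) * _
      conv_lhs => rw [← h, mul_assoc, Units.inv_mul, mul_one])
    have hmem : (s q' : GLm ι F)⁻¹ * (s q : GLm ι F) ∈ Cfsg.Geo.scalars ι F :=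
      mem_scalars_of_val_mem_bot (Algebra.mem_bot.2 ⟨c, by
        rw [Units.val_mul, hc, Algebra.algebraMap_eq_smul_one]⟩)
    rw [← Quotient.out_eq q, ← Quotient.out_eq q']
    exact ((QuotientGroup.eq (s := (Cfsg.Geo.scalars ι F).subgroupOf N)).2 hmem).symm
  have hli : LinearIndependent F f := by
    rw [Fintype.linearIndependent_iff]
    intro g hg q
    obtain ⟨i, hi⟩ : ∃ i, f q i ≠ 0 := Function.ne_iff.1 (hf0 q)
    obtain ⟨j, hij⟩ : ∃ j, f q i j ≠ 0 := Function.ne_iff.1 hi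
    have hlm : LinearIndependent F (fun q => (χ' q : N → F)) :=
      (linearIndependent_monoidHom N F).comp χ' hinj
    have := Fintype.linearIndependent_iff.1 hlm (fun p => g p * f p i j) (funext fun y => by
      have h := congrFun (congrFun (congrArg (conjAlg (y : GLm ι F)) hg) i) j
      rw [map_sum, map_zero] at h
      simp only [map_smul, hχ, Matrix.sum_apply, Matrix.smul_apply, smul_eq_mul, Matrix.zero_apply] at h
      rw [Finset.sum_apply]
      simp only [Pi.smul_apply, smul_eq_mul, Pi.zero_apply, χ', MonoidHom.coe_mk, OneHom.coe_mk]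
      exact (Finset.sum_congr rfl fun p _ => by ring).trans h) q
    exact (mul_eq_zero.1 this).resolve_right hij
  have hsp : ⊤ ≤ Submodule.span F (Set.range f) := by
    intro X _
    have hX : X ∈ (Algebra.adjoin F (Cfsg.Geo.matrixSet N)).toSubmodule := by
      rw [adjoin_eq_top_of_absIrred hN]; trivial
    rw [Algebra.adjoin_eq_span] at hX
    refine (Submodule.span_le.2 ?_) hX
    intro Y hY
    have hY' : Y ∈ Cfsg.Geo.matrixSet N := by
      induction hY using Submonoid.closure_induction with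
      | mem x hx => exact hx
      | one => exact ⟨1, N.one_mem, rfl⟩
      | mul x y _ _ hx hy =>
        obtain ⟨a, ha, rfl⟩ := hx
        obtain ⟨b, hb, rfl⟩ := hy
        exact ⟨a * b, N.mul_mem ha hb, rfl⟩
    obtain ⟨x, hx, rfl⟩ := hY'
    set q : Q := QuotientGroup.mk ⟨x, hx⟩
    have hmem : (s q)⁻¹ * ⟨x, hx⟩ ∈ (Cfsg.Geo.scalars ι F).subgroupOf N :=
      QuotientGroup.eq.1 (QuotientGroup.out_eq' q)
    obtain ⟨c, hc⟩ := matrix_scalar_of_mem_scalars (Subgroup.mem_subgroupOf.1 hmem)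
    have hx' : (x : Matrix ι ι F) = c • f q := by
      rw [Subgroup.coe_mul, Units.val_mul, Algebra.algebraMap_eq_smul_one] at hc
      have h := congrArg (fun M => f q * M) hc
      simp only [Matrix.mul_smul, mul_one] at h
      rw [← h, ← mul_assoc]
      simp [f]
    show (x : Matrix ι ι F) ∈ _
    rw [hx']
    exact Submodule.smul_mem _ _ (Submodule.subset_span ⟨q, rfl⟩)
  have h := Module.finrank_eq_card_basis (Module.Basis.mk hli hsp)
  rw [Module.finrank_matrix, Module.finrank_self, mul_one] at h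
  rw [Nat.card_eq_fintype_card, ← h, sq]

/-! ### Commuting copies of a matrix algebra -/

/-- The matrices all of whose `k × k` blocks lie in `U`. -/
def blockSubalgebra {d k : ℕ} (U : Subalgebra F (Matrix (Fin k) (Fin k) F)) :
    Subalgebra F (Matrix (Fin d × Fin k) (Fin d × Fin k) F) where
  carrier := {M | ∀ i j, Matrix.of (fun l m => M (i, l) (j, m)) ∈ U}
  mul_mem' {a b} ha hb i j := by
    have h : Matrix.of (fun l m => (a * b) (i, l) (j, m)) =
        ∑ z, Matrix.of (fun l m => a (i, l) (z, m)) * Matrix.of (fun l m => b (z, l) (j, m)) := by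
      ext l m
      simp [Matrix.mul_apply, Matrix.sum_apply, Fintype.sum_prod_type]
    rw [h]
    exact U.sum_mem fun z _ => U.mul_mem (ha i z) (hb z j)
  add_mem' {a b} ha hb i j := U.add_mem (ha i j) (hb i j)
  algebraMap_mem' c i j := by
    by_cases h : i = j
    · subst h
      convert U.algebraMap_mem c using 1
      ext l m
      simp [Matrix.algebraMap_matrix_apply]
    · convert U.zero_mem using 1
      ext l m
      simp [Matrix.algebraMap_matrix_apply, h]

/-- Pairwise commuting copies of `M_d` generating `M_n` force `n = d ^ (number of copies)`. -/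
theorem card_eq_pow_of_commuting {d : ℕ} [NeZero d] :
    ∀ (m : ℕ) (ι : Type) [Fintype ι] [DecidableEq ι] [Nonempty ι]
      (S : Finset (Subalgebra F (Matrix ι ι F))), S.card = m →
      (∀ A ∈ S, ∃ φ : Matrix (Fin d) (Fin d) F →ₐ[F] Matrix ι ι F, φ.range = A) →
      (∀ A ∈ S, ∀ B ∈ S, A ≠ B → ∀ a ∈ A, ∀ b ∈ B, a * b = b * a) →
      (⨆ A ∈ S, A) = ⊤ → Fintype.card ι = d ^ m := by
  classical
  intro m
  induction m with
  | zero =>
    intro ι _ _ _ S hm _ _ htop
    rw [Finset.card_eq_zero.1 hm] at htop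
    have htop' : (⊥ : Subalgebra F (Matrix ι ι F)) = ⊤ := by simpa using htop
    have h := congrArg (fun B : Subalgebra F (Matrix ι ι F) => Module.finrank F B) htop'
    simp only [Subalgebra.finrank_bot, subalgebra_top_finrank_eq_submodule_top_finrank, finrank_top,
      Module.finrank_matrix, Module.finrank_self, mul_one] at h
    rw [pow_zero]
    exact (Nat.eq_one_of_mul_eq_one_right h.symm)
  | succ m ih =>
    intro ι _ _ _ S hm hS hcomm htop
    obtain ⟨A, hA⟩ := Finset.card_pos.1 (show 0 < S.card by omega)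
    obtain ⟨φ, rfl⟩ := hS A hA
    obtain ⟨k, e, P, hφ⟩ := exists_tensor φ
    have hk : 0 < k := by
      have h := Fintype.card_congr e
      rw [Fintype.card_prod, Fintype.card_fin, Fintype.card_fin] at h
      rcases Nat.eq_zero_or_pos k with h0 | h0
      · simp [h0] at h
      · exact h0
    haveI : NeZero k := ⟨hk.ne'⟩
    let ψ : Matrix (Fin k) (Fin k) F →ₐ[F] Matrix ι ι F := (tconj e P).toAlgHom.comp
      (AlgHom.ofLinearMap
        { toFun := fun X => (1 : Matrix (Fin d) (Fin d) F) ⊗ₖ X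
          map_add' := fun X Y => Matrix.kronecker_add _ X Y
          map_smul' := fun c X => Matrix.kronecker_smul c _ X }
        Matrix.one_kronecker_one
        (fun X Y => by
          show (1 : Matrix (Fin d) (Fin d) F) ⊗ₖ (X * Y) = (1 ⊗ₖ X) * (1 ⊗ₖ Y)
          rw [← Matrix.mul_kronecker_mul, one_mul]))
    have hψ : ∀ X, ψ X = tconj e P ((1 : Matrix (Fin d) (Fin d) F) ⊗ₖ X) := fun X => rfl
    have hψinj : Function.Injective ψ := by
      intro X Y h
      rw [hψ, hψ] at h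
      have h2 := (tconj e P).injective h
      ext l l'
      simpa [Matrix.kroneckerMap_apply] using congrFun (congrFun h2 (0, l)) (0, l')
    have hle : ∀ B ∈ S.erase φ.range, B ≤ ψ.range := by
      intro B hB b hb
      obtain ⟨hne, hBS⟩ := Finset.mem_erase.1 hB
      obtain ⟨c, hc⟩ := centralizer_tensor e P (Y := b) fun X => by
        rw [← hφ]
        exact hcomm _ hA B hBS hne.symm _ ⟨X, rfl⟩ b hb
      exact ⟨c, hc.symm⟩
    have hback : ∀ B ∈ S.erase φ.range, (B.comap ψ).map ψ = B := by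
      intro B hB
      apply le_antisymm
      · rintro _ ⟨x, hx, rfl⟩; exact hx
      · intro b hb
        obtain ⟨c, rfl⟩ := hle B hB hb
        exact ⟨c, hb, rfl⟩
    let S' := (S.erase φ.range).image fun B => B.comap ψ
    have hcard' : S'.card = m := by
      rw [Finset.card_image_of_injOn, Finset.card_erase_of_mem hA, hm, Nat.add_sub_cancel]
      intro B hB C hC h
      rw [← hback B hB, ← hback C hC]
      exact congrArg _ h
    have hS' : ∀ A ∈ S', ∃ φ' : Matrix (Fin d) (Fin d) F →ₐ[F] Matrix (Fin k) (Fin k) F, φ'.range = A := by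
      intro B' hB'
      obtain ⟨B, hB, rfl⟩ := Finset.mem_image.1 hB'
      obtain ⟨φB, hφB⟩ := hS B (Finset.mem_of_mem_erase hB)
      let φ' := (AlgEquiv.ofInjective ψ hψinj).symm.toAlgHom.comp
        (φB.codRestrict ψ.range fun X => hle B hB (hφB ▸ ⟨X, rfl⟩))
      have hφ' : ∀ X, ψ (φ' X) = φB X := fun X => congrArg Subtype.val
        ((AlgEquiv.ofInjective ψ hψinj).apply_symm_apply _)
      refine ⟨φ', ?_⟩
      ext x
      constructor
      · rintro ⟨X, rfl⟩
        have h1 : ψ (φ' X) ∈ B := by rw [hφ', ← hφB]; exact ⟨X, rfl⟩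
        exact h1
      · intro hx
        have hx' : ψ x ∈ φB.range := by rw [hφB]; exact hx
        obtain ⟨X, hX⟩ := hx'
        exact ⟨X, hψinj ((hφ' X).trans hX)⟩
    have hcomm' : ∀ A ∈ S', ∀ B ∈ S', A ≠ B → ∀ a ∈ A, ∀ b ∈ B, a * b = b * a := by
      intro A' hA' B' hB' hne a ha b hb
      obtain ⟨A, hA0, rfl⟩ := Finset.mem_image.1 hA'
      obtain ⟨B, hB0, rfl⟩ := Finset.mem_image.1 hB'
      apply hψinj
      rw [map_mul, map_mul]
      exact hcomm A (Finset.mem_of_mem_erase hA0) B (Finset.mem_of_mem_erase hB0)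
        (fun h => hne (by rw [h])) _ ha _ hb
    have htop' : (⨆ A ∈ S', A) = ⊤ := by
      set U := ⨆ A ∈ S', A
      have hall : (⊤ : Subalgebra F (Matrix ι ι F)) ≤ (blockSubalgebra (d := d) U).map (tconj e P).toAlgHom := by
        rw [← htop]
        refine iSup₂_le fun B hB => ?_
        by_cases hBA : B = φ.range
        · subst hBA
          rintro _ ⟨X, rfl⟩
          refine ⟨X ⊗ₖ 1, ?_, (hφ X).symm⟩
          intro i j
          convert U.algebraMap_mem (X i j) using 1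
          ext l l'
          simp [Matrix.kroneckerMap_apply, Matrix.algebraMap_matrix_apply, Matrix.one_apply]
        · intro b hb
          have hB' : B ∈ S.erase φ.range := Finset.mem_erase.2 ⟨hBA, hB⟩
          obtain ⟨c, rfl⟩ := hle B hB' hb
          refine ⟨(1 : Matrix (Fin d) (Fin d) F) ⊗ₖ c, ?_, rfl⟩
          intro i j
          have hc : c ∈ U := le_iSup₂ (f := fun A (_ : A ∈ S') => A) (B.comap ψ)
            (Finset.mem_image.2 ⟨B, hB', rfl⟩) hb
          by_cases h : i = j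
          · subst h
            convert hc using 1
            ext l l'
            simp [Matrix.kroneckerMap_apply]
          · convert U.zero_mem using 1
            ext l l'
            simp [Matrix.kroneckerMap_apply, h]
      rw [eq_top_iff]
      intro b _
      obtain ⟨M, hM, hMb⟩ := hall (Algebra.mem_top : ψ b ∈ ⊤)
      have hMeq : M = (1 : Matrix (Fin d) (Fin d) F) ⊗ₖ b := (tconj e P).injective hMb
      subst hMeq
      convert hM 0 0 using 1
      ext l l'
      simp [Matrix.kroneckerMap_apply]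
    have hfin := ih (Fin k) S' hcard' hS' hcomm' htop'
    rw [Fintype.card_fin] at hfin
    rw [Fintype.card_congr e, Fintype.card_prod, Fintype.card_fin, Fintype.card_fin, hfin, pow_succ']

/-! ### The structure theorem -/

/-- Every non-scalar subgroup normalised by `H` inside `H` is absolutely irreducible. -/
def NormalsAbsIrred (H : Subgroup (GLm ι F)) : Prop :=
  ∀ N : Subgroup (GLm ι F), N ≤ H → (∀ h ∈ H, ∀ x ∈ N, h * x * h⁻¹ ∈ N) → ¬ N ≤ Cfsg.Geo.scalars ι F →
    Cfsg.Geo.ActsAbsolutelyIrreducibly (Cfsg.Geo.matrixSet N)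

/-- The data of the abelian case: a normal subgroup elementary abelian of order `n²` modulo scalars. -/
structure AbelianData (H N : Subgroup (GLm ι F)) (r : ℕ) : Prop where
  le : N ≤ H
  scalars_le : H ⊓ Cfsg.Geo.scalars ι F ≤ N
  normal : ∀ h ∈ H, ∀ x ∈ N, h * x * h⁻¹ ∈ N
  not_scalar : ¬ N ≤ Cfsg.Geo.scalars ι F
  absIrred : Cfsg.Geo.ActsAbsolutelyIrreducibly (Cfsg.Geo.matrixSet N)
  comm : ∀ x ∈ N, ∀ y ∈ N, x * y * x⁻¹ * y⁻¹ ∈ Cfsg.Geo.scalars ι F
  prime : r.Prime
  pow_mem : ∀ x ∈ N, x ^ r ∈ Cfsg.Geo.scalars ι F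
  card_eq : Nat.card (N ⧸ (Cfsg.Geo.scalars ι F).subgroupOf N) = Fintype.card ι ^ 2
  minimal : ∀ M : Subgroup (GLm ι F), M ≤ N → H ⊓ Cfsg.Geo.scalars ι F ≤ M →
    (∀ h ∈ H, ∀ x ∈ M, h * x * h⁻¹ ∈ M) → ¬ M ≤ Cfsg.Geo.scalars ι F → M = N

/-- The data of the non-simple case: commuting copies of a matrix algebra permuted by the group. -/
structure CommutingData (H : Subgroup (GLm ι F)) (d : ℕ) (S : Finset (Subalgebra F (Matrix ι ι F))) : Prop where
  two_le : 2 ≤ d
  two_le_card : 2 ≤ S.card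
  matrix : ∀ A ∈ S, ∃ φ : Matrix (Fin d) (Fin d) F →ₐ[F] Matrix ι ι F, φ.range = A
  commute : ∀ A ∈ S, ∀ B ∈ S, A ≠ B → ∀ a ∈ A, ∀ b ∈ B, a * b = b * a
  sup_eq_top : (⨆ A ∈ S, A) = ⊤
  perm : ∀ h ∈ H, ∀ A ∈ S, ∃ B ∈ S, ∀ x, x ∈ A ↔ conjAlg h x ∈ B
  card_eq : Fintype.card ι = d ^ S.card
  generated : ∀ A ∈ S, ∃ D : Subgroup (GLm ι F), D ≤ ⁅H, H⁆ ∧
    Algebra.adjoin F (Cfsg.Geo.matrixSet D) = A
  transitive : ∀ A ∈ S, ∀ B ∈ S, ∃ h ∈ H, ∀ x, x ∈ A ↔ conjAlg h x ∈ B

/-- The data of the simple case: every field of `IsResidualCore` but the one about subfields. -/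
structure CoreData (H P : Subgroup (GLm ι F)) : Prop where
  le : P ≤ H
  normal : ∀ h ∈ H, ∀ x ∈ P, h * x * h⁻¹ ∈ P
  perfect : ⁅P, P⁆ = P
  simple : IsSimpleGroup (P ⧸ (Cfsg.Geo.scalars ι F).subgroupOf P)
  nonabelian : ¬ IsMulCommutative (P ⧸ (Cfsg.Geo.scalars ι F).subgroupOf P)
  centralizer_scalar : ∀ h ∈ H, (∀ x ∈ P, h * x * h⁻¹ * x⁻¹ ∈ Cfsg.Geo.scalars ι F) →
    h ∈ Cfsg.Geo.scalars ι F
  absIrred : Cfsg.Geo.ActsAbsolutelyIrreducibly (Cfsg.Geo.matrixSet P)

lemma CoreData.isResidualCore {H P : Subgroup (GLm ι F)} (h : CoreData H P)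
    (hsub : ∀ F₀ : Subfield F, F₀ ≠ ⊤ → ¬ Cfsg.Geo.RealisableOver F₀ (Cfsg.Geo.matrixSet P)) :
    Cfsg.Geo.IsResidualCore H P :=
  ⟨h.le, h.normal, h.perfect, h.simple, h.nonabelian, h.centralizer_scalar, h.absIrred, hsub⟩

/-- A map multiplicative into commuting values kills commutators. -/
lemma eq_one_of_hom_comm {G G' : Type*} [Group G] [Group G'] {K : Subgroup G} {f : G → G'}
    (hmul : ∀ a ∈ K, ∀ b ∈ K, f (a * b) = f a * f b) (hcomm : ∀ a ∈ K, ∀ b ∈ K, f a * f b = f b * f a) :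
    ∀ x ∈ ⁅K, K⁆, f x = 1 := by
  have h1 : f 1 = 1 := by simpa using hmul 1 K.one_mem 1 K.one_mem
  intro x hx
  rw [Subgroup.commutator_def] at hx
  suffices x ∈ K ∧ f x = 1 from this.2
  induction hx using Subgroup.closure_induction with
  | mem y hy =>
    obtain ⟨a, ha, b, hb, rfl⟩ := hy
    have ha' := K.inv_mem ha
    have hb' := K.inv_mem hb
    refine ⟨K.mul_mem (K.mul_mem (K.mul_mem ha hb) ha') hb', ?_⟩
    rw [commutatorElement_def, hmul _ (K.mul_mem (K.mul_mem ha hb) ha') _ hb', hmul _ (K.mul_mem ha hb) _ ha',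
      hmul a ha b hb, mul_assoc (f a) (f b), hcomm b hb a⁻¹ ha', ← mul_assoc (f a), ← hmul a ha _ ha',
      mul_inv_cancel, h1, one_mul, ← hmul b hb _ hb', mul_inv_cancel, h1]
  | one => exact ⟨K.one_mem, h1⟩
  | mul y z _ _ hy hz => exact ⟨K.mul_mem hy.1 hz.1, by rw [hmul y hy.1 z hz.1, hy.2, hz.2, one_mul]⟩
  | inv y _ hy =>
    refine ⟨K.inv_mem hy.1, ?_⟩
    have := hmul y hy.1 y⁻¹ (K.inv_mem hy.1)
    rwa [mul_inv_cancel, h1, hy.2, one_mul, eq_comm] at this

/-- Commuting with a group modulo scalars means commuting with its derived group. -/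
lemma commute_commutator_of_comm_scalar {M : Subgroup (GLm ι F)} {y : GLm ι F}
    (h : ∀ x ∈ M, x * y * x⁻¹ * y⁻¹ ∈ Cfsg.Geo.scalars ι F) : ∀ x ∈ ⁅M, M⁆, x * y = y * x := by
  intro x hx
  have h2 := eq_one_of_hom_comm (f := fun a => a * y * a⁻¹ * y⁻¹)
    (fun a ha b hb => by
      show a * b * y * (a * b)⁻¹ * y⁻¹ = _
      calc a * b * y * (a * b)⁻¹ * y⁻¹ = a * ((b * y * b⁻¹ * y⁻¹) * y) * a⁻¹ * y⁻¹ := by group
        _ = (b * y * b⁻¹ * y⁻¹) * (a * y * a⁻¹ * y⁻¹) := by
            rw [← mul_assoc a, commute_of_mem_scalars (h b hb) a]; group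
        _ = _ := (commute_of_mem_scalars (h b hb) _).symm)
    (fun a ha b _ => (commute_of_mem_scalars (h a ha) _).symm) x hx
  calc x * y = (x * y * x⁻¹ * y⁻¹) * (y * x) := by group
    _ = y * x := by rw [h2, one_mul]

lemma normal_of_le_scalars {Z : Subgroup (GLm ι F)} (hZ : Z ≤ Cfsg.Geo.scalars ι F) : Z.Normal :=
  ⟨fun z hz g => by rw [commute_of_mem_scalars (hZ hz) g, mul_assoc, mul_inv_cancel, mul_one]; exact hz⟩

lemma exists_mul_of_mem_sup {D Z : Subgroup (GLm ι F)} (hZ : Z ≤ Cfsg.Geo.scalars ι F) {x : GLm ι F}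
    (hx : x ∈ D ⊔ Z) : ∃ a ∈ D, ∃ z ∈ Z, a * z = x := by
  haveI := normal_of_le_scalars hZ
  exact Subgroup.mem_sup_of_normal_right.1 hx

lemma commutator_sup_central {M D Z : Subgroup (GLm ι F)} (hZ : Z ≤ Cfsg.Geo.scalars ι F)
    (hle : M ≤ D ⊔ Z) : ⁅M, M⁆ ≤ ⁅D, D⁆ := by
  rw [Subgroup.commutator_le]
  intro x hx y hy
  obtain ⟨a, ha, z, hz, rfl⟩ := exists_mul_of_mem_sup hZ (hle hx)
  obtain ⟨b, hb, w, hw, rfl⟩ := exists_mul_of_mem_sup hZ (hle hy)
  have : ⁅a * z, b * w⁆ = ⁅a, b⁆ := by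
    have hz' := commute_of_mem_scalars (hZ hz)
    have hw' := commute_of_mem_scalars (hZ hw)
    rw [commutatorElement_def, commutatorElement_def]
    calc a * z * (b * w) * (a * z)⁻¹ * (b * w)⁻¹
        = a * (z * b) * w * z⁻¹ * a⁻¹ * w⁻¹ * b⁻¹ := by group
      _ = a * b * (z * w) * z⁻¹ * a⁻¹ * w⁻¹ * b⁻¹ := by rw [← hz' b]; group
      _ = a * b * (w * a⁻¹) * w⁻¹ * b⁻¹ := by rw [← hz' w]; group
      _ = _ := by rw [← hw' a⁻¹]; group
  rw [this]
  exact Subgroup.commutator_mem_commutator ha hb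

lemma conj_commutator_mem {g : GLm ι F} {M M' : Subgroup (GLm ι F)} (h : ∀ x ∈ M, g * x * g⁻¹ ∈ M') :
    ∀ x ∈ ⁅M, M⁆, g * x * g⁻¹ ∈ ⁅M', M'⁆ := by
  intro x hx
  have h1 : M.map (MulAut.conj g).toMonoidHom ≤ M' := by
    rintro _ ⟨y, hy, rfl⟩; exact h y hy
  have h2 := Subgroup.commutator_mono h1 h1
  rw [← Subgroup.map_commutator] at h2
  exact h2 ⟨x, hx, rfl⟩

theorem normal_structure [Finite F] [Nonempty ι] {H : Subgroup (GLm ι F)}
    (hH : NormalsAbsIrred H) (hns : ¬ H ≤ Cfsg.Geo.scalars ι F) :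
    (∃ N r, AbelianData H N r) ∨ (∃ d S, CommutingData H d S) ∨ ∃ P, CoreData H P := by
  classical
  set Sc := Cfsg.Geo.scalars ι F with hSc
  let Z := H ⊓ Sc
  have hZnorm : ∀ h ∈ H, ∀ x ∈ Z, h * x * h⁻¹ ∈ Z := fun h hh x hx => by
    rw [commute_of_mem_scalars hx.2 h, mul_assoc, mul_inv_cancel, mul_one]; exact hx
  -- a minimal normal subgroup
  let Nset : Set (Subgroup (GLm ι F)) :=
    {N | N ≤ H ∧ Z ≤ N ∧ (∀ h ∈ H, ∀ x ∈ N, h * x * h⁻¹ ∈ N) ∧ ¬ N ≤ Sc}
  obtain ⟨N, hNmem, hNmin⟩ := (Set.toFinite Nset).exists_minimal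
    ⟨H, le_rfl, inf_le_left, fun h hh x hx => H.mul_mem (H.mul_mem hh hx) (H.inv_mem hh), hns⟩
  obtain ⟨hNH, hZN, hNnorm, hNns⟩ := hNmem
  have hmin : ∀ M : Subgroup (GLm ι F), M ≤ N → Z ≤ M → (∀ h ∈ H, ∀ x ∈ M, h * x * h⁻¹ ∈ M) → ¬ M ≤ Sc → M = N :=
    fun M h1 h2 h3 h4 => le_antisymm h1 (hNmin ⟨h1.trans hNH, h2, h3, h4⟩ h1)
  have hNirr := hH N hNH hNnorm hNns
  have hscN : ∀ g ∈ N, g ∈ Sc → g ∈ Z := fun g hg hg' => ⟨hNH hg, hg'⟩
  -- the join of `M` with `Z`
  have hsupnorm : ∀ (g : GLm ι F) (M : Subgroup (GLm ι F)), (∀ x ∈ M, g * x * g⁻¹ ∈ M) →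
      ∀ x ∈ M ⊔ Z, g * x * g⁻¹ ∈ M ⊔ Z := by
    intro g M hM x hx
    have h1 : (M ⊔ Z).map (MulAut.conj g).toMonoidHom ≤ M ⊔ Z := by
      rw [Subgroup.map_sup]
      refine sup_le_sup ?_ ?_
      · rintro _ ⟨y, hy, rfl⟩; exact hM y hy
      · rintro _ ⟨y, hy, rfl⟩
        show g * y * g⁻¹ ∈ Z
        rw [commute_of_mem_scalars hy.2 g, mul_assoc, mul_inv_cancel, mul_one]; exact hy
    exact h1 ⟨x, hx, rfl⟩
  by_cases hab : ∀ x ∈ N, ∀ y ∈ N, x * y * x⁻¹ * y⁻¹ ∈ Sc
  · left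
    set Q := N ⧸ Sc.subgroupOf N
    have hcard := card_quotient_of_comm_scalar hNirr hab
    have hQ : 1 < Nat.card Q := by
      by_contra hle
      apply hNns
      intro x hx
      haveI : Subsingleton Q := Finite.card_le_one_iff_subsingleton.1 (by omega)
      exact Subgroup.mem_subgroupOf.1
        ((QuotientGroup.eq_one_iff (⟨x, hx⟩ : N)).1 (Subsingleton.elim _ _))
    obtain ⟨r, hr, hrd⟩ := Nat.exists_prime_and_dvd hQ.ne'
    have hQcomm : ∀ a b : Q, a * b = b * a := by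
      intro a b
      induction a using QuotientGroup.induction_on with
      | H x =>
        induction b using QuotientGroup.induction_on with
        | H y =>
          rw [← QuotientGroup.mk_mul, ← QuotientGroup.mk_mul, QuotientGroup.eq, Subgroup.mem_subgroupOf]
          have h := hab _ (N.inv_mem y.2) _ (N.inv_mem x.2)
          simpa [mul_assoc] using h
    let M : Subgroup (GLm ι F) :=
      ({ carrier := {x : N | ((x : Q)) ^ r = 1}
         mul_mem' := fun {a b} ha hb => by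
           show ((a * b : N) : Q) ^ r = 1
           rw [QuotientGroup.mk_mul, Commute.mul_pow (hQcomm _ _), ha, hb, one_mul]
         one_mem' := by simp
         inv_mem' := fun {a} ha => by
           show ((a⁻¹ : N) : Q) ^ r = 1
           rw [QuotientGroup.mk_inv, inv_pow, ha, inv_one] } : Subgroup N).map N.subtype
    have hMmem : ∀ x, x ∈ M ↔ x ∈ N ∧ x ^ r ∈ Sc := by
      intro x
      constructor
      · rintro ⟨y, hy, rfl⟩
        refine ⟨y.2, ?_⟩
        change ((y : Q)) ^ r = 1 at hy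
        rw [← QuotientGroup.mk_pow, QuotientGroup.eq_one_iff, Subgroup.mem_subgroupOf] at hy
        exact hy
      · rintro ⟨hx, hxr⟩
        refine ⟨⟨x, hx⟩, ?_, rfl⟩
        show (((⟨x, hx⟩ : N) : Q)) ^ r = 1
        rw [← QuotientGroup.mk_pow, QuotientGroup.eq_one_iff, Subgroup.mem_subgroupOf]
        exact hxr
    have hMN : M = N := by
      refine hmin M (fun x hx => ((hMmem x).1 hx).1) (fun x hx => (hMmem x).2 ⟨hZN hx, pow_mem hx.2 r⟩)
        (fun h hh x hx => ?_) ?_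
      · rw [hMmem] at hx ⊢
        refine ⟨hNnorm h hh x hx.1, ?_⟩
        rw [conj_pow, commute_of_mem_scalars hx.2 h, mul_assoc, mul_inv_cancel, mul_one]
        exact hx.2
      · intro hle
        haveI : Fact r.Prime := ⟨hr⟩
        obtain ⟨q, hq⟩ := exists_prime_orderOf_dvd_card' r hrd
        induction q using QuotientGroup.induction_on with
        | H x =>
          have h1 : ((x : Q)) ^ r = 1 := by rw [← hq]; exact pow_orderOf_eq_one _
          have h2 : (x : GLm ι F) ∈ Sc := hle ⟨x, h1, rfl⟩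
          have h3 : (x : Q) = 1 := (QuotientGroup.eq_one_iff x).2 h2
          rw [h3, orderOf_one] at hq
          exact hr.one_lt.ne hq
    exact ⟨N, r, hNH, hZN, hNnorm, hNns, hNirr, hab, hr, fun x hx => ((hMmem x).1 (hMN.symm ▸ hx)).2,
      hcard, hmin⟩
  right
  let Mset : Set (Subgroup (GLm ι F)) :=
    {M | M ≤ N ∧ Z ≤ M ∧ (∀ g ∈ N, ∀ x ∈ M, g * x * g⁻¹ ∈ M) ∧ ¬ M ≤ Sc}
  by_cases hsimp : ∀ M ∈ Mset, M = N
  · -- simple modulo scalars
    right
    let P := ⁅N, N⁆
    have hPN : P ≤ N := Subgroup.commutator_le.2 fun a ha b hb => by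
      rw [commutatorElement_def]
      exact N.mul_mem (N.mul_mem (N.mul_mem ha hb) (N.inv_mem ha)) (N.inv_mem hb)
    have hPnorm : ∀ h ∈ H, ∀ x ∈ P, h * x * h⁻¹ ∈ P := fun h hh => conj_commutator_mem (hNnorm h hh)
    have hPns : ¬ P ≤ Sc := fun h => hab fun x hx y hy => by
      simpa [commutatorElement_def] using h (Subgroup.commutator_mem_commutator hx hy)
    have hsup : P ⊔ Z = N := hmin _ (sup_le hPN hZN) le_sup_right (fun h hh => hsupnorm h P (hPnorm h hh))
      (fun h => hPns (le_sup_left.trans h))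
    have hperf : ⁅P, P⁆ = P :=
      le_antisymm (Subgroup.commutator_mono hPN hPN) (commutator_sup_central inf_le_right hsup.ge)
    have hPirr := hH P (hPN.trans hNH) hPnorm hPns
    have hnt : Nontrivial (P ⧸ Sc.subgroupOf P) := by
      obtain ⟨x, hx, hxs⟩ := SetLike.not_le_iff_exists.1 hPns
      exact ⟨⟨((⟨x, hx⟩ : P) : P ⧸ Sc.subgroupOf P), 1, fun h =>
        hxs ((QuotientGroup.eq_one_iff (⟨x, hx⟩ : P)).1 h)⟩⟩
    refine ⟨P, hPN.trans hNH, hPnorm, hperf, ⟨fun K hK => ?_⟩, ?_, ?_, hPirr⟩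
    · let K' : Subgroup (GLm ι F) := (K.comap (QuotientGroup.mk' (Sc.subgroupOf P))).map P.subtype
      have hK'P : K' ≤ P := Subgroup.map_subtype_le _
      have hK'mem : ∀ x : P, (x : GLm ι F) ∈ K' ↔ (x : P ⧸ Sc.subgroupOf P) ∈ K := by
        intro x
        constructor
        · rintro ⟨y, hy, hyx⟩
          rw [← Subtype.ext hyx]; exact hy
        · exact fun h => ⟨x, h, rfl⟩
      have hK'norm : ∀ g ∈ P, ∀ x ∈ K', g * x * g⁻¹ ∈ K' := by
        intro g hg x hx
        have hxP := hK'P hx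
        have h1 := (hK'mem ⟨x, hxP⟩).1 hx
        refine (hK'mem (⟨g, hg⟩ * ⟨x, hxP⟩ * (⟨g, hg⟩ : P)⁻¹)).2 ?_
        rw [QuotientGroup.mk_mul, QuotientGroup.mk_mul, QuotientGroup.mk_inv]
        exact hK.conj_mem _ h1 _
      have hNsub : N ≤ Subgroup.normalizer (K' : Set (GLm ι F)) := by
        rw [← hsup]
        refine sup_le (fun g hg => ?_) (fun z hz => ?_)
        · rw [Subgroup.mem_normalizer_iff]
          refine fun x => ⟨fun hx => hK'norm g hg x hx, fun hx => ?_⟩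
          simpa [mul_assoc] using hK'norm g⁻¹ (P.inv_mem hg) _ hx
        · rw [Subgroup.mem_normalizer_iff]
          intro x
          rw [show z * x * z⁻¹ = x by rw [← commute_of_mem_scalars hz.2 x, mul_assoc, mul_inv_cancel, mul_one]]
      by_cases hKs : K' ≤ Sc
      · left
        rw [eq_bot_iff]
        intro q hq
        induction q using QuotientGroup.induction_on with
        | H x =>
          rw [Subgroup.mem_bot, QuotientGroup.eq_one_iff, Subgroup.mem_subgroupOf]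
          exact hKs ((hK'mem x).2 hq)
      · right
        have hKN : K' ⊔ Z = N := hsimp _ ⟨sup_le (hK'P.trans hPN) hZN, le_sup_right,
          fun g hg => hsupnorm g K' (fun x hx => (Subgroup.mem_normalizer_iff.1 (hNsub hg) x).1 hx),
          fun h => hKs (le_sup_left.trans h)⟩
        have hPK : P ≤ K' := (commutator_sup_central inf_le_right hKN.ge).trans (Subgroup.commutator_le.2
          fun a ha b hb => by
            rw [commutatorElement_def]
            exact K'.mul_mem (K'.mul_mem (K'.mul_mem ha hb) (K'.inv_mem ha)) (K'.inv_mem hb))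
        rw [eq_top_iff]
        intro q _
        induction q using QuotientGroup.induction_on with
        | H x => exact (hK'mem x).1 (hPK x.2)
    · intro hc
      apply hPns
      rw [← hperf, Subgroup.commutator_le]
      intro a ha b hb
      let q : ↥P → P ⧸ Sc.subgroupOf P := QuotientGroup.mk
      have h : q ⁅(⟨a, ha⟩ : P), ⟨b, hb⟩⁆ = 1 := by
        show (QuotientGroup.mk' (Sc.subgroupOf P)) _ = 1
        rw [map_commutatorElement, commutatorElement_eq_one_iff_mul_comm]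
        exact hc.is_comm.comm _ _
      have h2 := Subgroup.mem_subgroupOf.1 ((QuotientGroup.eq_one_iff _).1 h)
      simpa [commutatorElement_def] using h2
    · intro h hh hx
      refine mem_scalars_of_val_mem_bot (Algebra.mem_bot.2 ?_)
      have hcom : ∀ x ∈ ⁅P, P⁆, x * h = h * x := commute_commutator_of_comm_scalar fun x hxP => by
        have := Sc.inv_mem (hx x hxP)
        simpa [mul_assoc] using this
      rw [hperf] at hcom
      obtain ⟨c, hc⟩ := hPirr.2 (h : Matrix ι ι F) (by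
        rintro _ ⟨x, hxP, rfl⟩
        rw [← Units.val_mul, ← Units.val_mul, hcom x hxP])
      exact ⟨c, by rw [hc, Algebra.algebraMap_eq_smul_one]⟩
  -- several commuting factors
  left
  push Not at hsimp
  obtain ⟨M₀, hM₀, hM₀ne⟩ := hsimp
  obtain ⟨M, hMle, hMmin⟩ := (Set.toFinite Mset).exists_le_minimal hM₀
  obtain ⟨hMmem, hMmin⟩ := hMmin
  obtain ⟨hMN, hZM, hMnorm, hMns⟩ := hMmem
  have hMne : M ≠ N := fun h => hM₀ne (le_antisymm hM₀.1 (h ▸ hMle))
  let cj : GLm ι F → Subgroup (GLm ι F) := fun h => M.map (MulAut.conj h).toMonoidHom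
  have hcj : ∀ h ∈ H, cj h ∈ Mset := by
    intro h hh
    refine ⟨?_, ?_, ?_, ?_⟩
    · rintro _ ⟨x, hx, rfl⟩; exact hNnorm h hh x (hMN hx)
    · intro z hz
      refine ⟨z, hZM hz, ?_⟩
      show h * z * h⁻¹ = z
      rw [commute_of_mem_scalars hz.2 h, mul_assoc, mul_inv_cancel, mul_one]
    · rintro g hg _ ⟨x, hx, rfl⟩
      refine ⟨(h⁻¹ * g * h) * x * (h⁻¹ * g * h)⁻¹, hMnorm _ ?_ x hx, ?_⟩
      · simpa using hNnorm h⁻¹ (H.inv_mem hh) g hg
      · simp [mul_assoc]
    · intro hle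
      apply hMns
      intro x hx
      have h1 : h * x * h⁻¹ ∈ Sc := hle ⟨x, hx, rfl⟩
      have h2 : x = h * x * h⁻¹ := by
        calc x = h⁻¹ * (h * x * h⁻¹) * h := by group
          _ = h * x * h⁻¹ := by rw [commute_of_mem_scalars h1 h⁻¹, mul_assoc, inv_mul_cancel, mul_one]
      rwa [h2]
  have hcjmin : ∀ h ∈ H, ∀ L ∈ Mset, L ≤ cj h → cj h ≤ L := by
    intro h hh L hL hle
    have hL' : L.map (MulAut.conj h⁻¹).toMonoidHom ∈ Mset := by
      refine ⟨?_, ?_, ?_, ?_⟩
      · rintro _ ⟨x, hx, rfl⟩; exact hNnorm h⁻¹ (H.inv_mem hh) x (hL.1 hx)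
      · intro z hz
        refine ⟨z, hL.2.1 hz, ?_⟩
        show h⁻¹ * z * h⁻¹⁻¹ = z
        rw [commute_of_mem_scalars hz.2 h⁻¹, mul_assoc, mul_inv_cancel, mul_one]
      · rintro g hg _ ⟨x, hx, rfl⟩
        refine ⟨(h * g * h⁻¹) * x * (h * g * h⁻¹)⁻¹, hL.2.2.1 _ (hNnorm h hh g hg) x hx, ?_⟩
        simp [mul_assoc]
      · intro hle'
        apply hL.2.2.2
        intro x hx
        have h1 : h⁻¹ * x * h⁻¹⁻¹ ∈ Sc := hle' ⟨x, hx, rfl⟩
        have h2 : x = h⁻¹ * x * h⁻¹⁻¹ := by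
          calc x = h * (h⁻¹ * x * h⁻¹⁻¹) * h⁻¹ := by group
            _ = h⁻¹ * x * h⁻¹⁻¹ := by rw [commute_of_mem_scalars h1 h, mul_assoc, mul_inv_cancel, mul_one]
        rwa [h2]
    have h1 := hMmin hL' (by
      rintro _ ⟨x, hx, rfl⟩
      obtain ⟨y, hy, rfl⟩ := hle hx
      simpa [mul_assoc] using hy)
    rintro _ ⟨y, hy, rfl⟩
    obtain ⟨x, hx, hxy⟩ := h1 hy
    rw [← hxy]
    simpa [mul_assoc] using hx
  have hdist : ∀ h ∈ H, ∀ h' ∈ H, cj h ≠ cj h' → ∀ x ∈ cj h, ∀ y ∈ cj h', x * y * x⁻¹ * y⁻¹ ∈ Sc := by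
    intro h hh h' hh' hne x hx y hy
    by_contra hns'
    obtain ⟨h1, h2, h3, h4⟩ := hcj h hh
    obtain ⟨h1', h2', h3', h4'⟩ := hcj h' hh'
    have hmem : x * y * x⁻¹ * y⁻¹ ∈ cj h ⊓ cj h' :=
      ⟨by
        have := (cj h).mul_mem hx (h3 y (h1' hy) x⁻¹ ((cj h).inv_mem hx))
        simpa [mul_assoc] using this,
      (cj h').mul_mem (h3' x (h1 hx) y hy) ((cj h').inv_mem hy)⟩
    have hI : cj h ⊓ cj h' ∈ Mset := ⟨inf_le_left.trans h1, le_inf h2 h2',
      fun g hg z hz => ⟨h3 g hg z hz.1, h3' g hg z hz.2⟩, fun hle => hns' (hle hmem)⟩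
    exact hne (le_antisymm ((hcjmin h hh _ hI inf_le_left).trans inf_le_right)
      ((hcjmin h' hh' _ hI inf_le_right).trans inf_le_left))
  have hone : cj 1 = M := by
    ext x
    simp [cj]
  -- the conjugates generate `N`
  let J : Subgroup (GLm ι F) := ⨆ h ∈ H, cj h
  have hJ : J = N := by
    refine hmin J (iSup₂_le fun h hh => (hcj h hh).1) ?_ ?_ ?_
    · exact (hcj 1 H.one_mem).2.1.trans (le_iSup₂ (f := fun h (_ : h ∈ H) => cj h) 1 H.one_mem)
    · intro g hg x hx
      have h1 : J.map (MulAut.conj g).toMonoidHom ≤ J := by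
        simp only [J, Subgroup.map_iSup]
        refine iSup₂_le fun h hh => ?_
        refine le_trans (le_of_eq ?_) (le_iSup₂ (f := fun h (_ : h ∈ H) => cj h) (g * h) (H.mul_mem hg hh))
        rw [Subgroup.map_map]
        congr 1
        ext; simp [mul_assoc]
      exact h1 ⟨x, hx, rfl⟩
    · intro hle
      exact (hcj 1 H.one_mem).2.2.2 ((le_iSup₂ (f := fun h (_ : h ∈ H) => cj h) 1 H.one_mem).trans hle)
  let D := ⁅M, M⁆
  have hDM : D ≤ M := Subgroup.commutator_le.2 fun a ha b hb => by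
    rw [commutatorElement_def]
    exact M.mul_mem (M.mul_mem (M.mul_mem ha hb) (M.inv_mem ha)) (M.inv_mem hb)
  have hDns : ¬ D ≤ Sc := by
    intro hD
    apply hab
    have hcjab : ∀ h ∈ H, ∀ x ∈ cj h, ∀ y ∈ cj h, x * y * x⁻¹ * y⁻¹ ∈ Sc := by
      rintro h - _ ⟨x, hx, rfl⟩ _ ⟨y, hy, rfl⟩
      have h1 : x * y * x⁻¹ * y⁻¹ ∈ Sc := by
        simpa [commutatorElement_def] using hD (Subgroup.commutator_mem_commutator hx hy)
      have h2 : h * (x * y * x⁻¹ * y⁻¹) * h⁻¹ ∈ Sc := by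
        rw [commute_of_mem_scalars h1 h, mul_assoc, mul_inv_cancel, mul_one]; exact h1
      simpa [mul_assoc] using h2
    have hgen : ∀ h ∈ H, ∀ h' ∈ H, ∀ x ∈ cj h, ∀ y ∈ cj h', x * y * x⁻¹ * y⁻¹ ∈ Sc := by
      intro h hh h' hh'
      by_cases he : cj h = cj h'
      · rw [← he]; exact hcjab h hh
      · exact hdist h hh h' hh' he
    intro x hx y hy
    let q := QuotientGroup.mk' Sc
    have hq : ∀ a b, a * b * a⁻¹ * b⁻¹ ∈ Sc ↔ q a * q b = q b * q a := by
      intro a b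
      rw [← commutatorElement_eq_one_iff_mul_comm, ← map_commutatorElement, commutatorElement_def]
      exact (QuotientGroup.eq_one_iff _).symm
    have hcl : J ≤ ⨅ (h : GLm ι F) (_ : h ∈ H), (Subgroup.centralizer ((cj h).map q : Set _)).comap q := by
      refine iSup₂_le fun a ha => le_iInf₂ fun b hb z hz => ?_
      rintro _ ⟨w, hw, rfl⟩
      exact (hq w z).1 (hgen b hb a ha w hw z hz)
    rw [← hJ] at hx hy
    have hy' : J ≤ (Subgroup.centralizer ({q x} : Set _)).comap q := by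
      refine iSup₂_le fun a ha w hw => ?_
      rintro _ rfl
      have := (Subgroup.mem_iInf.1 ((Subgroup.mem_iInf.1 (hcl hx)) a)) ha (q w) ⟨w, hw, rfl⟩
      exact this.symm
    exact (hq x y).2 (hy' hy (q x) rfl)
  have hDZ : D ⊔ Z = M := le_antisymm (sup_le hDM hZM) (hMmin ⟨sup_le (hDM.trans hMN) hZN, le_sup_right,
      fun g hg => hsupnorm g D (conj_commutator_mem (hMnorm g hg)), fun h => hDns (le_sup_left.trans h)⟩
      (sup_le hDM hZM))
  let Dj : GLm ι F → Subgroup (GLm ι F) := fun h => D.map (MulAut.conj h).toMonoidHom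
  have hDjcomm : ∀ h, Dj h = ⁅cj h, cj h⁆ := fun h => Subgroup.map_commutator M M (MulAut.conj h).toMonoidHom
  let A : GLm ι F → Subalgebra F (Matrix ι ι F) := fun h => Algebra.adjoin F (Cfsg.Geo.matrixSet (Dj h))
  -- conjugation permutes the algebras
  have hAmap : ∀ g h : GLm ι F, A (g * h) = (A h).map (conjAlg g).toAlgHom := by
    intro g h
    simp only [A]
    rw [AlgHom.map_adjoin]
    congr 1
    ext X
    constructor
    · rintro ⟨_, ⟨y, hy, rfl⟩, rfl⟩
      refine ⟨_, ⟨_, ⟨y, hy, rfl⟩, rfl⟩, ?_⟩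
      show conjAlg g _ = _
      simp [conjAlg_apply, mul_assoc]
    · rintro ⟨_, ⟨_, ⟨y, hy, rfl⟩, rfl⟩, rfl⟩
      refine ⟨_, ⟨y, hy, rfl⟩, ?_⟩
      show _ = conjAlg g _
      simp [conjAlg_apply, mul_assoc]
  have hcjA : ∀ h, ∀ x ∈ cj h, (x : Matrix ι ι F) ∈ A h := by
    rintro h _ ⟨y, hy, rfl⟩
    obtain ⟨a, ha, z, hz, rfl⟩ := exists_mul_of_mem_sup (inf_le_right : Z ≤ Sc) (hDZ.symm ▸ hy : y ∈ D ⊔ Z)
    obtain ⟨c, hc⟩ := matrix_scalar_of_mem_scalars hz.2
    have he : (MulAut.conj h).toMonoidHom (a * z) = (MulAut.conj h).toMonoidHom a * z := by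
      rw [map_mul]
      congr 1
      show h * z * h⁻¹ = z
      rw [commute_of_mem_scalars hz.2 h, mul_assoc, mul_inv_cancel, mul_one]
    rw [he, Units.val_mul, hc]
    exact (A h).mul_mem (Algebra.subset_adjoin ⟨_, ⟨a, ha, rfl⟩, rfl⟩) ((A h).algebraMap_mem c)
  have hcommA : ∀ h ∈ H, ∀ h' ∈ H, cj h ≠ cj h' → ∀ a ∈ A h, ∀ b ∈ A h', a * b = b * a := by
    intro h hh h' hh' hne
    have hgen : ∀ x ∈ Dj h, ∀ y ∈ Dj h', (x : Matrix ι ι F) * y = y * x := by
      intro x hx y hy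
      rw [hDjcomm] at hx
      have hy' : y ∈ cj h' := Subgroup.map_mono hDM hy
      have h2 := commute_commutator_of_comm_scalar (y := y) (fun z hz => hdist h hh h' hh' hne z hz y hy') x hx
      simpa using congrArg Units.val h2
    have h1 : A h ≤ Subalgebra.centralizer F (Cfsg.Geo.matrixSet (Dj h')) := Algebra.adjoin_le (by
      rintro _ ⟨x, hx, rfl⟩
      rw [SetLike.mem_coe, Subalgebra.mem_centralizer_iff]
      rintro _ ⟨y, hy, rfl⟩
      exact (hgen x hx y hy).symm)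
    intro a ha b hb
    have h2 : A h' ≤ Subalgebra.centralizer F {a} := Algebra.adjoin_le (by
      rintro _ hy
      rw [SetLike.mem_coe, Subalgebra.mem_centralizer_iff]
      rintro _ rfl
      exact ((Subalgebra.mem_centralizer_iff F).1 (h1 ha) _ hy).symm)
    exact (Subalgebra.mem_centralizer_iff F).1 (h2 hb) a rfl
  have hAeq : ∀ h h', cj h = cj h' → A h = A h' := by
    intro h h' he
    simp only [A, hDjcomm, he]
  let S : Finset (Subalgebra F (Matrix ι ι F)) := (Set.toFinite (A '' (H : Set (GLm ι F)))).toFinset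
  have hSmem : ∀ B, B ∈ S ↔ ∃ h ∈ H, A h = B := fun B => by simp [S]
  have htop : (⨆ B ∈ S, B) = ⊤ := by
    set U := ⨆ B ∈ S, B
    let Y : Subgroup (GLm ι F) :=
      { carrier := {x | (x : Matrix ι ι F) ∈ U ∧ ((x⁻¹ : GLm ι F) : Matrix ι ι F) ∈ U}
        mul_mem' := fun {a b} ha hb =>
          ⟨by rw [Units.val_mul]; exact U.mul_mem ha.1 hb.1,
            by rw [_root_.mul_inv_rev, Units.val_mul]; exact U.mul_mem hb.2 ha.2⟩
        one_mem' := ⟨by simp [U.one_mem], by simp [U.one_mem]⟩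
        inv_mem' := fun {a} ha => ⟨ha.2, by simpa using ha.1⟩ }
    have hJY : J ≤ Y := iSup₂_le fun h hh x hx => by
      have hle : A h ≤ U := le_iSup₂ (f := fun B (_ : B ∈ S) => B) (A h) ((hSmem _).2 ⟨h, hh, rfl⟩)
      exact ⟨hle (hcjA h x hx), hle (hcjA h _ ((cj h).inv_mem hx))⟩
    rw [eq_top_iff, ← adjoin_eq_top_of_absIrred hNirr]
    refine Algebra.adjoin_le ?_
    rintro _ ⟨x, hx, rfl⟩
    exact (hJY (hJ.symm ▸ hx)).1
  have hcent : ∀ h ∈ H, centreAlg (A h) ≤ ⊥ := by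
    intro h hh x hx
    rw [mem_centreAlg] at hx
    have hall : (⨆ B ∈ S, B) ≤ Subalgebra.centralizer F {x} := by
      refine iSup₂_le fun B hB b hb => ?_
      rw [Subalgebra.mem_centralizer_iff]
      rintro _ rfl
      obtain ⟨h', hh', rfl⟩ := (hSmem B).1 hB
      by_cases he : cj h = cj h'
      · rw [← hAeq h h' he] at hb
        exact (hx.2 b hb).symm
      · exact hcommA h hh h' hh' he _ hx.1 b hb
    rw [htop] at hall
    obtain ⟨c, hc⟩ : x ∈ Set.range (Matrix.scalar ι) := Matrix.mem_range_scalar_of_commute_single fun i j _ =>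
      ((Subalgebra.mem_centralizer_iff F).1 (hall Algebra.mem_top) x rfl).symm
    exact Algebra.mem_bot.2 ⟨c, hc⟩
  have hA1 : Normalises N (A 1) := normalises_adjoin (by
    rintro g hg _ ⟨x, hx, rfl⟩
    rw [hDjcomm] at hx
    refine ⟨g * x * g⁻¹, ?_, rfl⟩
    show g * x * g⁻¹ ∈ Dj 1
    rw [hDjcomm]
    exact conj_commutator_mem (fun y hy => (hcj 1 H.one_mem).2.2.1 g hg y hy) x hx)
  obtain ⟨d, hd, φ, -, hφ⟩ :=
    exists_matrix_of_centre_eq_bot (isSemisimpleRing_of_normalized hNirr.1 hA1) (hcent 1 H.one_mem)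
  have hSmat : ∀ B ∈ S, ∃ ψ : Matrix (Fin d) (Fin d) F →ₐ[F] Matrix ι ι F, ψ.range = B := by
    intro B hB
    obtain ⟨h, hh, rfl⟩ := (hSmem B).1 hB
    refine ⟨(conjAlg h).toAlgHom.comp φ, ?_⟩
    rw [AlgHom.range_comp, hφ, ← hAmap, mul_one]
  have hScomm : ∀ B ∈ S, ∀ C ∈ S, B ≠ C → ∀ b ∈ B, ∀ c ∈ C, b * c = c * b := by
    intro B hB C hC hne
    obtain ⟨h, hh, rfl⟩ := (hSmem B).1 hB
    obtain ⟨h', hh', rfl⟩ := (hSmem C).1 hC
    exact hcommA h hh h' hh' fun he => hne (hAeq h h' he)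
  have hD1 : Dj 1 = D := by
    ext x
    simp [Dj]
  have hd2 : 2 ≤ d := by
    by_contra hlt
    have hd1 : d = 1 := by
      have := Nat.pos_of_ne_zero hd.out
      omega
    subst hd1
    apply hDns
    intro x hx
    apply mem_scalars_of_val_mem_bot
    have hxA : (x : Matrix ι ι F) ∈ A 1 := Algebra.subset_adjoin ⟨x, hD1.symm ▸ hx, rfl⟩
    rw [← hφ] at hxA
    obtain ⟨X, hX⟩ := hxA
    have hX1 : X = algebraMap F _ (X 0 0) := by
      ext i j
      rw [Subsingleton.elim i 0, Subsingleton.elim j 0]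
      simp [Matrix.algebraMap_matrix_apply]
    exact Algebra.mem_bot.2 ⟨X 0 0, (φ.commutes (X 0 0)).symm.trans ((congrArg φ hX1.symm).trans hX)⟩
  have hS2 : 2 ≤ S.card := by
    by_contra hlt
    have hone' : ∀ B ∈ S, B = A 1 := fun B hB =>
      Finset.card_le_one.1 (by omega) B hB (A 1) ((hSmem _).2 ⟨1, H.one_mem, rfl⟩)
    have hA1top : A 1 = ⊤ := by
      rw [eq_top_iff, ← htop]
      exact iSup₂_le fun B hB => (hone' B hB).le
    obtain ⟨h, hh, hne⟩ : ∃ h ∈ H, cj h ≠ cj 1 := by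
      by_contra hc
      push Not at hc
      refine hMne (hmin M hMN hZM (fun g hg x hx => ?_) hMns)
      have h1 : (MulAut.conj g).toMonoidHom x ∈ cj g := ⟨x, hx, rfl⟩
      rw [hc g hg, hone] at h1
      exact h1
    apply hDns
    intro x hx
    have h1 : h * x * h⁻¹ ∈ Sc := by
      apply mem_scalars_of_val_mem_bot
      obtain ⟨c, hc⟩ : ((h * x * h⁻¹ : GLm ι F) : Matrix ι ι F) ∈ Set.range (Matrix.scalar ι) :=
        Matrix.mem_range_scalar_of_commute_single fun i j _ =>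
          (hcommA h hh 1 H.one_mem hne _ (Algebra.subset_adjoin ⟨_, ⟨x, hx, rfl⟩, rfl⟩) _
            (hA1top.symm ▸ Algebra.mem_top)).symm
      exact Algebra.mem_bot.2 ⟨c, hc⟩
    have h2 : x = h * x * h⁻¹ := by
      calc x = h⁻¹ * (h * x * h⁻¹) * h := by group
        _ = h * x * h⁻¹ := by rw [commute_of_mem_scalars h1 h⁻¹, mul_assoc, inv_mul_cancel, mul_one]
    rwa [h2]
  refine ⟨d, S, hd2, hS2, hSmat, hScomm, htop, fun g hg B hB => ?_,
    card_eq_pow_of_commuting S.card ι S rfl hSmat hScomm htop, fun B hB => ?_, fun B hB C hC => ?_⟩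
  rotate_left 2
  · obtain ⟨h, hh, rfl⟩ := (hSmem B).1 hB
    obtain ⟨h', hh', rfl⟩ := (hSmem C).1 hC
    refine ⟨h' * h⁻¹, H.mul_mem hh' (H.inv_mem hh), fun x => ?_⟩
    rw [show A h' = A (h' * h⁻¹ * h) by rw [inv_mul_cancel_right], hAmap]
    exact ⟨fun hx => ⟨x, hx, rfl⟩, fun ⟨y, hy, hyx⟩ => (conjAlg (h' * h⁻¹)).injective hyx ▸ hy⟩
  · obtain ⟨h, hh, rfl⟩ := (hSmem B).1 hB
    refine ⟨A (g * h), (hSmem _).2 ⟨g * h, H.mul_mem hg hh, rfl⟩, fun x => ?_⟩
    rw [hAmap]
    exact ⟨fun hx => ⟨x, hx, rfl⟩, fun ⟨y, hy, hyx⟩ => (conjAlg g).injective hyx ▸ hy⟩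
  · obtain ⟨h, hh, rfl⟩ := (hSmem B).1 hB
    refine ⟨Dj h, ?_, rfl⟩
    rw [hDjcomm]
    exact Subgroup.commutator_mono ((hcj h hh).1.trans hNH) ((hcj h hh).1.trans hNH)

end CfsgLib.Aschbacher
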