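import Mathlib
import Cfsg.Agent.Aschbacher.CentreField
import Cfsg.Agent.Aschbacher.NormalStructure

/-!
The reduction for an irreducible matrix group: a normal subgroup that is neither scalar nor absolutely
irreducible yields a frame, an extension field or a tensor decomposition; in dimensions that are
neither prime powers nor perfect powers only the almost simple case remains otherwise.
-/

set_option autoImplicit false
set_option linter.unusedSectionVars false
set_option linter.style.haveILetI false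

namespace CfsgLib.Aschbacher.Reduction

open Matrix Cfsg CfsgLib.Aschbacher.Centre

open scoped Kronecker

variable {ι : Type} [Fintype ι] [DecidableEq ι] {F : Type*} [Field F]

/-- The algebra generated by a subgroup. -/
abbrev algOf (N : Subgroup (GL ι F)) : Subalgebra F (Matrix ι ι F) :=
  Algebra.adjoin F (Geo.matrixSet N)

theorem centre_comm {A : Subalgebra F (Matrix ι ι F)} :
    ∀ x ∈ centreAlg A, ∀ y ∈ centreAlg A, x * y = y * x :=
  fun _ hx _ hy => centreAlg_comm hx hy

theorem normalises_algOf {H N : Subgroup (GL ι F)} (hn : ∀ h ∈ H, ∀ x ∈ N, h * x * h⁻¹ ∈ N) :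
    Normalises H (algOf N) :=
  normalises_adjoin (by
    rintro g hg _ ⟨x, hx, rfl⟩
    exact ⟨g * x * g⁻¹, hn g hg x hx, by simp [CfsgLib.Aschbacher.conjAlg_apply, Units.val_mul]⟩)

theorem algOf_mono {M N : Subgroup (GL ι F)} (h : M ≤ N) : algOf M ≤ algOf N :=
  Algebra.adjoin_mono (Set.image_mono h)

/-- The three imprimitive, semilinear or tensor witnesses of a normal subgroup `N`. -/
def IsWitness [Fintype F] [Nonempty ι] (H N : Subgroup (GL ι F)) : Prop :=
  (∃ t, Nonempty (IdemSystem H (centreAlg (algOf N)) t)) ∨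
  (∃ r, r.Prime ∧ r ∣ Fintype.card ι ∧ IsFieldLike (centreAlg (algOf N)) ∧
    r ∣ Module.finrank F (centreAlg (algOf N)) ∧
    Geo.IsFieldSubalgebra r (powFixed (centreAlg (algOf N)) centre_comm r) ∧
    H ≤ Geo.subalgebraNormalizer (powFixed (centreAlg (algOf N)) centre_comm r)) ∨
  (∃ (d k : ℕ) (e : ι ≃ Fin d × Fin k) (P : GL ι F), 2 ≤ d ∧ 2 ≤ k ∧
    (∀ X, X ∈ algOf N ↔ ∃ Y, X = CfsgLib.Aschbacher.tconj e P (Y ⊗ₖ (1 : Matrix (Fin k) (Fin k) F))) ∧
    H ≤ Geo.tensorProductSubgroup d k e P)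

/-- Trichotomy for a normal subgroup of an irreducible group. -/
theorem normal_cases [Fintype F] [Nonempty ι] {H N : Subgroup (GL ι F)}
    (hirr : Geo.ActsIrreducibly (Geo.matrixSet H)) (hn : ∀ h ∈ H, ∀ x ∈ N, h * x * h⁻¹ ∈ N) :
    N ≤ Geo.scalars ι F ∨ Geo.ActsAbsolutelyIrreducibly (Geo.matrixSet N) ∨ IsWitness H N := by
  have hA := normalises_algOf hn
  have hZ := hA.centreAlg
  rcases fieldLike_or_idemSystem hirr hZ centre_comm with hf | ⟨t, ⟨S⟩⟩
  · by_cases hbot : centreAlg (algOf N) = ⊥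
    · obtain ⟨d, k, e, P, hd, hk, hmem, hle⟩ := exists_tensor_of_centreAlg_eq_bot hirr hA hbot.le
      haveI : NeZero d := ⟨hd.ne'⟩
      haveI : NeZero k := ⟨hk.ne'⟩
      by_cases hd1 : d = 1
      · left
        subst hd1
        intro x hx
        obtain ⟨Y, hY⟩ := (hmem _).1 (Algebra.subset_adjoin ⟨x, hx, rfl⟩)
        have hY1 : Y = algebraMap F _ (Y 0 0) := by
          ext i j
          rw [Subsingleton.elim i 0, Subsingleton.elim j 0]
          simp [Matrix.algebraMap_matrix_apply]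
        refine mem_scalars_of_val_mem_bot (Algebra.mem_bot.2 ⟨Y 0 0, ?_⟩)
        rw [show (x : Matrix ι ι F) = _ from hY]
        conv_rhs => rw [hY1]
        rw [← (CfsgLib.Aschbacher.tconj e P).commutes]
        congr 1
        ext ⟨i, l⟩ ⟨j, m⟩
        rw [Subsingleton.elim i 0, Subsingleton.elim j 0]
        simp [Matrix.algebraMap_matrix_apply, Matrix.kroneckerMap_apply, Matrix.one_apply]
      by_cases hk1 : k = 1
      · right; left
        subst hk1
        refine absIrred_of_adjoin_eq_top (eq_top_iff.2 fun X _ => ?_)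
        obtain ⟨Z, rfl⟩ := (CfsgLib.Aschbacher.tconj e P).surjective X
        refine (hmem _).2 ⟨Matrix.of fun i j => Z (i, 0) (j, 0), congrArg _ ?_⟩
        ext ⟨i, l⟩ ⟨j, m⟩
        rw [Subsingleton.elim l 0, Subsingleton.elim m 0]
        simp [Matrix.kroneckerMap_apply]
      exact Or.inr (Or.inr (Or.inr (Or.inr ⟨d, k, e, P, by omega, by omega, hmem, hle⟩)))
    · obtain ⟨r, hr, hrn, hrd, hK, hle⟩ := exists_prime_subfield hZ centre_comm hf hbot
      exact Or.inr (Or.inr (Or.inr (Or.inl ⟨r, hr, hrn, hf, hrd, hK, hle⟩)))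
  · exact Or.inr (Or.inr (Or.inl ⟨t, ⟨S⟩⟩))

/-- An irreducible group in dimension at least two is not scalar. -/
theorem not_le_scalars [Nonempty ι] {H : Subgroup (GL ι F)} (hn : 2 ≤ Fintype.card ι)
    (hirr : Geo.ActsIrreducibly (Geo.matrixSet H)) : ¬ H ≤ Geo.scalars ι F := by
  intro hle
  obtain ⟨i⟩ := ‹Nonempty ι›
  let W : Submodule F (ι → F) := Submodule.span F {Pi.single i 1}
  have hne : (Pi.single i 1 : ι → F) ≠ 0 := by simp
  have hW : W = ⊤ := eq_top_of_invariant hirr (by simpa [W] using hne) fun g hg v hv => by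
    obtain ⟨c, hc⟩ := (Geo.mem_scalars_iff g).1 (hle hg)
    rw [hc, Matrix.smul_mulVec, Matrix.one_mulVec]
    exact W.smul_mem _ hv
  have h1 : Module.finrank F W = 1 := finrank_span_singleton hne
  rw [hW, finrank_top, Module.finrank_pi] at h1
  omega

/-- The reduction in dimensions that are neither prime powers nor perfect powers. -/
theorem composite_cases [Fintype F] [Nonempty ι] {H : Subgroup (GL ι F)}
    (hn : 2 ≤ Fintype.card ι)
    (hpp : ∀ r m : ℕ, r.Prime → Fintype.card ι ≠ r ^ m)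
    (hpow : ∀ d m : ℕ, 2 ≤ m → Fintype.card ι ≠ d ^ m)
    (hirr : Geo.ActsIrreducibly (Geo.matrixSet H)) :
    (∃ N : Subgroup (GL ι F), N ≤ H ∧ (∀ h ∈ H, ∀ x ∈ N, h * x * h⁻¹ ∈ N) ∧ IsWitness H N) ∨
      ∃ P, CfsgLib.Aschbacher.CoreData H P := by
  by_cases hall : CfsgLib.Aschbacher.NormalsAbsIrred H
  · right
    rcases CfsgLib.Aschbacher.normal_structure hall (not_le_scalars hn hirr) with
      ⟨N, r, hN⟩ | ⟨d, S, hS⟩ | hP
    · exfalso
      haveI : Fact r.Prime := ⟨hN.prime⟩
      have hp : IsPGroup r (N ⧸ (Geo.scalars ι F).subgroupOf N) := by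
        intro q
        induction q using QuotientGroup.induction_on with
        | H x =>
          refine ⟨1, ?_⟩
          rw [pow_one, ← QuotientGroup.mk_pow, QuotientGroup.eq_one_iff, Subgroup.mem_subgroupOf]
          exact hN.pow_mem x x.2
      obtain ⟨k, hk⟩ := IsPGroup.iff_card.1 hp
      rw [hN.card_eq] at hk
      obtain ⟨m, -, hm⟩ := (Nat.dvd_prime_pow hN.prime).1 (hk ▸ dvd_pow_self _ two_ne_zero)
      exact hpp r m hN.prime hm
    · exact absurd hS.card_eq (hpow d S.card hS.two_le_card)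
    · exact hP
  · left
    simp only [CfsgLib.Aschbacher.NormalsAbsIrred, not_forall] at hall
    obtain ⟨N, hle, hn', hns, hna⟩ := hall
    exact ⟨N, hle, hn', ((normal_cases hirr hn').resolve_left hns).resolve_left hna⟩

/-- Six and twelve are neither prime powers nor perfect powers. -/
theorem six_twelve {n : ℕ} (h : n = 6 ∨ n = 12) :
    (∀ r m : ℕ, r.Prime → n ≠ r ^ m) ∧ ∀ d m : ℕ, 2 ≤ m → n ≠ d ^ m := by
  constructor
  · intro r m hr he
    have h2 : 2 ∣ r ^ m := he ▸ by rcases h with rfl | rfl <;> norm_num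
    have h3 : 3 ∣ r ^ m := he ▸ by rcases h with rfl | rfl <;> norm_num
    have e2 := (Nat.prime_dvd_prime_iff_eq Nat.prime_two hr).1 (Nat.prime_two.dvd_of_dvd_pow h2)
    have e3 := (Nat.prime_dvd_prime_iff_eq Nat.prime_three hr).1 (Nat.prime_three.dvd_of_dvd_pow h3)
    omega
  · intro d m hm he
    have h3 : 3 ∣ d := Nat.prime_three.dvd_of_dvd_pow
      (show 3 ∣ d ^ m from he ▸ by rcases h with rfl | rfl <;> norm_num)
    have h2 : 3 ^ 2 ∣ d ^ m :=
      (pow_dvd_pow_of_dvd h3 2).trans (pow_dvd_pow d hm)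
    rw [← he] at h2
    rcases h with rfl | rfl <;> omega

end CfsgLib.Aschbacher.Reduction
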