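import Mathlib
import Cfsg.Agent.Aschbacher.FormsField
import Cfsg.Agent.Classical.AltFormTransv

/-!
Orthogonal complements, evenness, and the quadratic forms attached in characteristic two to
decompositions for an alternating form.
-/

set_option autoImplicit false
set_option linter.unusedSectionVars false

namespace CfsgLib.Aschbacher.Symp

open Matrix Cfsg Module CfsgLib.AltFormTransv

variable {ι : Type} [Fintype ι] [DecidableEq ι] {F : Type*} [Field F]
variable {f : (ι → F) → (ι → F) → F}

/-- A non-degenerate subspace for an alternating form has even dimension. -/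
theorem even_finrank [Nonempty ι] (hf : Geo.IsSymplecticForm f) {W : Submodule F (ι → F)}
    (hW : Geo.IsNondegenerateOn f W) : Even (finrank F W) := by
  have hK : Geo.IsFieldSubalgebra 1 (⊥ : Subalgebra F (Matrix ι ι F)) := by
    refine ⟨fun x hx y _ => ?_, fun x hx hx0 => ?_, Subalgebra.finrank_bot⟩
    · obtain ⟨c, rfl⟩ := Algebra.mem_bot.1 hx
      exact Algebra.commutes c y
    · obtain ⟨c, rfl⟩ := Algebra.mem_bot.1 hx
      have hc : c ≠ 0 := fun h => hx0 (by rw [h, map_zero])
      exact ⟨_, Subalgebra.algebraMap_mem _ c⁻¹, by rw [← map_mul, mul_inv_cancel₀ hc, map_one]⟩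
  have hmul : ∀ k ∈ (⊥ : Subalgebra F (Matrix ι ι F)), ∃ c : F, ∀ v, k *ᵥ v = c • v := by
    intro k hk
    obtain ⟨c, rfl⟩ := Algebra.mem_bot.1 hk
    exact ⟨c, fun v => by rw [Algebra.algebraMap_eq_smul_one, Matrix.smul_mulVec, Matrix.one_mulVec]⟩
  have h := CfsgLib.Aschbacher.Forms.two_mul_dvd_finrank hf hK (fun k hk u v => by
      obtain ⟨c, hc⟩ := hmul k hk
      rw [hc, hc, hf.bilinear.smul_left, hf.bilinear.smul_right])
    (fun k hk v => by
      obtain ⟨c, hc⟩ := hmul k hk
      rw [hc, hf.bilinear.smul_left, hf.alternating, mul_zero])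
    W hW (fun k hk v hv => by
      obtain ⟨c, hc⟩ := hmul k hk
      rw [hc]; exact W.smul_mem c hv)
  exact even_iff_two_dvd.2 h

/-- The orthogonal complement. -/
def orth (hf : Geo.IsSymplecticForm f) (W : Submodule F (ι → F)) : Submodule F (ι → F) :=
  LinearMap.ker ((Submodule.subtype W).dualMap.comp (pairHom hf))

theorem mem_orth (hf : Geo.IsSymplecticForm f) {W : Submodule F (ι → F)} {x : ι → F} :
    x ∈ orth hf W ↔ ∀ w ∈ W, f w x = 0 :=
  ⟨fun h w hw => LinearMap.congr_fun (LinearMap.mem_ker.1 h) ⟨w, hw⟩,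
    fun h => LinearMap.mem_ker.2 (LinearMap.ext fun w => h w w.2)⟩

/-- A subspace meeting its complement trivially is non-degenerate, with non-degenerate complement of
complementary dimension. -/
theorem orth_spec (hf : Geo.IsSymplecticForm f) {W : Submodule F (ι → F)} (h : W ⊓ orth hf W = ⊥) :
    Geo.IsNondegenerateOn f W ∧ Geo.IsNondegenerateOn f (orth hf W) ∧
      finrank F W + finrank F (orth hf W) = Fintype.card ι ∧ W ⊔ orth hf W = ⊤ := by
  have h1 := LinearMap.finrank_range_add_finrank_ker ((Submodule.subtype W).dualMap.comp (pairHom hf))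
  have h2 : finrank F (LinearMap.range ((Submodule.subtype W).dualMap.comp (pairHom hf))) ≤ finrank F W :=
    (Submodule.finrank_le _).trans (Subspace.dual_finrank_eq (V := W)).le
  rw [Module.finrank_pi] at h1
  have h3 := Submodule.finrank_sup_add_finrank_inf_eq W (orth hf W)
  rw [h, finrank_bot, add_zero] at h3
  have h4 : finrank F ↥(W ⊔ orth hf W) ≤ Fintype.card ι :=
    (Submodule.finrank_le _).trans (Module.finrank_pi F).le
  change _ + finrank F (orth hf W) = _ at h1
  have hsum : finrank F W + finrank F (orth hf W) = Fintype.card ι := by omega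
  have htop : W ⊔ orth hf W = ⊤ := Submodule.eq_top_of_finrank_eq (by rw [Module.finrank_pi]; omega)
  have hW : Geo.IsNondegenerateOn f W := by
    intro w hw hw0
    have : ∃ x ∈ W, f x w ≠ 0 := by
      by_contra! hc
      exact hw0 ((Submodule.eq_bot_iff _).1 h w ⟨hw, (mem_orth hf).2 hc⟩)
    obtain ⟨x, hx, hxw⟩ := this
    exact ⟨⟨x, hx, hxw⟩, ⟨x, hx, fun h0 => hxw (orth_comm hf h0)⟩⟩
  refine ⟨hW, fun x hx hx0 => ?_, hsum, htop⟩
  obtain ⟨y, hy⟩ := (hf.nondegenerate x hx0).1
  obtain ⟨w, hw, o, ho, rfl⟩ := Submodule.mem_sup.1 (htop ▸ Submodule.mem_top (x := y))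
  rw [hf.bilinear.add_left, (mem_orth hf).1 hx w hw, zero_add] at hy
  exact ⟨⟨o, ho, hy⟩, ⟨o, ho, fun h0 => hy (orth_comm hf h0)⟩⟩

/-- Components of a vector in an orthogonal non-degenerate decomposition. -/
theorem exists_comp (hf : Geo.IsSymplecticForm f) {t m : ℕ} {D : Fin t → Submodule F (ι → F)}
    (hD : Geo.IsNondegenerateMDecomposition f m D) (x : ι → F) :
    ∃ d : Fin t → (ι → F), (∀ i, d i ∈ D i) ∧ (∑ i, d i = x) ∧
      ∀ i, ∀ w ∈ D i, f w x = f w (d i) := by
  classical
  have hx : x ∈ ⨆ i, D i := hD.decomp.iSup_eq_top ▸ Submodule.mem_top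
  obtain ⟨d, hd, hsum⟩ := (Submodule.mem_iSup_iff_exists_finsupp _ _).1 hx
  have hsum' : ∑ i, d i = x := by
    rw [← hsum, Finsupp.sum_fintype]
    intro i; rfl
  refine ⟨fun i => d i, hd, hsum', fun i w hw => ?_⟩
  rw [← hsum']
  have := map_sum (AddMonoidHom.mk' (f w) (hf.bilinear.add_right w)) (fun j => d j) Finset.univ
  simp only [AddMonoidHom.mk'_apply] at this
  rw [this]
  exact Finset.sum_eq_single i (fun j _ hj => hD.orthogonal i j hj.symm w hw _ (hd j)) (by simp)

/-- Planes over the field with two elements: the parity of the support is a quadratic form. -/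
theorem planes_quad [Fintype F] (hq : Fintype.card F = 2) (hf : Geo.IsSymplecticForm f) {t : ℕ}
    {D : Fin t → Submodule F (ι → F)} (hD : Geo.IsNondegenerateMDecomposition f 2 D) :
    ∃ Q : (ι → F) → F, Geo.IsNondegenerateQuadraticForm Q ∧ (∀ u v, QuadraticMap.polar Q u v = f u v) ∧
      ∀ g ∈ Geo.decompositionStabilizer D,
        (∀ u v, f ((g : Matrix ι ι F) *ᵥ u) ((g : Matrix ι ι F) *ᵥ v) = f u v) →
        g ∈ Geo.quadSimilarityGroup Q := by
  classical
  have h01 : ∀ a : F, a = 0 ∨ a = 1 := by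
    intro a
    by_contra! h
    have := Finset.card_le_univ ({a, 0, 1} : Finset F)
    rw [Finset.card_insert_of_notMem (by simp [h.1, h.2]), Finset.card_insert_of_notMem (by simp),
      Finset.card_singleton, hq] at this
    omega
  have h2 : (1 : F) + 1 = 0 := (h01 _).resolve_right fun h => one_ne_zero (add_eq_left.1 h)
  choose d hdm hds hdf using exists_comp hf hD
  have huniq : ∀ i x a, a ∈ D i → (∀ w ∈ D i, f w x = f w a) → d x i = a := by
    intro i x a ha h
    by_contra hne
    obtain ⟨w, hw, hwa⟩ := (hD.nondegenerate i _ ((D i).sub_mem (hdm x i) ha) (sub_ne_zero.2 hne)).1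
    exact hwa (by rw [sub_right hf, ← hdf x i w hw, h w hw, sub_self])
  have hadd : ∀ x y i, d (x + y) i = d x i + d y i := fun x y i =>
    huniq i _ _ ((D i).add_mem (hdm x i) (hdm y i)) fun w hw => by
      rw [hf.bilinear.add_right, hf.bilinear.add_right, hdf x i w hw, hdf y i w hw]
  let ind : (ι → F) → F := fun a => if a = 0 then 0 else 1
  have hind : ∀ i a b, a ∈ D i → b ∈ D i → ind (a + b) - ind a - ind b = f a b := by
    intro i a b ha hb
    by_cases ha0 : a = 0
    · subst ha0; simp [ind, zero_left hf]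
    by_cases hb0 : b = 0
    · subst hb0; simp [ind, zero_right hf]
    by_cases hab : a = b
    · subst hab
      have : a + a = 0 := by rw [← two_smul F a, ← one_add_one_eq_two, h2, zero_smul]
      simp [ind, this, ha0, hf.alternating]
      linear_combination -h2
    have hab' : a + b ≠ 0 := by
      intro h
      apply hab
      rw [eq_neg_of_add_eq_zero_left h, ← neg_one_smul F b, show (-1 : F) = 1 by linear_combination -h2,
        one_smul]
    have hfab : f a b = 1 := by
      refine (h01 _).resolve_left fun h0 => ?_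
      obtain ⟨x, hx, hax⟩ := (hD.nondegenerate i a ha ha0).2
      have hli : LinearIndependent F ![a, b] := by
        rw [LinearIndependent.pair_iff' ha0]
        intro c hc
        rcases h01 c with rfl | rfl
        · exact hb0 (by rw [← hc, zero_smul])
        · exact hab (by rw [← hc, one_smul])
      have hspan : Submodule.span F (Set.range ![a, b]) = D i := by
        refine Submodule.eq_of_le_of_finrank_eq (Submodule.span_le.2 ?_) ?_
        · rintro _ ⟨j, rfl⟩; fin_cases j
          · exact ha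
          · exact hb
        · rw [finrank_span_eq_card hli, hD.decomp.finrank_eq, Fintype.card_fin]
      rw [← hspan] at hx
      have hker : Submodule.span F (Set.range ![a, b]) ≤ LinearMap.ker (pair hf a) := by
        refine Submodule.span_le.2 ?_
        rintro _ ⟨j, rfl⟩; fin_cases j
        · exact hf.alternating a
        · exact orth_comm hf h0
      exact hax (orth_comm hf (hker hx))
    simp [ind, ha0, hb0, hab', hfab]
    linear_combination -h2
  let Q : (ι → F) → F := fun x => ∑ i, ind (d x i)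
  have hpol : ∀ u v, QuadraticMap.polar Q u v = f u v := by
    intro u v
    have hfuv : f u v = ∑ i, f (d u i) (d v i) := by
      conv_lhs => rw [← hds u]
      have := map_sum (pair hf v) (d u) Finset.univ
      simp only [pair_apply] at this
      rw [this]
      exact Finset.sum_congr rfl fun i _ => hdf v i _ (hdm u i)
    rw [hfuv]
    simp only [QuadraticMap.polar, Q, ← Finset.sum_sub_distrib, hadd]
    exact Finset.sum_congr rfl fun i _ => hind i _ _ (hdm u i) (hdm v i)
  have hQfun : QuadraticMap.polar Q = f := funext₂ hpol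
  refine ⟨Q, ⟨fun c v => ?_, hQfun.symm ▸ hf.bilinear, hQfun.symm ▸ hf.nondegenerate⟩, hpol,
    fun g hg hgf => ⟨1, fun v => ?_⟩⟩
  · rcases h01 c with rfl | rfl
    · have : ∀ i, d 0 i = 0 := fun i => huniq i 0 0 (D i).zero_mem fun w _ => rfl
      simp [Q, ind, this]
    · simp
  · obtain ⟨π, hπ⟩ := hg
    have hg' : ∀ i, d ((g : Matrix ι ι F) *ᵥ v) (π i) = (g : Matrix ι ι F) *ᵥ d v i := by
      intro i
      refine huniq _ _ _ ?_ fun w hw => ?_
      · rw [← hπ i]; exact ⟨_, hdm v i, Matrix.toLin'_apply _ _⟩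
      · rw [← hπ i] at hw
        obtain ⟨w', hw', rfl⟩ := hw
        rw [Matrix.toLin'_apply, hgf, hgf, hdf v i w' hw']
    rw [Units.val_one, one_mul]
    show ∑ i, ind (d _ i) = ∑ i, ind (d v i)
    rw [← Equiv.sum_comp π]
    refine Finset.sum_congr rfl fun i _ => ?_
    rw [hg' i]
    have hiff : (g : Matrix ι ι F) *ᵥ d v i = 0 ↔ d v i = 0 :=
      ⟨fun h => (Matrix.mulVec_injective_iff_isUnit.2 g.isUnit) (h.trans (Matrix.mulVec_zero _).symm),
        fun h => by rw [h, Matrix.mulVec_zero]⟩
    simp [ind, hiff]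

/-- A pair of totally singular complements in characteristic two carries a quadratic form. -/
theorem pair_quad (h2 : (2 : F) = 0) (hf : Geo.IsSymplecticForm f) {m : ℕ}
    {D : Fin 2 → Submodule F (ι → F)} (hD : Geo.IsMDecomposition m D)
    (hts : ∀ i, Geo.IsTotallySingularFor f (D i)) :
    ∃ Q : (ι → F) → F, Geo.IsNondegenerateQuadraticForm Q ∧ (∀ u v, QuadraticMap.polar Q u v = f u v) ∧
      ∀ g ∈ Geo.decompositionStabilizer D,
        (∀ u v, f ((g : Matrix ι ι F) *ᵥ u) ((g : Matrix ι ι F) *ᵥ v) = f u v) →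
        g ∈ Geo.quadSimilarityGroup Q := by
  classical
  have hsup : D 0 ⊔ D 1 = ⊤ := by
    rw [eq_top_iff, ← hD.iSup_eq_top]
    refine iSup_le fun i => ?_
    fin_cases i
    · exact le_sup_left
    · exact le_sup_right
  have hd : Disjoint (D 0) (D 1) := hD.indep.pairwiseDisjoint (by decide)
  have hex : ∀ x, ∃ p : (ι → F) × (ι → F), p.1 ∈ D 0 ∧ p.2 ∈ D 1 ∧ p.1 + p.2 = x := fun x => by
    obtain ⟨a, ha, b, hb, h⟩ := Submodule.mem_sup.1 (hsup ▸ Submodule.mem_top (x := x))
    exact ⟨(a, b), ha, hb, h⟩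
  choose p hp0 hp1 hps using hex
  have huniq : ∀ x a b, a ∈ D 0 → b ∈ D 1 → a + b = x → p x = (a, b) := by
    intro x a b ha hb h
    have heq : (p x).1 - a = b - (p x).2 := by
      rw [sub_eq_sub_iff_add_eq_add, hps x, add_comm, h]
    have hz : (p x).1 - a = 0 :=
      Submodule.disjoint_def.1 hd _ ((D 0).sub_mem (hp0 x) ha) (heq ▸ (D 1).sub_mem hb (hp1 x))
    rw [hz, eq_comm, sub_eq_zero] at heq
    exact Prod.ext (sub_eq_zero.1 hz) heq.symm
  have hadd : ∀ x y, p (x + y) = p x + p y := fun x y =>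
    huniq _ _ _ ((D 0).add_mem (hp0 x) (hp0 y)) ((D 1).add_mem (hp1 x) (hp1 y)) (by
      conv_rhs => rw [← hps x, ← hps y]
      abel)
  let Q : (ι → F) → F := fun x => f (p x).1 (p x).2
  have hneg : ∀ a : F, -a = a := fun a => by linear_combination -a * h2
  have hpol : ∀ u v, QuadraticMap.polar Q u v = f u v := by
    intro u v
    conv_rhs => rw [← hps u, ← hps v]
    simp only [QuadraticMap.polar, Q, hadd, Prod.fst_add, Prod.snd_add, hf.bilinear.add_left,
      hf.bilinear.add_right, hts 0 _ (hp0 u) _ (hp0 v), hts 1 _ (hp1 u) _ (hp1 v), hf.skew (p u).2]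
    rw [hneg]
    ring
  have hQfun : QuadraticMap.polar Q = f := funext₂ hpol
  refine ⟨Q, ⟨fun c v => ?_, hQfun.symm ▸ hf.bilinear, hQfun.symm ▸ hf.nondegenerate⟩, hpol,
    fun g hg hgf => ⟨1, fun v => ?_⟩⟩
  · have : p (c • v) = (c • (p v).1, c • (p v).2) := huniq _ _ _ ((D 0).smul_mem c (hp0 v))
      ((D 1).smul_mem c (hp1 v)) (by rw [← smul_add, hps])
    simp only [Q, this, hf.bilinear.smul_left, hf.bilinear.smul_right]
    ring
  · obtain ⟨π, hπ⟩ := hg
    rw [Units.val_one, one_mul]
    have hm : ∀ i a, a ∈ D i → (g : Matrix ι ι F) *ᵥ a ∈ D (π i) := fun i a ha => by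
      rw [← hπ i]; exact ⟨a, ha, Matrix.toLin'_apply _ _⟩
    have hsum : (g : Matrix ι ι F) *ᵥ (p v).1 + (g : Matrix ι ι F) *ᵥ (p v).2 = (g : Matrix ι ι F) *ᵥ v := by
      rw [← Matrix.mulVec_add, hps]
    have hne : π 0 ≠ π 1 := π.injective.ne (by decide)
    rcases (Fin.forall_fin_two.2 ⟨Or.inl rfl, Or.inr rfl⟩ : ∀ i : Fin 2, i = 0 ∨ i = 1) (π 0) with h | h
    · have h' : π 1 = 1 := by omega
      have := huniq _ _ _ (h ▸ hm 0 _ (hp0 v)) (h' ▸ hm 1 _ (hp1 v)) hsum
      simp only [Q, this, hgf]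
    · have h' : π 1 = 0 := by omega
      have := huniq _ _ _ (h' ▸ hm 1 _ (hp1 v)) (h ▸ hm 0 _ (hp0 v)) ((add_comm _ _).trans hsum)
      simp only [Q, this, hgf]
      rw [hf.skew, hneg]

end CfsgLib.Aschbacher.Symp
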