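import Mathlib
import Cfsg.Agent.Aschbacher.Forms
import Cfsg.Agent.Aschbacher.Tensor

/-!
Tensor decompositions whose first factor algebra is closed under the adjoint of a reflexive form: the
form is a product of forms on the factors.
-/

set_option autoImplicit false
set_option linter.unusedSectionVars false

namespace CfsgLib.Aschbacher.Forms

open Matrix Cfsg

open scoped Kronecker

variable {ι : Type} [Fintype ι] [DecidableEq ι] {F : Type*} [Field F]
variable {σ : F →+* F} {ε : F} {f : (ι → F) → (ι → F) → F}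
variable {a b : ℕ} {e : ι ≃ Fin a × Fin b} {P : GL ι F}

/-- The coordinate isomorphism of a tensor decomposition. -/
def emb (e : ι ≃ Fin a × Fin b) (P : GL ι F) (x : Fin a × Fin b → F) : ι → F :=
  (P : Matrix ι ι F) *ᵥ (x ∘ e)

theorem emb_surjective : Function.Surjective (emb e P) := fun v =>
  ⟨(((P⁻¹ : GL ι F) : Matrix ι ι F) *ᵥ v) ∘ e.symm, by
    simp [emb, Function.comp_assoc, Matrix.mulVec_mulVec]⟩

theorem emb_injective : Function.Injective (emb e P) := fun x y h => by
  have h1 := (Matrix.mulVec_injective_iff_isUnit.2 P.isUnit) h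
  funext p
  simpa using congrFun h1 (e.symm p)

theorem tconj_mulVec_emb (Z : Matrix (Fin a × Fin b) (Fin a × Fin b) F) (x : Fin a × Fin b → F) :
    CfsgLib.Aschbacher.tconj e P Z *ᵥ emb e P x = emb e P (Z *ᵥ x) := by
  rw [CfsgLib.Aschbacher.tconj_apply, emb, emb, Matrix.mulVec_mulVec, mul_assoc, Units.inv_mul, mul_one,
    ← Matrix.mulVec_mulVec]
  congr 1
  rw [Matrix.submatrix_mulVec_equiv, Function.comp_assoc, e.self_comp_symm, Function.comp_id]

/-- The Gram matrix of the pulled-back form. -/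
def pullGram (f : (ι → F) → (ι → F) → F) (e : ι ≃ Fin a × Fin b) (P : GL ι F) :
    Matrix (Fin a × Fin b) (Fin a × Fin b) F :=
  fun p q => f (emb e P (Pi.single p 1)) (emb e P (Pi.single q 1))

theorem formOfGram_eq {κ : Type} [Fintype κ] [DecidableEq κ] (σ : F → F) (G : Matrix κ κ F)
    (x y : κ → F) : Geo.formOfGram σ G x y = x ⬝ᵥ (G *ᵥ fun c => σ (y c)) := by
  simp [Geo.formOfGram, dotProduct, Matrix.mulVec, Finset.mul_sum, mul_assoc]

theorem emb_eq_sum (x : Fin a × Fin b → F) :
    emb e P x = ∑ p, x p • emb e P (Pi.single p 1) := by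
  conv_lhs => rw [pi_eq_sum_univ' x]
  simp only [emb]
  rw [show ((∑ p, x p • (Pi.single p (1 : F) : Fin a × Fin b → F)) ∘ e) =
      ∑ p, x p • ((Pi.single p (1 : F) : Fin a × Fin b → F) ∘ e) by ext i; simp,
    Matrix.mulVec_sum]
  exact Finset.sum_congr rfl fun p _ => Matrix.mulVec_smul _ _ _

theorem form_emb (hf : CfsgLib.Aschbacher.IsSesquiForm σ f) (x y : Fin a × Fin b → F) :
    f (emb e P x) (emb e P y) = Geo.formOfGram σ (pullGram f e P) x y := by
  rw [emb_eq_sum x, emb_eq_sum y, hf.sum_left, Geo.formOfGram]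
  refine Finset.sum_congr rfl fun p _ => ?_
  rw [hf.smul_left, hf.sum_right, Finset.mul_sum]
  refine Finset.sum_congr rfl fun q _ => ?_
  rw [hf.smul_right, pullGram]
  ring

theorem pullGram_refl (hf : RForm σ ε f) (p q : Fin a × Fin b) :
    pullGram f e P p q = ε * σ (pullGram f e P q p) :=
  hf.refl _ _

theorem formOfGram_single {κ : Type} [Fintype κ] [DecidableEq κ] (σ : F →+* F) (G : Matrix κ κ F)
    (p q : κ) : Geo.formOfGram σ G (Pi.single p 1) (Pi.single q 1) = G p q := by
  rw [Geo.formOfGram, Finset.sum_eq_single p, Finset.sum_eq_single q]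
  · simp
  · intro x _ hx; simp [Pi.single_eq_of_ne hx]
  · simp
  · intro x _ hx; simp [Pi.single_eq_of_ne hx]
  · simp

theorem gramMatrix_formOfGram {κ : Type} [Fintype κ] [DecidableEq κ] (σ : F →+* F) (G : Matrix κ κ F) :
    Geo.gramMatrix (Geo.formOfGram σ G) = G := by
  ext p q
  exact formOfGram_single σ G p q

theorem isSesquiForm_formOfGram {κ : Type} [Fintype κ] [DecidableEq κ] (σ : F →+* F) (G : Matrix κ κ F) :
    CfsgLib.Aschbacher.IsSesquiForm σ (Geo.formOfGram σ G) where
  add_left x y v := by simp [Geo.formOfGram, add_mul, Finset.sum_add_distrib]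
  smul_left c x v := by simp [Geo.formOfGram, Finset.mul_sum, mul_assoc]
  add_right v x y := by simp [Geo.formOfGram, mul_add, Finset.sum_add_distrib]
  smul_right c v x := by
    simp only [Geo.formOfGram, Pi.smul_apply, smul_eq_mul, map_mul, Finset.mul_sum]
    exact Finset.sum_congr rfl fun i _ => Finset.sum_congr rfl fun j _ => by ring

theorem formOfGram_refl {κ : Type} [Fintype κ] [DecidableEq κ] (σ : F →+* F) (hσ : ∀ x, σ (σ x) = x)
    {δ : F} {G : Matrix κ κ F} (hG : ∀ p q, G p q = δ * σ (G q p)) (x y : κ → F) :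
    Geo.formOfGram σ G x y = δ * σ (Geo.formOfGram σ G y x) := by
  simp only [Geo.formOfGram, map_sum, map_mul, hσ, Finset.mul_sum]
  rw [Finset.sum_comm]
  refine Finset.sum_congr rfl fun q _ => Finset.sum_congr rfl fun p _ => ?_
  rw [hG p q]
  ring

theorem nondegenerate_formOfGram {κ : Type} [Fintype κ] [DecidableEq κ] (σ : F →+* F)
    (hσ : ∀ x, σ (σ x) = x) {δ : F} (hδ : δ ≠ 0) {G : Matrix κ κ F} (hG : ∀ p q, G p q = δ * σ (G q p))
    (hu : IsUnit G) : Geo.IsNondegenerateForm (Geo.formOfGram σ G) := by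
  intro v hv
  have hv' : (fun c => σ (v c)) ≠ 0 := fun h => hv (funext fun c => by
    have := congrFun h c
    exact (σ.injective (this.trans (map_zero σ).symm)))
  have hGv : G *ᵥ (fun c => σ (v c)) ≠ 0 := fun h => hv'
    ((Matrix.mulVec_injective_iff_isUnit.2 hu) (by rw [h, Matrix.mulVec_zero]))
  obtain ⟨p, hp⟩ := Function.ne_iff.1 hGv
  have hl : Geo.formOfGram σ G (Pi.single p 1) v ≠ 0 := by
    rw [formOfGram_eq, single_dotProduct, one_mul]
    exact hp
  refine ⟨⟨_, hl⟩, ⟨Pi.single p 1, fun h => hl ?_⟩⟩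
  rw [formOfGram_refl σ hσ hG, h, map_zero, mul_zero]

/-- The Gram matrix of a form for which the first factor algebra is adjoint-closed is a Kronecker
product. -/
theorem exists_pullGram_eq_kronecker [NeZero a] [NeZero b] (hf : RForm σ ε f)
    (hcl : ∀ M : Matrix (Fin a) (Fin a) F, ∃ M' : Matrix (Fin a) (Fin a) F,
      IsAdj f (CfsgLib.Aschbacher.tconj e P (M ⊗ₖ (1 : Matrix (Fin b) (Fin b) F)))
        (CfsgLib.Aschbacher.tconj e P (M' ⊗ₖ (1 : Matrix (Fin b) (Fin b) F)))) :
    ∃ (X : Matrix (Fin a) (Fin a) F) (C : Matrix (Fin b) (Fin b) F),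
      IsUnit X ∧ IsUnit C ∧ pullGram f e P = X ⊗ₖ C := by
  classical
  choose g hg using hcl
  set Γ := pullGram f e P with hΓdef
  have hrel : ∀ (M : Matrix (Fin a) (Fin a) F),
      (M ⊗ₖ (1 : Matrix (Fin b) (Fin b) F))ᵀ * Γ =
        Γ * ((g M).map σ ⊗ₖ (1 : Matrix (Fin b) (Fin b) F)) := by
    intro M
    ext p q
    have h := hg M (emb e P (Pi.single p 1)) (emb e P (Pi.single q 1))
    rw [tconj_mulVec_emb, tconj_mulVec_emb, form_emb hf.sesq, form_emb hf.sesq, formOfGram_eq,
      formOfGram_eq] at h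
    simp only [Matrix.mulVec_single_one, single_dotProduct, one_mul] at h
    rw [Matrix.mul_apply, Matrix.mul_apply]
    have h1 : (fun c => σ ((Pi.single q 1 : Fin a × Fin b → F) c)) = Pi.single q 1 := by
      funext c; simp [Pi.single_apply, apply_ite σ]
    rw [h1, Matrix.mulVec_single_one] at h
    simp only [dotProduct, Matrix.col_apply, Matrix.mulVec] at h
    refine h.trans (Finset.sum_congr rfl fun c _ => ?_)
    simp [Matrix.kroneckerMap_apply, Matrix.one_apply, apply_ite σ]
    simp [hΓdef]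
  let blk : Fin b → Fin b → Matrix (Fin a) (Fin a) F := fun k l => Matrix.of fun i j => Γ (i, k) (j, l)
  have hblk : ∀ M k l, Mᵀ * blk k l = blk k l * (g M).map σ := by
    intro M k l
    ext i j
    have h := congrFun (congrFun (hrel M) (i, k)) (j, l)
    rw [Matrix.mul_apply, Matrix.mul_apply, Fintype.sum_prod_type, Fintype.sum_prod_type] at h
    simpa [blk, Matrix.mul_apply, Matrix.kroneckerMap_apply, Matrix.one_apply] using h
  have hΓ0 : ∀ x : Fin a × Fin b → F, Γ *ᵥ x = 0 → x = 0 := by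
    intro x hx
    have hz : emb e P (fun c => σ (x c)) = 0 := by
      refine hf.ext_right fun u => ?_
      obtain ⟨u', rfl⟩ := emb_surjective (e := e) (P := P) u
      rw [hf.zero_right, form_emb hf.sesq, formOfGram_eq]
      simp only [hf.invol]
      rw [← hΓdef, hx, dotProduct_zero]
    have := emb_injective (hz.trans (show (0 : ι → F) = emb e P 0 by simp [emb]))
    funext c
    exact σ.injective ((congrFun this c).trans (map_zero σ).symm)
  have hΓu : IsUnit Γ := Matrix.mulVec_injective_iff_isUnit.1 fun x y h => sub_eq_zero.1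
    (hΓ0 _ (by rw [Matrix.mulVec_sub]; exact sub_eq_zero.2 h))
  obtain ⟨k₀, l₀, hX0⟩ : ∃ k l, blk k l ≠ 0 := by
    by_contra! h
    have : Γ = 0 := by
      ext ⟨i, k⟩ ⟨j, l⟩
      exact congrFun (congrFun (h k l) i) j
    have h0 := congrFun (hΓ0 (Pi.single ((0 : Fin a), (0 : Fin b)) 1)
      (by rw [this, Matrix.zero_mulVec])) ((0 : Fin a), (0 : Fin b))
    simp at h0
  set X := blk k₀ l₀ with hXdef
  have hgsurj : ∀ N : Matrix (Fin a) (Fin a) F, ∃ M, (g M).map σ = N := by
    intro N
    refine ⟨g (N.map σ), ?_⟩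
    have h1 := IsAdj.unique hf (hg (g (N.map σ))) ((hg (N.map σ)).symm hf)
    have h2 := (CfsgLib.Aschbacher.tconj e P).injective h1
    ext i j
    have h3 := congrFun (congrFun h2 (i, (0 : Fin b))) (j, (0 : Fin b))
    simp [Matrix.kroneckerMap_apply] at h3
    simp [h3, hf.invol]
  have hXu : IsUnit X := by
    rw [Matrix.isUnit_iff_isUnit_det, isUnit_iff_ne_zero]
    intro hdet
    obtain ⟨v, hv0, hv⟩ := Matrix.exists_mulVec_eq_zero_iff.2 hdet
    apply hX0
    obtain ⟨j₀, hj₀⟩ := Function.ne_iff.1 hv0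
    ext i j
    obtain ⟨M, hM⟩ := hgsurj (Matrix.single j j₀ (v j₀)⁻¹)
    have h := congrArg (· *ᵥ v) (hblk M k₀ l₀)
    simp only [← Matrix.mulVec_mulVec] at h
    rw [← hXdef, hv, Matrix.mulVec_zero, hM] at h
    have h2 : Matrix.single j j₀ (v j₀)⁻¹ *ᵥ v = Pi.single j 1 := by
      funext c
      rw [Matrix.mulVec, dotProduct]
      rw [Finset.sum_eq_single j₀ (fun d _ hd => by simp [Matrix.single_apply, Ne.symm hd]) (by simp)]
      rcases eq_or_ne j c with rfl | hc
      · simp at hj₀ ⊢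
        rw [inv_mul_cancel₀ hj₀]
      · simp [hc, Ne.symm hc]
    rw [h2, Matrix.mulVec_single_one] at h
    exact (congrFun h i).symm
  have hscal : ∀ k l, ∃ c : F, blk k l = c • X := by
    intro k l
    obtain ⟨Xi, hXi⟩ := hXu.exists_left_inv
    have hXi' : X * Xi = 1 := mul_eq_one_comm.1 hXi
    have hcomm : ∀ N : Matrix (Fin a) (Fin a) F, Commute N (blk k l * Xi) := by
      intro N
      have h1 := hblk Nᵀ k l
      have h2 := hblk Nᵀ k₀ l₀
      rw [Matrix.transpose_transpose] at h1 h2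
      rw [← hXdef] at h2
      show N * (blk k l * Xi) = blk k l * Xi * N
      calc N * (blk k l * Xi) = blk k l * (g Nᵀ).map σ * Xi := by rw [← mul_assoc, h1]
        _ = blk k l * (Xi * X) * (g Nᵀ).map σ * Xi := by rw [hXi, mul_one]
        _ = blk k l * Xi * (N * X) * Xi := by rw [h2]; simp only [mul_assoc]
        _ = blk k l * Xi * N * (X * Xi) := by simp only [mul_assoc]
        _ = blk k l * Xi * N := by rw [hXi', mul_one]
    obtain ⟨c, hc⟩ := (Matrix.mem_range_scalar_iff_commute_single' (M := blk k l * Xi)).2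
      fun i j => hcomm _
    refine ⟨c, ?_⟩
    calc blk k l = blk k l * Xi * X := by rw [mul_assoc, hXi, mul_one]
      _ = c • X := by rw [← hc, Matrix.scalar_apply, ← Matrix.smul_eq_diagonal_mul]
  choose C hC using hscal
  refine ⟨X, Matrix.of C, hXu, ?_, ?_⟩
  · rw [Matrix.isUnit_iff_isUnit_det, isUnit_iff_ne_zero]
    intro hdet
    obtain ⟨w, hw0, hw⟩ := Matrix.exists_mulVec_eq_zero_iff.2 hdet
    obtain ⟨k, hk⟩ := Function.ne_iff.1 hw0
    have h0 : Γ *ᵥ (fun p => if p.1 = 0 then w p.2 else 0) = 0 := by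
      funext p
      obtain ⟨i, k'⟩ := p
      rw [Matrix.mulVec, dotProduct, Fintype.sum_prod_type, Finset.sum_eq_single 0]
      · have : ∀ l, Γ (i, k') ((0 : Fin a), l) = C k' l * X i 0 := fun l => by
          simpa [blk] using congrFun (congrFun (hC k' l) i) 0
        simp only [this, if_true, Pi.zero_apply]
        have hw' := congrFun hw k'
        simp only [Matrix.mulVec, dotProduct, Matrix.of_apply, Pi.zero_apply] at hw'
        calc ∑ l, C k' l * X i 0 * w l = X i 0 * ∑ l, C k' l * w l := by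
              rw [Finset.mul_sum]; exact Finset.sum_congr rfl fun l _ => by ring
          _ = 0 := by rw [hw', mul_zero]
      · intro c _ hc; simp [hc]
      · simp
    exact hk (by simpa using congrFun (hΓ0 _ h0) ((0 : Fin a), k))
  · ext ⟨i, k⟩ ⟨j, l⟩
    have := congrFun (congrFun (hC k l) i) j
    simp [blk] at this
    simp [Matrix.kroneckerMap_apply, Matrix.of_apply, this, mul_comm]

theorem isTensorFormStructure_of_pullGram (hf : CfsgLib.Aschbacher.IsSesquiForm σ f)
    {X : Matrix (Fin a) (Fin a) F} {C : Matrix (Fin b) (Fin b) F} (h : pullGram f e P = X ⊗ₖ C) :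
    Geo.IsTensorFormStructure σ f (Geo.formOfGram σ X) (Geo.formOfGram σ C) e P :=
  ⟨1, one_ne_zero, fun x y => by
    rw [one_mul, gramMatrix_formOfGram, gramMatrix_formOfGram, ← h, ← form_emb hf]; rfl⟩

/-- Exchanging the factors of a tensor form structure. -/
theorem isTensorFormStructure_swap {τ : F → F} {f₁ : (Fin a → F) → (Fin a → F) → F}
    {f₂ : (Fin b → F) → (Fin b → F) → F} (h : Geo.IsTensorFormStructure τ f f₁ f₂ e P) :
    Geo.IsTensorFormStructure τ f f₂ f₁ (e.trans (Equiv.prodComm _ _)) P := by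
  obtain ⟨c, hc, h⟩ := h
  refine ⟨c, hc, fun x y => ?_⟩
  have := h (x ∘ Equiv.prodComm _ _) (y ∘ Equiv.prodComm _ _)
  rw [Function.comp_assoc, Function.comp_assoc] at this
  rw [Equiv.coe_trans, this, Geo.formOfGram, Geo.formOfGram]
  congr 1
  refine Fintype.sum_equiv (Equiv.prodComm _ _) _ _ fun p => Fintype.sum_equiv (Equiv.prodComm _ _) _ _
    fun q => ?_
  obtain ⟨p₁, p₂⟩ := p
  obtain ⟨q₁, q₂⟩ := q
  simp [Matrix.kroneckerMap_apply, mul_comm (Geo.gramMatrix f₁ p₁ q₁)]

/-- Reflexivity passes to the factors, with `δ₁ δ₂ = ε`. -/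
theorem factor_refl (hf : RForm σ ε f)
    {X : Matrix (Fin a) (Fin a) F} {C : Matrix (Fin b) (Fin b) F} (hX : X ≠ 0) (hC : C ≠ 0)
    (h : pullGram f e P = X ⊗ₖ C) :
    ∃ δ₁ δ₂ : F, δ₁ * δ₂ = ε ∧ δ₁ * σ δ₁ = 1 ∧ (∀ i j, X i j = δ₁ * σ (X j i)) ∧
      ∀ k l, C k l = δ₂ * σ (C l k) := by
  obtain ⟨i₀, j₀, hij⟩ : ∃ i j, X i j ≠ 0 := by
    by_contra! h0; exact hX (Matrix.ext h0)
  obtain ⟨k₀, l₀, hkl⟩ : ∃ k l, C k l ≠ 0 := by
    by_contra! h0; exact hC (Matrix.ext h0)
  have key : ∀ i j k l, X i j * C k l = ε * (σ (X j i) * σ (C l k)) := by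
    intro i j k l
    have := pullGram_refl hf (e := e) (P := P) (i, k) (j, l)
    rw [h, Matrix.kroneckerMap_apply, Matrix.kroneckerMap_apply, map_mul] at this
    exact this
  set δ₁ := ε * σ (C l₀ k₀) / C k₀ l₀ with h1
  set δ₂ := ε * σ (X j₀ i₀) / X i₀ j₀ with h2
  have hX' : ∀ i j, X i j = δ₁ * σ (X j i) := fun i j => by
    rw [h1, eq_comm, div_mul_eq_mul_div, div_eq_iff hkl, key i j k₀ l₀]
    ring
  have hC' : ∀ k l, C k l = δ₂ * σ (C l k) := fun k l => by
    rw [h2, eq_comm, div_mul_eq_mul_div, div_eq_iff hij, mul_comm (C k l), key i₀ j₀ k l]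
    ring
  refine ⟨δ₁, δ₂, ?_, ?_, hX', hC'⟩
  · have hne : σ (X j₀ i₀) * σ (C l₀ k₀) ≠ 0 := fun h0 => by
      have := key i₀ j₀ k₀ l₀
      rw [h0, mul_zero] at this
      exact mul_ne_zero hij hkl this
    have := key i₀ j₀ k₀ l₀
    rw [hX' i₀ j₀, hC' k₀ l₀] at this
    apply mul_right_cancel₀ hne
    linear_combination this
  · have h3 := hX' i₀ j₀
    rw [hX' j₀ i₀, map_mul, hf.invol] at h3
    apply mul_right_cancel₀ hij
    linear_combination -h3

/-- Unitary normalisation of the factors. -/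
theorem exists_hermitian_factors (hf : RForm σ 1 f) (hσ : σ ≠ RingHom.id F)
    {X : Matrix (Fin a) (Fin a) F} {C : Matrix (Fin b) (Fin b) F} (hX : IsUnit X) (hC : IsUnit C)
    [NeZero a] [NeZero b] (h : pullGram f e P = X ⊗ₖ C) :
    ∃ (X' : Matrix (Fin a) (Fin a) F) (C' : Matrix (Fin b) (Fin b) F), IsUnit X' ∧ IsUnit C' ∧
      pullGram f e P = X' ⊗ₖ C' ∧ (∀ i j, X' i j = σ (X' j i)) ∧ ∀ k l, C' k l = σ (C' l k) := by
  obtain ⟨δ₁, δ₂, hδ, hn, hX', hC'⟩ := factor_refl hf hX.ne_zero hC.ne_zero h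
  obtain ⟨z, hz⟩ : ∃ z, z + δ₁ * σ z ≠ 0 := by
    by_contra! h0
    apply hσ
    have h1 : δ₁ = -1 := by
      have := h0 1
      rw [map_one, mul_one] at this
      exact eq_neg_of_add_eq_zero_right this
    ext z
    have := h0 z
    rw [h1] at this
    simpa using (eq_of_sub_eq_zero (by linear_combination this : z - σ z = 0)).symm
  set μ := z + δ₁ * σ z with hμ
  have hμσ : δ₁ * σ μ = μ := by
    simp only [hμ, map_add, map_mul, hf.invol]
    linear_combination z * hn
  have hσμ : σ μ ≠ 0 := (map_ne_zero σ).2 hz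
  refine ⟨σ μ • X, (σ μ)⁻¹ • C, ?_, ?_, ?_, fun i j => ?_, fun k l => ?_⟩
  · simpa using hX.smul (Units.mk0 (σ μ) hσμ)
  · simpa using hC.smul (Units.mk0 (σ μ)⁻¹ (inv_ne_zero hσμ))
  · rw [h, Matrix.smul_kronecker, Matrix.kronecker_smul, smul_smul, mul_inv_cancel₀ hσμ, one_smul]
  · simp only [Matrix.smul_apply, smul_eq_mul, map_mul, hf.invol]
    rw [hX' i j]
    linear_combination (σ (X j i)) * hμσ
  · simp only [Matrix.smul_apply, smul_eq_mul, map_mul, map_inv₀, hf.invol]
    rw [hC' k l]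
    field_simp
    linear_combination (σ (μ) * σ (C l k)) * hδ - δ₂ * σ (C l k) * hμσ

/-- Kronecker similarities act by similarities on the factors. -/
theorem factor_similar (hf : CfsgLib.Aschbacher.IsSesquiForm σ f)
    {X : Matrix (Fin a) (Fin a) F} {C : Matrix (Fin b) (Fin b) F} (hX : IsUnit X) (hC : IsUnit C)
    [NeZero a] [NeZero b] (h : pullGram f e P = X ⊗ₖ C) {g : GL ι F} {c : F} (hc : c ≠ 0)
    (hg : ∀ u v, f ((g : Matrix ι ι F) *ᵥ u) ((g : Matrix ι ι F) *ᵥ v) = c * f u v)
    {A : GL (Fin a) F} {B : GL (Fin b) F}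
    (hgAB : (g : Matrix ι ι F) = CfsgLib.Aschbacher.tconj e P
      ((A : Matrix (Fin a) (Fin a) F) ⊗ₖ (B : Matrix (Fin b) (Fin b) F))) :
    (∃ t : F, t ≠ 0 ∧ (A : Matrix (Fin a) (Fin a) F)ᵀ * X * (A : Matrix (Fin a) (Fin a) F).map σ = t • X) ∧
    ∃ t : F, t ≠ 0 ∧ (B : Matrix (Fin b) (Fin b) F)ᵀ * C * (B : Matrix (Fin b) (Fin b) F).map σ = t • C := by
  set U := (A : Matrix (Fin a) (Fin a) F)ᵀ * X * (A : Matrix (Fin a) (Fin a) F).map σ with hU
  set V := (B : Matrix (Fin b) (Fin b) F)ᵀ * C * (B : Matrix (Fin b) (Fin b) F).map σ with hV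
  have key : U ⊗ₖ V = c • (X ⊗ₖ C) := by
    ext p q
    have h1 := hg (emb e P (Pi.single p 1)) (emb e P (Pi.single q 1))
    rw [hgAB, tconj_mulVec_emb, tconj_mulVec_emb, form_emb hf, form_emb hf, h, formOfGram_single,
      formOfGram_eq] at h1
    simp only [Matrix.mulVec_single_one] at h1
    rw [Matrix.smul_apply, smul_eq_mul, ← h1, hU, hV, Matrix.mul_kronecker_mul, Matrix.mul_kronecker_mul,
      Matrix.mul_apply, dotProduct]
    simp only [Matrix.col_apply, Matrix.mulVec, dotProduct]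
    simp only [Matrix.mul_apply, Finset.sum_mul, Finset.mul_sum, Matrix.kroneckerMap_apply,
      Matrix.transpose_apply, Matrix.map_apply, map_mul]
    rw [Finset.sum_comm]
    exact Finset.sum_congr rfl fun x _ => Finset.sum_congr rfl fun y _ => by ring
  obtain ⟨i₀, j₀, hij⟩ : ∃ i j, X i j ≠ 0 := by
    by_contra! h0; exact hX.ne_zero (Matrix.ext h0)
  obtain ⟨k₀, l₀, hkl⟩ : ∃ k l, C k l ≠ 0 := by
    by_contra! h0; exact hC.ne_zero (Matrix.ext h0)
  have k4 : ∀ i j k l, U i j * V k l = c * (X i j * C k l) := fun i j k l => by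
    simpa [Matrix.kroneckerMap_apply] using congrFun (congrFun key (i, k)) (j, l)
  have hne : U i₀ j₀ * V k₀ l₀ ≠ 0 := by
    rw [k4]; exact mul_ne_zero hc (mul_ne_zero hij hkl)
  refine ⟨⟨c * C k₀ l₀ / V k₀ l₀, ?_, ?_⟩, ⟨c * X i₀ j₀ / U i₀ j₀, ?_, ?_⟩⟩
  · exact div_ne_zero (mul_ne_zero hc hkl) (right_ne_zero_of_mul hne)
  · ext i j
    rw [Matrix.smul_apply, smul_eq_mul, div_mul_eq_mul_div, eq_div_iff (right_ne_zero_of_mul hne), k4]
    ring
  · exact div_ne_zero (mul_ne_zero hc hij) (left_ne_zero_of_mul hne)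
  · ext k l
    rw [Matrix.smul_apply, smul_eq_mul, div_mul_eq_mul_div, eq_div_iff (left_ne_zero_of_mul hne),
      mul_comm (V k l), k4]
    ring

/-- Characteristic two: with a symmetric non-alternating second factor the group is reducible. -/
theorem exists_invariant_of_symm_factor [Finite F] (h2 : (2 : F) = 0) (hb : 2 ≤ b) [NeZero a]
    {X : Matrix (Fin a) (Fin a) F} {C : Matrix (Fin b) (Fin b) F} (hX : IsUnit X) (hC : IsUnit C)
    (hf : RForm (RingHom.id F) ε f) (h : pullGram f e P = X ⊗ₖ C)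
    (hsymm : ∀ k l, C k l = C l k) (hdiag : ∃ k, C k k ≠ 0) :
    ∃ W : Submodule F (ι → F), W ≠ ⊥ ∧ W ≠ ⊤ ∧
      ∀ g : GL ι F, g ∈ Geo.tensorProductSubgroup a b e P →
        (∃ c : F, c ≠ 0 ∧
          ∀ u v, f ((g : Matrix ι ι F) *ᵥ u) ((g : Matrix ι ι F) *ᵥ v) = c * f u v) →
        ∀ v ∈ W, (g : Matrix ι ι F) *ᵥ v ∈ W := by
  classical
  haveI : NeZero b := ⟨by omega⟩
  obtain ⟨p, hp⟩ := CharP.exists F
  have hp2 : p = 2 := (Nat.prime_dvd_prime_iff_eq (CharP.char_is_prime F p) Nat.prime_two).1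
    ((CharP.cast_eq_zero_iff F p 2).1 (by exact_mod_cast h2))
  subst hp2
  haveI : Fact (Nat.Prime 2) := ⟨Nat.prime_two⟩
  have hneg : ∀ x : F, x + x = 0 := fun x => by rw [← two_mul, h2, zero_mul]
  choose r hr using fun k => (bijective_frobenius F 2).2 (C k k)
  simp only [frobenius_def] at hr
  -- the diagonal is the square of a linear functional
  have hdiagform : ∀ y : Fin b → F, Geo.formOfGram (RingHom.id F) C y y = (∑ k, r k * y k) ^ 2 := by
    intro y
    rw [← frobenius_def, map_sum, Geo.formOfGram, ← Finset.sum_product']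
    simp only [frobenius_def, RingHom.id_apply, mul_pow, hr]
    rw [Finset.univ_product_univ, ← Finset.sum_filter_add_sum_filter_not Finset.univ
      (fun q : Fin b × Fin b => q.1 = q.2)]
    have hoff : ∑ q ∈ Finset.univ.filter (fun q : Fin b × Fin b => ¬ q.1 = q.2),
        y q.1 * C q.1 q.2 * y q.2 = 0 := by
      refine Finset.sum_involution (fun q _ => (q.2, q.1)) ?_ ?_ ?_ ?_
      · intro q _
        rw [hsymm q.2 q.1]
        linear_combination hneg (y q.1 * C q.1 q.2 * y q.2)
      · intro q hq _ hqq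
        exact (Finset.mem_filter.1 hq).2 (congrArg Prod.fst hqq).symm
      · intro q hq
        simp only [Finset.mem_filter, Finset.mem_univ, true_and] at hq ⊢
        exact Ne.symm hq
      · intro q _; rfl
    rw [hoff, add_zero]
    refine Finset.sum_bij' (fun q _ => q.1) (fun k _ => (k, k)) (fun _ _ => Finset.mem_univ _)
      (fun k _ => by simp) ?_ (fun k _ => rfl) ?_
    · intro q hq
      exact Prod.ext rfl (Finset.mem_filter.1 hq).2
    · intro q hq
      rw [(Finset.mem_filter.1 hq).2]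
      ring
  let l : (Fin b → F) →ₗ[F] F :=
    { toFun := fun y => ∑ k, r k * y k
      map_add' := fun x y => by simp [mul_add, Finset.sum_add_distrib]
      map_smul' := fun c y => by simp [Finset.mul_sum, mul_left_comm] }
  obtain ⟨k₁, hk₁⟩ := hdiag
  have hr₁ : r k₁ ≠ 0 := fun h0 => hk₁ (by rw [← hr k₁, h0, zero_pow two_ne_zero])
  obtain ⟨y₀, hy₀, hy₀0⟩ : ∃ y, l y = 0 ∧ y ≠ 0 := by
    by_contra! hcon
    have := LinearMap.finrank_le_finrank_of_injective
      (LinearMap.ker_eq_bot.1 (LinearMap.ker_eq_bot'.2 hcon))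
    simp at this
    omega
  let W : Submodule F (ι → F) :=
    { carrier := {v | ∀ x, emb e P x = v → ∀ i, l (fun k => x (i, k)) = 0}
      add_mem' := fun {u v} hu hv x hx i => by
        obtain ⟨x₁, rfl⟩ := emb_surjective (e := e) (P := P) u
        obtain ⟨x₂, rfl⟩ := emb_surjective (e := e) (P := P) v
        have : x = x₁ + x₂ := emb_injective (hx.trans (by simp [emb, Matrix.mulVec_add, Pi.add_comp]))
        rw [this, show (fun k => (x₁ + x₂) (i, k)) = (fun k => x₁ (i, k)) + fun k => x₂ (i, k) from rfl,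
          map_add, hu x₁ rfl i, hv x₂ rfl i, add_zero]
      zero_mem' := fun x hx i => by
        have : x = 0 := emb_injective (hx.trans (show (0 : ι → F) = emb e P 0 by simp [emb]))
        rw [this]; exact map_zero l
      smul_mem' := fun c u hu x hx i => by
        obtain ⟨x₁, rfl⟩ := emb_surjective (e := e) (P := P) u
        have : x = c • x₁ := emb_injective (hx.trans (by
          simp [emb, Matrix.mulVec_smul, ← Matrix.mulVec_smul]; rfl))
        rw [this, show (fun k => (c • x₁) (i, k)) = c • fun k => x₁ (i, k) from rfl, map_smul,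
          hu x₁ rfl i, smul_zero] }
  refine ⟨W, fun hbot => ?_, fun htop => ?_, ?_⟩
  · have hm : emb e P (fun p => y₀ p.2) ∈ W := fun x hx i => by
      rw [emb_injective hx]; exact hy₀
    rw [hbot, Submodule.mem_bot] at hm
    have hz := emb_injective (hm.trans (show (0 : ι → F) = emb e P 0 by simp [emb]))
    exact hy₀0 (funext fun k => congrFun hz ((0 : Fin a), k))
  · have hm : emb e P (fun p => if p.2 = k₁ then 1 else 0) ∈ W := htop ▸ Submodule.mem_top
    have := hm _ rfl 0
    simp [l] at this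
    exact hr₁ this
  · rintro g hg ⟨c, hc, hgc⟩ v hv x hx i
    obtain ⟨A, B, hAB⟩ := (CfsgLib.Aschbacher.mem_tensorProductSubgroup_iff e P g).1 hg
    obtain ⟨x₀, rfl⟩ := emb_surjective (e := e) (P := P) v
    obtain ⟨-, t, ht, hB⟩ := factor_similar hf.sesq hX hC h hc hgc hAB
    rw [hAB, tconj_mulVec_emb] at hx
    rw [emb_injective hx]
    have hB' : ∀ y, l y = 0 → l ((B : Matrix (Fin b) (Fin b) F) *ᵥ y) = 0 := by
      intro y hy
      have h1 : Geo.formOfGram (RingHom.id F) C ((B : Matrix (Fin b) (Fin b) F) *ᵥ y)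
          ((B : Matrix (Fin b) (Fin b) F) *ᵥ y) = t * Geo.formOfGram (RingHom.id F) C y y := by
        rw [formOfGram_eq, formOfGram_eq]
        simp only [RingHom.id_apply]
        have hBm : (B : Matrix (Fin b) (Fin b) F).map (RingHom.id F) = (B : Matrix (Fin b) (Fin b) F) := by
          ext i j; rfl
        rw [hBm] at hB
        rw [← smul_eq_mul, ← dotProduct_smul, ← Matrix.smul_mulVec, ← hB, Matrix.mulVec_mulVec,
          mul_assoc, ← Matrix.mulVec_mulVec y (B : Matrix (Fin b) (Fin b) F)ᵀ,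
          Matrix.dotProduct_mulVec y, Matrix.vecMul_transpose]
      rw [hdiagform, hdiagform] at h1
      have hy' : (∑ k, r k * y k) = 0 := hy
      rw [hy', zero_pow two_ne_zero, mul_zero] at h1
      exact sq_eq_zero_iff.1 h1
    have hcomp : (fun k => (((A : Matrix (Fin a) (Fin a) F) ⊗ₖ (B : Matrix (Fin b) (Fin b) F)) *ᵥ x₀) (i, k)) =
        ∑ j, A.val i j • ((B : Matrix (Fin b) (Fin b) F) *ᵥ fun k => x₀ (j, k)) := by
      funext k
      simp [Matrix.mulVec, dotProduct, Fintype.sum_prod_type, Matrix.kroneckerMap_apply, Finset.mul_sum,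
        Finset.sum_apply, mul_assoc]
    rw [hcomp, map_sum]
    refine Finset.sum_eq_zero fun j _ => ?_
    rw [map_smul, hB' _ (hv x₀ rfl j), smul_zero]

/-- Characteristic two, two alternating factors: a quadratic form vanishing on pure tensors. -/
theorem exists_quad_of_alt_factors (h2 : (2 : F) = 0) [NeZero a] [NeZero b]
    {X : Matrix (Fin a) (Fin a) F} {C : Matrix (Fin b) (Fin b) F} (hX : IsUnit X) (hC : IsUnit C)
    (hs : Geo.IsSymplecticForm f) (h : pullGram f e P = X ⊗ₖ C)
    (hXs : ∀ i j, X i j = X j i) (hXd : ∀ i, X i i = 0)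
    (hCs : ∀ k l, C k l = C l k) (hCd : ∀ k, C k k = 0) :
    ∃ Q : (ι → F) → F, Geo.IsNondegenerateQuadraticForm Q ∧ (∀ u v, QuadraticMap.polar Q u v = f u v) ∧
      (∀ (x₁ : Fin a → F) (x₂ : Fin b → F),
        Q ((P : Matrix ι ι F) *ᵥ ((fun p : Fin a × Fin b => x₁ p.1 * x₂ p.2) ∘ e)) = 0) ∧
      ∀ g : GL ι F, g ∈ Geo.tensorProductSubgroup a b e P →
        (∃ c : F, c ≠ 0 ∧
          ∀ u v, f ((g : Matrix ι ι F) *ᵥ u) ((g : Matrix ι ι F) *ᵥ v) = c * f u v) →
        g ∈ Geo.quadSimilarityGroup Q := by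
  classical
  have hf := rform_of_symplectic hs
  have hneg : ∀ x : F, x + x = 0 := fun x => by rw [← two_mul, h2, zero_mul]
  let C₂ := Geo.formOfGram (RingHom.id F) C
  have hC₂ : CfsgLib.Aschbacher.IsSesquiForm (RingHom.id F) C₂ := isSesquiForm_formOfGram (RingHom.id F) C
  have hC₂s : ∀ x y, C₂ x y = C₂ y x := fun x y => by
    have := formOfGram_refl (RingHom.id F) (fun _ => rfl) (δ := 1) (fun p q => by simpa using hCs p q) x y
    simpa [C₂] using this
  have hC₂d : ∀ x, C₂ x x = 0 := fun x => by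
    simp only [C₂, Geo.formOfGram, RingHom.id_apply]
    rw [← Finset.sum_product', Finset.univ_product_univ]
    refine Finset.sum_involution (fun q _ => (q.2, q.1)) (fun q _ => ?_) (fun q _ hq hqq => hq ?_)
      (fun q _ => Finset.mem_univ _) (fun q _ => rfl)
    · rw [hCs q.2 q.1]
      linear_combination hneg (x q.1 * C q.1 q.2 * x q.2)
    · have : q.1 = q.2 := (congrArg Prod.fst hqq).symm
      rw [this, hCd, mul_zero, zero_mul]
  let row : (Fin a × Fin b → F) → Fin a → Fin b → F := fun x i k => x (i, k)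
  let Q' : (Fin a × Fin b → F) → F := fun x =>
    ∑ i, ∑ j, if i < j then X i j * C₂ (row x i) (row x j) else 0
  have hpol : ∀ x y, Q' (x + y) = Q' x + Q' y + f (emb e P x) (emb e P y) := by
    intro x y
    rw [form_emb hf.sesq, h, Geo.formOfGram]
    have hexp : ∑ p, ∑ q, x p * (X ⊗ₖ C) p q * (RingHom.id F) (y q) =
        ∑ i, ∑ j, X i j * C₂ (row x i) (row y j) := by
      simp only [Fintype.sum_prod_type, C₂, row, Geo.formOfGram, Finset.mul_sum, RingHom.id_apply,
        Matrix.kroneckerMap_apply]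
      refine Finset.sum_congr rfl fun i _ => ?_
      rw [Finset.sum_comm]
      exact Finset.sum_congr rfl fun j _ => Finset.sum_congr rfl fun k _ =>
        Finset.sum_congr rfl fun l _ => by ring
    rw [hexp]
    have hsplit : ∑ i, ∑ j, X i j * C₂ (row x i) (row y j) =
        ∑ i, ∑ j, (if i < j then X i j * (C₂ (row x i) (row y j) + C₂ (row y i) (row x j)) else 0) := by
      have e1 : ∀ i j, X i j * C₂ (row x i) (row y j) =
          (if i < j then X i j * C₂ (row x i) (row y j) else 0) +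
          (if j < i then X i j * C₂ (row x i) (row y j) else 0) := by
        intro i j
        rcases lt_trichotomy i j with h | h | h
        · simp [h, lt_asymm h]
        · simp [h, hXd]
        · simp [h, lt_asymm h]
      simp only [mul_add, ite_add_zero, Finset.sum_add_distrib]
      rw [Finset.sum_congr rfl fun i _ => Finset.sum_congr rfl fun j _ => e1 i j]
      simp only [Finset.sum_add_distrib]
      congr 1
      rw [Finset.sum_comm]
      refine Finset.sum_congr rfl fun i _ => Finset.sum_congr rfl fun j _ => ?_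
      rw [hXs j i, hC₂s (row x j) (row y i)]
    rw [hsplit]
    simp only [Q', ← Finset.sum_add_distrib]
    refine Finset.sum_congr rfl fun i _ => Finset.sum_congr rfl fun j _ => ?_
    split_ifs
    · rw [show row (x + y) i = row x i + row y i from rfl, show row (x + y) j = row x j + row y j from rfl,
        hC₂.add_left, hC₂.add_right, hC₂.add_right]
      ring
    · simp
  have hsmul : ∀ (c : F) x, Q' (c • x) = c ^ 2 * Q' x := fun c x => by
    simp only [Q', Finset.mul_sum]
    refine Finset.sum_congr rfl fun i _ => Finset.sum_congr rfl fun j _ => ?_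
    split_ifs
    · rw [show row (c • x) i = c • row x i from rfl, show row (c • x) j = c • row x j from rfl,
        hC₂.smul_left, hC₂.smul_right]
      simp only [RingHom.id_apply]
      ring
    · simp
  have hpure : ∀ (x₁ : Fin a → F) (x₂ : Fin b → F), Q' (fun p => x₁ p.1 * x₂ p.2) = 0 := by
    intro x₁ x₂
    refine Finset.sum_eq_zero fun i _ => Finset.sum_eq_zero fun j _ => ?_
    split_ifs
    · rw [show row (fun p => x₁ p.1 * x₂ p.2) i = x₁ i • x₂ from rfl,
        show row (fun p => x₁ p.1 * x₂ p.2) j = x₁ j • x₂ from rfl, hC₂.smul_left, hC₂.smul_right, hC₂d]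
      simp
    · rfl
  let dec : (ι → F) → (Fin a × Fin b → F) := Function.surjInv (emb_surjective (e := e) (P := P))
  have hdec : ∀ v, emb e P (dec v) = v := Function.surjInv_eq _
  have hdec' : ∀ x, dec (emb e P x) = x := fun x => emb_injective (hdec _)
  let Q : (ι → F) → F := fun v => Q' (dec v)
  have hQpol : ∀ u v, QuadraticMap.polar Q u v = f u v := by
    intro u v
    have : dec (u + v) = dec u + dec v := emb_injective (by
      rw [hdec]; simp only [emb, Pi.add_comp, Matrix.mulVec_add]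
      rw [show (P : Matrix ι ι F) *ᵥ (dec u ∘ e) = u from hdec u,
        show (P : Matrix ι ι F) *ᵥ (dec v ∘ e) = v from hdec v])
    simp only [QuadraticMap.polar, Q]
    rw [this, hpol, hdec, hdec]
    ring
  have hQfun : QuadraticMap.polar Q = f := funext₂ hQpol
  have hQsmul : ∀ (c : F) (v : ι → F), Q (c • v) = c ^ 2 * Q v := fun c v => by
    have : dec (c • v) = c • dec v := emb_injective (by
      rw [hdec]; simp only [emb]
      rw [show ((c • dec v) ∘ e) = c • (dec v ∘ e) from rfl, Matrix.mulVec_smul,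
        show (P : Matrix ι ι F) *ᵥ (dec v ∘ e) = v from hdec v])
    simp only [Q, this, hsmul]
  refine ⟨Q, ⟨hQsmul, hQfun.symm ▸ hs.bilinear, hQfun.symm ▸ hs.nondegenerate⟩, hQpol,
    fun x₁ x₂ => ?_, ?_⟩
  · show Q' (dec (emb e P fun p => x₁ p.1 * x₂ p.2)) = 0
    rw [hdec']; exact hpure x₁ x₂
  · rintro g hg ⟨c, hc, hgc⟩
    obtain ⟨A, B, hAB⟩ := (CfsgLib.Aschbacher.mem_tensorProductSubgroup_iff e P g).1 hg
    refine ⟨Units.mk0 c hc, fun v => ?_⟩
    let D : (ι → F) → F := fun v => Q ((g : Matrix ι ι F) *ᵥ v) - c * Q v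
    have hDadd : ∀ u v, D (u + v) = D u + D v := fun u v => by
      have h1 := hQpol ((g : Matrix ι ι F) *ᵥ u) ((g : Matrix ι ι F) *ᵥ v)
      have h2 := hQpol u v
      rw [hgc, ← h2] at h1
      simp only [QuadraticMap.polar] at h1
      simp only [D, Matrix.mulVec_add]
      linear_combination h1
    suffices hD : D v = 0 by simpa [D, sub_eq_zero] using hD
    let D' : (Fin a × Fin b → F) →+ F :=
      AddMonoidHom.mk' (fun x => D (emb e P x)) fun x y => by
        rw [show emb e P (x + y) = emb e P x + emb e P y by simp [emb, Pi.add_comp, Matrix.mulVec_add],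
          hDadd]
    have hD'pure : ∀ (p : Fin a × Fin b) (s : F), D' (Pi.single p s) = 0 := by
      rintro ⟨i, k⟩ s
      have hs' : (Pi.single (i, k) s : Fin a × Fin b → F) =
          fun p => (Pi.single i s : Fin a → F) p.1 * (Pi.single k 1 : Fin b → F) p.2 := by
        funext ⟨i', k'⟩
        by_cases hi : i' = i <;> by_cases hk : k' = k <;> simp [hi, hk, Pi.single_apply]
      rw [hs']
      show Q ((g : Matrix ι ι F) *ᵥ emb e P _) - c * Q (emb e P _) = 0
      rw [hAB, tconj_mulVec_emb]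
      simp only [Q, hdec']
      have hk : ((A : Matrix (Fin a) (Fin a) F) ⊗ₖ (B : Matrix (Fin b) (Fin b) F)) *ᵥ
          (fun p => (Pi.single i s : Fin a → F) p.1 * (Pi.single k 1 : Fin b → F) p.2) =
          fun p => ((A : Matrix (Fin a) (Fin a) F) *ᵥ (Pi.single i s : Fin a → F)) p.1 *
            ((B : Matrix (Fin b) (Fin b) F) *ᵥ (Pi.single k 1 : Fin b → F)) p.2 := by
        funext ⟨i', k'⟩
        simp only [Matrix.mulVec, dotProduct, Fintype.sum_prod_type, Matrix.kroneckerMap_apply,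
          Finset.sum_mul, Finset.mul_sum]
        rw [Finset.sum_comm]
        refine Finset.sum_congr rfl fun x _ => Finset.sum_congr rfl fun y _ => ?_
        ring
      rw [hk, hpure, hpure, mul_zero, sub_zero]
    obtain ⟨x, rfl⟩ := emb_surjective (e := e) (P := P) v
    show D' x = 0
    rw [← Finset.univ_sum_single x, map_sum]
    exact Finset.sum_eq_zero fun p _ => hD'pure p _

end CfsgLib.Aschbacher.Forms
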