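import Mathlib
import Cfsg.Agent.Aschbacher.Proper
import Cfsg.Agent.Aschbacher.InvariantForms
import Cfsg.Agent.Aschbacher.FormsTensor
import Cfsg.Agent.Classical.SympFormStd

/-!
No geometric member contains all symplectic transvections.
-/

set_option autoImplicit false
set_option linter.unusedSectionVars false

namespace CfsgLib.Aschbacher.Symp

open Matrix Cfsg CfsgLib.AltFormTransv CfsgLib.Aschbacher.Forms

open scoped Kronecker

variable {ι : Type} [Fintype ι] [DecidableEq ι] {F : Type*} [Field F]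
variable {f : (ι → F) → (ι → F) → F} {I : Subgroup (GL ι F)}

/-- A spanning set invariant under all transvections contains every non-zero vector. -/
theorem mem_of_invariant (hf : Geo.IsSymplecticForm f) {S : Set (ι → F)}
    (hS : ∀ v c, ∀ x ∈ S, (sympT hf v c : Matrix ι ι F) *ᵥ x ∈ S)
    (hspan : Submodule.span F S = ⊤) {y : ι → F} (hy : y ≠ 0) : y ∈ S := by
  by_contra hyS
  obtain ⟨x, hx⟩ := (hf.nondegenerate y hy).1
  apply hx
  have h : ∀ v ∈ S, f v y = 0 := fun v hv => by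
    by_contra h
    exact hyS (sympT_maps hf h ▸ hS _ _ v hv)
  have hle : Submodule.span F S ≤ LinearMap.ker (pair hf y) := Submodule.span_le.2 h
  exact hle (hspan ▸ Submodule.mem_top (x := x))

theorem not_le_subspaceStabilizer (hf : Geo.IsSymplecticForm f) (hI : ∀ v c, sympT hf v c ∈ I)
    {W : Submodule F (ι → F)} (h0 : W ≠ ⊥) (h1 : W ≠ ⊤) : ¬ I ≤ Geo.subspaceStabilizer W := by
  intro hle
  obtain ⟨v, hvW, hv⟩ := W.exists_mem_ne_zero_of_ne_bot h0
  obtain ⟨a₁, ha₁⟩ : ∃ a, a ∉ W := by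
    by_contra! h
    exact h1 (eq_top_iff.2 fun x _ => h x)
  obtain ⟨a₂, ha₂⟩ := (hf.nondegenerate v hv).2
  obtain ⟨a, haW, ha⟩ : ∃ a, a ∉ W ∧ f v a ≠ 0 := by
    by_cases h : f v a₁ = 0
    · by_cases h' : a₂ ∈ W
      · refine ⟨a₁ + a₂, fun hm => ha₁ (by simpa using W.sub_mem hm h'), ?_⟩
        rw [hf.bilinear.add_right, h, zero_add]; exact ha₂
      · exact ⟨a₂, h', ha₂⟩
    · exact ⟨a₁, ha₁, h⟩
  have hm' : (sympT hf a 1 : Matrix ι ι F) *ᵥ v ∈ W := ((hle (hI a 1)) v).1 hvW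
  rw [sympT_mulVec, one_mul, W.add_mem_iff_right hvW] at hm'
  exact haW ((W.smul_mem_iff ha).1 hm')

theorem not_le_decompositionStabilizer (hf : Geo.IsSymplecticForm f) (hI : ∀ v c, sympT hf v c ∈ I)
    {t m : ℕ} {D : Fin t → Submodule F (ι → F)} (hD : Geo.IsMDecomposition m D) :
    ¬ I ≤ Geo.decompositionStabilizer D := by
  intro hle
  let S : Set (ι → F) := {x | ∃ i, x ∈ D i}
  have hS : ∀ v c, ∀ x ∈ S, (sympT hf v c : Matrix ι ι F) *ᵥ x ∈ S := by
    rintro v c x ⟨i, hi⟩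
    obtain ⟨π, hπ⟩ := hle (hI v c)
    refine ⟨π i, ?_⟩
    rw [← hπ i]
    exact ⟨x, hi, Matrix.toLin'_apply _ _⟩
  have hspan : Submodule.span F S = ⊤ := by
    rw [eq_top_iff, ← hD.iSup_eq_top]
    exact iSup_le fun i x hx => Submodule.subset_span ⟨i, hx⟩
  let i0 : Fin t := ⟨0, by have := hD.two_le; omega⟩
  let i1 : Fin t := ⟨1, by have := hD.two_le; omega⟩
  have h01 : i0 ≠ i1 := by simp [i0, i1, Fin.ext_iff]
  have hne : ∀ i, D i ≠ ⊥ := fun i h => by
    have := hD.finrank_eq i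
    rw [h, finrank_bot] at this
    exact absurd this.symm hD.pos.ne'
  obtain ⟨v, hv, hv0⟩ := (D i0).exists_mem_ne_zero_of_ne_bot (hne i0)
  obtain ⟨w, hw, hw0⟩ := (D i1).exists_mem_ne_zero_of_ne_bot (hne i1)
  have hd : ∀ i j, i ≠ j → Disjoint (D i) (D j) := fun i j h => hD.indep.pairwiseDisjoint h
  have hvw : v + w ≠ 0 := fun h => hv0 (Submodule.disjoint_def.1 (hd _ _ h01) v hv (by
    rw [add_eq_zero_iff_eq_neg.1 h]; exact (D i1).neg_mem hw))
  obtain ⟨j, hj⟩ := mem_of_invariant hf hS hspan hvw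
  by_cases h : j = i0
  · subst h
    exact hw0 (Submodule.disjoint_def.1 (hd _ _ h01) w (((D i0).add_mem_iff_right hv).1 hj) hw)
  · by_cases h' : j = i1
    · subst h'
      exact hv0 (Submodule.disjoint_def.1 (hd _ _ h01) v hv (((D i1).add_mem_iff_left hw).1 hj))
    · have hle' : D i0 ⊔ D i1 ≤ ⨆ (k : Fin t) (_ : k ≠ j), D k :=
        sup_le (le_iSup₂ (f := fun k (_ : k ≠ j) => D k) i0 (Ne.symm h))
          (le_iSup₂ (f := fun k (_ : k ≠ j) => D k) i1 (Ne.symm h'))
      exact hvw (Submodule.disjoint_def.1 (hD.indep j) _ hj (hle' (Submodule.add_mem_sup hv hw)))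

theorem not_le_tensorProductSubgroup (hf : Geo.IsSymplecticForm f) (hI : ∀ v c, sympT hf v c ∈ I)
    {a b : ℕ} (ha : 2 ≤ a) (hb : 2 ≤ b) (e : ι ≃ Fin a × Fin b) (P : GL ι F) :
    ¬ I ≤ Geo.tensorProductSubgroup a b e P := by
  intro hle
  let S : Set (ι → F) := {x | ∃ (x₁ : Fin a → F) (x₂ : Fin b → F), x = emb e P fun p => x₁ p.1 * x₂ p.2}
  have hS : ∀ v c, ∀ x ∈ S, (sympT hf v c : Matrix ι ι F) *ᵥ x ∈ S := by
    rintro v c _ ⟨x₁, x₂, rfl⟩
    obtain ⟨A, B, hAB⟩ := (CfsgLib.Aschbacher.mem_tensorProductSubgroup_iff e P _).1 (hle (hI v c))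
    refine ⟨(A : Matrix (Fin a) (Fin a) F) *ᵥ x₁, (B : Matrix (Fin b) (Fin b) F) *ᵥ x₂, ?_⟩
    rw [hAB, tconj_mulVec_emb]
    congr 1
    funext ⟨i, k⟩
    simp only [Matrix.mulVec, dotProduct, Fintype.sum_prod_type, Matrix.kroneckerMap_apply,
      Finset.sum_mul, Finset.mul_sum]
    rw [Finset.sum_comm]
    exact Finset.sum_congr rfl fun p _ => Finset.sum_congr rfl fun q _ => by ring
  have hembz : emb e P (0 : Fin a × Fin b → F) = 0 := by simp [emb]
  have hembadd : ∀ x y, emb e P (x + y) = emb e P x + emb e P y := fun x y => by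
    simp [emb, Pi.add_comp, Matrix.mulVec_add]
  have hspan : Submodule.span F S = ⊤ := by
    rw [eq_top_iff]
    intro v _
    obtain ⟨x, rfl⟩ := emb_surjective (e := e) (P := P) v
    show AddMonoidHom.mk' (emb e P) hembadd x ∈ Submodule.span F S
    rw [← Finset.univ_sum_single x, map_sum]
    refine Submodule.sum_mem _ fun p _ => Submodule.subset_span
      ⟨Pi.single p.1 (x p), Pi.single p.2 1, congrArg _ (funext fun q => ?_)⟩
    by_cases h1 : q.1 = p.1 <;> by_cases h2 : q.2 = p.2 <;>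
      simp [h1, h2, Pi.single_apply, Prod.ext_iff]
  let a0 : Fin a := ⟨0, by omega⟩
  let a1 : Fin a := ⟨1, by omega⟩
  let b0 : Fin b := ⟨0, by omega⟩
  let b1 : Fin b := ⟨1, by omega⟩
  have ha01 : a0 ≠ a1 := by simp [a0, a1, Fin.ext_iff]
  have hb01 : b0 ≠ b1 := by simp [b0, b1, Fin.ext_iff]
  let y : Fin a × Fin b → F := Pi.single (a0, b0) 1 + Pi.single (a1, b1) 1
  have hy : emb e P y ≠ 0 := fun h => by
    have := congrFun (emb_injective (h.trans hembz.symm)) (a0, b0)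
    simp [y, ha01] at this
  obtain ⟨x₁, x₂, hx⟩ := mem_of_invariant hf hS hspan hy
  have hfun := emb_injective hx
  have h00 := congrFun hfun (a0, b0)
  have h11 := congrFun hfun (a1, b1)
  have h01 := congrFun hfun (a0, b1)
  simp [y, Pi.single_apply, ha01, ha01.symm, hb01, hb01.symm] at h00 h11 h01
  rcases h01 with h | h
  · rw [h, zero_mul] at h00; exact zero_ne_one h00.symm
  · rw [h, mul_zero] at h11; exact zero_ne_one h11.symm

theorem not_le_subfieldSubgroup (hf : Geo.IsSymplecticForm f) (hI : ∀ v c, sympT hf v c ∈ I)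
    (hn : 2 ≤ Fintype.card ι) {F₀ : Subfield F} (h0 : F₀ ≠ ⊤) (P : GL ι F) :
    ¬ I ≤ Geo.subfieldSubgroup F₀ P := by
  intro hle
  let S : Set (ι → F) := {x | ∃ (d : F) (u : ι → F), (∀ i, u i ∈ F₀) ∧ x = d • ((P : Matrix ι ι F) *ᵥ u)}
  have hS : ∀ v c, ∀ x ∈ S, (sympT hf v c : Matrix ι ι F) *ᵥ x ∈ S := by
    rintro v c _ ⟨d, u, hu, rfl⟩
    obtain ⟨s, k, hs⟩ := CfsgLib.Aschbacher.mem_subfieldSubgroup_iff.1 (hle (hI v c))
    refine ⟨d * (k : F), (fun i => ∑ j, ((s : Matrix ι ι F₀) i j : F) * u j), fun i => ?_, ?_⟩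
    · exact sum_mem fun j _ => F₀.mul_mem ((s : Matrix ι ι F₀) i j).2 (hu j)
    · have hg : (sympT hf v c : Matrix ι ι F) * (P : Matrix ι ι F) =
          (P : Matrix ι ι F) * ((k : F) • ((s : Matrix ι ι F₀).map (F₀.subtype : F₀ →+* F))) := by
        have h' := congrArg (fun g : GL ι F => (P : Matrix ι ι F) * (g : Matrix ι ι F)) hs
        simp only [Units.val_mul, ← mul_assoc, Units.mul_inv, one_mul] at h'
        refine h'.trans ?_
        rw [mul_assoc]
        congr 1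
        show ((s : Matrix ι ι F₀).map F₀.subtype) * Matrix.scalar ι (k : F) = _
        ext i j
        simp [Matrix.mul_diagonal, mul_comm]
      rw [Matrix.mulVec_smul, Matrix.mulVec_mulVec, hg, ← Matrix.mulVec_mulVec, Matrix.smul_mulVec,
        Matrix.mulVec_smul, smul_smul]
      rfl
  have hspan : Submodule.span F S = ⊤ := by
    rw [eq_top_iff]
    intro x _
    rw [← CfsgLib.Aschbacher.mulVec_inv_mulVec P x,
      ← Finset.univ_sum_single (((P⁻¹ : GL ι F) : Matrix ι ι F) *ᵥ x), Matrix.mulVec_sum]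
    refine Submodule.sum_mem _ fun i _ => Submodule.subset_span
      ⟨(((P⁻¹ : GL ι F) : Matrix ι ι F) *ᵥ x) i, Pi.single i 1, fun j => ?_, ?_⟩
    · simp only [Pi.single_apply]
      split
      · exact F₀.one_mem
      · exact F₀.zero_mem
    · rw [← Matrix.mulVec_smul, ← Pi.single_smul', smul_eq_mul, mul_one]
  obtain ⟨c, hc⟩ : ∃ c, c ∉ F₀ := by
    by_contra! hall
    exact h0 (eq_top_iff.2 fun x _ => hall x)
  obtain ⟨i, j, hij⟩ := Fintype.exists_pair_of_one_lt_card (show 1 < Fintype.card ι by omega)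
  have hy : (P : Matrix ι ι F) *ᵥ (Pi.single i 1 + Pi.single j c) ≠ 0 := fun h => by
    have := congrFun (CfsgLib.Aschbacher.mulVec_inj P (h.trans (Matrix.mulVec_zero _).symm)) i
    simp [Pi.single_apply, hij] at this
  obtain ⟨d, u, hu, hdu⟩ := mem_of_invariant hf hS hspan hy
  rw [← Matrix.mulVec_smul] at hdu
  have h' := CfsgLib.Aschbacher.mulVec_inj P hdu
  have hi : d * u i = 1 := by simpa [Pi.single_apply, hij] using (congrFun h' i).symm
  have hj : d * u j = c := by simpa [Pi.single_apply, hij.symm] using (congrFun h' j).symm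
  apply hc
  rw [← hj, show d = (u i)⁻¹ from eq_inv_of_mul_eq_one_left hi]
  exact F₀.mul_mem (F₀.inv_mem (hu i)) (hu j)

theorem not_le_subalgebraNormalizer (hf : Geo.IsSymplecticForm f) (hI : ∀ v c, sympT hf v c ∈ I)
    (hn : 3 ≤ Fintype.card ι) {r : ℕ} {K : Subalgebra F (Matrix ι ι F)}
    (hK : Geo.IsFieldSubalgebra r K) (hr : 2 ≤ r) : ¬ I ≤ Geo.subalgebraNormalizer K := by
  intro hle
  haveI : Nonempty ι := Fintype.card_pos_iff.1 (by omega)
  obtain ⟨k, hk, hns⟩ : ∃ k ∈ K, k ∉ (⊥ : Subalgebra F (Matrix ι ι F)) := by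
    by_contra! hc
    have hfr := hK.finrank_eq
    rw [le_bot_iff.1 (show K ≤ ⊥ from hc), Subalgebra.finrank_bot] at hfr
    omega
  apply hns
  obtain ⟨a, ha⟩ : ∃ a : F, k = a • (1 : Matrix ι ι F) := by
    refine exists_eq_smul_one_of_forall_mem_span k fun v => ?_
    by_cases hv : v = 0
    · simp [hv]
    set T := sympT hf v 1
    have hT := (hle (hI v 1) k).1 hk
    obtain ⟨u, hu, huv, hkuv⟩ : ∃ u : ι → F, u ≠ 0 ∧ f u v = 0 ∧ f (k *ᵥ u) v = 0 := by
      let L : (ι → F) →ₗ[F] F × F := (pair hf v).prod ((pair hf v).comp (Matrix.toLin' k))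
      have hker : LinearMap.ker L ≠ ⊥ := fun h => by
        have := LinearMap.finrank_le_finrank_of_injective (LinearMap.ker_eq_bot.1 h)
        simp at this
        omega
      obtain ⟨u, hu, hu0⟩ := Submodule.exists_mem_ne_zero_of_ne_bot hker
      have h' : L u = 0 := hu
      exact ⟨u, hu0, by simpa [L] using congrArg Prod.fst h', by simpa [L] using congrArg Prod.snd h'⟩
    have hTu : (T : Matrix ι ι F) *ᵥ u = u := by simp [T, sympT_mulVec, huv]
    have hTinv : ((T⁻¹ : GL ι F) : Matrix ι ι F) *ᵥ u = u :=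
      (congrArg (((T⁻¹ : GL ι F) : Matrix ι ι F) *ᵥ ·) hTu).symm.trans (inv_mulVec_mulVec T u)
    set y := (T : Matrix ι ι F) * k * ((T⁻¹ : GL ι F) : Matrix ι ι F) - k with hy
    have hy0 : y = 0 := by
      by_contra h
      obtain ⟨z, hz, hyz⟩ := hK.inv y (sub_mem hT hk) h
      have hzy : z * y = 1 := by rw [hK.comm z hz y (sub_mem hT hk), hyz]
      apply hu
      rw [← Matrix.one_mulVec u, ← hzy, ← Matrix.mulVec_mulVec, hy, Matrix.sub_mulVec,
        ← Matrix.mulVec_mulVec, hTinv, ← Matrix.mulVec_mulVec, sympT_mulVec, hkuv]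
      simp
    obtain ⟨x, hx⟩ := (hf.nondegenerate v hv).1
    have hTk : (T : Matrix ι ι F) * k = k * (T : Matrix ι ι F) := by
      rw [hy, sub_eq_zero] at hy0
      conv_rhs => rw [← hy0, mul_assoc, Units.inv_mul, mul_one]
    have h1 : (T : Matrix ι ι F) *ᵥ (k *ᵥ x) = k *ᵥ ((T : Matrix ι ι F) *ᵥ x) := by
      rw [Matrix.mulVec_mulVec, Matrix.mulVec_mulVec, hTk]
    simp only [T, sympT_mulVec, one_mul, Matrix.mulVec_add, Matrix.mulVec_smul, add_right_inj] at h1
    refine Submodule.mem_span_singleton.2 ⟨(f x v)⁻¹ * f (k *ᵥ x) v, ?_⟩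
    rw [← smul_smul, h1, smul_smul, inv_mul_cancel₀ hx, one_smul]
  exact Algebra.mem_bot.2 ⟨a, by rw [ha, Algebra.algebraMap_eq_smul_one]⟩

theorem not_le_quadSimilarityGroup (hf : Geo.IsSymplecticForm f) (hI : ∀ v c, sympT hf v c ∈ I)
    (hn : 5 ≤ Fintype.card ι) {Q : (ι → F) → F} (hQ : Geo.IsNondegenerateQuadraticForm Q)
    (hpol : ∀ u v, QuadraticMap.polar Q u v = f u v) : ¬ I ≤ Geo.quadSimilarityGroup Q := by
  intro hle
  have hQadd : ∀ u v, Q (u + v) = Q u + Q v + f u v := fun u v => by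
    rw [← hpol]; simp [QuadraticMap.polar]
  have key : ∀ a, a ≠ 0 → Q a = -1 := by
    intro a ha
    obtain ⟨b, hb⟩ := (hf.nondegenerate a ha).2
    have hb' : f b a ≠ 0 := fun h => hb (orth_comm hf h)
    obtain ⟨v, hva, hvQ⟩ : ∃ v, f v a = 0 ∧ Q v ≠ 0 := by
      classical
      obtain ⟨z, hz, hzs⟩ := exists_orth_not_mem hf {a, b}
        (lt_of_le_of_lt (Nat.mul_le_mul_left 2 (Finset.card_le_two (a := a) (b := b))) (by omega))
      have hza : f z a = 0 := hz a (by simp)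
      have hzb : f z b = 0 := hz b (by simp)
      obtain ⟨w, hw⟩ := (hf.nondegenerate z fun h => hzs (h ▸ zero_mem _)).2
      set w' := w + (-(f w a / f b a)) • b with hw'
      have h1 : f w' a = 0 := by
        rw [hw', hf.bilinear.add_left, hf.bilinear.smul_left]; field_simp; ring
      have h2 : f z w' ≠ 0 := by
        rw [hw', hf.bilinear.add_right, hf.bilinear.smul_right, hzb, mul_zero, add_zero]; exact hw
      by_cases hQz : Q z = 0
      · by_cases hQw : Q w' = 0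
        · refine ⟨z + w', by rw [hf.bilinear.add_left, hza, h1, add_zero], ?_⟩
          rw [hQadd, hQz, hQw, zero_add, zero_add]; exact h2
        · exact ⟨w', h1, hQw⟩
      · exact ⟨z, hza, hQz⟩
    obtain ⟨c, hc⟩ := hle (hI a 1)
    have hc1 : (c : F) = 1 := by
      have := hc v
      rw [sympT_mulVec, hva, mul_zero, zero_smul, add_zero] at this
      exact (mul_left_eq_self₀.1 this.symm).resolve_right hvQ
    have h := hc b
    rw [hc1, one_mul, sympT_mulVec, one_mul, hQadd, hQ.smul, hf.bilinear.smul_right] at h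
    have h' : f b a ^ 2 * (Q a + 1) = 0 := by linear_combination h
    exact eq_neg_of_add_eq_zero_left ((mul_eq_zero.1 h').resolve_left (pow_ne_zero 2 hb'))
  obtain ⟨a, -, haz⟩ := exists_orth_not_mem hf (∅ : Finset (ι → F)) (by simp; omega)
  have ha : a ≠ 0 := fun h => haz (h ▸ zero_mem _)
  obtain ⟨z, hz, hzs⟩ := exists_orth_not_mem hf {a} (by simp; omega)
  simp only [Finset.coe_singleton] at hzs
  have hz0 : z ≠ 0 := fun h => hzs (h ▸ zero_mem _)
  have haz' : z + a ≠ 0 := fun h => hzs (by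
    rw [add_eq_zero_iff_eq_neg.1 h]
    exact Submodule.neg_mem _ (Submodule.mem_span_singleton_self a))
  have h := key _ haz'
  rw [hQadd, key a ha, key z hz0, hz a (by simp), add_zero] at h
  simp at h

end CfsgLib.Aschbacher.Symp
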