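import Mathlib
import Cfsg.Agent.Aschbacher.FormsTensor
import Cfsg.Agent.Aschbacher.SimpleAlgebra

/-!
Commutative algebras attached to small tensor factors of a bilinear form: a symmetric plane, and a
symmetric space of dimension three over the field with three elements.
-/

set_option autoImplicit false
set_option linter.unusedSectionVars false

namespace CfsgLib.Aschbacher.Symp

open Matrix Cfsg CfsgLib.Aschbacher.Forms CfsgLib.Aschbacher.Centre

open scoped Kronecker

variable {ι : Type} [Fintype ι] [DecidableEq ι] {F : Type*} [Field F]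
variable {f : (ι → F) → (ι → F) → F}
variable {a b : ℕ} {e : ι ≃ Fin a × Fin b} {P : GL ι F}

theorem pullGram_swap {X : Matrix (Fin a) (Fin a) F} {C : Matrix (Fin b) (Fin b) F}
    (h : pullGram f e P = X ⊗ₖ C) :
    pullGram f (e.trans (Equiv.prodComm _ _)) P = C ⊗ₖ X := by
  ext ⟨k, i⟩ ⟨l, j⟩
  have h1 := congrFun (congrFun h (i, k)) (j, l)
  simp only [Matrix.kroneckerMap_apply] at h1
  rw [Matrix.kroneckerMap_apply, mul_comm, ← h1]
  have key : ∀ i k, emb (e.trans (Equiv.prodComm _ _)) P (Pi.single (k, i) 1 : Fin b × Fin a → F) =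
      emb e P (Pi.single (i, k) 1) := fun i k => by
    simp only [emb]
    congr 1
    funext x
    simp [Pi.single_apply, Prod.ext_iff, and_comm]
  simp only [pullGram, key]

/-- A set of commuting operators on the second factor, closed under adjoints and under conjugation by
similitudes, gives a commutative algebra. -/
theorem comm_of_factor [NeZero a] [NeZero b] {σ : F →+* F} {ε : F} (hf : RForm σ ε f)
    (hσ : σ = RingHom.id F)
    {X : Matrix (Fin a) (Fin a) F} {C : Matrix (Fin b) (Fin b) F} (hX : IsUnit X) (hC : IsUnit C)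
    (hΓ : pullGram f e P = X ⊗ₖ C) {H : Subgroup (GL ι F)}
    (hH : H ≤ Geo.tensorProductSubgroup a b e P)
    (hiso : ∀ g ∈ H, ∀ u v, f ((g : Matrix ι ι F) *ᵥ u) ((g : Matrix ι ι F) *ᵥ v) = f u v)
    (S : Set (Matrix (Fin b) (Fin b) F)) (hcomm : ∀ x ∈ S, ∀ y ∈ S, x * y = y * x)
    (hadj : ∀ M ∈ S, ∃ M' ∈ Algebra.adjoin F S, Mᵀ * C = C * M')
    (hconj : ∀ B : GL (Fin b) F,
      (∃ t : F, t ≠ 0 ∧ (B : Matrix (Fin b) (Fin b) F)ᵀ * C * (B : Matrix (Fin b) (Fin b) F) = t • C) →
      ∀ M ∈ S, (B : Matrix (Fin b) (Fin b) F) * M * ((B⁻¹ : GL (Fin b) F) : Matrix (Fin b) (Fin b) F) ∈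
        Algebra.adjoin F S)
    (hns : ∃ M ∈ S, ∀ c : F, M ≠ algebraMap F _ c) :
    ∃ Z : Subalgebra F (Matrix ι ι F), (∀ x ∈ Z, ∀ y ∈ Z, x * y = y * x) ∧ Closed f Z ∧
      Normalises H Z ∧ Z ≠ ⊥ := by
  classical
  subst hσ
  let κ : Matrix (Fin b) (Fin b) F →ₐ[F] Matrix (Fin a × Fin b) (Fin a × Fin b) F :=
    AlgHom.ofLinearMap
      { toFun := fun M => (1 : Matrix (Fin a) (Fin a) F) ⊗ₖ M
        map_add' := fun M N => Matrix.kronecker_add _ M N
        map_smul' := fun c M => Matrix.kronecker_smul c _ M }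
      Matrix.one_kronecker_one
      (fun x y => by
        show (1 : Matrix (Fin a) (Fin a) F) ⊗ₖ (x * y) = (1 ⊗ₖ x) * (1 ⊗ₖ y)
        rw [← Matrix.mul_kronecker_mul, one_mul])
  let τ : Matrix (Fin b) (Fin b) F →ₐ[F] Matrix ι ι F :=
    (CfsgLib.Aschbacher.tconj e P).toAlgHom.comp κ
  have hτ : ∀ M, τ M = CfsgLib.Aschbacher.tconj e P ((1 : Matrix (Fin a) (Fin a) F) ⊗ₖ M) := fun _ => rfl
  have hτinj : Function.Injective τ := by
    intro M M' h
    rw [hτ, hτ] at h
    have := (CfsgLib.Aschbacher.tconj e P).injective h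
    ext k l
    simpa [Matrix.kroneckerMap_apply] using congrFun (congrFun this ((0 : Fin a), k)) ((0 : Fin a), l)
  have hisAdj : ∀ M M', Mᵀ * C = C * M' → IsAdj f (τ M) (τ M') := by
    intro M M' h u v
    obtain ⟨x, rfl⟩ := emb_surjective (e := e) (P := P) u
    obtain ⟨y, rfl⟩ := emb_surjective (e := e) (P := P) v
    rw [hτ, hτ, tconj_mulVec_emb, tconj_mulVec_emb, form_emb hf.sesq, form_emb hf.sesq, hΓ,
      formOfGram_eq, formOfGram_eq]
    simp only [RingHom.id_apply]
    rw [Matrix.mulVec_mulVec, ← Matrix.mul_kronecker_mul, mul_one, ← h,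
      show (X ⊗ₖ (Mᵀ * C)) = ((1 : Matrix (Fin a) (Fin a) F) ⊗ₖ M)ᵀ * (X ⊗ₖ C) by
        rw [← Matrix.kroneckerMap_transpose, Matrix.transpose_one, ← Matrix.mul_kronecker_mul, one_mul],
      ← Matrix.mulVec_mulVec, Matrix.dotProduct_mulVec x, Matrix.vecMul_transpose]
  refine ⟨(Algebra.adjoin F S).map τ, ?_, ?_, ?_, ?_⟩
  · rintro _ ⟨x, hx, rfl⟩ _ ⟨y, hy, rfl⟩
    show τ x * τ y = τ y * τ x
    rw [← map_mul, ← map_mul]
    congr 1
    have h1 : ∀ z ∈ Algebra.adjoin F S, ∀ w ∈ S, z * w = w * z := by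
      intro z hz w hw
      induction hz using Algebra.adjoin_induction with
      | mem z hz => exact hcomm z hz w hw
      | algebraMap c => exact Algebra.commutes c w
      | add z z' _ _ hz hz' => rw [add_mul, mul_add, hz, hz']
      | mul z z' _ _ hz hz' => rw [mul_assoc, hz', ← mul_assoc, hz, mul_assoc]
    induction hy using Algebra.adjoin_induction with
    | mem y hy => exact h1 x hx y hy
    | algebraMap c => exact (Algebra.commutes c x).symm
    | add y y' _ _ hy hy' => rw [mul_add, add_mul, hy, hy']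
    | mul y y' _ _ hy hy' => rw [← mul_assoc, hy, mul_assoc, hy', ← mul_assoc]
  · have key : ∀ M ∈ Algebra.adjoin F S, ∃ M' ∈ Algebra.adjoin F S, Mᵀ * C = C * M' := by
      intro M hM
      induction hM using Algebra.adjoin_induction with
      | mem M hM => exact hadj M hM
      | algebraMap c =>
        refine ⟨_, Subalgebra.algebraMap_mem _ c, ?_⟩
        simp [Algebra.algebraMap_eq_smul_one, Matrix.transpose_smul, Matrix.transpose_one]
      | add M N _ _ hM hN =>
        obtain ⟨M', hM', h1⟩ := hM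
        obtain ⟨N', hN', h2⟩ := hN
        exact ⟨M' + N', add_mem hM' hN', by rw [Matrix.transpose_add, add_mul, h1, h2, mul_add]⟩
      | mul M N _ _ hM hN =>
        obtain ⟨M', hM', h1⟩ := hM
        obtain ⟨N', hN', h2⟩ := hN
        refine ⟨N' * M', mul_mem hN' hM', ?_⟩
        rw [Matrix.transpose_mul, mul_assoc, h1, ← mul_assoc, h2, mul_assoc]
    rintro _ ⟨M, hM, rfl⟩
    obtain ⟨M', hM', h⟩ := key M hM
    exact ⟨τ M', ⟨M', hM', rfl⟩, hisAdj M M' h⟩
  · intro g hg
    rintro _ ⟨M, hM, rfl⟩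
    obtain ⟨A, B, hAB⟩ := (CfsgLib.Aschbacher.mem_tensorProductSubgroup_iff e P g).1 (hH hg)
    obtain ⟨-, t, ht, hB⟩ := factor_similar hf.sesq hX hC hΓ one_ne_zero
      (fun u v => by rw [one_mul]; exact hiso g hg u v) hAB
    have hB' : (B : Matrix (Fin b) (Fin b) F)ᵀ * C * (B : Matrix (Fin b) (Fin b) F) = t • C := by
      simpa using hB
    have h1 : ∀ M ∈ Algebra.adjoin F S,
        conjAlg B M ∈ Algebra.adjoin F S := by
      intro M hM
      have : (Algebra.adjoin F S).map (conjAlg B).toAlgHom ≤ Algebra.adjoin F S := by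
        rw [AlgHom.map_adjoin, Algebra.adjoin_le_iff]
        rintro _ ⟨y, hy, rfl⟩
        exact hconj B ⟨t, ht, hB'⟩ y hy
      exact this ⟨M, hM, rfl⟩
    refine ⟨conjAlg B M, h1 M hM, ?_⟩
    show τ _ = (g : Matrix ι ι F) * τ M * ((g⁻¹ : GL ι F) : Matrix ι ι F)
    have h2 : τ (conjAlg B M) * (g : Matrix ι ι F) = (g : Matrix ι ι F) * τ M := by
      rw [hτ, hτ, hAB, ← map_mul, ← map_mul, ← Matrix.mul_kronecker_mul, ← Matrix.mul_kronecker_mul,
        one_mul, mul_one, conjAlg_apply, Units.inv_mul_cancel_right]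
    rw [← h2, Units.mul_inv_cancel_right]
  · obtain ⟨M, hM, hMc⟩ := hns
    intro hbot
    have : τ M ∈ (⊥ : Subalgebra F (Matrix ι ι F)) := hbot ▸ ⟨M, Algebra.subset_adjoin hM, rfl⟩
    obtain ⟨c, hc⟩ := Algebra.mem_bot.1 this
    exact hMc c (hτinj (hc.symm.trans (τ.commutes c).symm))

/-- A symmetric two-dimensional factor in odd characteristic. -/
theorem comm_of_plane [NeZero a] {e : ι ≃ Fin a × Fin 2} {ε : F} (hf : RForm (RingHom.id F) ε f)
    (h2 : (2 : F) ≠ 0) {X : Matrix (Fin a) (Fin a) F} {C : Matrix (Fin 2) (Fin 2) F}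
    (hX : IsUnit X) (hC : IsUnit C) (hCs : ∀ k l, C k l = C l k)
    (hΓ : pullGram f e P = X ⊗ₖ C) {H : Subgroup (GL ι F)}
    (hH : H ≤ Geo.tensorProductSubgroup a 2 e P)
    (hiso : ∀ g ∈ H, ∀ u v, f ((g : Matrix ι ι F) *ᵥ u) ((g : Matrix ι ι F) *ᵥ v) = f u v) :
    ∃ Z : Subalgebra F (Matrix ι ι F), (∀ x ∈ Z, ∀ y ∈ Z, x * y = y * x) ∧ Closed f Z ∧
      Normalises H Z ∧ Z ≠ ⊥ := by
  obtain ⟨u, rfl⟩ := hC
  let A₀ : Matrix (Fin 2) (Fin 2) F := !![0, 1; -1, 0]
  have hA₀ : ∀ B : Matrix (Fin 2) (Fin 2) F, Bᵀ * A₀ * B = B.det • A₀ := by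
    intro B
    ext i j
    fin_cases i <;> fin_cases j <;>
      simp [A₀, Matrix.mul_apply, Fin.sum_univ_two, Matrix.det_fin_two] <;> ring
  have hA₀t : A₀ᵀ = -A₀ := by
    ext i j
    fin_cases i <;> fin_cases j <;> simp [A₀]
  set Ci : Matrix (Fin 2) (Fin 2) F := ((u⁻¹ : GL (Fin 2) F) : Matrix (Fin 2) (Fin 2) F)
  have hut : (u : Matrix (Fin 2) (Fin 2) F)ᵀ = u := Matrix.ext fun i j => (hCs i j).symm
  have hCit : Ciᵀ = Ci := by
    have h1 : Ciᵀ * (u : Matrix (Fin 2) (Fin 2) F) = 1 := by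
      conv_lhs => arg 2; rw [← hut]
      rw [← Matrix.transpose_mul, Units.mul_inv, Matrix.transpose_one]
    calc Ciᵀ = Ciᵀ * ((u : Matrix (Fin 2) (Fin 2) F) * Ci) := by rw [Units.mul_inv, mul_one]
      _ = Ci := by rw [← mul_assoc, h1, one_mul]
  refine comm_of_factor hf rfl hX u.isUnit hΓ hH hiso {Ci * A₀}
    (fun x hx y hy => by rw [hx, hy]) (fun M hM => ?_) (fun B hB M hM => ?_) ⟨_, Set.mem_singleton _, fun c hc => ?_⟩
  · subst hM
    refine ⟨-(Ci * A₀), neg_mem (Algebra.subset_adjoin (Set.mem_singleton _)), ?_⟩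
    rw [Matrix.transpose_mul, hA₀t, hCit, neg_mul, neg_mul, mul_assoc, Units.inv_mul, mul_one, mul_neg,
      ← mul_assoc, Units.mul_inv, one_mul]
  · subst hM
    obtain ⟨t, ht, hB⟩ := hB
    have hdet : (B : Matrix (Fin 2) (Fin 2) F).det ≠ 0 :=
      ((Matrix.isUnit_iff_isUnit_det _).1 B.isUnit).ne_zero
    have hCi : (u : Matrix (Fin 2) (Fin 2) F) * Ci = 1 := Units.mul_inv u
    have hBu : IsUnit (B : Matrix (Fin 2) (Fin 2) F).det := isUnit_iff_ne_zero.2 hdet
    rw [Matrix.coe_units_inv]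
    generalize hW : (B : Matrix (Fin 2) (Fin 2) F) = W at hB hdet hBu ⊢
    have hWW : W * W⁻¹ = 1 := Matrix.mul_nonsing_inv W hBu
    have h1 : W * Ci * Wᵀ = t • Ci := by
      have h : (Wᵀ * (u : Matrix (Fin 2) (Fin 2) F)) * (t⁻¹ • (W * Ci)) = 1 := by
        rw [Matrix.mul_smul, ← mul_assoc, hB, Matrix.smul_mul, hCi, smul_smul, inv_mul_cancel₀ ht,
          one_smul]
      have h' : (t⁻¹ • (W * Ci)) * (Wᵀ * (u : Matrix (Fin 2) (Fin 2) F)) = 1 := mul_eq_one_comm.1 h
      calc W * Ci * Wᵀ = W * Ci * (Wᵀ * ((u : Matrix (Fin 2) (Fin 2) F) * Ci)) := by rw [hCi, mul_one]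
        _ = t • ((t⁻¹ • (W * Ci)) * (Wᵀ * (u : Matrix (Fin 2) (Fin 2) F)) * Ci) := by
            rw [Matrix.smul_mul, Matrix.smul_mul, smul_smul, mul_inv_cancel₀ ht, one_smul]
            simp only [mul_assoc]
        _ = t • Ci := by rw [h', one_mul]
    have h2' : A₀ * W⁻¹ = W.det⁻¹ • (Wᵀ * A₀) := by
      calc A₀ * W⁻¹ = W.det⁻¹ • ((W.det • A₀) * W⁻¹) := by
            rw [Matrix.smul_mul, smul_smul, inv_mul_cancel₀ hdet, one_smul]
        _ = W.det⁻¹ • (Wᵀ * A₀) := by rw [← hA₀, mul_assoc (Wᵀ * A₀) W W⁻¹, hWW, mul_one]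
    have h3 : W * (Ci * A₀) * W⁻¹ = (W.det⁻¹ * t) • (Ci * A₀) := by
      calc W * (Ci * A₀) * W⁻¹ = W * Ci * (A₀ * W⁻¹) := by simp only [mul_assoc]
        _ = W.det⁻¹ • ((W * Ci * Wᵀ) * A₀) := by rw [h2', Matrix.mul_smul]; simp only [mul_assoc]
        _ = (W.det⁻¹ * t) • (Ci * A₀) := by rw [h1, Matrix.smul_mul, smul_smul]
    rw [h3]
    exact Subalgebra.smul_mem _ (Algebra.subset_adjoin (Set.mem_singleton _)) _
  · have hc' : A₀ = c • (u : Matrix (Fin 2) (Fin 2) F) := by
      have := congrArg (fun Y => (u : Matrix (Fin 2) (Fin 2) F) * Y) hc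
      simp only [← mul_assoc, Algebra.algebraMap_eq_smul_one, Matrix.mul_smul, mul_one] at this
      rw [show (u : Matrix (Fin 2) (Fin 2) F) * Ci = 1 from Units.mul_inv u, one_mul] at this
      exact this
    have h01 := congrFun (congrFun hc' 0) 1
    have h10 := congrFun (congrFun hc' 1) 0
    simp [A₀] at h01 h10
    rw [hCs 1 0, ← h01] at h10
    exact h2 (by linear_combination -h10)

/-- A symmetric three-dimensional factor over the field with three elements. -/
theorem comm_of_three [Fintype F] [NeZero a] {e : ι ≃ Fin a × Fin 3} (hf : RForm (RingHom.id F) (-1) f)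
    (hq : Fintype.card F = 3) {X : Matrix (Fin a) (Fin a) F} {C : Matrix (Fin 3) (Fin 3) F}
    (hX : IsUnit X) (hC : IsUnit C) (hCs : ∀ k l, C k l = C l k)
    (hΓ : pullGram f e P = X ⊗ₖ C) {H : Subgroup (GL ι F)}
    (hH : H ≤ Geo.tensorProductSubgroup a 3 e P)
    (hiso : ∀ g ∈ H, ∀ u v, f ((g : Matrix ι ι F) *ᵥ u) ((g : Matrix ι ι F) *ᵥ v) = f u v) :
    ∃ Z : Subalgebra F (Matrix ι ι F), (∀ x ∈ Z, ∀ y ∈ Z, x * y = y * x) ∧ Closed f Z ∧
      Normalises H Z ∧ Z ≠ ⊥ := by
  classical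
  have h3 : (3 : F) = 0 := by
    have h := (Nat.cast_card_eq_zero F)
    rw [hq] at h
    simpa using h
  have hall : ∀ z : F, z = 0 ∨ z = 1 ∨ z = -1 := by
    intro z
    by_contra! h
    have h1 : (1 : F) ≠ -1 := fun h' => one_ne_zero (α := F) (by linear_combination h3 - h')
    have := Finset.card_le_univ ({z, 0, 1, -1} : Finset F)
    rw [Finset.card_insert_of_notMem (by simp [h.1, h.2.1, h.2.2]), Finset.card_insert_of_notMem (by simp),
      Finset.card_insert_of_notMem (by simp [h1]), Finset.card_singleton, hq] at this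
    omega
  have h2 : (2 : F) ≠ 0 := fun h => one_ne_zero (α := F) (by linear_combination h3 - h)
  -- an orthogonal basis with equal values
  obtain ⟨T, d, hd, hT⟩ : ∃ (T : GL (Fin 3) F) (d : F), d ≠ 0 ∧
      (T : Matrix (Fin 3) (Fin 3) F)ᵀ * C * (T : Matrix (Fin 3) (Fin 3) F) = d • 1 := by
    haveI : Invertible (2 : F) := invertibleOfNonzero h2
    obtain ⟨v, hv⟩ := LinearMap.BilinForm.exists_orthogonal_basis (B := Matrix.toBilin' C) (by
      constructor
      intro x y
      simp only [Matrix.toBilin'_apply']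
      rw [Matrix.dotProduct_mulVec, ← Matrix.mulVec_transpose,
        show Cᵀ = C from Matrix.ext fun i j => (hCs i j).symm, dotProduct_comm, RingHom.id_apply])
    have hE : Module.finrank F (Fin 3 → F) = 3 := by rw [Module.finrank_pi, Fintype.card_fin]
    let v' := v.reindex (finCongr hE)
    let T₁ : Matrix (Fin 3) (Fin 3) F := (Pi.basisFun F (Fin 3)).toMatrix v'
    have hT₁ : IsUnit T₁ := by
      haveI := (Pi.basisFun F (Fin 3)).invertibleToMatrix v'
      exact isUnit_of_invertible T₁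
    let w : Fin 3 → F := fun i => Matrix.toBilin' C (v' i) (v' i)
    have hdiag : T₁ᵀ * C * T₁ = Matrix.diagonal w := by
      ext i j
      have hTij : ∀ x y, T₁ x y = v' y x := fun x y => by simp [T₁, Module.Basis.toMatrix_apply]
      have hval : (T₁ᵀ * C * T₁) i j = Matrix.toBilin' C (v' i) (v' j) := by
        rw [Matrix.toBilin'_apply', dotProduct, Matrix.mul_assoc, Matrix.mul_apply]
        refine Finset.sum_congr rfl fun x _ => ?_
        rw [Matrix.transpose_apply, Matrix.mul_apply, hTij, Matrix.mulVec, dotProduct]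
        simp [hTij]
      rw [hval]
      by_cases hij : i = j
      · subst hij; simp [w]
      · rw [Matrix.diagonal_apply_ne _ hij]
        have hne : (finCongr hE).symm i ≠ (finCongr hE).symm j := (finCongr hE).symm.injective.ne hij
        simp only [v', Module.Basis.reindex_apply]
        exact hv hne
    have hw : ∀ i, w i = 1 ∨ w i = -1 := by
      intro i
      refine (hall (w i)).resolve_left fun h => ?_
      have hu : IsUnit (Matrix.diagonal w) := by
        rw [← hdiag]
        exact (((Matrix.isUnit_transpose T₁).2 hT₁).mul hC).mul hT₁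
      rw [Matrix.isUnit_iff_isUnit_det, Matrix.det_diagonal, isUnit_iff_ne_zero] at hu
      exact hu (Finset.prod_eq_zero (Finset.mem_univ i) h)
    obtain ⟨U, d, hd, hU⟩ : ∃ (U : Matrix (Fin 3) (Fin 3) F) (d : F), d ≠ 0 ∧
        Uᵀ * Matrix.diagonal w * U = d • 1 := by
      have hne0 : ∀ i, w i ≠ 0 := fun i => by rcases hw i with h | h <;> rw [h] <;> simp
      have hor : ∀ i j, w i = w j ∨ w i = -w j := fun i j => by
        rcases hw i with h | h <;> rcases hw j with h' | h' <;> simp [h, h']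
      rcases hor 1 0 with h1 | h1 <;> rcases hor 2 0 with h2' | h2'
      · refine ⟨1, w 0, hne0 0, ?_⟩
        rw [Matrix.transpose_one, one_mul, mul_one]
        ext i j
        fin_cases i <;> fin_cases j <;> simp [h1, h2']
      · refine ⟨!![1, 1, 0; 1, -1, 0; 0, 0, 1], w 2, hne0 2, ?_⟩
        ext i j
        fin_cases i <;> fin_cases j <;>
          simp [h1, h2', Matrix.mul_apply, Fin.sum_univ_three] <;>
          linear_combination (w 0) * h3
      · refine ⟨!![1, 0, 1; 0, 1, 0; 1, 0, -1], w 1, hne0 1, ?_⟩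
        ext i j
        fin_cases i <;> fin_cases j <;>
          simp [h1, h2', Matrix.mul_apply, Fin.sum_univ_three] <;>
          linear_combination (w 0) * h3
      · refine ⟨!![1, 0, 0; 0, 1, 1; 0, 1, -1], w 0, hne0 0, ?_⟩
        ext i j
        fin_cases i <;> fin_cases j <;>
          simp [h1, h2', Matrix.mul_apply, Fin.sum_univ_three] <;>
          linear_combination -(w 0) * h3
    have hUu : IsUnit U := by
      have h := congrArg Matrix.det hU
      rw [Matrix.det_mul, Matrix.det_mul, Matrix.det_smul, Matrix.det_one, mul_one] at h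
      rw [Matrix.isUnit_iff_isUnit_det, isUnit_iff_ne_zero]
      intro h0
      rw [h0, mul_zero] at h
      exact pow_ne_zero _ hd h.symm
    refine ⟨(hT₁.mul hUu).unit, d, hd, ?_⟩
    show (T₁ * U)ᵀ * C * (T₁ * U) = _
    rw [← hU, ← hdiag, Matrix.transpose_mul]
    simp only [mul_assoc]
  set Tm : Matrix (Fin 3) (Fin 3) F := (T : Matrix (Fin 3) (Fin 3) F)
  set Ti : Matrix (Fin 3) (Fin 3) F := ((T⁻¹ : GL (Fin 3) F) : Matrix (Fin 3) (Fin 3) F)
  have hTiT : Ti * Tm = 1 := Units.inv_mul T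
  have hTTi : Tm * Ti = 1 := Units.mul_inv T
  have hTtTit : Tiᵀ * Tmᵀ = 1 := by rw [← Matrix.transpose_mul, hTTi, Matrix.transpose_one]
  have hCT : C * Tm = d • Tiᵀ := by
    have := congrArg (fun Y => Tiᵀ * Y) hT
    simp only [← mul_assoc, hTtTit, one_mul, Matrix.mul_smul, mul_one] at this
    exact this
  let E : Fin 3 → Matrix (Fin 3) (Fin 3) F := fun i => Tm * Matrix.single i i 1 * Ti
  have hEE : ∀ i j, E i * E j = E j * E i := by
    intro i j
    rcases eq_or_ne i j with rfl | hij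
    · rfl
    simp only [E, mul_assoc]
    rw [← mul_assoc Ti Tm, hTiT, one_mul, ← mul_assoc (Matrix.single i i (1 : F)) (Matrix.single j j 1) Ti,
      Matrix.single_mul_single_of_ne (h := hij), zero_mul, mul_zero,
      ← mul_assoc Ti Tm, hTiT, one_mul, ← mul_assoc (Matrix.single j j (1 : F)) (Matrix.single i i 1) Ti,
      Matrix.single_mul_single_of_ne (h := hij.symm), zero_mul, mul_zero]
  refine comm_of_factor hf rfl hX hC hΓ hH hiso (Set.range E)
    (by rintro _ ⟨i, rfl⟩ _ ⟨j, rfl⟩; exact hEE i j) ?_ ?_ ⟨E 0, ⟨0, rfl⟩, fun c hc => ?_⟩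
  · rintro _ ⟨i, rfl⟩
    refine ⟨E i, Algebra.subset_adjoin ⟨i, rfl⟩, ?_⟩
    have hTt : Tmᵀ * C = d • Ti := by
      have := congrArg Matrix.transpose hCT
      rwa [Matrix.transpose_mul, Matrix.transpose_smul, Matrix.transpose_transpose,
        show Cᵀ = C from Matrix.ext fun i j => (hCs i j).symm] at this
    calc (E i)ᵀ * C = Tiᵀ * Matrix.single i i 1 * (Tmᵀ * C) := by
          simp [E, Matrix.transpose_mul, Matrix.transpose_single, mul_assoc]
      _ = (d • Tiᵀ) * Matrix.single i i 1 * Ti := by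
          rw [hTt, Matrix.mul_smul, Matrix.smul_mul, Matrix.smul_mul]
      _ = C * E i := by rw [← hCT]; simp [E, mul_assoc]
  · rintro B ⟨t, ht, hB⟩ _ ⟨i, rfl⟩
    set Bm : Matrix (Fin 3) (Fin 3) F := (B : Matrix (Fin 3) (Fin 3) F)
    set Bi : Matrix (Fin 3) (Fin 3) F := ((B⁻¹ : GL (Fin 3) F) : Matrix (Fin 3) (Fin 3) F)
    set R : Matrix (Fin 3) (Fin 3) F := Ti * Bm * Tm with hR
    have hR0 : Rᵀ * R = t • 1 := by
      have h' : d • (Rᵀ * R) = (d * t) • (1 : Matrix (Fin 3) (Fin 3) F) := by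
        calc d • (Rᵀ * R) = Rᵀ * (Tmᵀ * C * Tm) * R := by
              rw [hT, Matrix.mul_smul, mul_one, Matrix.smul_mul]
          _ = Tmᵀ * (Bmᵀ * C * Bm) * Tm := by
              simp only [hR, Matrix.transpose_mul, mul_assoc]
              simp only [← mul_assoc Tiᵀ Tmᵀ, hTtTit, one_mul, ← mul_assoc Tm Ti, hTTi]
          _ = (d * t) • 1 := by
              rw [hB, Matrix.mul_smul, Matrix.smul_mul, hT, smul_smul, mul_comm]
      rw [mul_smul] at h'
      exact smul_right_injective (Matrix (Fin 3) (Fin 3) F) hd h'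
    have ht1 : t = 1 := by
      have h := congrArg Matrix.det hR0
      rw [Matrix.det_mul, Matrix.det_transpose, Matrix.det_smul, Matrix.det_one, mul_one,
        Fintype.card_fin] at h
      rcases hall t with h' | h' | h'
      · exact absurd h' ht
      · exact h'
      · exfalso
        rw [h'] at h
        rcases hall R.det with hr | hr | hr <;> rw [hr] at h <;> ring_nf at h
        · exact one_ne_zero (α := F) (by linear_combination h)
        · exact h2 (by linear_combination h)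
        · exact h2 (by linear_combination h)
    rw [ht1, one_smul] at hR0
    have hRR : R * Rᵀ = 1 := mul_eq_one_comm.1 hR0
    -- each column has a single non-zero entry
    obtain ⟨k, hk, hkx⟩ : ∃ k, (∀ x, x ≠ k → R x i = 0) ∧ R k i * R k i = 1 := by
      have hcol : ∑ x, R x i * R x i = 1 := by
        simpa [Matrix.mul_apply, Matrix.transpose_apply] using congrFun (congrFun hR0 i) i
      rw [Fin.sum_univ_three] at hcol
      have sq1 : ∀ z : F, z ≠ 0 → z * z = 1 := fun z hz => by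
        rcases hall z with h | h | h
        · exact absurd h hz
        · rw [h, one_mul]
        · rw [h, neg_mul_neg, one_mul]
      by_cases a0 : R 0 i = 0 <;> by_cases a1 : R 1 i = 0 <;> by_cases a2 : R 2 i = 0
      · simp [a0, a1, a2] at hcol
      · exact ⟨2, fun x hx => by fin_cases x <;> first | exact a0 | exact a1 | exact absurd rfl hx,
          sq1 _ a2⟩
      · exact ⟨1, fun x hx => by fin_cases x <;> first | exact a0 | exact a2 | exact absurd rfl hx,
          sq1 _ a1⟩
      · exfalso; rw [a0, sq1 _ a1, sq1 _ a2] at hcol; exact one_ne_zero (α := F) (by linear_combination hcol)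
      · exact ⟨0, fun x hx => by fin_cases x <;> first | exact a1 | exact a2 | exact absurd rfl hx,
          sq1 _ a0⟩
      · exfalso; rw [a1, sq1 _ a0, sq1 _ a2] at hcol; exact one_ne_zero (α := F) (by linear_combination hcol)
      · exfalso; rw [a2, sq1 _ a0, sq1 _ a1] at hcol; exact one_ne_zero (α := F) (by linear_combination hcol)
      · exfalso; rw [sq1 _ a0, sq1 _ a1, sq1 _ a2] at hcol
        exact one_ne_zero (α := F) (by linear_combination h3 - hcol)
    have hRE : R * Matrix.single i i (1 : F) * Rᵀ = Matrix.single k k (1 : F) := by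
      ext x y
      have : (R * Matrix.single i i (1 : F) * Rᵀ) x y = R x i * R y i := by
        rw [Matrix.mul_apply, Finset.sum_eq_single i]
        · simp
        · intro z _ hz; simp [Matrix.mul_single_apply_of_ne _ _ _ _ _ hz]
        · simp
      rw [this]
      by_cases hx : x = k
      · subst hx
        by_cases hy : y = x
        · subst hy; simpa using hkx
        · simp [hk y hy, Ne.symm hy]
      · simp [hk x hx, Ne.symm hx]
    have hRinv : Ti * Bi * Tm = Rᵀ := by
      calc Ti * Bi * Tm = Ti * Bi * Tm * (R * Rᵀ) := by rw [hRR, mul_one]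
        _ = Ti * (Bi * (Tm * Ti) * Bm) * Tm * Rᵀ := by simp only [hR, mul_assoc]
        _ = Rᵀ := by rw [hTTi, mul_one, Units.inv_mul, mul_one, hTiT, one_mul]
    have : Bm * E i * Bi = E k := by
      calc Bm * E i * Bi = (Tm * Ti) * Bm * (Tm * Matrix.single i i 1 * Ti) * (Bi * (Tm * Ti)) := by
            rw [hTTi, one_mul, mul_one]
        _ = Tm * (R * Matrix.single i i 1 * (Ti * Bi * Tm)) * Ti := by simp only [hR, mul_assoc]
        _ = E k := by rw [hRinv, hRE]
    rw [this]
    exact Algebra.subset_adjoin ⟨k, rfl⟩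
  · have h := congrArg (fun Y => Ti * Y * Tm) hc
    simp only [E, ← mul_assoc, hTiT, one_mul, ← Algebra.commutes] at h
    rw [mul_assoc _ Ti Tm, hTiT, mul_one, mul_assoc _ Ti Tm, hTiT, mul_one] at h
    have h00 := congrFun (congrFun h 0) 0
    have h11 := congrFun (congrFun h 1) 1
    simp [Matrix.algebraMap_matrix_apply] at h00 h11
    rw [← h00] at h11
    exact one_ne_zero h11.symm

end CfsgLib.Aschbacher.Symp
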