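import Mathlib
import Cfsg.Agent.Aschbacher.SympMembers
import Cfsg.Agent.Aschbacher.SympFrames
import Cfsg.Agent.Aschbacher.SympTensor
import Cfsg.Agent.Aschbacher.Reduction
import Cfsg.Agent.AschPrime.Rational
import Cfsg.Agent.AschPrime.Twist

/-!
Maximal subgroups of the symplectic group in dimensions that are neither prime powers nor perfect
powers.
-/

set_option autoImplicit false
set_option linter.unusedSectionVars false
set_option linter.style.haveILetI false

namespace CfsgLib.Aschbacher.Symp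

open Matrix Cfsg Module CfsgLib.Aschbacher CfsgLib.Aschbacher.Centre CfsgLib.Aschbacher.Forms
  CfsgLib.Aschbacher.Reduction CfsgLib.AltFormTransv

open scoped Kronecker

variable {ι : Type} [Fintype ι] [DecidableEq ι] {F : Type*} [Field F] [Fintype F]
variable {f : (ι → F) → (ι → F) → F} {I H : Subgroup (GL ι F)} {m : ℕ}

/-- The possibilities for a maximal subgroup `H` of the isometry group `I` in dimension `2 m`. -/
def Outcome (f : (ι → F) → (ι → F) → F) (I H : Subgroup (GL ι F)) (m : ℕ) : Prop :=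
  (∃ W : Submodule F (ι → F), W ≠ ⊥ ∧ Geo.IsTotallySingularFor f W ∧
    H = Geo.subspaceStabilizer W ⊓ I) ∨
  (∃ W : Submodule F (ι → F), W ≠ ⊥ ∧ Geo.IsNondegenerateOn f W ∧ finrank F W < m ∧
    H = Geo.subspaceStabilizer W ⊓ I) ∨
  (∃ (t k : ℕ) (D : Fin t → Submodule F (ι → F)), t * k = 2 * m ∧ 2 ≤ t ∧ Even k ∧
    (k = 2 → 3 ≤ Fintype.card F) ∧ Geo.IsNondegenerateMDecomposition f k D ∧
    H = Geo.decompositionStabilizer D ⊓ I) ∨
  (Odd (Fintype.card F) ∧ ∃ D : Fin 2 → Submodule F (ι → F), Geo.IsMDecomposition m D ∧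
    (∀ i, Geo.IsTotallySingularFor f (D i)) ∧ H = Geo.decompositionStabilizer D ⊓ I) ∨
  (∃ (r : ℕ) (K : Subalgebra F (Matrix ι ι F)), r.Prime ∧ r ∣ m ∧ Geo.IsFieldSubalgebra r K ∧
    Geo.IsSelfAdjointFor f K ∧ (∀ k ∈ K, ∀ v, f (k *ᵥ v) v = 0) ∧
    H = Geo.subalgebraNormalizer K ⊓ I) ∨
  (Odd (Fintype.card F) ∧ ∃ K : Subalgebra F (Matrix ι ι F), Geo.IsFieldSubalgebra 2 K ∧
    Geo.IsAdjointClosedFor f K ∧ ¬ Geo.IsSelfAdjointFor f K ∧ H = Geo.subalgebraNormalizer K ⊓ I) ∨
  (Odd (Fintype.card F) ∧ ∃ (a b : ℕ) (e : ι ≃ Fin a × Fin b) (P : GL ι F)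
    (f₁ : (Fin a → F) → (Fin a → F) → F) (f₂ : (Fin b → F) → (Fin b → F) → F),
    2 ≤ a ∧ Even a ∧ 3 ≤ b ∧ (b = 3 → 5 ≤ Fintype.card F) ∧ a * b = 2 * m ∧
    Geo.IsSymplecticForm f₁ ∧ Geo.IsSymmetricForm f₂ ∧ Geo.IsTensorFormStructure id f f₁ f₂ e P ∧
    H = Geo.tensorProductSubgroup a b e P ⊓ I) ∨
  (∃ (F₀ : Subfield F) (r : ℕ) (P : GL ι F) (ζ : F), r.Prime ∧ Fintype.card F = Nat.card F₀ ^ r ∧
    ζ ≠ 0 ∧ Geo.IsFormRationalStructure f F₀ ζ P ∧ H = Geo.subfieldSubgroup F₀ P ⊓ I) ∨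
  (¬ Odd (Fintype.card F) ∧ ∃ Q : (ι → F) → F, Geo.IsNondegenerateQuadraticForm Q ∧
    (∀ u v, QuadraticMap.polar Q u v = f u v) ∧ H = Geo.quadSimilarityGroup Q ⊓ I) ∨
  Geo.InSymplecticResidualClass H

theorem two_eq_zero_of_not_odd (h : ¬ Odd (Fintype.card F)) : (2 : F) = 0 := by
  by_contra h2
  exact h (odd_card_of_two_ne_zero h2)

/-- An involution of a finite field is `x ↦ x ^ q`. -/
theorem exists_q {σ : F ≃+* F} (hne : σ ≠ RingEquiv.refl F) (hinv : ∀ x, σ (σ x) = x) :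
    ∃ (q : ℕ) (hF : Fintype.card F = q ^ 2), ∀ x, σ x = CfsgLib.AschPrime.qFrob hF x := by
  classical
  let L : Subfield F := RingHom.eqLocusField σ.toRingHom (RingHom.id F)
  let τ : F ≃ₐ[L] F := AlgEquiv.ofRingEquiv (f := σ) fun c => c.2
  let G := Subgroup.zpowers τ
  have hord : orderOf τ = 2 := by
    refine orderOf_eq_prime (AlgEquiv.ext fun x => by rw [sq]; exact hinv x) fun h => hne ?_
    exact RingEquiv.ext fun x => AlgEquiv.congr_fun h x
  have hcard2 : finrank L F = 2 := by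
    have h1 : finrank (IntermediateField.fixedField G) F = 2 := by
      rw [IntermediateField.finrank_fixedField_eq_card, Nat.card_zpowers, hord]
    have h2 : IntermediateField.fixedField G = ⊥ := by
      rw [eq_bot_iff]
      intro x hx
      rw [IntermediateField.mem_bot]
      exact ⟨⟨x, hx ⟨τ, Subgroup.mem_zpowers τ⟩⟩, rfl⟩
    rwa [h2, IntermediateField.finrank_bot'] at h1
  have hF : Fintype.card F = Nat.card L ^ 2 := by
    rw [← Nat.card_eq_fintype_card, Module.natCard_eq_pow_finrank (K := L) (V := F), hcard2]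
  refine ⟨Nat.card L, hF, fun x => ?_⟩
  let φ : F ≃ₐ[L] F := AlgEquiv.ofRingEquiv (f := CfsgLib.AschPrime.qFrob hF) fun c => by
    show (c : F) ^ Nat.card L = c
    haveI := Fintype.ofFinite L
    rw [Nat.card_eq_fintype_card]
    exact congrArg Subtype.val (FiniteField.pow_card c)
  have hφ : φ ≠ 1 := fun h => by
    obtain ⟨t, ht⟩ := CfsgLib.AschPrime.exists_pow_ne_self hF
    exact ht (AlgEquiv.congr_fun h t)
  have hG : Nat.card (F ≃ₐ[L] F) = 2 := by rw [IsGalois.card_aut_eq_finrank, hcard2]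
  have hτ : τ ≠ 1 := fun h => by rw [h, orderOf_one] at hord; omega
  have := (Nat.card_eq_two_iff' (1 : F ≃ₐ[L] F)).1 hG
  exact AlgEquiv.congr_fun (this.unique hτ hφ) x

section

variable [Nonempty ι]

/-- A group fixing a non-degenerate bilinear form and a unitary form is realised over the fixed field. -/
theorem realisable_of_bilinear_unitary (hbil : Geo.IsBilinearForm f) (hnd : Geo.IsNondegenerateForm f)
    {P : Subgroup (GL ι F)}
    (hP : Geo.ActsAbsolutelyIrreducibly (Geo.matrixSet P))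
    (hfix : Geo.FixesForm (Geo.matrixSet P) f) {σ : F ≃+* F} {h : (ι → F) → (ι → F) → F}
    (hh : Geo.IsUnitaryForm σ h) (hfixh : Geo.FixesForm (Geo.matrixSet P) h) :
    ∃ F₀ : Subfield F, F₀ ≠ ⊤ ∧ Geo.RealisableOver F₀ (Geo.matrixSet P) := by
  obtain ⟨q, hF, hq⟩ := exists_q hh.ne_refl hh.involutive
  refine ⟨CfsgLib.AschPrime.fixedField hF, fun htop => ?_, ?_⟩
  · obtain ⟨t, ht⟩ := CfsgLib.AschPrime.exists_pow_ne_self hF
    exact ht ((CfsgLib.AschPrime.mem_fixedField hF).1 (htop ▸ Subfield.mem_top t))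
  set G := Geo.gramMatrix f
  set K := Geo.gramMatrix h
  have hGd : G.det ≠ 0 := det_gramMatrix_ne_zero (.of_bilinear hbil) hnd
  have hKd : K.det ≠ 0 := det_gramMatrix_ne_zero (.of_unitary hh) hh.nondegenerate
  have hGu : IsUnit G.det := isUnit_iff_ne_zero.2 hGd
  refine CfsgLib.AschPrime.realisableOver_fixed_of_twist hF hP (G⁻¹ * K) ?_ fun s hs => ?_
  · rw [Matrix.det_mul, Matrix.det_nonsing_inv]
    exact ((isUnit_ringInverse).2 hGu).mul (isUnit_iff_ne_zero.2 hKd)
  · have h1 : sᵀ * (G * s) = G := by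
      simpa using gramMatrix_of_fixes (.of_bilinear hbil) (hfix s hs)
    have h2 : sᵀ * (K * s.map (CfsgLib.AschPrime.qFrob hF : F ≃+* F).toRingHom) = K := by
      have := gramMatrix_of_fixes (IsSesquiForm.of_unitary hh) (hfixh s hs)
      rwa [show σ.toRingHom = (CfsgLib.AschPrime.qFrob hF : F ≃+* F).toRingHom from
        RingHom.ext hq] at this
    have hs0 : IsUnit sᵀ.det := by
      rw [isUnit_iff_ne_zero]
      intro h0
      apply hGd
      rw [← h1, Matrix.det_mul, h0, zero_mul]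
    have hst : sᵀ⁻¹ * G = G * s := by
      rw [← Matrix.nonsing_inv_mul_cancel_left sᵀ (G * s) hs0, h1]
    have hsk : sᵀ⁻¹ * K = K * s.map (CfsgLib.AschPrime.qFrob hF : F ≃+* F).toRingHom := by
      rw [← Matrix.nonsing_inv_mul_cancel_left sᵀ (K * s.map _) hs0, h2]
    calc G⁻¹ * K * s.map (CfsgLib.AschPrime.qFrob hF : F ≃+* F).toRingHom
        = G⁻¹ * (sᵀ⁻¹ * G) * (G⁻¹ * K) := by
          rw [mul_assoc G⁻¹ K, ← hsk, mul_assoc G⁻¹, mul_assoc sᵀ⁻¹ G,
            Matrix.mul_nonsing_inv_cancel_left _ _ hGu]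
      _ = s * (G⁻¹ * K) := by rw [hst, Matrix.nonsing_inv_mul_cancel_left _ _ hGu]

/-- A group fixing the alternating form and a unitary form is realised over the fixed field. -/
theorem realisable_of_unitary (hf : Geo.IsSymplecticForm f) {P : Subgroup (GL ι F)}
    (hP : Geo.ActsAbsolutelyIrreducibly (Geo.matrixSet P))
    (hfix : Geo.FixesForm (Geo.matrixSet P) f) {σ : F ≃+* F} {h : (ι → F) → (ι → F) → F}
    (hh : Geo.IsUnitaryForm σ h) (hfixh : Geo.FixesForm (Geo.matrixSet P) h) :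
    ∃ F₀ : Subfield F, F₀ ≠ ⊤ ∧ Geo.RealisableOver F₀ (Geo.matrixSet P) :=
  realisable_of_bilinear_unitary hf.bilinear hf.nondegenerate hP hfix hh hfixh

/-- Isometries normalising an absolutely irreducible group that fixes a quadratic form. -/
theorem quad_of_fixed (hf : Geo.IsSymplecticForm f) (hI : ∀ g ∈ H,
      ∀ u v, f ((g : Matrix ι ι F) *ᵥ u) ((g : Matrix ι ι F) *ᵥ v) = f u v)
    (hn : 2 ≤ Fintype.card ι) {P : Subgroup (GL ι F)}
    (hP : Geo.ActsAbsolutelyIrreducibly (Geo.matrixSet P))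
    (hnorm : ∀ h ∈ H, ∀ x ∈ P, h * x * h⁻¹ ∈ P) (hfix : Geo.FixesForm (Geo.matrixSet P) f)
    {Q : (ι → F) → F} (hQ : Geo.IsNondegenerateQuadraticForm Q)
    (hQfix : Geo.FixesQuadForm (Geo.matrixSet P) Q) :
    ¬ Odd (Fintype.card F) ∧ ∃ Q' : (ι → F) → F, Geo.IsNondegenerateQuadraticForm Q' ∧
      (∀ u v, QuadraticMap.polar Q' u v = f u v) ∧ H ≤ Geo.quadSimilarityGroup Q' := by
  obtain ⟨c, hc⟩ := exists_eq_mul_of_fixes hP (IsSesquiForm.of_bilinear hf.bilinear)
    (IsSesquiForm.of_bilinear hQ.polar_bilinear) hf.nondegenerate hfix (polar_fixes hQfix)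
  obtain ⟨v₀, w₀, hvw⟩ := IsNondegenerateForm.exists_ne (by omega) hQ.nondegenerate
  have hc0 : c ≠ 0 := fun h => hvw (by rw [hc, h, zero_mul])
  have hodd : ¬ Odd (Fintype.card F) := by
    intro ho
    have h2 := two_ne_zero_of_odd_card ho
    apply hvw
    have h : QuadraticMap.polar Q v₀ w₀ = - QuadraticMap.polar Q v₀ w₀ := by
      conv_rhs => rw [QuadraticMap.polar_comm, hc, hf.skew, mul_neg, neg_neg, ← hc]
    exact (mul_eq_zero.1 (show (2 : F) * QuadraticMap.polar Q v₀ w₀ = 0 by linear_combination h)).resolve_left h2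
  refine ⟨hodd, fun v => c⁻¹ * Q v, ?_⟩
  have hpol : ∀ u v, QuadraticMap.polar (fun v => c⁻¹ * Q v) u v = f u v := by
    intro u v
    have h := hc u v
    simp only [QuadraticMap.polar] at h ⊢
    rw [← mul_sub, ← mul_sub, h, inv_mul_cancel_left₀ hc0]
  have hfun : QuadraticMap.polar (fun v => c⁻¹ * Q v) = f := funext₂ hpol
  have hQ' : Geo.IsNondegenerateQuadraticForm (fun v => c⁻¹ * Q v) :=
    ⟨fun a v => by rw [hQ.smul]; ring, hfun.symm ▸ hf.bilinear, hfun.symm ▸ hf.nondegenerate⟩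
  refine ⟨hQ', hpol, fun g hg => ⟨1, fun v => ?_⟩⟩
  let D : (ι → F) → F := fun v => c⁻¹ * Q ((g : Matrix ι ι F) *ᵥ v) - c⁻¹ * Q v
  have hDadd : ∀ u v, D (u + v) = D u + D v := fun u v => by
    have h1 := hpol ((g : Matrix ι ι F) *ᵥ u) ((g : Matrix ι ι F) *ᵥ v)
    rw [hI g hg, ← hpol] at h1
    simp only [QuadraticMap.polar, ← Matrix.mulVec_add] at h1
    simp only [D]
    linear_combination h1
  have hDsmul : ∀ (a : F) v, D (a • v) = a ^ 2 * D v := fun a v => by
    simp only [D, Matrix.mulVec_smul, hQ.smul]; ring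
  let W : Submodule F (ι → F) :=
    { carrier := {v | D v = 0}
      add_mem' := fun {u v} hu hv => by show D (u + v) = 0; rw [hDadd, hu, hv, add_zero]
      zero_mem' := by show D 0 = 0; simp [D]
      smul_mem' := fun a v hv => by show D (a • v) = 0; rw [hDsmul, hv, mul_zero] }
  suffices hW : W = ⊤ by
    have : D v = 0 := (hW ▸ Submodule.mem_top : v ∈ W)
    simpa [D, sub_eq_zero] using this
  refine eq_top_of_invariant hP.1 (fun hbot => ?_) fun x hx v hv => ?_
  · have hinj : Function.Injective D := fun u v huv => by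
      rw [← sub_eq_zero, ← Submodule.mem_bot F, ← hbot]
      show D (u - v) = 0
      have := hDadd (u - v) v
      rw [sub_add_cancel, huv] at this
      exact (add_eq_right.1 this.symm)
    have := Fintype.card_le_of_injective D hinj
    rw [Fintype.card_fun] at this
    exact absurd this (not_le.2 (lt_self_pow₀ Fintype.one_lt_card hn))
  · have h1 : Q ((g : Matrix ι ι F) *ᵥ ((x : Matrix ι ι F) *ᵥ v)) = Q ((g : Matrix ι ι F) *ᵥ v) := by
      rw [← hQfix _ ⟨_, hnorm g hg x hx, rfl⟩ ((g : Matrix ι ι F) *ᵥ v)]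
      simp [Matrix.mulVec_mulVec, mul_assoc]
    show c⁻¹ * Q _ - c⁻¹ * Q _ = 0
    rw [h1, hQfix _ ⟨x, hx, rfl⟩]
    exact hv

/-- A closed commutative algebra normalised by `H` and larger than the scalars. -/
theorem comm_cases (hf : Geo.IsSymplecticForm f) (hIf : ∀ g ∈ I,
      ∀ u v, f ((g : Matrix ι ι F) *ᵥ u) ((g : Matrix ι ι F) *ᵥ v) = f u v)
    (hT : ∀ v c, sympT hf v c ∈ I) (hm : 3 ≤ m) (hcard : Fintype.card ι = 2 * m)
    (hH : Geo.IsMaximalIn I H) (hirr : Geo.ActsIrreducibly (Geo.matrixSet H))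
    {Z : Subalgebra F (Matrix ι ι F)} (hc : ∀ x ∈ Z, ∀ y ∈ Z, x * y = y * x) (hcl : Closed f Z)
    (hN : Normalises H Z) (hbot : Z ≠ ⊥) : Outcome f I H m := by
  have hr := rform_of_symplectic hf
  have hG : ∀ g ∈ H, ∃ c : F, c ≠ 0 ∧
      ∀ u v, f ((g : Matrix ι ι F) *ᵥ u) ((g : Matrix ι ι F) *ᵥ v) = c * f u v :=
    fun g hg => ⟨1, one_ne_zero, fun u v => by rw [one_mul]; exact hIf g (hH.1.le hg) u v⟩
  have hquad : ¬ Odd (Fintype.card F) → ∀ Q : (ι → F) → F, Geo.IsNondegenerateQuadraticForm Q →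
      (∀ u v, QuadraticMap.polar Q u v = f u v) → H ≤ Geo.quadSimilarityGroup Q → Outcome f I H m :=
    fun ho Q hQ hpol hle => Or.inr (Or.inr (Or.inr (Or.inr (Or.inr (Or.inr (Or.inr (Or.inr (Or.inl
      ⟨ho, Q, hQ, hpol, eq_inf_of_le hH hle
        (not_le_quadSimilarityGroup hf hT (by omega) hQ hpol)⟩))))))))
  rcases fieldLike_or_idemSystem hirr hN hc with hfl | ⟨t, ⟨S⟩⟩
  · obtain ⟨r, hrp, hrn, -, hK, hle⟩ := exists_prime_subfield hN hc hfl hbot
    have hKc := closed_powFixed hr hc hcl r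
    have heq := eq_inf_of_le hH hle (not_le_subalgebraNormalizer hf hT (by omega) hK hrp.two_le)
    by_cases hsa : Geo.IsSelfAdjointFor f (powFixed Z hc r)
    · have halt := alternating_of_selfAdjoint hf hK hsa
      have h2r := two_mul_dvd_finrank hf hK hsa halt ⊤ (fun w _ hw => by
        obtain ⟨⟨x, hx⟩, ⟨y, hy⟩⟩ := hf.nondegenerate w hw
        exact ⟨⟨x, trivial, hx⟩, ⟨y, trivial, hy⟩⟩) (fun k _ v _ => trivial)
      rw [finrank_top, Module.finrank_pi, hcard] at h2r
      exact Or.inr (Or.inr (Or.inr (Or.inr (Or.inl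
        ⟨r, _, hrp, Nat.dvd_of_mul_dvd_mul_left two_pos h2r, hK, hsa, halt, heq⟩))))
    · have hr2 : r = 2 := hrp.eq_two_or_odd'.resolve_right fun ho => hsa (selfAdjoint_of_odd hr ho hK hKc)
      subst hr2
      by_cases ho : Odd (Fintype.card F)
      · exact Or.inr (Or.inr (Or.inr (Or.inr (Or.inr (Or.inl
          ⟨ho, _, hK, hKc.isAdjointClosedFor, hsa, heq⟩)))))
      · obtain ⟨Q, hQ, hpol, hpres⟩ :=
          quad_of_not_selfAdjoint (two_eq_zero_of_not_odd ho) hf hK hKc hsa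
        exact hquad ho Q hQ hpol fun g hg => hpres g (hle hg) (hIf g (hH.1.le hg))
  · rcases frame_form_cases hr hG S.toFrame (idemSystem_adj hr hc hcl S) with
      ⟨s, k, D, hD, hsk, hle⟩ | ⟨k, D, hD, hk, hts, hle⟩
    · have hk : Even k := by
        have := even_finrank hf (hD.nondegenerate ⟨0, by have := hD.decomp.two_le; omega⟩)
        rwa [hD.decomp.finrank_eq] at this
      by_cases h2 : k = 2 ∧ Fintype.card F < 3
      · obtain ⟨rfl, hlt⟩ := h2
        have hq : Fintype.card F = 2 := by have := Fintype.one_lt_card (α := F); omega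
        obtain ⟨Q, hQ, hpol, hpres⟩ := planes_quad hq hf hD
        exact hquad (by rw [hq]; decide) Q hQ hpol fun g hg => hpres g (hle hg) (hIf g (hH.1.le hg))
      · exact Or.inr (Or.inr (Or.inl ⟨s, k, D, hsk.trans hcard, hD.decomp.two_le, hk,
          fun h => by omega, hD, eq_inf_of_le hH hle (not_le_decompositionStabilizer hf hT hD.decomp)⟩))
    · obtain rfl : k = m := by omega
      by_cases ho : Odd (Fintype.card F)
      · exact Or.inr (Or.inr (Or.inr (Or.inl ⟨ho, D, hD, hts,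
          eq_inf_of_le hH hle (not_le_decompositionStabilizer hf hT hD)⟩)))
      · obtain ⟨Q, hQ, hpol, hpres⟩ := pair_quad (two_eq_zero_of_not_odd ho) hf hD hts
        exact hquad ho Q hQ hpol fun g hg => hpres g (hle hg) (hIf g (hH.1.le hg))

/-- A tensor decomposition with alternating first and symmetric second factor, in odd characteristic. -/
theorem tensor_cases (hf : Geo.IsSymplecticForm f) (hIf : ∀ g ∈ I,
      ∀ u v, f ((g : Matrix ι ι F) *ᵥ u) ((g : Matrix ι ι F) *ᵥ v) = f u v)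
    (hT : ∀ v c, sympT hf v c ∈ I) (hm : 3 ≤ m) (hcard : Fintype.card ι = 2 * m)
    (hH : Geo.IsMaximalIn I H) (hirr : Geo.ActsIrreducibly (Geo.matrixSet H))
    (ho : Odd (Fintype.card F)) {a b : ℕ} {e : ι ≃ Fin a × Fin b} {P : GL ι F} (ha : 2 ≤ a)
    (hb : 2 ≤ b) {X : Matrix (Fin a) (Fin a) F} {C : Matrix (Fin b) (Fin b) F} (hX : IsUnit X)
    (hC : IsUnit C) (hXs : ∀ i j, X i j = - X j i) (hCs : ∀ k l, C k l = C l k)
    (hΓ : pullGram f e P = X ⊗ₖ C) (hle : H ≤ Geo.tensorProductSubgroup a b e P) :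
    Outcome f I H m := by
  haveI : NeZero a := ⟨by omega⟩
  haveI : NeZero b := ⟨by omega⟩
  have h2 := two_ne_zero_of_odd_card ho
  have hr := rform_of_symplectic hf
  have hiso : ∀ g ∈ H, ∀ u v, f ((g : Matrix ι ι F) *ᵥ u) ((g : Matrix ι ι F) *ᵥ v) = f u v :=
    fun g hg => hIf g (hH.1.le hg)
  have hXd : ∀ i, X i i = 0 := fun i => by
    have := hXs i i
    exact (mul_eq_zero.1 (show (2 : F) * X i i = 0 by linear_combination this)).resolve_left h2
  have hae : Even a := by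
    rw [← Nat.not_odd_iff_even]
    intro hao
    exact ((Matrix.isUnit_iff_isUnit_det _).1 hX).ne_zero
      (det_eq_zero_of_alternating (by rwa [Fintype.card_fin]) hXs hXd)
  by_cases hb2 : b = 2
  · subst hb2
    obtain ⟨Z, hZc, hZcl, hZn, hZb⟩ := comm_of_plane hr h2 hX hC hCs hΓ hle hiso
    exact comm_cases hf hIf hT hm hcard hH hirr hZc hZcl hZn hZb
  by_cases hb3 : b = 3 ∧ Fintype.card F < 5
  · obtain ⟨rfl, hlt⟩ := hb3
    have hq : Fintype.card F = 3 := by
      have := Fintype.one_lt_card (α := F)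
      obtain ⟨k, hk⟩ := ho
      omega
    obtain ⟨Z, hZc, hZcl, hZn, hZb⟩ := comm_of_three hr hq hX hC hCs hΓ hle hiso
    exact comm_cases hf hIf hT hm hcard hH hirr hZc hZcl hZn hZb
  have hid : (RingHom.id F : F → F) = id := rfl
  have hsX : ∀ i j, X i j = (-1) * (RingHom.id F) (X j i) := fun i j => by simp [← hXs i j]
  have hsC : ∀ i j, C i j = 1 * (RingHom.id F) (C j i) := fun i j => by simp [← hCs i j]
  have hbil : ∀ {n : ℕ} (G : Matrix (Fin n) (Fin n) F), Geo.IsBilinearForm (Geo.formOfGram (RingHom.id F) G) :=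
    fun G => ⟨(isSesquiForm_formOfGram _ G).add_left, (isSesquiForm_formOfGram _ G).smul_left,
      (isSesquiForm_formOfGram _ G).add_right, fun c v x => (isSesquiForm_formOfGram _ G).smul_right c v x⟩
  have hskew : ∀ v w, Geo.formOfGram (RingHom.id F) X v w = - Geo.formOfGram (RingHom.id F) X w v :=
    fun v w => by rw [formOfGram_refl _ (fun _ => rfl) hsX v w]; simp
  have h1 : Geo.IsSymplecticForm (Geo.formOfGram (RingHom.id F) X) :=
    ⟨hbil X, hskew, fun v => (mul_eq_zero.1 (show (2 : F) * Geo.formOfGram (RingHom.id F) X v v = 0 by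
      linear_combination hskew v v)).resolve_left h2,
      nondegenerate_formOfGram _ (fun _ => rfl) (by simp) hsX hX⟩
  have h2' : Geo.IsSymmetricForm (Geo.formOfGram (RingHom.id F) C) :=
    ⟨hbil C, fun v w => by rw [formOfGram_refl _ (fun _ => rfl) hsC v w]; simp,
      nondegenerate_formOfGram _ (fun _ => rfl) one_ne_zero hsC hC⟩
  have hab : a * b = 2 * m := by
    rw [← hcard, Fintype.card_congr e, Fintype.card_prod, Fintype.card_fin, Fintype.card_fin]
  exact Or.inr (Or.inr (Or.inr (Or.inr (Or.inr (Or.inr (Or.inl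
    ⟨ho, a, b, e, P, _, _, ha, hae, by omega, fun h => by omega, hab, h1, h2',
      hid ▸ isTensorFormStructure_of_pullGram hr.sesq hΓ,
      eq_inf_of_le hH hle (not_le_tensorProductSubgroup hf hT ha hb e P)⟩))))))

/-- Aschbacher's reduction for the isometry group in dimension `2 m`, up to the symplectic-type and
tensor-induced configurations. -/
theorem symp_maximal (hf : Geo.IsSymplecticForm f) (hIf : ∀ g ∈ I,
      ∀ u v, f ((g : Matrix ι ι F) *ᵥ u) ((g : Matrix ι ι F) *ᵥ v) = f u v)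
    (hT : ∀ v c, sympT hf v c ∈ I) (hm : 3 ≤ m) (hcard : Fintype.card ι = 2 * m)
    (hH : Geo.IsMaximalIn I H) :
    Outcome f I H m ∨ (∃ N r, CfsgLib.Aschbacher.AbelianData H N r) ∨
      ∃ d S, CfsgLib.Aschbacher.CommutingData H d S := by
  suffices h : (∃ N : Subgroup (GL ι F), N ≤ H ∧ (∀ h ∈ H, ∀ x ∈ N, h * x * h⁻¹ ∈ N) ∧
      Geo.ActsIrreducibly (Geo.matrixSet H) ∧ IsWitness H N) ∨
      (Geo.ActsIrreducibly (Geo.matrixSet H) ∧ ∃ P, CfsgLib.Aschbacher.CoreData H P) ∨
      ¬ Geo.ActsIrreducibly (Geo.matrixSet H) → Outcome f I H m by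
    by_cases hirr : Geo.ActsIrreducibly (Geo.matrixSet H)
    swap
    · exact Or.inl (h (Or.inr (Or.inr hirr)))
    by_cases hall : CfsgLib.Aschbacher.NormalsAbsIrred H
    · rcases CfsgLib.Aschbacher.normal_structure hall (not_le_scalars (by omega) hirr) with hA | hC | hP
      · exact Or.inr (Or.inl hA)
      · exact Or.inr (Or.inr hC)
      · exact Or.inl (h (Or.inr (Or.inl ⟨hirr, hP⟩)))
    · simp only [CfsgLib.Aschbacher.NormalsAbsIrred, not_forall] at hall
      obtain ⟨N, hle, hn', hns, hna⟩ := hall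
      exact Or.inl (h (Or.inl ⟨N, hle, hn', hirr, ((normal_cases hirr hn').resolve_left hns).resolve_left hna⟩))
  intro hcases
  classical
  have hr := rform_of_symplectic hf
  have hiso : ∀ g ∈ H, ∀ u v, f ((g : Matrix ι ι F) *ᵥ u) ((g : Matrix ι ι F) *ᵥ v) = f u v :=
    fun g hg => hIf g (hH.1.le hg)
  by_cases hirr : Geo.ActsIrreducibly (Geo.matrixSet H)
  swap
  · simp only [Geo.ActsIrreducibly, not_forall, not_or] at hirr
    obtain ⟨W, hW, hW0, hW1⟩ := hirr
    have hWinv : ∀ g ∈ H, ∀ v ∈ W, (g : Matrix ι ι F) *ᵥ v ∈ W := fun g hg v hv =>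
      hW _ ⟨g, hg, rfl⟩ ⟨v, hv, Matrix.toLin'_apply _ _⟩
    have hOinv : ∀ g ∈ H, ∀ v ∈ orth hf W, (g : Matrix ι ι F) *ᵥ v ∈ orth hf W := by
      intro g hg v hv
      rw [mem_orth] at hv ⊢
      intro w hw
      rw [← hiso g⁻¹ (H.inv_mem hg), inv_mulVec_mulVec]
      exact hv _ (hWinv _ (H.inv_mem hg) w hw)
    have hstab : ∀ {U : Submodule F (ι → F)}, U ≠ ⊥ → U ≠ ⊤ →
        (∀ g ∈ H, ∀ v ∈ U, (g : Matrix ι ι F) *ᵥ v ∈ U) → H = Geo.subspaceStabilizer U ⊓ I :=
      fun hU0 hU1 hinv => eq_inf_of_le hH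
        (fun g hg => mem_subspaceStabilizer_of_mapsTo fun v hv => hinv g hg v hv)
        (not_le_subspaceStabilizer hf hT hU0 hU1)
    by_cases hR : W ⊓ orth hf W = ⊥
    swap
    · exact Or.inl ⟨_, hR, fun u hu v hv => (mem_orth hf).1 hv.2 u hu.1,
        hstab hR (fun h => hW1 (top_le_iff.1 (h ▸ inf_le_left)))
          (fun g hg v hv => ⟨hWinv g hg v hv.1, hOinv g hg v hv.2⟩)⟩
    obtain ⟨hWn, hOn, hsum, htop⟩ := orth_spec hf hR
    rw [hcard] at hsum
    have hWpos : finrank F W ≠ 0 := fun h => hW0 (Submodule.finrank_eq_zero.1 h)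
    have hOpos : finrank F (orth hf W) ≠ 0 := fun h => hW1 (by
      rw [← htop, Submodule.finrank_eq_zero.1 h, sup_bot_eq])
    rcases lt_trichotomy (finrank F W) m with h | h | h
    · exact Or.inr (Or.inl ⟨W, hW0, hWn, h, hstab hW0 hW1 hWinv⟩)
    · have hO : finrank F (orth hf W) = m := by omega
      let D : Fin 2 → Submodule F (ι → F) := ![W, orth hf W]
      have hD : Geo.IsNondegenerateMDecomposition f m D := by
        refine ⟨⟨le_rfl, by omega, Fin.forall_fin_two.2 ⟨h, hO⟩, ?_, ?_⟩, Fin.forall_fin_two.2 ⟨hWn, hOn⟩, ?_⟩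
        · rw [iSupIndep_pair (i := (0 : Fin 2)) (j := 1) (by decide) (fun k => by omega)]
          exact disjoint_iff.2 hR
        · rw [eq_top_iff, ← htop]
          exact sup_le (le_iSup D 0) (le_iSup D 1)
        · intro i j hij
          fin_cases i <;> fin_cases j <;> first | exact absurd rfl hij | skip
          · exact fun u hu v hv => (mem_orth hf).1 hv u hu
          · exact fun u hu v hv => orth_comm hf ((mem_orth hf).1 hu v hv)
      have hk : Even m := h ▸ even_finrank hf hWn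
      refine Or.inr (Or.inr (Or.inl ⟨2, m, D, rfl, le_rfl, hk, fun h' => by omega, hD, ?_⟩))
      refine eq_inf_of_le hH (fun g hg => ⟨1, Fin.forall_fin_two.2 ⟨?_, ?_⟩⟩)
        (not_le_decompositionStabilizer hf hT hD.decomp)
      · exact Submodule.eq_of_le_of_finrank_eq (by
          rintro _ ⟨v, hv, rfl⟩; rw [Matrix.toLin'_apply]; exact hWinv g hg v hv) (finrank_map_gl g W)
      · exact Submodule.eq_of_le_of_finrank_eq (by
          rintro _ ⟨v, hv, rfl⟩; rw [Matrix.toLin'_apply]; exact hOinv g hg v hv) (finrank_map_gl g _)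
    · have hO0 : orth hf W ≠ ⊥ := fun h' => hOpos (by rw [h', finrank_bot])
      have hO1 : orth hf W ≠ ⊤ := fun h' => by rw [h', finrank_top, Module.finrank_pi, hcard] at hsum; omega
      exact Or.inr (Or.inl ⟨_, hO0, hOn, by omega, hstab hO0 hO1 hOinv⟩)
  rcases hcases with ⟨N, hNH, hn, -, hw⟩ | ⟨-, P, hP⟩ | hred
  rotate_right
  · exact absurd hirr hred
  · have hcl : Closed f (algOf N) := closed_adjoin hr fun g hg => hiso g (hNH hg)
    have hcomm : centreAlg (algOf N) ≠ ⊥ → Outcome f I H m := fun hb =>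
      comm_cases hf hIf hT hm hcard hH hirr centre_comm (hcl.centre hr)
        (normalises_algOf hn).centreAlg hb
    rcases hw with ⟨t, ⟨S⟩⟩ | ⟨r, hrp, -, -, hrd, -, -⟩ | ⟨d, k, e, P, hd, hk, hmem, hle⟩
    · refine hcomm fun hb => ?_
      have h0 : (0 : ℕ) < t := by have := S.two_le; omega
      have hi : S.e ⟨0, h0⟩ ∈ (⊥ : Subalgebra F (Matrix ι ι F)) := hb.le (S.mem ⟨0, h0⟩)
      obtain ⟨c, hc⟩ := Algebra.mem_bot.1 hi
      have hid := S.idem ⟨0, h0⟩
      rw [← hc, ← map_mul] at hid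
      rcases eq_or_ne c 0 with rfl | hc0
      · exact S.ne_zero _ (by rw [← hc, map_zero])
      · have h1 : c = 1 := mul_left_cancel₀ hc0 (((algebraMap F (Matrix ι ι F)).injective hid).trans (mul_one c).symm)
        have := S.ortho ⟨0, h0⟩ ⟨1, S.two_le⟩ (by simp [Fin.ext_iff])
        rw [← hc, h1, map_one, one_mul] at this
        exact S.ne_zero _ this
    · refine hcomm fun hb => ?_
      rw [hb, Subalgebra.finrank_bot] at hrd
      exact hrp.ne_one (Nat.dvd_one.1 hrd)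
    · haveI : NeZero d := ⟨by omega⟩
      haveI : NeZero k := ⟨by omega⟩
      obtain ⟨X, C, hX, hC, hΓ⟩ := exists_pullGram_eq_kronecker hr (e := e) (P := P) fun M => by
        obtain ⟨Y, hY, hadj⟩ := hcl _ ((hmem _).2 ⟨M, rfl⟩)
        obtain ⟨M', rfl⟩ := (hmem _).1 hY
        exact ⟨M', hadj⟩
      obtain ⟨δ₁, δ₂, hδ, hδ₁, hX', hC'⟩ := factor_refl hr hX.ne_zero hC.ne_zero hΓ
      simp only [RingHom.id_apply] at hδ₁ hX' hC'
      by_cases ho : Odd (Fintype.card F)
      · rcases mul_self_eq_one_iff.1 hδ₁ with rfl | rfl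
        · rw [one_mul] at hδ
          exact tensor_cases hf hIf hT hm hcard hH hirr ho hk hd hC hX
            (fun i j => by rw [hC' i j, hδ, neg_one_mul]) (fun i j => by simpa using hX' i j)
            (pullGram_swap hΓ) (hle.trans (tensorProductSubgroup_comm e P))
        · have hδ2 : δ₂ = 1 := by linear_combination -hδ
          exact tensor_cases hf hIf hT hm hcard hH hirr ho hd hk hX hC
            (fun i j => by simpa using hX' i j) (fun i j => by simpa [hδ2] using hC' i j) hΓ hle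
      · have h2 := two_eq_zero_of_not_odd ho
        have hδ₁1 : δ₁ = 1 := by
          rcases mul_self_eq_one_iff.1 hδ₁ with h | h
          · exact h
          · rw [h]; linear_combination -h2
        have hδ₂1 : δ₂ = 1 := by rw [hδ₁1, one_mul] at hδ; rw [hδ]; linear_combination -h2
        have hXs : ∀ i j, X i j = X j i := fun i j => by simpa [hδ₁1] using hX' i j
        have hCs : ∀ i j, C i j = C j i := fun i j => by simpa [hδ₂1] using hC' i j
        by_cases hCd : ∃ i, C i i ≠ 0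
        · obtain ⟨W, hW0, hW1, hW⟩ := exists_invariant_of_symm_factor h2 hk hX hC hr hΓ hCs hCd
          exact absurd (eq_top_of_invariant hirr hW0 fun g hg v hv =>
            hW g (hle hg) ⟨1, one_ne_zero, fun u v => by rw [one_mul]; exact hiso g hg u v⟩ v hv) hW1
        by_cases hXd : ∃ i, X i i ≠ 0
        · obtain ⟨W, hW0, hW1, hW⟩ := exists_invariant_of_symm_factor h2 hd hC hX hr (pullGram_swap hΓ) hXs hXd
          exact absurd (eq_top_of_invariant hirr hW0 fun g hg v hv =>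
            hW g (tensorProductSubgroup_comm e P (hle hg))
              ⟨1, one_ne_zero, fun u v => by rw [one_mul]; exact hiso g hg u v⟩ v hv) hW1
        push Not at hCd hXd
        obtain ⟨Q, hQ, hpol, -, hpres⟩ := exists_quad_of_alt_factors h2 hX hC hf hΓ hXs hXd hCs hCd
        exact Or.inr (Or.inr (Or.inr (Or.inr (Or.inr (Or.inr (Or.inr (Or.inr (Or.inl
          ⟨ho, Q, hQ, hpol, eq_inf_of_le hH (fun g hg => hpres g (hle hg)
              ⟨1, one_ne_zero, fun u v => by rw [one_mul]; exact hiso g hg u v⟩)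
            (not_le_quadSimilarityGroup hf hT (by omega) hQ hpol)⟩))))))))
  · have hfix : Geo.FixesForm (Geo.matrixSet P) f := by
      rintro _ ⟨x, hx, rfl⟩ u v
      exact hiso x (hP.le hx) u v
    by_cases hreal : ∃ F₀ : Subfield F, F₀ ≠ ⊤ ∧ Geo.RealisableOver F₀ (Geo.matrixSet P)
    · obtain ⟨F₀, h0, B, hB⟩ := hreal
      obtain ⟨F₁, r, h01, hrp, hcardF, h1⟩ := exists_subfield_prime_index h0
      have hB1 : ∀ s ∈ Geo.matrixSet P, ∀ i j, (B.val * s * (B⁻¹ : GL ι F).val) i j ∈ F₁ :=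
        fun s hs i j => h01 (hB s hs i j)
      obtain ⟨i, j, hij⟩ : ∃ i j, f ((B⁻¹ : GL ι F).val *ᵥ Pi.single i 1)
          ((B⁻¹ : GL ι F).val *ᵥ Pi.single j 1) ≠ 0 := by
        by_contra! hall
        obtain ⟨v, w, hvw⟩ := IsNondegenerateForm.exists_ne (by omega) hf.nondegenerate
        apply hvw
        rw [← mulVec_inv_mulVec B⁻¹ v, ← mulVec_inv_mulVec B⁻¹ w, pi_eq_sum_univ' ((B⁻¹)⁻¹.val *ᵥ v),
          pi_eq_sum_univ' ((B⁻¹)⁻¹.val *ᵥ w), Matrix.mulVec_sum, Matrix.mulVec_sum, hr.sesq.sum_left]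
        refine Finset.sum_eq_zero fun a _ => ?_
        rw [hr.sesq.sum_right]
        refine Finset.sum_eq_zero fun b _ => ?_
        rw [Matrix.mulVec_smul, Matrix.mulVec_smul, hr.sesq.smul_left, hr.sesq.smul_right, hall, mul_zero,
          mul_zero]
      refine Or.inr (Or.inr (Or.inr (Or.inr (Or.inr (Or.inr (Or.inr (Or.inl
        ⟨F₁, r, B⁻¹, _, hrp, hcardF, inv_ne_zero hij, ?_,
          eq_inf_of_le hH (le_subfieldSubgroup_of_realisable hP.absIrred hP.normal hB1)
            (not_le_subfieldSubgroup hf hT (by omega) h1 _)⟩)))))))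
      intro u v hu hv
      rw [pi_eq_sum_univ' u, pi_eq_sum_univ' v, Matrix.mulVec_sum, Matrix.mulVec_sum, hr.sesq.sum_left,
        Finset.mul_sum]
      refine sum_mem fun a _ => ?_
      rw [hr.sesq.sum_right, Finset.mul_sum]
      refine sum_mem fun b _ => ?_
      rw [Matrix.mulVec_smul, Matrix.mulVec_smul, hr.sesq.smul_left, hr.sesq.smul_right, RingHom.id_apply]
      have := CfsgLib.AschPrime.gram_ratio_mem (σ := RingHom.id F) (fun x hx => hx) hP.absIrred hr.sesq
        hf.nondegenerate hfix hB1 hij a b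
      rw [div_eq_inv_mul] at this
      convert F₁.mul_mem (F₁.mul_mem (hu a) (hv b)) this using 1
      ring
    by_cases hQ : ∃ Q : (ι → F) → F, Geo.IsNondegenerateQuadraticForm Q ∧
        Geo.FixesQuadForm (Geo.matrixSet P) Q
    · obtain ⟨Q, hQ, hQfix⟩ := hQ
      obtain ⟨ho, Q', hQ', hpol, hle⟩ := quad_of_fixed hf hiso (by omega) hP.absIrred hP.normal hfix hQ hQfix
      exact Or.inr (Or.inr (Or.inr (Or.inr (Or.inr (Or.inr (Or.inr (Or.inr (Or.inl
        ⟨ho, Q', hQ', hpol, eq_inf_of_le hH hle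
          (not_le_quadSimilarityGroup hf hT (by omega) hQ' hpol)⟩))))))))
    refine Or.inr (Or.inr (Or.inr (Or.inr (Or.inr (Or.inr (Or.inr (Or.inr (Or.inr
      ⟨P, hP.isResidualCore fun F₀ h0 hh => hreal ⟨F₀, h0, hh⟩, hQ, ?_⟩))))))))
    rintro ⟨σ, h, hh, hfixh⟩
    exact hreal (realisable_of_unitary hf hP.absIrred hfix hh hfixh)

/-- Maximal subgroups of the isometry group in dimension `2 m`, neither a prime power nor a perfect
power. -/
theorem symp_composite (hf : Geo.IsSymplecticForm f) (hIf : ∀ g ∈ I,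
      ∀ u v, f ((g : Matrix ι ι F) *ᵥ u) ((g : Matrix ι ι F) *ᵥ v) = f u v)
    (hT : ∀ v c, sympT hf v c ∈ I) (hm : 3 ≤ m) (hcard : Fintype.card ι = 2 * m)
    (hpp : ∀ r k : ℕ, r.Prime → 2 * m ≠ r ^ k) (hpow : ∀ d k : ℕ, 2 ≤ k → 2 * m ≠ d ^ k)
    (hH : Geo.IsMaximalIn I H) : Outcome f I H m := by
  rcases symp_maximal hf hIf hT hm hcard hH with h | ⟨N, r, hN⟩ | ⟨d, S, hS⟩
  · exact h
  · exfalso
    haveI : Fact r.Prime := ⟨hN.prime⟩
    have hp : IsPGroup r (N ⧸ (Geo.scalars ι F).subgroupOf N) := by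
      intro q
      induction q using QuotientGroup.induction_on with
      | H x =>
        refine ⟨1, ?_⟩
        rw [pow_one, ← QuotientGroup.mk_pow, QuotientGroup.eq_one_iff, Subgroup.mem_subgroupOf]
        exact hN.pow_mem x x.2
    obtain ⟨k, hk⟩ := IsPGroup.iff_card.1 hp
    rw [hN.card_eq, hcard] at hk
    obtain ⟨j, -, hj⟩ := (Nat.dvd_prime_pow hN.prime).1 (hk ▸ dvd_pow_self _ two_ne_zero)
    exact hpp r j hN.prime hj
  · exact absurd (hcard.symm.trans hS.card_eq) (hpow d S.card hS.two_le_card)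

end

end CfsgLib.Aschbacher.Symp
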