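import Cfsg.Agent.Eq.Def_GeometricClasses
import Cfsg.Agent.Aschbacher.NormalStructure
import Cfsg.Agent.Aschbacher.CentreField

/-!
The trichotomy for the normal subgroups of an irreducible group, with witnesses.
-/

set_option autoImplicit false

namespace CfsgLib.Aschbacher

open Matrix CfsgLib.Aschbacher.Centre
open scoped Kronecker

variable {ι : Type} [Fintype ι] [DecidableEq ι] {F : Type*} [Field F]

/-- The matrix algebra spanned by a group. -/
def envAlg (N : Subgroup (GL ι F)) : Subalgebra F (Matrix ι ι F) :=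
  Algebra.adjoin F (Cfsg.Geo.matrixSet N)

lemma normalises_envAlg {H N : Subgroup (GL ι F)} (h : ∀ g ∈ H, ∀ x ∈ N, g * x * g⁻¹ ∈ N) :
    Normalises H (envAlg N) :=
  normalises_adjoin (by
    rintro g hg _ ⟨x, hx, rfl⟩
    exact ⟨g * x * g⁻¹, h g hg x hx, rfl⟩)

lemma centreAlg_comm_all (A : Subalgebra F (Matrix ι ι F)) :
    ∀ x ∈ centreAlg A, ∀ y ∈ centreAlg A, x * y = y * x := fun _ hx _ hy => centreAlg_comm hx hy

/-- A tensor decomposition attached to a normal subgroup. -/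
structure TensorData (H N : Subgroup (GL ι F)) (d k : ℕ) (e : ι ≃ Fin d × Fin k) (P : GL ι F) : Prop where
  two_le_left : 2 ≤ d
  two_le_right : 2 ≤ k
  mem_iff : ∀ X, X ∈ envAlg N ↔ ∃ Y, X = tconj e P (Y ⊗ₖ (1 : Matrix (Fin k) (Fin k) F))
  le_tensor : H ≤ Cfsg.Geo.tensorProductSubgroup d k e P

/-- `N` is a non-scalar normal subgroup of `H`. -/
structure IsNonscalarNormal (H N : Subgroup (GL ι F)) : Prop where
  le : N ≤ H
  normal : ∀ h ∈ H, ∀ x ∈ N, h * x * h⁻¹ ∈ N
  not_scalar : ¬ N ≤ Cfsg.Geo.scalars ι F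

theorem not_le_scalars_of_irreducible {H : Subgroup (GL ι F)}
    (hirr : Cfsg.Geo.ActsIrreducibly (Cfsg.Geo.matrixSet H)) (hn : 2 ≤ Fintype.card ι) :
    ¬ H ≤ Cfsg.Geo.scalars ι F := by
  intro hle
  obtain ⟨i, j, hij⟩ := Fintype.exists_pair_of_one_lt_card (show 1 < Fintype.card ι by omega)
  set v : ι → F := Pi.single i 1 with hv
  have hinv : ∀ g ∈ H, ∀ w ∈ Submodule.span F {v}, (g : Matrix ι ι F) *ᵥ w ∈ Submodule.span F {v} := by
    intro g hg w hw
    obtain ⟨c, hc⟩ := matrix_scalar_of_mem_scalars (hle hg)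
    rw [hc, Algebra.algebraMap_eq_smul_one, Matrix.smul_mulVec, Matrix.one_mulVec]
    exact Submodule.smul_mem _ c hw
  have hv0 : v ≠ 0 := by
    intro h
    have := congrFun h i
    simp [v] at this
  have htop := eq_top_of_invariant hirr (mt Submodule.span_singleton_eq_bot.1 hv0) hinv
  have hmem : (Pi.single j (1 : F) : ι → F) ∈ Submodule.span F {v} := htop ▸ Submodule.mem_top
  obtain ⟨c, hc⟩ := Submodule.mem_span_singleton.1 hmem
  have := congrFun hc j
  simp [v, hij.symm] at this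

/-- Clifford theory for all normal subgroups of an irreducible group. -/
theorem normal_cases [Finite F] [Nonempty ι] {H : Subgroup (GL ι F)}
    (hirr : Cfsg.Geo.ActsIrreducibly (Cfsg.Geo.matrixSet H)) :
    (∃ N, IsNonscalarNormal H N ∧ ∃ t, Nonempty (IdemSystem H (centreAlg (envAlg N)) t)) ∨
    (∃ N, IsNonscalarNormal H N ∧ IsFieldLike (centreAlg (envAlg N)) ∧ centreAlg (envAlg N) ≠ ⊥) ∨
    (∃ N d k e P, IsNonscalarNormal H N ∧ TensorData H N d k e P) ∨
    NormalsAbsIrred H := by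
  by_cases hall : NormalsAbsIrred H
  · exact Or.inr (Or.inr (Or.inr hall))
  simp only [NormalsAbsIrred, not_forall] at hall
  obtain ⟨N, hle, hnorm, hns, hnab⟩ := hall
  have hN : IsNonscalarNormal H N := ⟨hle, hnorm, hns⟩
  have hA := normalises_envAlg hnorm
  rcases fieldLike_or_idemSystem hirr hA.centreAlg (centreAlg_comm_all _) with hf | hs
  swap
  · exact Or.inl ⟨N, hN, hs⟩
  by_cases hbot : centreAlg (envAlg N) = ⊥
  swap
  · exact Or.inr (Or.inl ⟨N, hN, hf, hbot⟩)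
  refine Or.inr (Or.inr (Or.inl ?_))
  obtain ⟨d, k, e, P, hd, hk, hmem, hle'⟩ := exists_tensor_of_centreAlg_eq_bot hirr hA hbot.le
  refine ⟨N, d, k, e, P, hN, ⟨?_, ?_, hmem, hle'⟩⟩
  · by_contra hlt
    have hd1 : d = 1 := by omega
    subst hd1
    apply hns
    intro x hx
    obtain ⟨Y, hY⟩ := (hmem (x : Matrix ι ι F)).1 (Algebra.subset_adjoin ⟨x, hx, rfl⟩)
    refine mem_scalars_of_val_mem_bot (Algebra.mem_bot.2 ⟨Y 0 0, ?_⟩)
    rw [hY, ← (tconj e P).commutes (Y 0 0)]
    congr 1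
    ext ⟨i, l⟩ ⟨j, m⟩
    rw [Subsingleton.elim i 0, Subsingleton.elim j 0]
    by_cases h : l = m <;> simp [Matrix.kroneckerMap_apply, Matrix.algebraMap_matrix_apply, h]
  · by_contra hlt
    have hk1 : k = 1 := by omega
    subst hk1
    apply hnab
    refine absIrred_of_adjoin_eq_top (eq_top_iff.2 fun X _ => ?_)
    obtain ⟨Z, rfl⟩ := (tconj e P).surjective X
    refine (hmem _).2 ⟨Matrix.of fun i j => Z (i, 0) (j, 0), congrArg _ ?_⟩
    ext ⟨i, l⟩ ⟨j, m⟩
    rw [Subsingleton.elim l 0, Subsingleton.elim m 0]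
    simp [Matrix.kroneckerMap_apply]

/-- An irreducible group stabilises a decomposition, normalises a field of prime degree, lies in a
tensor product group, or has only absolutely irreducible non-scalar normal subgroups. -/
theorem geometric_cases [Fintype F] [Nonempty ι] {H : Subgroup (GL ι F)}
    (hirr : Cfsg.Geo.ActsIrreducibly (Cfsg.Geo.matrixSet H)) :
    (∃ (t m : ℕ) (D : Fin t → Submodule F (ι → F)), Cfsg.Geo.IsMDecomposition m D ∧
      t * m = Fintype.card ι ∧ H ≤ Cfsg.Geo.decompositionStabilizer D) ∨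
    (∃ (r : ℕ) (K : Subalgebra F (Matrix ι ι F)), r.Prime ∧ r ∣ Fintype.card ι ∧
      Cfsg.Geo.IsFieldSubalgebra r K ∧ H ≤ Cfsg.Geo.subalgebraNormalizer K) ∨
    (∃ (d k : ℕ) (e : ι ≃ Fin d × Fin k) (P : GL ι F), 2 ≤ d ∧ d ≤ k ∧ d * k = Fintype.card ι ∧
      H ≤ Cfsg.Geo.tensorProductSubgroup d k e P) ∨
    NormalsAbsIrred H := by
  rcases normal_cases hirr with ⟨N, -, t, ⟨S⟩⟩ | ⟨N, hN, hf, hbot⟩ | ⟨N, d, k, e, P, -, hT⟩ | h
  · obtain ⟨m, hm, hcard⟩ := S.isMDecomposition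
    exact Or.inl ⟨t, m, _, hm, hcard, S.le_stabilizer⟩
  · obtain ⟨r, hr, hrn, -, hK, hle⟩ := exists_prime_subfield (normalises_envAlg hN.normal).centreAlg
      (centreAlg_comm_all _) hf hbot
    exact Or.inr (Or.inl ⟨r, _, hr, hrn, hK, hle⟩)
  · have hcard : d * k = Fintype.card ι := by
      rw [Fintype.card_congr e, Fintype.card_prod, Fintype.card_fin, Fintype.card_fin]
    refine Or.inr (Or.inr (Or.inl ?_))
    rcases le_total d k with h | h
    · exact ⟨d, k, e, P, hT.two_le_left, h, hcard, hT.le_tensor⟩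
    · exact ⟨k, d, _, P, hT.two_le_right, h, by rw [mul_comm, hcard],
        hT.le_tensor.trans (tensorProductSubgroup_comm e P)⟩
  · exact Or.inr (Or.inr (Or.inr h))

end CfsgLib.Aschbacher
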