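import Mathlib
import Cfsg.Agent.Aschbacher.Tensor

/-!
Small-field coincidences between geometric subgroups of the linear groups: monomial groups over fields
with at most four elements, wreath products of `GL₂(2)`, and tensor products `GL₂(2) ⊗ GL_k(2)`.
-/

set_option autoImplicit false
set_option linter.unusedSectionVars false

namespace CfsgLib.Aschbacher.SmallField

open Matrix Cfsg Module

open scoped Kronecker

variable {ι : Type} [Fintype ι] [DecidableEq ι] {F : Type*} [Field F] [Fintype F]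

theorem eq_one_of_card_two (h : Fintype.card F = 2) {c : F} (hc : c ≠ 0) : c = 1 := by
  simpa [h] using FiniteField.pow_card_sub_one_eq_one c hc

theorem add_self_of_card_two (h : Fintype.card F = 2) (c : F) : c + c = 0 := by
  have h2 : (2 : F) = 0 := by
    have := FiniteField.cast_card_eq_zero F
    rw [h] at this
    exact_mod_cast this
  rw [← two_mul, h2, zero_mul]

theorem eq_zero_or_one_of_card_two (h : Fintype.card F = 2) (c : F) : c = 0 ∨ c = 1 := by
  by_cases hc : c = 0
  · exact Or.inl hc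
  · exact Or.inr (eq_one_of_card_two h hc)

/-- A basis adapted to a decomposition into lines: the stabiliser acts monomially on it. -/
theorem exists_monomial_basis {t : ℕ} {D : Fin t → Submodule F (ι → F)}
    (hD : Geo.IsMDecomposition 1 D) :
    ∃ b : Basis (Fin t) F (ι → F), ∀ g ∈ Geo.decompositionStabilizer D,
      ∃ (σ : Equiv.Perm (Fin t)) (c : Fin t → F), (∀ i, c i ≠ 0) ∧
        ∀ i, (g : Matrix ι ι F) *ᵥ b i = c i • b (σ i) := by
  classical
  have hint : DirectSum.IsInternal D :=
    DirectSum.isInternal_submodule_of_iSupIndep_of_iSup_eq_top hD.indep hD.iSup_eq_top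
  let bb : ∀ i, Basis (Fin 1) F (D i) := fun i => Module.finBasisOfFinrankEq F (D i) (hD.finrank_eq i)
  let b : Basis (Fin t) F (ι → F) :=
    (hint.collectedBasis bb).reindex (Equiv.sigmaUnique (Fin t) fun _ => Fin 1)
  have hb : ∀ i, b i = (bb i 0 : ι → F) := fun i => by simp [b] <;> rfl
  refine ⟨b, fun g hg => ?_⟩
  obtain ⟨σ, hσ⟩ := hg
  have hc : ∀ i, ∃ c : F, (g : Matrix ι ι F) *ᵥ b i = c • b (σ i) := by
    intro i
    have hmem : (g : Matrix ι ι F) *ᵥ b i ∈ D (σ i) := by
      rw [← hσ i, hb]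
      exact ⟨_, (bb i 0).2, Matrix.toLin'_apply _ _⟩
    obtain ⟨c, hc⟩ : ∃ c : F, (⟨_, hmem⟩ : D (σ i)) = c • bb (σ i) 0 :=
      ⟨(bb (σ i)).repr ⟨_, hmem⟩ 0, by
        conv_lhs => rw [← (bb (σ i)).sum_repr ⟨_, hmem⟩, Fin.sum_univ_one]⟩
    exact ⟨c, by simpa [hb] using congrArg Subtype.val hc⟩
  choose c hc using hc
  refine ⟨σ, c, fun i hi => b.ne_zero i ?_, hc⟩
  have := hc i
  rw [hi, zero_smul] at this
  exact (Matrix.mulVec_injective_iff_isUnit.2 g.isUnit) (by rw [this, Matrix.mulVec_zero])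

theorem repr_monomial {t : ℕ} (b : Basis (Fin t) F (ι → F)) {M : Matrix ι ι F}
    {σ : Equiv.Perm (Fin t)} {c : Fin t → F} (h : ∀ i, M *ᵥ b i = c i • b (σ i)) (x : ι → F)
    (i : Fin t) : b.repr (M *ᵥ x) (σ i) = c i * b.repr x i := by
  conv_lhs => rw [← b.sum_repr x, Matrix.mulVec_sum]
  simp [Matrix.mulVec_smul, h, mul_comm, Finsupp.single_apply, σ.injective.eq_iff]

/-- Monomial groups over the field with two elements are reducible. -/
theorem monomial_two (h2 : Fintype.card F = 2) {t : ℕ} {D : Fin t → Submodule F (ι → F)}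
    (hD : Geo.IsMDecomposition 1 D) :
    ∃ W : Submodule F (ι → F), W ≠ ⊥ ∧ W ≠ ⊤ ∧
      Geo.decompositionStabilizer D ≤ Geo.subspaceStabilizer W := by
  obtain ⟨b, hb⟩ := exists_monomial_basis hD
  have ht : 0 < t := by have := hD.two_le; omega
  let v := ∑ i, b i
  have hv : v ≠ 0 := by
    intro h
    have := Fintype.linearIndependent_iff.1 b.linearIndependent (fun _ => 1) (by simpa [v] using h) ⟨0, ht⟩
    exact one_ne_zero this
  have hfix : ∀ g ∈ Geo.decompositionStabilizer D, (g : Matrix ι ι F) *ᵥ v = v := by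
    intro g hg
    obtain ⟨σ, c, hc, hgb⟩ := hb g hg
    simp only [v, Matrix.mulVec_sum, hgb, eq_one_of_card_two h2 (hc _), one_smul]
    exact Equiv.sum_comp σ b
  refine ⟨Submodule.span F {v}, by simpa using hv, fun htop => ?_, fun g hg x => ?_⟩
  · have h1 : finrank F (Submodule.span F {v}) = t := by
      rw [htop, finrank_top, finrank_eq_card_basis b, Fintype.card_fin]
    rw [finrank_span_singleton hv] at h1
    have := hD.two_le
    omega
  · simp only [SetLike.mem_coe, Submodule.mem_span_singleton, Units.coeHom_apply]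
    constructor
    · rintro ⟨a, rfl⟩
      exact ⟨a, by rw [Matrix.mulVec_smul, hfix g hg]⟩
    · rintro ⟨a, ha⟩
      refine ⟨a, (Matrix.mulVec_injective_iff_isUnit.2 g.isUnit) ?_⟩
      rw [Matrix.mulVec_smul, hfix g hg, ha]

/-- Monomial groups over the field with three elements preserve a quadratic form. -/
theorem monomial_three (h3 : Fintype.card F = 3) {t : ℕ} {D : Fin t → Submodule F (ι → F)}
    (hD : Geo.IsMDecomposition 1 D) :
    ∃ Q : (ι → F) → F, Geo.IsNondegenerateQuadraticForm Q ∧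
      Geo.decompositionStabilizer D ≤ Geo.quadSimilarityGroup Q := by
  obtain ⟨b, hb⟩ := exists_monomial_basis hD
  have h2 : (2 : F) ≠ 0 := Ring.two_ne_zero fun hchar => by
    have := FiniteField.even_card_of_char_two hchar
    omega
  let Q : (ι → F) → F := fun v => ∑ i, b.repr v i ^ 2
  have hpol : ∀ u v, QuadraticMap.polar Q u v = 2 * ∑ i, b.repr u i * b.repr v i := by
    intro u v
    simp only [QuadraticMap.polar, Q, map_add, Finsupp.add_apply, Finset.mul_sum, ← Finset.sum_sub_distrib]
    exact Finset.sum_congr rfl fun i _ => by ring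
  refine ⟨Q, ⟨fun c v => ?_, ⟨?_, ?_, ?_, ?_⟩, fun v hv => ?_⟩, fun g hg => ⟨1, fun v => ?_⟩⟩
  · simp [Q, mul_pow, Finset.mul_sum]
  · intro x y v; simp [hpol, add_mul, Finset.sum_add_distrib, mul_add]
  · intro c x v; simp [hpol, Finset.mul_sum]; exact Finset.sum_congr rfl fun i _ => by ring
  · intro v x y; simp [hpol, mul_add, Finset.sum_add_distrib]
  · intro c v x; simp [hpol, Finset.mul_sum]; exact Finset.sum_congr rfl fun i _ => by ring
  · obtain ⟨i, hi⟩ : ∃ i, b.repr v i ≠ 0 := by
      by_contra! h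
      exact hv (b.repr.map_eq_zero_iff.1 (Finsupp.ext h))
    constructor <;> refine ⟨b i, ?_⟩ <;> simp [hpol, Finsupp.single_apply, hi, h2]
  · obtain ⟨σ, c, hc, hgb⟩ := hb g hg
    rw [Units.val_one, one_mul]
    simp only [Q]
    rw [← Equiv.sum_comp σ]
    refine Finset.sum_congr rfl fun i _ => ?_
    rw [repr_monomial b hgb, mul_pow]
    have : c i ^ 2 = 1 := by simpa [h3] using FiniteField.pow_card_sub_one_eq_one (c i) (hc i)
    rw [this, one_mul]

/-- Monomial groups over the field with four elements preserve a unitary form. -/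
theorem monomial_four (h4 : Fintype.card F = 4) {t : ℕ} {D : Fin t → Submodule F (ι → F)}
    (hD : Geo.IsMDecomposition 1 D) :
    ∃ (σ : F ≃+* F) (f : (ι → F) → (ι → F) → F), Geo.IsUnitaryForm σ f ∧
      Geo.decompositionStabilizer D ≤ Geo.similarityGroup f := by
  classical
  obtain ⟨b, hb⟩ := exists_monomial_basis hD
  have h2 : (2 : F) = 0 := by
    by_contra h
    have hodd := FiniteField.odd_card_of_char_ne_two (F := F) fun hchar => h (by
      haveI : CharP F 2 := ringChar.of_eq hchar
      exact CharP.cast_eq_zero F 2)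
    omega
  have hpow : ∀ a : F, a ^ 4 = a := fun a => by rw [← h4]; exact FiniteField.pow_card a
  let σ : F ≃+* F :=
    { toFun := fun a => a ^ 2
      invFun := fun a => a ^ 2
      left_inv := fun a => by show (a ^ 2) ^ 2 = a; rw [← pow_mul]; exact hpow a
      right_inv := fun a => by show (a ^ 2) ^ 2 = a; rw [← pow_mul]; exact hpow a
      map_mul' := fun a c => mul_pow a c 2
      map_add' := fun a c => by linear_combination (a * c) * h2 }
  have hσ : ∀ a, σ a = a ^ 2 := fun a => rfl
  have hinv : ∀ a, σ (σ a) = a := fun a => by rw [hσ, hσ, ← pow_mul]; exact hpow a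
  let f : (ι → F) → (ι → F) → F := fun u v => ∑ i, b.repr u i * σ (b.repr v i)
  refine ⟨σ, f, ⟨fun h => ?_, hinv, ?_, ?_, ?_, fun v hv => ?_⟩, fun g hg => ⟨1, fun u v => ?_⟩⟩
  · have hle : (Finset.univ : Finset F) ⊆ {0, 1} := fun a _ => by
      have ha : a ^ 2 = a := (hσ a).symm.trans (by rw [h]; rfl)
      rcases eq_or_ne a 0 with rfl | h0
      · simp
      · simp [mul_right_cancel₀ h0 (by rw [one_mul, ← sq, ha] : a * a = 1 * a)]
    have h1 := (Finset.card_le_card hle).trans Finset.card_le_two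
    rw [Finset.card_univ, h4] at h1
    omega
  · intro x y v; simp [f, add_mul, Finset.sum_add_distrib]
  · intro c x v; simp [f, Finset.mul_sum, mul_assoc]
  · intro v w; simp [f, map_sum, map_mul, hinv, mul_comm]
  · obtain ⟨i, hi⟩ : ∃ i, b.repr v i ≠ 0 := by
      by_contra! h
      exact hv (b.repr.map_eq_zero_iff.1 (Finsupp.ext h))
    constructor <;> refine ⟨b i, ?_⟩ <;> simp [f, Finsupp.single_apply, hi, apply_ite σ]
  · obtain ⟨π, c, hc, hgb⟩ := hb g hg
    rw [Units.val_one, one_mul]
    simp only [f]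
    rw [← Equiv.sum_comp π]
    refine Finset.sum_congr rfl fun i _ => ?_
    rw [repr_monomial b hgb, repr_monomial b hgb, map_mul]
    have : c i * σ (c i) = 1 := by
      rw [hσ, ← pow_succ']
      simpa [h4] using FiniteField.pow_card_sub_one_eq_one (c i) (hc i)
    linear_combination (b.repr u i * σ (b.repr v i)) * this

/-- Over the field with two elements the stabiliser of a decomposition into planes preserves a
symplectic form. -/
theorem planes_two (h2 : Fintype.card F = 2) {t : ℕ} {D : Fin t → Submodule F (ι → F)}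
    (hD : Geo.IsMDecomposition 2 D) :
    ∃ f : (ι → F) → (ι → F) → F, Geo.IsSymplecticForm f ∧
      Geo.decompositionStabilizer D ≤ Geo.similarityGroup f := by
  classical
  have hint : DirectSum.IsInternal D :=
    DirectSum.isInternal_submodule_of_iSupIndep_of_iSup_eq_top hD.indep hD.iSup_eq_top
  let bb : ∀ i, Basis (Fin 2) F (D i) := fun i => Module.finBasisOfFinrankEq F (D i) (hD.finrank_eq i)
  let b : Basis (Fin t × Fin 2) F (ι → F) :=
    (hint.collectedBasis bb).reindex (Equiv.sigmaEquivProd (Fin t) (Fin 2))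
  have hb : ∀ i k, b (i, k) = (bb i k : ι → F) := fun i k => by simp [b] <;> rfl
  have hs : ∀ a : F, -a = a := fun a => neg_eq_of_add_eq_zero_left (add_self_of_card_two h2 a)
  let f : (ι → F) → (ι → F) → F := fun u v =>
    ∑ i, (b.repr u (i, 0) * b.repr v (i, 1) - b.repr u (i, 1) * b.repr v (i, 0))
  refine ⟨f, ⟨⟨?_, ?_, ?_, ?_⟩, ?_, ?_, fun v hv => ?_⟩, fun g hg => ⟨1, fun u v => ?_⟩⟩
  · intro x y v; simp [f, add_mul, Finset.sum_add_distrib, Finset.sum_sub_distrib]; ring
  · intro c x v; simp only [f, map_smul, Finsupp.smul_apply, smul_eq_mul, Finset.mul_sum]; exact Finset.sum_congr rfl fun i _ => by ring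
  · intro v x y; simp [f, mul_add, Finset.sum_add_distrib, Finset.sum_sub_distrib]; ring
  · intro c v x; simp only [f, map_smul, Finsupp.smul_apply, smul_eq_mul, Finset.mul_sum]; exact Finset.sum_congr rfl fun i _ => by ring
  · intro v w; simp only [f, ← Finset.sum_neg_distrib]; exact Finset.sum_congr rfl fun i _ => by ring
  · intro v; simp only [f]; exact Finset.sum_eq_zero fun i _ => by ring
  · obtain ⟨⟨i, k⟩, hi⟩ : ∃ p, b.repr v p ≠ 0 := by
      by_contra! h
      exact hv (b.repr.map_eq_zero_iff.1 (Finsupp.ext h))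
    have h0 : (0 : Fin 2) ≠ 1 := by decide
    fin_cases k
    · constructor <;> refine ⟨b (i, 1), ?_⟩ <;>
        simpa [f, Finsupp.single_apply, h0, h0.symm, Finset.sum_sub_distrib] using hi
    · constructor <;> refine ⟨b (i, 0), ?_⟩ <;>
        simpa [f, Finsupp.single_apply, h0, h0.symm, Finset.sum_sub_distrib] using hi
  · obtain ⟨σ, hσ⟩ := hg
    have hA : ∀ i, ∃ A : Matrix (Fin 2) (Fin 2) F,
        ∀ k, (g : Matrix ι ι F) *ᵥ b (i, k) = ∑ l, A l k • b (σ i, l) := by
      intro i
      have hmem : ∀ k, (g : Matrix ι ι F) *ᵥ b (i, k) ∈ D (σ i) := fun k => by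
        rw [← hσ i, hb]
        exact ⟨_, (bb i k).2, Matrix.toLin'_apply _ _⟩
      refine ⟨fun l k => (bb (σ i)).repr ⟨_, hmem k⟩ l, fun k => ?_⟩
      refine (congrArg Subtype.val ((bb (σ i)).sum_repr ⟨_, hmem k⟩)).symm.trans ?_
      rw [Submodule.coe_sum]
      simp only [Submodule.coe_smul, ← hb]
    choose A hA using hA
    have hrepr : ∀ x i l, b.repr ((g : Matrix ι ι F) *ᵥ x) (σ i, l) = ∑ k, A i l k * b.repr x (i, k) := by
      intro x i l
      conv_lhs => rw [← b.sum_repr x, Matrix.mulVec_sum]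
      simp only [Matrix.mulVec_smul, Fintype.sum_prod_type, hA, map_sum, map_smul, Finsupp.coe_finsetSum,
        Finsupp.coe_smul, Finset.sum_apply, Pi.smul_apply, b.repr_self, smul_eq_mul]
      rw [Finset.sum_eq_single i]
      · refine Finset.sum_congr rfl fun k _ => ?_
        simp [Finsupp.single_apply, mul_comm]
      · intro j _ hj
        simp [Finsupp.single_apply, σ.injective.ne hj]
      · simp
    have hdet : ∀ i, A i 0 0 * A i 1 1 - A i 0 1 * A i 1 0 = 1 := by
      intro i
      apply eq_one_of_card_two h2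
      intro h
      have : (A i).det = 0 := by rw [Matrix.det_fin_two]; exact h
      obtain ⟨w, hw0, hw⟩ := Matrix.exists_mulVec_eq_zero_iff.2 this
      apply hw0
      have hz : (g : Matrix ι ι F) *ᵥ (∑ k, w k • b (i, k)) = 0 := by
        have hw' : ∀ l, ∑ k, w k * A i l k = 0 := fun l => by
          simpa [Matrix.mulVec, dotProduct, mul_comm] using congrFun hw l
        simp only [Matrix.mulVec_sum, Matrix.mulVec_smul, hA, Finset.smul_sum, smul_smul]
        rw [Finset.sum_comm]
        simp [← Finset.sum_smul, hw']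
      have h0 : ∑ k, w k • b (i, k) = 0 :=
        (Matrix.mulVec_injective_iff_isUnit.2 g.isUnit) (by rw [hz, Matrix.mulVec_zero])
      exact funext (Fintype.linearIndependent_iff.1
        (b.linearIndependent.comp (fun k => (i, k)) (fun _ _ h => by simpa using h)) w h0)
    rw [Units.val_one, one_mul]
    simp only [f]
    rw [← Equiv.sum_comp σ]
    refine Finset.sum_congr rfl fun i _ => ?_
    rw [hrepr, hrepr, hrepr, hrepr, Fin.sum_univ_two, Fin.sum_univ_two, Fin.sum_univ_two, Fin.sum_univ_two]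
    linear_combination
      (b.repr u (i, 0) * b.repr v (i, 1) - b.repr u (i, 1) * b.repr v (i, 0)) * hdet i

/-- `GL₂(2) ⊗ GL_k(2)` normalises a field of degree two. -/
theorem tensor_two (h2 : Fintype.card F = 2) {k : ℕ} [NeZero k] (e : ι ≃ Fin 2 × Fin k) (P : GL ι F) :
    ∃ K : Subalgebra F (Matrix ι ι F), Geo.IsFieldSubalgebra 2 K ∧
      Geo.tensorProductSubgroup 2 k e P ≤ Geo.subalgebraNormalizer K := by
  classical
  let J : Matrix (Fin 2) (Fin 2) F := !![0, 1; 1, 1]
  have hJJ : J * J = J + 1 := by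
    ext i j
    fin_cases i <;> fin_cases j <;>
      simp [J, Matrix.mul_apply, Fin.sum_univ_two, add_self_of_card_two h2]
  let φ : Matrix (Fin 2) (Fin 2) F → Matrix ι ι F :=
    fun X => tconj e P (X ⊗ₖ (1 : Matrix (Fin k) (Fin k) F))
  have hφmul : ∀ X Y, φ X * φ Y = φ (X * Y) := fun X Y => by
    simp only [φ, ← map_mul, ← Matrix.mul_kronecker_mul, one_mul]
  have hφadd : ∀ X Y, φ (X + Y) = φ X + φ Y := fun X Y => by
    simp only [φ, Matrix.add_kronecker, map_add]
  have hφsmul : ∀ (c : F) X, φ (c • X) = c • φ X := fun c X => by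
    simp only [φ, Matrix.smul_kronecker, map_smul]
  have hφone : φ 1 = 1 := by simp [φ]
  let S : Set (Matrix (Fin 2) (Fin 2) F) := {X | ∃ a c : F, X = a • 1 + c • J}
  have hmul : ∀ X ∈ S, ∀ Y ∈ S, X * Y ∈ S ∧ X * Y = Y * X := by
    rintro _ ⟨a, c, rfl⟩ _ ⟨a', c', rfl⟩
    refine ⟨⟨a * a' + c * c', a * c' + c * a' + c * c', ?_⟩, ?_⟩ <;>
      simp only [mul_add, add_mul, Matrix.smul_mul, Matrix.mul_smul, one_mul, mul_one, hJJ, smul_smul,
        smul_add] <;> module
  let K : Subalgebra F (Matrix ι ι F) :=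
    { carrier := φ '' S
      mul_mem' := by
        rintro _ _ ⟨X, hX, rfl⟩ ⟨Y, hY, rfl⟩
        exact ⟨X * Y, (hmul X hX Y hY).1, (hφmul X Y).symm⟩
      one_mem' := ⟨1, ⟨1, 0, by simp⟩, hφone⟩
      add_mem' := by
        rintro _ _ ⟨_, ⟨a, c, rfl⟩, rfl⟩ ⟨_, ⟨a', c', rfl⟩, rfl⟩
        exact ⟨_, ⟨a + a', c + c', by module⟩, hφadd _ _⟩
      zero_mem' := ⟨0, ⟨0, 0, by simp⟩, by simp [φ]⟩
      algebraMap_mem' := fun r => ⟨r • 1, ⟨r, 0, by simp⟩, by
        rw [hφsmul, hφone, Algebra.algebraMap_eq_smul_one]⟩ }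
  have hφinj : Function.Injective φ := by
    intro X Y h
    have h' := (tconj e P).injective h
    ext i j
    have := congrFun (congrFun h' (i, 0)) (j, 0)
    simpa [Matrix.kroneckerMap_apply] using this
  refine ⟨K, ⟨?_, ?_, ?_⟩, ?_⟩
  · rintro _ ⟨X, hX, rfl⟩ _ ⟨Y, hY, rfl⟩
    rw [hφmul, hφmul, (hmul X hX Y hY).2]
  · rintro _ ⟨X, ⟨a, c, rfl⟩, rfl⟩ hne
    refine ⟨φ ((a + c) • 1 + c • J), ⟨_, ⟨_, _, rfl⟩, rfl⟩, ?_⟩
    rw [hφmul, ← hφone]
    congr 1
    rcases eq_zero_or_one_of_card_two h2 a with rfl | rfl <;>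
      rcases eq_zero_or_one_of_card_two h2 c with rfl | rfl
    · exact absurd (by simp [φ]) hne
    all_goals simp only [zero_smul, one_smul, zero_add, add_zero, mul_one, one_mul, mul_add, add_mul,
      hJJ, add_self_of_card_two h2]
    all_goals try (ext i j; fin_cases i <;> fin_cases j <;>
      simp [J, add_self_of_card_two h2] <;> linear_combination add_self_of_card_two h2 (1 : F))
  · let L : (Fin 2 → F) →ₗ[F] Matrix ι ι F :=
      { toFun := fun p => φ (p 0 • 1 + p 1 • J)
        map_add' := fun p q => by rw [← hφadd]; congr 1; simp only [Pi.add_apply]; module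
        map_smul' := fun c p => by
          rw [RingHom.id_apply, ← hφsmul]; congr 1; simp only [Pi.smul_apply, smul_eq_mul]; module }
    have hrange : LinearMap.range L = Subalgebra.toSubmodule K := by
      ext x
      constructor
      · rintro ⟨p, rfl⟩
        exact ⟨_, ⟨p 0, p 1, rfl⟩, rfl⟩
      · rintro ⟨_, ⟨a, c, rfl⟩, rfl⟩
        exact ⟨![a, c], by simp [L]⟩
    rw [← Subalgebra.finrank_toSubmodule, ← hrange, LinearMap.finrank_range_of_inj, finrank_pi,
      Fintype.card_fin]
    intro p q hpq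
    have h := hφinj hpq
    have h00 := congrFun (congrFun h 0) 0
    have h01 := congrFun (congrFun h 0) 1
    funext i
    fin_cases i <;> simp [J] at h00 h01 ⊢ <;> assumption
  · intro g hg
    obtain ⟨a, b, hab⟩ := (mem_tensorProductSubgroup_iff e P g).1 hg
    have hdet : (a : Matrix (Fin 2) (Fin 2) F).det ≠ 0 :=
      ((Matrix.isUnit_iff_isUnit_det _).1 a.isUnit).ne_zero
    have haJ : ∃ c : F, (a : Matrix (Fin 2) (Fin 2) F) * J = (c • 1 + J) * a := by
      have expand : ∀ c : F,
          ((a : Matrix (Fin 2) (Fin 2) F) * J = (c • 1 + J) * a) ↔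
          a.val 0 1 = c * a.val 0 0 + a.val 1 0 ∧
          a.val 0 0 + a.val 0 1 = c * a.val 0 1 + a.val 1 1 ∧
          a.val 1 1 = a.val 0 0 + (c + 1) * a.val 1 0 ∧
          a.val 1 0 + a.val 1 1 = a.val 0 1 + (c + 1) * a.val 1 1 := by
        intro c
        simp [← Matrix.ext_iff, Fin.forall_fin_two, J, Matrix.mul_apply, Fin.sum_univ_two, and_assoc]
      rw [Matrix.det_fin_two] at hdet
      simp only [expand]
      have h11 := add_self_of_card_two h2 (1 : F)
      rcases eq_zero_or_one_of_card_two h2 (a.val 0 0) with e00 | e00 <;>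
      rcases eq_zero_or_one_of_card_two h2 (a.val 0 1) with e01 | e01 <;>
      rcases eq_zero_or_one_of_card_two h2 (a.val 1 0) with e10 | e10 <;>
      rcases eq_zero_or_one_of_card_two h2 (a.val 1 1) with e11 | e11 <;>
      first
        | (exfalso; simp [e00, e01, e10, e11] at hdet; done)
        | (refine ⟨0, ?_⟩; simp [e00, e01, e10, e11, h11]; done)
        | (refine ⟨1, ?_⟩; simp [e00, e01, e10, e11, h11]; done)
    obtain ⟨c, hc⟩ := haJ
    have hgen : ∀ X ∈ S, ∃ Y ∈ S, (g : Matrix ι ι F) * φ X = φ Y * g := by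
      rintro _ ⟨s, u, rfl⟩
      refine ⟨(s + u * c) • 1 + u • J, ⟨_, _, rfl⟩, ?_⟩
      simp only [hab, φ, ← map_mul, ← Matrix.mul_kronecker_mul, one_mul, mul_one]
      congr 2
      rw [mul_add, Matrix.mul_smul, mul_one, Matrix.mul_smul, hc, add_mul ((s + u * c) • 1),
        add_mul, Matrix.smul_mul, Matrix.smul_mul, Matrix.smul_mul, one_mul]
      module
    let T : Matrix ι ι F ≃ₐ[F] Matrix ι ι F := conjAlg g
    have hle : ∀ x ∈ K, T x ∈ K := by
      rintro _ ⟨X, hX, rfl⟩
      obtain ⟨Y, hY, hY'⟩ := hgen X hX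
      exact ⟨Y, hY, by rw [show T (φ X) = _ from conjAlg_apply g (φ X), hY', mul_assoc,
        Units.mul_inv, mul_one]⟩
    have : Finite K := Finite.of_injective (fun x : K => (x : Matrix ι ι F)) Subtype.val_injective
    have hsurj : Function.Surjective fun x : K => (⟨T x, hle x x.2⟩ : K) :=
      Finite.injective_iff_surjective.1 fun x y h => Subtype.ext (T.injective (congrArg Subtype.val h))
    intro x
    refine ⟨fun hx => hle x hx, fun hx => ?_⟩
    obtain ⟨y, hy⟩ := hsurj ⟨_, hx⟩
    have : (y : Matrix ι ι F) = x := T.injective (congrArg Subtype.val hy)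
    exact this ▸ y.2

end CfsgLib.Aschbacher.SmallField
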