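import Cfsg.Agent.Eq.Def_GeometricClasses
import Cfsg.Agent.Aschbacher.NormalCases
import Cfsg.Agent.Aschbacher.InvariantForms
import Cfsg.Agent.Aschbacher.SmallField
import Cfsg.Agent.Aschbacher.Proper

/-!
Aschbacher's reduction for the maximal subgroups of the special linear group in any dimension, up to the
symplectic-type and tensor-induced configurations.
-/

set_option autoImplicit false

namespace CfsgLib.Aschbacher

open Matrix Cfsg

variable {ι : Type} [Fintype ι] [DecidableEq ι] {F : Type*} [Field F]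

/-- Subfield, form and residual alternatives for a perfect core. -/
theorem core_cases [Fintype F] [Nonempty ι] {H P : Subgroup (GL ι F)} (h : CoreData H P) :
    (∃ (F₀ : Subfield F) (r : ℕ) (B : GL ι F), r.Prime ∧ Fintype.card F = Nat.card F₀ ^ r ∧ F₀ ≠ ⊤ ∧
      H ≤ Geo.subfieldSubgroup F₀ B) ∨
    (∃ Q : (ι → F) → F, Odd (Fintype.card F) ∧ Geo.IsNondegenerateQuadraticForm Q ∧
      H ≤ Geo.quadSimilarityGroup Q) ∨
    (∃ f : (ι → F) → (ι → F) → F, Geo.IsSymplecticForm f ∧ H ≤ Geo.similarityGroup f) ∨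
    (∃ (σ : F ≃+* F) (f : (ι → F) → (ι → F) → F), Geo.IsUnitaryForm σ f ∧ H ≤ Geo.similarityGroup f) ∨
    Geo.InLinearResidualClass H := by
  by_cases hreal : ∃ F₀ : Subfield F, F₀ ≠ ⊤ ∧ Geo.RealisableOver F₀ (Geo.matrixSet P)
  · left
    obtain ⟨F₀, hF₀, B, hB⟩ := hreal
    obtain ⟨F₁, r, hle, hr, hcard, hne⟩ := exists_subfield_prime_index hF₀
    exact ⟨F₁, r, B⁻¹, hr, hcard, hne,
      le_subfieldSubgroup_of_realisable h.absIrred h.normal fun s hs i j => hle (hB s hs i j)⟩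
  right
  have hsymp : ∀ f : (ι → F) → (ι → F) → F, Geo.IsSymplecticForm f → Geo.FixesForm (Geo.matrixSet P) f →
      H ≤ Geo.similarityGroup f := fun f hf hfix =>
    le_similarityGroup_of_normalizes h.absIrred h.normal (IsSesquiForm.of_bilinear hf.bilinear)
      hf.nondegenerate hfix
  by_cases hQ : ∃ Q : (ι → F) → F, Geo.IsNondegenerateQuadraticForm Q ∧ Geo.FixesQuadForm (Geo.matrixSet P) Q
  · obtain ⟨Q, hQ, hfix⟩ := hQ
    by_cases h2 : (2 : F) = 0
    · refine Or.inr (Or.inl ?_)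
      have hf : Geo.IsSymplecticForm (QuadraticMap.polar Q) :=
        { bilinear := hQ.polar_bilinear
          skew := fun v w => by
            have hself : QuadraticMap.polar Q w v + QuadraticMap.polar Q w v = 0 := by
              rw [← two_mul, h2, zero_mul]
            rw [show QuadraticMap.polar Q v w = QuadraticMap.polar Q w v from QuadraticMap.polar_comm _ v w]
            exact eq_neg_of_add_eq_zero_left hself
          alternating := fun v => by rw [polar_self hQ, h2, zero_mul]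
          nondegenerate := hQ.nondegenerate }
      exact ⟨_, hf, hsymp _ hf (polar_fixes hfix)⟩
    · exact Or.inl ⟨Q, odd_card_of_two_ne_zero h2, hQ,
        le_quadSimilarityGroup_of_normalizes h2 h.absIrred h.normal hQ hfix⟩
  right
  by_cases hS : ∃ f : (ι → F) → (ι → F) → F, Geo.IsSymplecticForm f ∧ Geo.FixesForm (Geo.matrixSet P) f
  · obtain ⟨f, hf, hfix⟩ := hS
    exact Or.inl ⟨f, hf, hsymp f hf hfix⟩
  right
  by_cases hU : ∃ (σ : F ≃+* F) (f : (ι → F) → (ι → F) → F),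
      Geo.IsUnitaryForm σ f ∧ Geo.FixesForm (Geo.matrixSet P) f
  · obtain ⟨σ, f, hf, hfix⟩ := hU
    exact Or.inl ⟨σ, f, hf,
      le_similarityGroup_of_normalizes h.absIrred h.normal (IsSesquiForm.of_unitary hf) hf.nondegenerate hfix⟩
  right
  push Not at hreal
  exact ⟨P, h.isResidualCore hreal, hQ, hS, hU⟩

/-- Aschbacher's reduction for the special linear group. -/
theorem linear_maximal_cases [Fintype F] (hn : 3 ≤ Fintype.card ι) {H : Subgroup (GL ι F)}
    (hH : Geo.IsMaximalIn (Geo.specialLinear ι F) H) :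
    (∃ W : Submodule F (ι → F), W ≠ ⊥ ∧ W ≠ ⊤ ∧ H = Geo.subspaceStabilizer W ⊓ Geo.specialLinear ι F) ∨
    (∃ (t m : ℕ) (D : Fin t → Submodule F (ι → F)), Geo.IsMDecomposition m D ∧ t * m = Fintype.card ι ∧
      (m = 1 → 5 ≤ Fintype.card F) ∧ (m = 2 → 3 ≤ Fintype.card F) ∧
      H = Geo.decompositionStabilizer D ⊓ Geo.specialLinear ι F) ∨
    (∃ (r : ℕ) (K : Subalgebra F (Matrix ι ι F)), r.Prime ∧ r ∣ Fintype.card ι ∧ Geo.IsFieldSubalgebra r K ∧
      H = Geo.subalgebraNormalizer K ⊓ Geo.specialLinear ι F) ∨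
    (∃ (d k : ℕ) (e : ι ≃ Fin d × Fin k) (P : GL ι F), 2 ≤ d ∧ d ≤ k ∧ d * k = Fintype.card ι ∧
      (d = 2 → 3 ≤ Fintype.card F) ∧ H ≤ Geo.tensorProductSubgroup d k e P ∧
      H = Geo.tensorProductSubgroup d k e P ⊓ Geo.specialLinear ι F) ∨
    (∃ (F₀ : Subfield F) (r : ℕ) (P : GL ι F), r.Prime ∧ Fintype.card F = Nat.card F₀ ^ r ∧
      H = Geo.subfieldSubgroup F₀ P ⊓ Geo.specialLinear ι F) ∨
    (Odd (Fintype.card F) ∧ ∃ Q : (ι → F) → F, Geo.IsNondegenerateQuadraticForm Q ∧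
      H = Geo.quadSimilarityGroup Q ⊓ Geo.specialLinear ι F) ∨
    (∃ f : (ι → F) → (ι → F) → F, Geo.IsSymplecticForm f ∧
      H = Geo.similarityGroup f ⊓ Geo.specialLinear ι F) ∨
    (∃ (σ : F ≃+* F) (f : (ι → F) → (ι → F) → F), Geo.IsUnitaryForm σ f ∧
      H = Geo.similarityGroup f ⊓ Geo.specialLinear ι F) ∨
    Geo.InLinearResidualClass H ∨
    (∃ N r, AbelianData H N r) ∨
    (∃ d S, CommutingData H d S) := by
  haveI : Nonempty ι := Fintype.card_pos_iff.1 (by omega)
  by_cases hirr : Geo.ActsIrreducibly (Geo.matrixSet H)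
  swap
  · simp only [Geo.ActsIrreducibly, not_forall, not_or] at hirr
    obtain ⟨W, hW, h0, h1⟩ := hirr
    exact Or.inl ⟨W, h0, h1, maximalIn_eq_inf hH
      (fun g hg => mem_subspaceStabilizer_of_mapsTo fun v hv => hW _ ⟨g, hg, rfl⟩ ⟨v, hv, rfl⟩)
      (not_le_subspaceStabilizer h0 h1)⟩
  have hq := Fintype.one_lt_card (α := F)
  rcases geometric_cases hirr with ⟨t, m, D, hD, htm, hle⟩ | ⟨r, K, hr, hrn, hK, hle⟩ |
    ⟨d, k, e, P, hd, hdk, hcard, hle⟩ | hall
  · by_cases h1 : m = 1 ∧ Fintype.card F < 5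
    · obtain ⟨rfl, h5⟩ := h1
      rcases (show Fintype.card F = 2 ∨ Fintype.card F = 3 ∨ Fintype.card F = 4 by omega) with h | h | h
      · obtain ⟨W, h0, h1, hW⟩ := SmallField.monomial_two h hD
        exact Or.inl ⟨W, h0, h1, maximalIn_eq_inf hH (hle.trans hW) (not_le_subspaceStabilizer h0 h1)⟩
      · obtain ⟨Q, hQ, hW⟩ := SmallField.monomial_three h hD
        exact Or.inr <| Or.inr <| Or.inr <| Or.inr <| Or.inr <| Or.inl ⟨by rw [h]; decide, Q, hQ,
          maximalIn_eq_inf hH (hle.trans hW) (not_le_quadSimilarityGroup hn hQ)⟩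
      · obtain ⟨σ, f, hf, hW⟩ := SmallField.monomial_four h hD
        exact Or.inr <| Or.inr <| Or.inr <| Or.inr <| Or.inr <| Or.inr <| Or.inr <| Or.inl ⟨σ, f, hf,
          maximalIn_eq_inf hH (hle.trans hW) (not_specialLinear_le_similarityGroup hn
            (IsSesquiForm.of_unitary hf).add_right
            (IsNondegenerateForm.exists_ne (by omega) hf.nondegenerate))⟩
    by_cases h2 : m = 2 ∧ Fintype.card F < 3
    · obtain ⟨rfl, h3⟩ := h2
      obtain ⟨f, hf, hW⟩ := SmallField.planes_two (show Fintype.card F = 2 by omega) hD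
      exact Or.inr <| Or.inr <| Or.inr <| Or.inr <| Or.inr <| Or.inr <| Or.inl ⟨f, hf,
          maximalIn_eq_inf hH (hle.trans hW) (not_specialLinear_le_similarityGroup hn
            hf.bilinear.add_right (IsNondegenerateForm.exists_ne (by omega) hf.nondegenerate))⟩
    push Not at h1 h2
    exact Or.inr <| Or.inl ⟨t, m, D, hD, htm, h1, h2,
      maximalIn_eq_inf hH hle (not_le_decompositionStabilizer hD)⟩
  · exact Or.inr <| Or.inr <| Or.inl ⟨r, K, hr, hrn, hK,
      maximalIn_eq_inf hH hle (not_le_subalgebraNormalizer hn hK hr.two_le)⟩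
  · by_cases h2 : d = 2 ∧ Fintype.card F < 3
    · obtain ⟨rfl, h3⟩ := h2
      haveI : NeZero k := ⟨by omega⟩
      obtain ⟨K, hK, hW⟩ := SmallField.tensor_two (show Fintype.card F = 2 by omega) e P
      exact Or.inr <| Or.inr <| Or.inl ⟨2, K, Nat.prime_two, ⟨k, hcard.symm⟩, hK,
        maximalIn_eq_inf hH (hle.trans hW) (not_le_subalgebraNormalizer hn hK le_rfl)⟩
    push Not at h2
    exact Or.inr <| Or.inr <| Or.inr <| Or.inl ⟨d, k, e, P, hd, hdk, hcard, h2, hle,
      maximalIn_eq_inf hH hle (not_le_tensorProductSubgroup hd (by omega) e P)⟩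
  rcases normal_structure hall (not_le_scalars_of_irreducible hirr (by omega)) with hA | hC | ⟨P, hP⟩
  · exact Or.inr <| Or.inr <| Or.inr <| Or.inr <| Or.inr <| Or.inr <| Or.inr <| Or.inr <| Or.inr <| Or.inl hA
  · exact Or.inr <| Or.inr <| Or.inr <| Or.inr <| Or.inr <| Or.inr <| Or.inr <| Or.inr <| Or.inr <| Or.inr hC
  rcases core_cases hP with ⟨F₀, r, B, hr, hc, hne, hle⟩ | ⟨Q, hodd, hQ, hle⟩ | ⟨f, hf, hle⟩ |
    ⟨σ, f, hf, hle⟩ | hres
  · exact Or.inr <| Or.inr <| Or.inr <| Or.inr <| Or.inl ⟨F₀, r, B, hr, hc,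
      maximalIn_eq_inf hH hle (not_le_subfieldSubgroup (by omega) hne B)⟩
  · exact Or.inr <| Or.inr <| Or.inr <| Or.inr <| Or.inr <| Or.inl ⟨hodd, Q, hQ,
      maximalIn_eq_inf hH hle (not_le_quadSimilarityGroup hn hQ)⟩
  · exact Or.inr <| Or.inr <| Or.inr <| Or.inr <| Or.inr <| Or.inr <| Or.inl ⟨f, hf,
      maximalIn_eq_inf hH hle (not_specialLinear_le_similarityGroup hn
        hf.bilinear.add_right (IsNondegenerateForm.exists_ne (by omega) hf.nondegenerate))⟩
  · exact Or.inr <| Or.inr <| Or.inr <| Or.inr <| Or.inr <| Or.inr <| Or.inr <| Or.inl ⟨σ, f, hf,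
      maximalIn_eq_inf hH hle (not_specialLinear_le_similarityGroup hn
        (IsSesquiForm.of_unitary hf).add_right (IsNondegenerateForm.exists_ne (by omega) hf.nondegenerate))⟩
  · exact Or.inr <| Or.inr <| Or.inr <| Or.inr <| Or.inr <| Or.inr <| Or.inr <| Or.inr <| Or.inl hres

/-- `linear_maximal_cases` in a dimension that is neither a prime power nor a proper power: no
abelian or tensor-induced configuration. -/
theorem abelianData_isPrimePow [Fintype F] [Nonempty ι] {H N : Subgroup (GL ι F)} {r : ℕ} (hn : 2 ≤ Fintype.card ι)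
    (h : AbelianData H N r) : ∃ j, 0 < j ∧ Fintype.card ι = r ^ j := by
  have hp : IsPGroup r (N ⧸ (Geo.scalars ι F).subgroupOf N) := fun q => by
    induction q using QuotientGroup.induction_on with
    | H x =>
      refine ⟨1, ?_⟩
      rw [pow_one, ← QuotientGroup.mk_pow, QuotientGroup.eq_one_iff, Subgroup.mem_subgroupOf]
      exact h.pow_mem x x.2
  haveI := Fact.mk h.prime
  obtain ⟨a, ha⟩ := IsPGroup.iff_card.1 hp
  rw [h.card_eq] at ha
  have hdvd : Fintype.card ι ∣ r ^ a := ⟨Fintype.card ι, by rw [← ha, sq]⟩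
  obtain ⟨j, -, hj⟩ := (Nat.dvd_prime_pow h.prime).1 hdvd
  refine ⟨j, Nat.pos_of_ne_zero fun h0 => ?_, hj⟩
  rw [h0, pow_zero] at hj
  omega

end CfsgLib.Aschbacher
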