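import Cfsg.Agent.Aschbacher.Heisenberg
import Cfsg.Agent.Aschbacher.InvariantForms

/-!
The structure of an irreducible matrix group of determinant one in odd prime dimension: imprimitive,
extension field, extraspecial normaliser, or almost simple modulo scalars.
-/

set_option autoImplicit false

namespace CfsgLib.Aschbacher

open Matrix Module
open scoped MatrixGroups commutatorElement

variable {ι : Type} [Fintype ι] [DecidableEq ι] {F : Type*} [Field F]

/-- The conditions of `Cfsg.Geo.IsResidualCore` other than the one about subfields. -/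
structure IsPreResidualCore (H P : Subgroup (GL ι F)) : Prop where
  le : P ≤ H
  normal : ∀ h ∈ H, ∀ x ∈ P, h * x * h⁻¹ ∈ P
  perfect : ⁅P, P⁆ = P
  simple : IsSimpleGroup (P ⧸ (Cfsg.Geo.scalars ι F).subgroupOf P)
  nonabelian : ¬ IsMulCommutative (P ⧸ (Cfsg.Geo.scalars ι F).subgroupOf P)
  centralizer_scalar : ∀ h ∈ H, (∀ x ∈ P, h * x * h⁻¹ * x⁻¹ ∈ Cfsg.Geo.scalars ι F) →
    h ∈ Cfsg.Geo.scalars ι F
  absIrred : Cfsg.Geo.ActsAbsolutelyIrreducibly (Cfsg.Geo.matrixSet P)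

lemma IsPreResidualCore.isResidualCore {H P : Subgroup (GL ι F)} (h : IsPreResidualCore H P)
    (hno : ∀ F₀ : Subfield F, F₀ ≠ ⊤ →
      ¬ Cfsg.Geo.RealisableOver F₀ (Cfsg.Geo.matrixSet P)) : Cfsg.Geo.IsResidualCore H P :=
  ⟨h.le, h.normal, h.perfect, h.simple, h.nonabelian, h.centralizer_scalar, h.absIrred, hno⟩

lemma le_normalizer_of_forall_conj {H N : Subgroup (GL ι F)}
    (h : ∀ g ∈ H, ∀ x ∈ N, g * x * g⁻¹ ∈ N) : H ≤ Cfsg.Geo.subgroupNormalizer N := by
  intro g hg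
  refine Subgroup.mem_normalizer_iff.mpr fun x => ⟨fun hx => h g hg x hx, fun hx => ?_⟩
  have := h g⁻¹ (inv_mem hg) _ hx
  simpa [mul_assoc] using this

lemma commutator_le_left_of_conj {P A B : Subgroup (GL ι F)}
    (hA : ∀ g ∈ P, ∀ x ∈ A, g * x * g⁻¹ ∈ A) (hB : B ≤ P) : ⁅A, B⁆ ≤ A := by
  rw [Subgroup.commutator_le]
  intro a ha b hb
  rw [commutatorElement_def, mul_assoc, mul_assoc, ← mul_assoc b]
  exact mul_mem ha (hA b (hB hb) _ (inv_mem ha))

lemma commutator_le_right_of_conj {P A B : Subgroup (GL ι F)}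
    (hA : A ≤ P) (hB : ∀ g ∈ P, ∀ x ∈ B, g * x * g⁻¹ ∈ B) : ⁅A, B⁆ ≤ B := by
  rw [Subgroup.commutator_comm]
  exact commutator_le_left_of_conj hB hA

lemma commutator_conj_closed {P A : Subgroup (GL ι F)}
    (hA : ∀ g ∈ P, ∀ x ∈ A, g * x * g⁻¹ ∈ A) :
    ∀ g ∈ P, ∀ x ∈ ⁅A, A⁆, g * x * g⁻¹ ∈ ⁅A, A⁆ := by
  intro g hg x hx
  have hle : A.map (MulAut.conj g).toMonoidHom ≤ A := by
    rintro _ ⟨a, ha, rfl⟩
    exact hA g hg a ha
  have : g * x * g⁻¹ ∈ (⁅A, A⁆).map (MulAut.conj g).toMonoidHom := ⟨x, hx, rfl⟩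
  rw [Subgroup.map_commutator] at this
  exact Subgroup.commutator_mono hle hle this

lemma commute_of_perfect_aux {G : Type*} [Group G] {Z Q : Subgroup G}
    (hZ : Z ≤ Subgroup.center G) (hQ : ⁅Q, Q⁆ = Q) {h : G}
    (hh : ∀ x ∈ Q, h * x * h⁻¹ * x⁻¹ ∈ Z) : ∀ x ∈ Q, h * x = x * h := by
  have hc : ∀ x ∈ Q, ∀ g : G, g * (h * x * h⁻¹ * x⁻¹) = (h * x * h⁻¹ * x⁻¹) * g :=
    fun x hx g => Subgroup.mem_center_iff.mp (hZ (hh x hx)) g
  have hle : ⁅Q, Q⁆ ≤ Subgroup.centralizer {h} := by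
    rw [Subgroup.commutator_le]
    intro a ha b hb
    rw [Subgroup.mem_centralizer_singleton_iff]
    obtain ⟨za, hza⟩ : ∃ z, z = h * a * h⁻¹ * a⁻¹ := ⟨_, rfl⟩
    obtain ⟨zb, hzb⟩ : ∃ z, z = h * b * h⁻¹ * b⁻¹ := ⟨_, rfl⟩
    have hca : ∀ g, g * za = za * g := fun g => hza ▸ hc a ha g
    have hcb : ∀ g, g * zb = zb * g := fun g => hzb ▸ hc b hb g
    have key : h * ⁅a, b⁆ * h⁻¹ = ⁅a, b⁆ := by
      have e : h * ⁅a, b⁆ * h⁻¹ = ⁅za * a, zb * b⁆ := by
        rw [hza, hzb, commutatorElement_def, commutatorElement_def]; group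
      have za1 : za ∈ Subgroup.center G := Subgroup.mem_center_iff.mpr hca
      have zb1 : zb ∈ Subgroup.center G := Subgroup.mem_center_iff.mpr hcb
      rw [e, commutatorElement_def, commutatorElement_def]
      calc za * a * (zb * b) * (za * a)⁻¹ * (zb * b)⁻¹
          = za * (a * zb) * b * a⁻¹ * za⁻¹ * b⁻¹ * zb⁻¹ := by group
        _ = za * zb * (a * b * a⁻¹ * za⁻¹) * b⁻¹ * zb⁻¹ := by rw [hcb a]; group
        _ = za * zb * (za⁻¹ * (a * b * a⁻¹)) * b⁻¹ * zb⁻¹ := by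
            rw [Subgroup.mem_center_iff.mp (inv_mem za1) (a * b * a⁻¹)]
        _ = za * (zb * za⁻¹) * (a * b * a⁻¹ * b⁻¹ * zb⁻¹) := by group
        _ = za * (za⁻¹ * zb) * (zb⁻¹ * (a * b * a⁻¹ * b⁻¹)) := by
            rw [Subgroup.mem_center_iff.mp (inv_mem za1) zb,
              Subgroup.mem_center_iff.mp (inv_mem zb1) (a * b * a⁻¹ * b⁻¹)]
        _ = a * b * a⁻¹ * b⁻¹ := by group
    calc ⁅a, b⁆ * h = h * ⁅a, b⁆ * h⁻¹ * h := by rw [key]
      _ = h * ⁅a, b⁆ := by group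
  intro x hx
  rw [← hQ] at hx
  exact (Subgroup.mem_centralizer_singleton_iff.mp (hle hx)).symm

/-- An element commuting modulo scalars with a perfect group commutes with it. -/
lemma commute_of_perfect {Q : Subgroup (GL ι F)} (hQ : ⁅Q, Q⁆ = Q) {h : GL ι F}
    (hh : ∀ x ∈ Q, h * x * h⁻¹ * x⁻¹ ∈ Cfsg.Geo.scalars ι F) : ∀ x ∈ Q, h * x = x * h :=
  commute_of_perfect_aux scalars_le_center hQ hh

lemma isSimpleGroup_quotient_subgroupOf {G : Type*} [Group G] {Z N : Subgroup G} [Z.Normal]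
    (hne : ¬ N ≤ Z)
    (h : ∀ M : Subgroup G, M ≤ N → (∀ g ∈ N, ∀ x ∈ M, g * x * g⁻¹ ∈ M) → M ≤ Z ∨ M = N) :
    IsSimpleGroup (N ⧸ Z.subgroupOf N) := by
  have : Nontrivial (N ⧸ Z.subgroupOf N) := by
    rw [QuotientGroup.nontrivial_iff, Ne, Subgroup.subgroupOf_eq_top]
    exact hne
  refine ⟨fun M hM => ?_⟩
  let mk := QuotientGroup.mk' (Z.subgroupOf N)
  let M' := (M.comap mk).map N.subtype
  have hn : ∀ g ∈ N, ∀ x ∈ M', g * x * g⁻¹ ∈ M' := by
    rintro g hg _ ⟨m, hm, rfl⟩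
    exact ⟨⟨g, hg⟩ * m * ⟨g, hg⟩⁻¹, (hM.comap mk).conj_mem m hm ⟨g, hg⟩, rfl⟩
  rcases h M' (Subgroup.map_subtype_le _) hn with h | h
  · left
    rw [eq_bot_iff]
    intro q hq
    obtain ⟨z, rfl⟩ := QuotientGroup.mk'_surjective _ q
    exact Subgroup.mem_bot.mpr ((QuotientGroup.eq_one_iff z).mpr (h ⟨z, hq, rfl⟩))
  · right
    rw [eq_top_iff]
    intro q _
    obtain ⟨z, rfl⟩ := QuotientGroup.mk'_surjective _ q
    obtain ⟨z', hz', hzz⟩ : z.1 ∈ M' := h.symm ▸ z.2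
    exact (Subtype.ext hzz : z' = z) ▸ hz'

lemma commutator_le_of_quotient_comm {G : Type*} [Group G] {Z N : Subgroup G} [Z.Normal]
    (hc : IsMulCommutative (N ⧸ Z.subgroupOf N)) : ⁅N, N⁆ ≤ Z := by
  rw [Subgroup.commutator_le]
  intro a ha b hb
  have : QuotientGroup.mk' (Z.subgroupOf N) ⁅(⟨a, ha⟩ : N), ⟨b, hb⟩⁆ = 1 := by
    rw [map_commutatorElement]
    exact commutatorElement_eq_one_iff_commute.mpr (hc.is_comm.comm _ _)
  have h1 : ⁅(⟨a, ha⟩ : N), (⟨b, hb⟩ : N)⁆ ∈ (QuotientGroup.mk' (Z.subgroupOf N)).ker := this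
  rw [QuotientGroup.ker_mk'] at h1
  exact h1

/-- A family of subgroups pairwise commuting modulo scalars generates a group commutative modulo
scalars. -/
lemma commutator_iSup_le_scalars {α : Type*} {S : α → Subgroup (GL ι F)}
    (h : ∀ a b, ⁅S a, S b⁆ ≤ Cfsg.Geo.scalars ι F) :
    ⁅⨆ a, S a, ⨆ a, S a⁆ ≤ Cfsg.Geo.scalars ι F := by
  let π := QuotientGroup.mk' (Cfsg.Geo.scalars ι F)
  have hker : π.ker = Cfsg.Geo.scalars ι F := QuotientGroup.ker_mk' _
  have key : ∀ A B : Subgroup (GL ι F), ⁅A, B⁆ ≤ Cfsg.Geo.scalars ι F ↔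
      A.map π ≤ Subgroup.centralizer (B.map π : Set _) := by
    intro A B
    rw [← Subgroup.commutator_eq_bot_iff_le_centralizer, ← Subgroup.map_commutator,
      Subgroup.map_eq_bot_iff, hker]
  rw [key, Subgroup.map_iSup]
  refine iSup_le fun a => ?_
  rw [Subgroup.le_centralizer_iff]
  refine iSup_le fun b => ?_
  rw [← key]
  exact h b a

/-- Output of the structure theorem in prime dimension. -/
def HasPrimeStructure (H : Subgroup (GL ι F)) : Prop :=
  (∃ (A : Subgroup (GL ι F)) (b : Basis ι F (ι → F)), A ≤ H ∧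
      (∀ h ∈ H, ∀ x ∈ A, h * x * h⁻¹ ∈ A) ∧ (∀ x ∈ A, ∀ y ∈ A, x * y = y * x) ∧
      IsMonomial H b ∧ (∀ i, IsCommonEigen A (b i)) ∧ Separates A b) ∨
  (∃ A : Subgroup (GL ι F), A ≤ H ∧ (∀ h ∈ H, ∀ x ∈ A, h * x * h⁻¹ ∈ A) ∧
      Cfsg.Geo.IsFieldSubalgebra (Fintype.card ι) (commutant A) ∧
      H ≤ Cfsg.Geo.subalgebraNormalizer (commutant A) ∧ ∀ x ∈ A, x.val ∈ commutant A) ∨
  (∃ R : Subgroup (GL ι F), R ≤ H ∧ (∀ h ∈ H, ∀ x ∈ R, h * x * h⁻¹ ∈ R) ∧ IsHeisenberg R) ∨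
  (∃ P : Subgroup (GL ι F), IsPreResidualCore H P)

theorem prime_dim_structure [Finite F] {H : Subgroup (GL ι F)} (hp : (Fintype.card ι).Prime)
    (hodd : Odd (Fintype.card ι)) (hdet : H ≤ Cfsg.Geo.specialLinear ι F)
    (hirr : Cfsg.Geo.ActsIrreducibly (Cfsg.Geo.matrixSet H)) : HasPrimeStructure H := by
  classical
  have : Nonempty ι := Fintype.card_pos_iff.mp hp.pos
  set Z := Cfsg.Geo.scalars ι F with hZ
  by_cases hab : ∃ A : Subgroup (GL ι F), A ≤ H ∧ (∀ h ∈ H, ∀ x ∈ A, h * x * h⁻¹ ∈ A) ∧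
      (∀ x ∈ A, ∀ y ∈ A, x * y = y * x) ∧ ¬ A ≤ Z
  · obtain ⟨A, hAH, hAn, hAc, hAZ⟩ := hab
    rcases prime_dim_normal_cases hp hirr hAn with h | ⟨-, h⟩ | h
    · exact absurd h hAZ
    · rcases h with ⟨b, hm, hb, hs⟩ | ⟨hK, hle, hin⟩
      · exact Or.inl ⟨A, b, hAH, hAn, hAc, hm, hb, hs⟩
      · exact Or.inr (Or.inl ⟨A, hAH, hAn, hK, hle, hin⟩)
    · obtain ⟨x, hx, y, hy, hne⟩ := exists_not_commute hp.two_le h
      exact absurd (hAc x hx y hy) hne
  push Not at hab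
  have hcases : ∀ N : Subgroup (GL ι F), N ≤ H → (∀ h ∈ H, ∀ x ∈ N, h * x * h⁻¹ ∈ N) →
      N ≤ Z ∨ Cfsg.Geo.ActsAbsolutelyIrreducibly (Cfsg.Geo.matrixSet N) := by
    intro N hNH hNn
    rcases prime_dim_normal_cases hp hirr hNn with h | ⟨hc, -⟩ | h
    · exact Or.inl h
    · exact Or.inl (hab N hNH hNn hc)
    · exact Or.inr h
  have hHZ : ¬ H ≤ Z := by
    intro hle
    obtain ⟨v, hv⟩ := exists_ne (0 : ι → F)
    have hinv : IsInvariantUnder H (Submodule.span F {v}) := by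
      intro x hx w hw
      obtain ⟨c, hc⟩ := (Cfsg.Geo.mem_scalars_iff x).mp (hle hx)
      rw [hc, smul_mulVec, one_mulVec]
      exact Submodule.smul_mem _ _ hw
    rcases eq_bot_or_top_of_invariant hirr hinv with h | h
    · exact hv (Submodule.span_singleton_eq_bot.mp h)
    · have := finrank_span_singleton (K := F) hv
      rw [h, finrank_top, finrank_pi] at this
      exact hp.ne_one this
  obtain ⟨N, ⟨hNH, hNn, hNZ⟩, hmin⟩ := Set.Finite.exists_minimal
    (Set.toFinite {N : Subgroup (GL ι F) | N ≤ H ∧ (∀ h ∈ H, ∀ x ∈ N, h * x * h⁻¹ ∈ N) ∧ ¬ N ≤ Z})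
    ⟨H, le_rfl, fun h hh x hx => mul_mem (mul_mem hh hx) (inv_mem hh), hHZ⟩
  have hNabs := (hcases N hNH hNn).resolve_left hNZ
  have hderle : ⁅N, N⁆ ≤ N := commutator_le_left_of_conj
    (fun g hg x hx => mul_mem (mul_mem hg hx) (inv_mem hg)) le_rfl
  rcases Classical.em (⁅N, N⁆ ≤ Z) with hcom | hcom
  · refine Or.inr (Or.inr (Or.inl ⟨N, hNH, hNn, ?_⟩))
    refine isHeisenberg_of_abelian_mod_scalars hp hodd hNabs ?_ (hNH.trans hdet) ?_
    · intro x hx y hy
      exact hcom (Subgroup.commutator_mem_commutator hy hx)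
    · intro A hA hAc
      refine hab _ ((Subgroup.map_subtype_le A).trans hNH) ?_ ?_
      · rintro h hh _ ⟨a, ha, rfl⟩
        have hn := le_normalizer_of_forall_conj hNn hh
        let φ : N ≃* N :=
          { toFun := fun z => ⟨h * z.1 * h⁻¹, hNn h hh _ z.2⟩
            invFun := fun z => ⟨h⁻¹ * z.1 * h, by simpa using hNn h⁻¹ (inv_mem hh) _ z.2⟩
            left_inv := fun z => Subtype.ext (by simp [mul_assoc])
            right_inv := fun z => Subtype.ext (by simp [mul_assoc])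
            map_mul' := fun z z' => Subtype.ext (by simp [mul_assoc]) }
        refine ⟨φ a, ?_, rfl⟩
        exact Subgroup.mem_comap.mp ((hA.fixed φ).symm ▸ ha : a ∈ A.comap φ.toMonoidHom)
      · rintro _ ⟨a, ha, rfl⟩ _ ⟨b, hb, rfl⟩
        exact congrArg (fun z : A => (z.1 : GL ι F)) (hAc.is_comm.comm ⟨a, ha⟩ ⟨b, hb⟩)
  have hperf : ⁅N, N⁆ = N := le_antisymm hderle
    (hmin ⟨hderle.trans hNH, commutator_conj_closed hNn, hcom⟩ hderle)
  refine Or.inr (Or.inr (Or.inr ⟨N, ?_⟩))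
  -- every normal subgroup of `N` is scalar or everything
  have hnormsub : ∀ M : Subgroup (GL ι F), M ≤ N → (∀ g ∈ N, ∀ x ∈ M, g * x * g⁻¹ ∈ M) →
      M ≤ Z ∨ M = N := by
    intro M₀ hM₀N hM₀n
    by_contra! hcon
    obtain ⟨Q, hQle, ⟨hQN, hQn, hQZ⟩, hQmin⟩ := (Set.toFinite
      {M : Subgroup (GL ι F) | M ≤ N ∧ (∀ g ∈ N, ∀ x ∈ M, g * x * g⁻¹ ∈ M) ∧ ¬ M ≤ Z}).exists_le_minimal
      (a := M₀) ⟨hM₀N, hM₀n, hcon.1⟩
    let S : H → Subgroup (GL ι F) := fun h => Q.map (MulAut.conj h.1).toMonoidHom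
    have hSN : ∀ h, S h ≤ N := by
      rintro h _ ⟨x, hx, rfl⟩
      exact hNn h.1 h.2 x (hQN hx)
    have hSn : ∀ h, ∀ g ∈ N, ∀ x ∈ S h, g * x * g⁻¹ ∈ S h := by
      rintro h g hg _ ⟨x, hx, rfl⟩
      refine ⟨(h.1⁻¹ * g * h.1) * x * (h.1⁻¹ * g * h.1)⁻¹, hQn _ ?_ x hx, ?_⟩
      · simpa using hNn h.1⁻¹ (inv_mem h.2) g hg
      · simp [mul_assoc]
    have hinter : ∀ a b, ¬ S a ≤ S b → ⁅S a, S b⁆ ≤ Z := by
      intro a b hne
      have h1 : ⁅S a, S b⁆ ≤ S a := commutator_le_left_of_conj (hSn a) (hSN b)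
      have h2 : ⁅S a, S b⁆ ≤ S b := commutator_le_right_of_conj (hSN a) (hSn b)
      refine (le_inf h1 h2).trans ?_
      by_contra hZ'
      refine hne ?_
      -- pull back to `Q` along conjugation by `a`
      let T := (S a ⊓ S b).map (MulAut.conj a.1⁻¹).toMonoidHom
      have hTQ : T ≤ Q := by
        rintro _ ⟨x, ⟨⟨q, hq, rfl⟩, -⟩, rfl⟩
        simpa [mul_assoc] using hq
      have hTn : ∀ g ∈ N, ∀ x ∈ T, g * x * g⁻¹ ∈ T := by
        rintro g hg _ ⟨x, ⟨hxa, hxb⟩, rfl⟩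
        have hg' := hNn a.1 a.2 g hg
        refine ⟨(a.1 * g * a.1⁻¹) * x * (a.1 * g * a.1⁻¹)⁻¹,
          ⟨hSn a _ hg' x hxa, hSn b _ hg' x hxb⟩, ?_⟩
        simp [mul_assoc]
      have hTZ : ¬ T ≤ Z := fun hT => hZ' fun x hx => by
        have := hT ⟨x, hx, rfl⟩
        simpa [mul_assoc] using Cfsg.Geo.scalars_normal.conj_mem _ this a.1
      have hQT := hQmin ⟨hTQ.trans hQN, hTn, hTZ⟩ hTQ
      rintro _ ⟨q, hq, rfl⟩
      obtain ⟨x, ⟨-, hxb⟩, hxq⟩ := hQT hq
      have : x = a.1 * q * a.1⁻¹ := by rw [← hxq]; simp [mul_assoc]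
      rw [this] at hxb
      exact hxb
    have hQQ : ⁅Q, Q⁆ = Q := by
      refine le_antisymm (commutator_le_left_of_conj hQn hQN) ?_
      by_contra hne
      have hle : ⁅Q, Q⁆ ≤ Z := by
        by_contra hZ'
        exact hne (hQmin ⟨(commutator_le_left_of_conj hQn hQN).trans hQN,
          commutator_conj_closed hQn, hZ'⟩ (commutator_le_left_of_conj hQn hQN))
      have hpair : ∀ a b, ⁅S a, S b⁆ ≤ Z := by
        intro a b
        by_cases hab' : S a ≤ S b
        · refine le_trans (Subgroup.commutator_mono hab' le_rfl) ?_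
          rw [← Subgroup.map_commutator]
          rintro _ ⟨x, hx, rfl⟩
          exact Cfsg.Geo.scalars_normal.conj_mem _ (hle hx) b.1
        · exact hinter a b hab'
      have htop : ⨆ h, S h = N := by
        refine le_antisymm (iSup_le hSN) (hmin ⟨(iSup_le hSN).trans hNH, ?_, ?_⟩ (iSup_le hSN))
        · intro g hg x hx
          have : (⨆ h, S h).map (MulAut.conj g).toMonoidHom ≤ ⨆ h, S h := by
            rw [Subgroup.map_iSup]
            refine iSup_le fun h => le_trans (le_of_eq ?_) (le_iSup S ⟨g * h.1, mul_mem hg h.2⟩)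
            simp only [S, Subgroup.map_map]
            congr 1
            ext x
            simp [mul_assoc]
          exact this ⟨x, hx, rfl⟩
        · intro hle'
          apply hQZ
          intro q hq
          exact hle' (Subgroup.mem_iSup_of_mem ⟨1, one_mem H⟩ ⟨q, hq, by simp⟩)
      have := commutator_iSup_le_scalars hpair
      rw [htop] at this
      exact hcom this
    -- `Q` is perfect, so absolutely irreducible
    have hQabs : Cfsg.Geo.ActsAbsolutelyIrreducibly (Cfsg.Geo.matrixSet Q) := by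
      rcases prime_dim_normal_cases hp hNabs.1 hQn with h | ⟨hc, -⟩ | h
      · exact absurd h hQZ
      · exfalso
        apply hQZ
        rw [← hQQ, (Subgroup.commutator_eq_bot_iff_le_centralizer).mpr fun x hx =>
          Subgroup.mem_centralizer_iff.mpr fun y hy => hc y hy x hx]
        exact bot_le
      · exact h
    have hQH : ∀ h ∈ H, ∀ x ∈ Q, h * x * h⁻¹ ∈ Q := by
      intro h hh x hx
      have hS1 : S ⟨1, one_mem H⟩ = Q := by
        ext z
        simp [S]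
      by_cases hsub : S ⟨h, hh⟩ ≤ Q
      · exact hsub ⟨x, hx, rfl⟩
      exfalso
      have hc := hinter ⟨h, hh⟩ ⟨1, one_mem H⟩ (by rwa [hS1])
      rw [hS1] at hc
      have hcomm : ∀ s ∈ S ⟨h, hh⟩, s ∈ Z := fun s hs => mem_scalars_of_commute hQabs
        (commute_of_perfect hQQ fun q hq => hc (Subgroup.commutator_mem_commutator hs hq))
      apply hQZ
      intro q hq
      have := hcomm _ ⟨q, hq, rfl⟩
      simpa [mul_assoc] using Cfsg.Geo.scalars_normal.conj_mem _ this h⁻¹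
    exact hcon.2 (le_antisymm hM₀N ((hmin ⟨hQN.trans hNH, hQH, hQZ⟩ hQN).trans hQle))
  refine ⟨hNH, hNn, hperf, ?_, ?_, ?_, hNabs⟩
  · exact isSimpleGroup_quotient_subgroupOf hNZ hnormsub
  · exact fun hc => hcom (commutator_le_of_quotient_comm hc)
  · intro h hh hcz
    exact mem_scalars_of_commute hNabs (commute_of_perfect hperf hcz)

/-- Change of basis to `b`. -/
lemma exists_conj_entries (b : Basis ι F (ι → F)) :
    ∃ B : GL ι F, ∀ (g : Matrix ι ι F) (i j : ι),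
      (B.val * g * (B⁻¹ : GL ι F).val) j i = b.repr (g *ᵥ b i) j := by
  let e := Pi.basisFun F ι
  have h1 : b.toMatrix e * e.toMatrix b = 1 := b.toMatrix_mul_toMatrix_flip e
  refine ⟨⟨b.toMatrix e, e.toMatrix b, h1, e.toMatrix_mul_toMatrix_flip b⟩, fun g i j => ?_⟩
  show (b.toMatrix e * g * e.toMatrix b) j i = _
  conv_lhs => rw [show g = LinearMap.toMatrix e e (toLin' g) from (LinearMap.toMatrix'_toLin' g).symm]
  rw [basis_toMatrix_mul_linearMap_toMatrix_mul_basis_toMatrix]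
  simp [LinearMap.toMatrix_apply]

/-- A monomial set with coefficients in a subfield is realisable over it. -/
lemma realisableOver_of_monomial {F₀ : Subfield F} {S : Set (Matrix ι ι F)}
    (b : Basis ι F (ι → F))
    (h : ∀ s ∈ S, ∃ (σ : Equiv.Perm ι) (c : ι → F),
      (∀ i, c i ∈ F₀) ∧ ∀ i, s *ᵥ b i = c i • b (σ i)) :
    Cfsg.Geo.RealisableOver F₀ S := by
  obtain ⟨B, hB⟩ := exists_conj_entries b
  refine ⟨B, fun s hs i j => ?_⟩
  obtain ⟨σ, c, hc, hg⟩ := h s hs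
  rw [hB, hg, map_smul, b.repr_self, Finsupp.smul_apply, Finsupp.single_apply, smul_eq_mul]
  split
  · rw [mul_one]; exact hc j
  · rw [mul_zero]; exact F₀.zero_mem

/-- The form `Σ uᵢ σ(vᵢ)` in the coordinates of `b`. -/
noncomputable def diagForm (b : Basis ι F (ι → F)) (σ : F →+* F) (u v : ι → F) : F :=
  ∑ i, b.repr u i * σ (b.repr v i)

lemma diagForm_monomial {b : Basis ι F (ι → F)} {σ : F →+* F} {s : Matrix ι ι F}
    {π : Equiv.Perm ι} {c : ι → F} (hc : ∀ i, c i * σ (c i) = 1)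
    (hs : ∀ i, s *ᵥ b i = c i • b (π i)) (u v : ι → F) :
    diagForm b σ (s *ᵥ u) (s *ᵥ v) = diagForm b σ u v := by
  have hrepr : ∀ w i, b.repr (s *ᵥ w) (π i) = c i * b.repr w i := by
    intro w i
    conv_lhs => rw [← b.sum_repr w, mulVec_sum]
    simp only [mulVec_smul, hs, map_sum, map_smul, b.repr_self, Finsupp.coe_finsetSum,
      Finset.sum_apply, Finsupp.smul_apply, Finsupp.single_apply, π.injective.eq_iff, smul_eq_mul,
      mul_ite, mul_one, mul_zero]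
    rw [Finset.sum_ite_eq', if_pos (Finset.mem_univ i), mul_comm]
  unfold diagForm
  rw [← Equiv.sum_comp π (fun i => b.repr (s *ᵥ u) i * σ (b.repr (s *ᵥ v) i))]
  refine Finset.sum_congr rfl fun i _ => ?_
  rw [hrepr, hrepr, map_mul, mul_mul_mul_comm, hc, one_mul]

lemma isSesquiForm_diagForm (b : Basis ι F (ι → F)) (σ : F →+* F) :
    IsSesquiForm σ (diagForm b σ) where
  add_left x y v := by simp [diagForm, add_mul, Finset.sum_add_distrib]
  smul_left c x v := by simp [diagForm, Finset.mul_sum, mul_assoc]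
  add_right v x y := by simp [diagForm, mul_add, Finset.sum_add_distrib]
  smul_right c v x := by simp [diagForm, Finset.mul_sum, mul_left_comm]

lemma isNondegenerateForm_diagForm (b : Basis ι F (ι → F)) (σ : F →+* F) :
    Cfsg.Geo.IsNondegenerateForm (diagForm b σ) := by
  intro v hv
  have : ∃ i, b.repr v i ≠ 0 := by
    by_contra! hcon
    exact hv (b.repr.injective (Finsupp.ext fun i => by simpa using hcon i))
  obtain ⟨i, hi⟩ := this
  refine ⟨⟨b i, ?_⟩, ⟨b i, ?_⟩⟩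
  · simpa [diagForm, Finsupp.single_apply] using hi
  · simpa [diagForm, Finsupp.single_apply, apply_ite σ] using hi

lemma isUnitaryForm_diagForm (b : Basis ι F (ι → F)) {σ : F ≃+* F} (h1 : σ ≠ RingEquiv.refl F)
    (h2 : ∀ a, σ (σ a) = a) : Cfsg.Geo.IsUnitaryForm σ (diagForm b σ.toRingHom) where
  ne_refl := h1
  involutive := h2
  add_left := (isSesquiForm_diagForm b _).add_left
  smul_left := (isSesquiForm_diagForm b _).smul_left
  herm v w := by simp [diagForm, h2, mul_comm]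
  nondegenerate := isNondegenerateForm_diagForm b _

/-- The quadratic form `Σ xᵢ²` in the coordinates of `b`. -/
noncomputable def diagQuad (b : Basis ι F (ι → F)) (v : ι → F) : F := ∑ i, b.repr v i ^ 2

lemma polar_diagQuad (b : Basis ι F (ι → F)) (u v : ι → F) :
    QuadraticMap.polar (diagQuad b) u v = 2 * diagForm b (RingHom.id F) u v := by
  simp only [QuadraticMap.polar, diagQuad, diagForm, map_add, Finsupp.add_apply, RingHom.id_apply,
    Finset.mul_sum, ← Finset.sum_sub_distrib]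
  exact Finset.sum_congr rfl fun i _ => by ring

lemma isNondegenerateQuadraticForm_diagQuad (h2 : (2 : F) ≠ 0) (b : Basis ι F (ι → F)) :
    Cfsg.Geo.IsNondegenerateQuadraticForm (diagQuad b) where
  smul c v := by simp [diagQuad, mul_pow, Finset.mul_sum]
  polar_bilinear := by
    have h := isSesquiForm_diagForm b (RingHom.id F)
    refine ⟨fun x y v => ?_, fun c x v => ?_, fun v x y => ?_, fun c v x => ?_⟩ <;>
      simp only [polar_diagQuad, h.add_left, h.smul_left, h.add_right, h.smul_right,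
        RingHom.id_apply] <;> ring
  nondegenerate v hv := by
    obtain ⟨⟨x, hx⟩, ⟨y, hy⟩⟩ := isNondegenerateForm_diagForm b (RingHom.id F) v hv
    exact ⟨⟨x, by rw [polar_diagQuad]; exact mul_ne_zero h2 hx⟩,
      ⟨y, by rw [polar_diagQuad]; exact mul_ne_zero h2 hy⟩⟩

end CfsgLib.Aschbacher
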