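import Cfsg.Agent.Aschbacher.Density
import Cfsg.Agent.Aschbacher.InvariantForms
import Cfsg.Agent.Aschbacher.PrimeCore

/-!
An absolutely irreducible group commutative modulo scalars is determined up to conjugation by its
central character: this gives invariant forms, and descent to any subfield containing its scalars.
-/

set_option autoImplicit false

namespace CfsgLib.Aschbacher

open Matrix Module
open scoped MatrixGroups

variable {ι : Type} [Fintype ι] [DecidableEq ι] {F : Type*} [Field F]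

/-- The contragredient `g ↦ (g⁻¹)ᵀ`. -/
def glDual : GL ι F →* GL ι F where
  toFun g :=
    ⟨(g⁻¹ : GL ι F).valᵀ, g.valᵀ, by rw [← transpose_mul, Units.mul_inv, transpose_one],
      by rw [← transpose_mul, Units.inv_mul, transpose_one]⟩
  map_one' := Units.ext (by simp)
  map_mul' g h := Units.ext (by simp [transpose_mul])

lemma glDual_val (g : GL ι F) : (glDual g).val = (g⁻¹ : GL ι F).valᵀ := rfl

/-- Two homomorphisms with the same values on scalars, both sending representatives modulo scalars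
to independent matrices, are conjugate. -/
theorem exists_intertwiner [Finite F] [Nonempty ι] {R : Subgroup (GL ι F)}
    (hR : Cfsg.Geo.ActsAbsolutelyIrreducibly (Cfsg.Geo.matrixSet R))
    (hab : ∀ x ∈ R, ∀ y ∈ R, y * x * y⁻¹ * x⁻¹ ∈ Cfsg.Geo.scalars ι F)
    (f₁ f₂ : R →* GL ι F)
    (hscal : ∀ z : R, z.1 ∈ Cfsg.Geo.scalars ι F →
      f₁ z = f₂ z ∧ f₁ z ∈ Cfsg.Geo.scalars ι F)
    (hli : ∀ g : (R ⧸ (Cfsg.Geo.scalars ι F).subgroupOf R) → R,
      (LinearIndependent F fun a => (g a).1.val) →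
      (LinearIndependent F fun a => (f₁ (g a)).val) ∧ LinearIndependent F fun a => (f₂ (g a)).val) :
    ∃ M : GL ι F, ∀ g : R, M * f₁ g = f₂ g * M := by
  classical
  let Z := (Cfsg.Geo.scalars ι F).subgroupOf R
  let Q := R ⧸ Z
  have : Fintype Q := Fintype.ofFinite Q
  let x : Q → R := fun q => q.out
  have hbase : LinearIndependent F fun q : Q => (x q).1.val := by
    refine linearIndependent_of_distinct_classes hR hab (fun q => (x q).1) (fun q => (x q).2)
      fun a b hab' => ?_
    rw [← a.out_eq', ← b.out_eq']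
    exact QuotientGroup.eq.mpr hab'
  obtain ⟨hl1, hl2⟩ := hli x hbase
  have hcard : Fintype.card Q = finrank F (Matrix ι ι F) := by
    rw [finrank_matrix, finrank_self, mul_one, ← Nat.card_eq_fintype_card,
      card_quotient_scalars hR hab]
  have hne : Nonempty Q := ⟨QuotientGroup.mk 1⟩
  let b₁ := basisOfLinearIndependentOfCardEqFinrank hl1 hcard
  let b₂ := basisOfLinearIndependentOfCardEqFinrank hl2 hcard
  let Ψ : Matrix ι ι F ≃ₗ[F] Matrix ι ι F := b₁.equiv b₂ (Equiv.refl Q)
  have hΨ : ∀ g : R, Ψ (f₁ g).val = (f₂ g).val := by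
    intro g
    have hzQ : (x (QuotientGroup.mk g))⁻¹ * g ∈ Z :=
      QuotientGroup.eq.mp (QuotientGroup.out_eq' (QuotientGroup.mk g : Q))
    obtain ⟨heq, hs⟩ := hscal ((x (QuotientGroup.mk g))⁻¹ * g) hzQ
    obtain ⟨c, hc⟩ := (Cfsg.Geo.mem_scalars_iff _).mp hs
    have h1 : ∀ f : R →* GL ι F, (f g).val =
        (f (x (QuotientGroup.mk g))).val * (f ((x (QuotientGroup.mk g))⁻¹ * g)).val := by
      intro f
      rw [← Units.val_mul, ← map_mul, mul_inv_cancel_left]
    rw [h1 f₁, h1 f₂, ← heq, hc, Matrix.mul_smul, mul_one, map_smul, Matrix.mul_smul, mul_one]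
    congr 1
    have : (f₁ (x (QuotientGroup.mk g))).val = b₁ (QuotientGroup.mk g) := by simp [b₁]; rfl
    rw [this, Basis.equiv_apply]
    simp [b₂]
    rfl
  have hone : Ψ 1 = 1 := by simpa using hΨ 1
  have hmul : ∀ X Y, Ψ (X * Y) = Ψ X * Ψ Y := by
    have hb : ∀ q q' : Q, Ψ (b₁ q * b₁ q') = Ψ (b₁ q) * Ψ (b₁ q') := by
      intro q q'
      have e : ∀ q, b₁ q = (f₁ (x q)).val := fun q => by simp [b₁]
      rw [e, e, ← Units.val_mul, ← map_mul, hΨ, hΨ, hΨ, map_mul, Units.val_mul]
    intro X Y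
    have h2 : ∀ q, ∀ Y, Ψ (b₁ q * Y) = Ψ (b₁ q) * Ψ Y := by
      intro q Y
      rw [← b₁.sum_repr Y]
      simp only [Matrix.mul_sum, map_sum, Matrix.mul_smul, map_smul, hb]
    rw [← b₁.sum_repr X]
    simp only [Matrix.sum_mul, map_sum, Matrix.smul_mul, map_smul, h2]
  let A : Matrix ι ι F ≃ₐ[F] Matrix ι ι F := AlgEquiv.ofLinearEquiv Ψ hone hmul
  let E : Matrix ι ι F ≃ₐ[F] Module.End F (ι → F) := Matrix.toLinAlgEquiv'
  obtain ⟨T, hT⟩ := ((E.symm.trans A).trans E).eq_linearEquivConjAlgEquiv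
  let M : GL ι F :=
    ⟨E.symm T.toLinearMap, E.symm T.symm.toLinearMap,
      E.injective (by rw [map_mul, map_one, E.apply_symm_apply, E.apply_symm_apply]; ext v; simp),
      E.injective (by rw [map_mul, map_one, E.apply_symm_apply, E.apply_symm_apply]; ext v; simp)⟩
  refine ⟨M, fun g => Units.ext ?_⟩
  rw [Units.val_mul, Units.val_mul, ← hΨ g]
  apply E.injective
  have h := AlgEquiv.congr_fun hT (E (f₁ g).val)
  simp only [AlgEquiv.trans_apply, AlgEquiv.symm_apply_apply] at h
  change E (Ψ (f₁ g).val) = _ at h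
  rw [map_mul, map_mul, h, E.apply_symm_apply]
  ext v
  simp

lemma linearIndependent_map_ringHom [Finite F] (φ : F →+* F) {α : Type*} {g : α → Matrix ι ι F}
    (h : LinearIndependent F g) : LinearIndependent F fun a => (g a).map φ := by
  let e := RingEquiv.ofBijective φ ⟨φ.injective, Finite.injective_iff_surjective.mp φ.injective⟩
  rw [linearIndependent_iff'] at h ⊢
  intro s c hc a ha
  have := h s (fun a => e.symm (c a)) ?_ a ha
  · simpa using this
  ext i j
  apply φ.injective
  have e' := congrFun (congrFun hc i) j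
  simp only [Matrix.sum_apply, Matrix.smul_apply, smul_eq_mul, Matrix.map_apply,
    Matrix.zero_apply] at e' ⊢
  rw [map_sum, map_zero]
  rw [← e']
  exact Finset.sum_congr rfl fun b _ => by
    rw [map_mul]; congr 1; exact e.apply_symm_apply (c b)

lemma linearIndependent_glDual [Finite F] [Nonempty ι] {R : Subgroup (GL ι F)}
    (hR : Cfsg.Geo.ActsAbsolutelyIrreducibly (Cfsg.Geo.matrixSet R))
    (hab : ∀ x ∈ R, ∀ y ∈ R, y * x * y⁻¹ * x⁻¹ ∈ Cfsg.Geo.scalars ι F) {α : Type*} (g : α → R)
    (h : LinearIndependent F fun a => (g a).1.val) :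
    LinearIndependent F fun a => (glDual (g a).1).val := by
  have hinj : ∀ a b, ((g a).1⁻¹)⁻¹ * (g b).1⁻¹ ∈ Cfsg.Geo.scalars ι F → a = b := by
    intro a b hab'
    by_contra hne
    rw [inv_inv] at hab'
    have hz : (g a).1⁻¹ * (g b).1 ∈ Cfsg.Geo.scalars ι F := by
      have := Cfsg.Geo.scalars_normal.conj_mem _ (inv_mem hab') (g a).1⁻¹
      simpa [mul_assoc] using this
    obtain ⟨c, hc⟩ := (Cfsg.Geo.mem_scalars_iff _).mp hz
    have e : (g b).1.val = (c : F) • (g a).1.val := by
      calc (g b).1.val = ((g a).1 * ((g a).1⁻¹ * (g b).1)).val := by rw [mul_inv_cancel_left]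
        _ = _ := by rw [Units.val_mul, hc, Matrix.mul_smul, mul_one]
    classical
    have hp := (linearIndependent_iff'.mp h) {a, b} (fun i => if i = a then (c : F) else -1) (by
      rw [Finset.sum_pair hne, if_pos rfl, if_neg (Ne.symm hne), e]
      simp) b (by simp)
    rw [if_neg (Ne.symm hne)] at hp
    simp at hp
  have := linearIndependent_of_distinct_classes hR hab (fun a => ((g a).1)⁻¹)
    (fun a => inv_mem (g a).2) hinj
  exact this.map' (transposeLinearEquiv ι ι F F).toLinearMap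
    (LinearEquiv.ker _)

/-- An invariant sesquilinear form, when `σ` inverts the scalars of the group. -/
theorem exists_invariant_form [Finite F] [Nonempty ι] {R : Subgroup (GL ι F)}
    (hR : Cfsg.Geo.ActsAbsolutelyIrreducibly (Cfsg.Geo.matrixSet R))
    (hab : ∀ x ∈ R, ∀ y ∈ R, y * x * y⁻¹ * x⁻¹ ∈ Cfsg.Geo.scalars ι F) (σ : F →+* F)
    (hσ : ∀ c : Fˣ, Units.map (Matrix.scalar ι : F →+* Matrix ι ι F).toMonoidHom c ∈ R →
      σ c = (c : F)⁻¹) :
    ∃ f : (ι → F) → (ι → F) → F, IsSesquiForm σ f ∧ Cfsg.Geo.IsNondegenerateForm f ∧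
      Cfsg.Geo.FixesForm (Cfsg.Geo.matrixSet R) f := by
  have hscal : ∀ z : R, z.1 ∈ Cfsg.Geo.scalars ι F →
      ((GeneralLinearGroup.map σ).comp R.subtype) z = (glDual.comp R.subtype) z ∧
        ((GeneralLinearGroup.map σ).comp R.subtype) z ∈ Cfsg.Geo.scalars ι F := by
    rintro ⟨z, hz⟩ hzs
    obtain ⟨c, hc⟩ := id hzs
    subst hc
    have hσc := hσ c hz
    have hne : σ c ≠ 0 := by rw [hσc]; exact inv_ne_zero c.ne_zero
    constructor
    · refine Units.ext ?_
      simp [glDual_val, GeneralLinearGroup.map, ← map_inv, diagonal_map, hσc]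
    · refine (Cfsg.Geo.mem_scalars_iff _).mpr ⟨Units.mk0 _ hne, ?_⟩
      simp [GeneralLinearGroup.map, smul_one_eq_diagonal, diagonal_map]
  obtain ⟨M, hM⟩ := exists_intertwiner hR hab _ _ hscal (fun g hg =>
    ⟨linearIndependent_map_ringHom σ hg, linearIndependent_glDual hR hab g hg⟩)
  refine ⟨fun u v => u ⬝ᵥ (M.val *ᵥ fun i => σ (v i)), ⟨fun x y v => by simp [add_dotProduct],
    fun c x v => by simp [smul_dotProduct], fun v x y => ?_, fun c v x => ?_⟩, ?_, ?_⟩
  · rw [show (fun i => σ ((x + y) i)) = (fun i => σ (x i)) + fun i => σ (y i) from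
      funext fun i => by simp, mulVec_add, dotProduct_add]
  · rw [show (fun i => σ ((c • x) i)) = σ c • fun i => σ (x i) from funext fun i => by simp,
      mulVec_smul, dotProduct_smul, smul_eq_mul]
  · intro v hv
    have hσv : (fun i => σ (v i)) ≠ 0 := fun e => hv (funext fun i =>
      σ.injective (by rw [congrFun e i]; simp))
    refine ⟨?_, ?_⟩
    · obtain ⟨i, hi⟩ := Function.ne_iff.mp
        (fun e => hσv (mulVec_inj M (e.trans (mulVec_zero _).symm)) : M.val *ᵥ (fun i => σ (v i)) ≠ 0)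
      exact ⟨Pi.single i 1, by simpa [single_dotProduct] using hi⟩
    · have hvM : v ᵥ* M.val ≠ 0 := fun e => hv (by
        have := congrArg (· ᵥ* (M⁻¹ : GL ι F).val) e
        simpa [vecMul_vecMul] using this)
      obtain ⟨i, hi⟩ := Function.ne_iff.mp hvM
      refine ⟨Pi.single i 1, ?_⟩
      have hs : (fun j => σ ((Pi.single i (1 : F) : ι → F) j)) = Pi.single i 1 :=
        funext fun j => by simp [Pi.single_apply, apply_ite σ]
      show v ⬝ᵥ (M.val *ᵥ fun j => σ ((Pi.single i (1 : F) : ι → F) j)) ≠ 0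
      rw [hs, dotProduct_mulVec, dotProduct_single, mul_one]
      exact hi
  · rintro _ ⟨g, hg, rfl⟩ u v
    have e := congrArg Units.val (hM ⟨g, hg⟩)
    simp [GeneralLinearGroup.map, glDual_val] at e
    have key : g.valᵀ * (M.val * g.val.map σ) = M.val := by
      rw [e, ← Matrix.mul_assoc, ← transpose_mul, ← Matrix.coe_units_inv, Units.inv_mul,
        transpose_one, Matrix.one_mul]
    show (g.val *ᵥ u) ⬝ᵥ (M.val *ᵥ fun i => σ ((g.val *ᵥ v) i)) = _
    rw [show (fun i => σ ((g.val *ᵥ v) i)) = g.val.map σ *ᵥ fun i => σ (v i) from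
      funext fun i => RingHom.map_mulVec σ g.val v i, mulVec_mulVec,
      dotProduct_comm, dotProduct_mulVec, ← mulVec_transpose, mulVec_mulVec, key, dotProduct_comm]

/-- Lang's theorem for a semilinear map of finite order: the fixed vectors span. -/
lemma exists_basis_fixed [Finite F] {k : ℕ} (φ : F →+* F) (hφk : ∀ c, φ^[k] c = c)
    (hdist : ∀ i < k, ∀ j < k, (∀ c, φ^[i] c = φ^[j] c) → i = j) (hk : 0 < k)
    (T : (ι → F) →+ (ι → F)) (hT : ∀ (c : F) (v : ι → F), T (c • v) = φ c • T v)
    (hTk : ∀ v, (⇑T)^[k] v = v) : ∃ b : Basis ι F (ι → F), ∀ i, T (b i) = b i := by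
  classical
  have hTi : ∀ i (c : F) (v : ι → F), (⇑T)^[i] (c • v) = φ^[i] c • (⇑T)^[i] v := by
    intro i
    induction i with
    | zero => simp
    | succ i ih =>
      intro c v
      rw [Function.iterate_succ_apply', Function.iterate_succ_apply', Function.iterate_succ_apply',
        ih, hT]
  have hfix : ∀ v, T (∑ i ∈ Finset.range k, (⇑T)^[i] v) = ∑ i ∈ Finset.range k, (⇑T)^[i] v := by
    intro v
    rw [map_sum]
    simp only [← Function.iterate_succ_apply' (⇑T)]
    have h1 := Finset.sum_range_succ' (fun i => (⇑T)^[i] v) k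
    rw [Finset.sum_range_succ, hTk, Function.iterate_zero_apply] at h1
    exact (add_right_cancel h1).symm
  let E : Set (ι → F) := {v | T v = v}
  have hE : ⊤ ≤ Submodule.span F E := by
    intro v _
    by_contra hv
    obtain ⟨ψ, hψv, hψ⟩ := Submodule.exists_le_ker_of_notMem hv
    let χ : Fin k → (F →* F) := fun i => ((φ ^ (i : ℕ) : F →+* F) : F →* F)
    have hχ : ∀ (i : Fin k) c, χ i c = φ^[(i : ℕ)] c := fun i c =>
      congrFun (RingHom.coe_pow φ (i : ℕ)) c
    have hχinj : Function.Injective χ := fun i j hij => Fin.ext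
      (hdist _ i.2 _ j.2 fun c => by rw [← hχ, ← hχ, hij])
    have hli := (linearIndependent_monoidHom F F).comp χ hχinj
    have h0 : ∀ i : Fin k, ψ ((⇑T)^[(i : ℕ)] v) = 0 := by
      refine fun i => linearIndependent_iff'.mp hli Finset.univ (fun i => ψ ((⇑T)^[(i : ℕ)] v))
        (funext fun c => ?_) i (Finset.mem_univ i)
      have hmem : ∑ i ∈ Finset.range k, (⇑T)^[i] (c • v) ∈ Submodule.span F E :=
        Submodule.subset_span (hfix _)
      have := LinearMap.mem_ker.mp (hψ hmem)
      simp only [hTi, map_sum, map_smul, smul_eq_mul] at this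
      rw [← Fin.sum_univ_eq_sum_range] at this
      simp [Finset.sum_apply, hχ, mul_comm] at this ⊢
      exact this
    exact hψv (h0 ⟨0, hk⟩)
  let b₀ := Basis.ofSpan hE
  have : Fintype ((linearIndepOn_empty F id).extend (Set.empty_subset E)) :=
    FiniteDimensional.fintypeBasisIndex b₀
  let e := Fintype.equivOfCardEq ((finrank_eq_card_basis b₀).symm.trans (finrank_pi (ι := ι) F))
  refine ⟨b₀.reindex e, fun i => ?_⟩
  rw [Basis.reindex_apply]
  exact Basis.ofSpan_subset hE ⟨_, rfl⟩

/-- An absolutely irreducible group, commutative modulo scalars, is realisable over every subfield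
of prime index containing its scalars. -/
theorem realisableOver_of_scalars_mem [Fintype F] [Nonempty ι] {R : Subgroup (GL ι F)}
    (hR : Cfsg.Geo.ActsAbsolutelyIrreducibly (Cfsg.Geo.matrixSet R))
    (hab : ∀ x ∈ R, ∀ y ∈ R, y * x * y⁻¹ * x⁻¹ ∈ Cfsg.Geo.scalars ι F) (F₁ : Subfield F)
    {k : ℕ} (hk : k.Prime) (hcard : Fintype.card F = Nat.card F₁ ^ k)
    (hmem : ∀ c : Fˣ, Units.map (Matrix.scalar ι : F →+* Matrix ι ι F).toMonoidHom c ∈ R →
      (c : F) ∈ F₁) :
    Cfsg.Geo.RealisableOver F₁ (Cfsg.Geo.matrixSet R) := by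
  classical
  have hgal : Nat.card (F ≃ₐ[F₁] F) = k := by
    rw [IsGalois.card_aut_eq_finrank]
    have := Module.natCard_eq_pow_finrank (K := F₁) (V := F)
    rw [Nat.card_eq_fintype_card (α := F), hcard] at this
    exact (Nat.pow_right_injective (Finite.one_lt_card (α := F₁)) this).symm
  have := Fact.mk hk
  obtain ⟨γ, hγ⟩ := exists_prime_orderOf_dvd_card' k (dvd_of_eq hgal.symm)
  let φ : F →+* F := γ.toAlgHom.toRingHom
  have hit : ∀ i c, φ^[i] c = (γ ^ i) c := by
    intro i c
    induction i with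
    | zero => simp
    | succ i ih => rw [Function.iterate_succ_apply', ih, pow_succ']; rfl
  have hφk : ∀ c, φ^[k] c = c := fun c => by rw [hit, ← hγ, pow_orderOf_eq_one]; rfl
  have hdist : ∀ i < k, ∀ j < k, (∀ c, φ^[i] c = φ^[j] c) → i = j := by
    intro i hi j hj hij
    refine pow_injOn_Iio_orderOf (x := γ) (by rw [hγ]; exact hi) (by rw [hγ]; exact hj) ?_
    exact AlgEquiv.ext fun c => by rw [← hit, ← hit]; exact hij c
  have hbij : Function.Bijective fun i : Fin k => γ ^ (i : ℕ) := by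
    refine (Fintype.bijective_iff_injective_and_card _).mpr ⟨fun i j hij => Fin.ext ?_, ?_⟩
    · exact pow_injOn_Iio_orderOf (x := γ) (by rw [hγ]; exact i.2) (by rw [hγ]; exact j.2) hij
    · rw [Fintype.card_fin, ← Nat.card_eq_fintype_card, hgal]
  have hfixed : ∀ c, φ c = c → c ∈ F₁ := by
    intro c hc
    have hall : ∀ τ : F ≃ₐ[F₁] F, τ c = c := by
      intro τ
      obtain ⟨i, rfl⟩ := hbij.2 τ
      show (γ ^ (i : ℕ)) c = c
      rw [← hit, Function.iterate_fixed hc]
    obtain ⟨y, hy⟩ := (IsGalois.mem_range_algebraMap_iff_fixed c).mpr hall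
    exact hy ▸ y.2
  -- the intertwiner of the Galois twist
  have hscal : ∀ z : R, z.1 ∈ Cfsg.Geo.scalars ι F →
      ((GeneralLinearGroup.map φ).comp R.subtype) z = R.subtype z ∧
        ((GeneralLinearGroup.map φ).comp R.subtype) z ∈ Cfsg.Geo.scalars ι F := by
    rintro ⟨z, hz⟩ hzs
    obtain ⟨c, hc⟩ := id hzs
    subst hc
    have hc' : φ c = c := γ.commutes (⟨c, hmem c hz⟩ : F₁)
    have e : GeneralLinearGroup.map φ (Units.map (Matrix.scalar ι : F →+* Matrix ι ι F).toMonoidHom c)
        = Units.map (Matrix.scalar ι : F →+* Matrix ι ι F).toMonoidHom c := by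
      refine Units.ext ?_
      simp [GeneralLinearGroup.map, diagonal_map, hc']
    have e2 : Units.map (Matrix.scalar ι : F →+* Matrix ι ι F).toMonoidHom c ∈
      Cfsg.Geo.scalars ι F := ⟨c, rfl⟩
    exact ⟨e, e.symm ▸ e2⟩
  obtain ⟨M, hM⟩ := exists_intertwiner hR hab _ _ hscal (fun g hg =>
    ⟨linearIndependent_map_ringHom φ hg, hg⟩)
  let S : F → (ι → F) →+ (ι → F) := fun c => AddMonoidHom.mk'
    (fun v => c • (M.val *ᵥ fun i => φ (v i))) (fun v w => by
      rw [← smul_add, ← mulVec_add]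
      congr 2
      exact funext fun i => map_add φ _ _)
  have hS : ∀ c v, S c v = c • (M.val *ᵥ fun i => φ (v i)) := fun _ _ => rfl
  have hSsmul : ∀ c d v, S c (d • v) = φ d • S c v := by
    intro c d v
    rw [hS, hS, show (fun i => φ ((d • v) i)) = φ d • fun i => φ (v i) from
      funext fun i => by simp, mulVec_smul, smul_comm]
  have hSR : ∀ c, ∀ g ∈ R, ∀ v, S c (g.val *ᵥ v) = g.val *ᵥ S c v := by
    intro c g hg v
    have e := congrArg Units.val (hM ⟨g, hg⟩)
    simp only [Units.val_mul, MonoidHom.comp_apply, Subgroup.coe_subtype] at e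
    have e' : M.val * g.val.map φ = g.val * M.val := e
    rw [hS, hS, show (fun i => φ ((g.val *ᵥ v) i)) = g.val.map φ *ᵥ fun i => φ (v i) from
      funext fun i => RingHom.map_mulVec φ g.val v i, mulVec_mulVec, e', ← mulVec_mulVec,
      mulVec_smul]
  have hSi : ∀ c i d v, (⇑(S c))^[i] (d • v) = φ^[i] d • (⇑(S c))^[i] v := by
    intro c i
    induction i with
    | zero => simp
    | succ i ih =>
      intro d v
      rw [Function.iterate_succ_apply', Function.iterate_succ_apply', Function.iterate_succ_apply',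
        ih, hSsmul]
  have hSRi : ∀ c i, ∀ g ∈ R, ∀ v, (⇑(S c))^[i] (g.val *ᵥ v) = g.val *ᵥ (⇑(S c))^[i] v := by
    intro c i
    induction i with
    | zero => simp
    | succ i ih =>
      intro g hg v
      rw [Function.iterate_succ_apply', Function.iterate_succ_apply', ih g hg, hSR c g hg]
  let L : (ι → F) →ₗ[F] (ι → F) :=
    { toFun := (⇑(S 1))^[k]
      map_add' := fun v w => iterate_map_add (S 1) k v w
      map_smul' := fun d v => by simp [hSi, hφk] }
  have hLmat : ∀ v, LinearMap.toMatrix' L *ᵥ v = (⇑(S 1))^[k] v := fun v => by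
    rw [← Matrix.toLin'_apply, Matrix.toLin'_toMatrix']; rfl
  obtain ⟨a, ha⟩ := hR.2 (LinearMap.toMatrix' L) (by
    rintro _ ⟨g, hg, rfl⟩
    refine Matrix.ext_iff_mulVec.mpr fun v => ?_
    simp only [← mulVec_mulVec, hLmat, hSRi 1 k g hg])
  have hk' : ∀ v, (⇑(S 1))^[k] v = a • v := fun v => by rw [← hLmat, ha, smul_mulVec, one_mulVec]
  have hinj : Function.Injective (S 1) := fun v w h => by
    rw [hS, hS, one_smul, one_smul] at h
    exact funext fun i => φ.injective (congrFun (mulVec_inj M h) i)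
  obtain ⟨v₁, hv₁⟩ := exists_ne (0 : ι → F)
  have ha0 : a ≠ 0 := fun h0 => hv₁ (hinj.iterate k (by simp [hk', h0]))
  have haφ : φ a = a := by
    have h1 := hSsmul 1 a v₁
    have h2 := hk' (S 1 v₁)
    rw [← Function.iterate_succ_apply, Function.iterate_succ_apply', hk', h1] at h2
    exact smul_left_injective F (fun h0 => hv₁ (hinj (h0.trans (map_zero _).symm))) h2
  obtain ⟨c, hc⟩ := FiniteField.norm_surjective (K := F₁) (K' := F) (⟨a, hfixed a haφ⟩ : F₁)⁻¹
  have hprod : ∏ i ∈ Finset.range k, φ^[i] c = a⁻¹ := by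
    have e := Algebra.norm_eq_prod_automorphisms F₁ c
    rw [hc] at e
    rw [← Fin.prod_univ_eq_prod_range (fun i => φ^[i] c)]
    simp only [hit]
    rw [hbij.prod_comp (fun τ : F ≃ₐ[F₁] F => τ c), ← e]
    exact map_inv₀ (algebraMap F₁ F) _
  have hSc : ∀ i v, (⇑(S c))^[i] v = (∏ j ∈ Finset.range i, φ^[j] c) • (⇑(S 1))^[i] v := by
    intro i
    induction i with
    | zero => simp
    | succ i ih =>
      intro v
      rw [Function.iterate_succ_apply', ih, hSsmul, Function.iterate_succ_apply', hS c, hS 1,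
        one_smul, smul_smul, map_prod, Finset.prod_range_succ']
      simp only [Function.iterate_succ_apply', Function.iterate_zero_apply]
  have hSk : ∀ v, (⇑(S c))^[k] v = v := fun v => by
    rw [hSc, hk', smul_smul, hprod, inv_mul_cancel₀ ha0, one_smul]
  obtain ⟨b, hb⟩ := exists_basis_fixed φ hφk hdist hk.pos (S c) (hSsmul c) hSk
  obtain ⟨B, hB⟩ := exists_conj_entries b
  refine ⟨B, fun s hs i j => ?_⟩
  obtain ⟨g, hg, rfl⟩ := hs
  rw [hB]
  apply hfixed
  have hw : S c (g.val *ᵥ b j) = g.val *ᵥ b j := by rw [hSR c g hg, hb]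
  have e := hw
  conv_lhs at e => rw [← b.sum_repr (g.val *ᵥ b j), map_sum]
  simp only [hSsmul, hb] at e
  have e' := congrArg (fun w => b.repr w i) e
  simp only [b.repr_sum_self] at e'
  exact e'

end CfsgLib.Aschbacher
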