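import Cfsg.Agent.Eq.Def_GeometricClasses
import Cfsg.Agent.Aschbacher.SemilinearDescent
import Cfsg.Agent.Aschbacher.NormalStructure
import Cfsg.Agent.Aschbacher.LinearCases

/-!
The abelian case of the reduction in any dimension: the normaliser of a symplectic-type group, a
subfield group, or a group of similarities.
-/

set_option autoImplicit false

namespace CfsgLib.Aschbacher

open Matrix Module
open scoped MatrixGroups

variable {ι : Type} [Fintype ι] [DecidableEq ι] {F : Type*} [Field F]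

/-- The scalar matrix `c`. -/
def scalarGL (c : Fˣ) : GL ι F := Units.map (Matrix.scalar ι : F →+* Matrix ι ι F).toMonoidHom c

lemma scalarGL_mem (c : Fˣ) : (scalarGL c : GL ι F) ∈ Cfsg.Geo.scalars ι F := ⟨c, rfl⟩

lemma scalarGL_val (c : Fˣ) : (scalarGL c : GL ι F).val = (c : F) • (1 : Matrix ι ι F) := by
  simp [scalarGL, smul_one_eq_diagonal]

lemma scalarGL_pow (c : Fˣ) (k : ℕ) : (scalarGL (c ^ k) : GL ι F) = scalarGL c ^ k := map_pow _ _ _

lemma scalarGL_injective [Nonempty ι] : Function.Injective (scalarGL : Fˣ → GL ι F) := by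
  intro c d h
  have e := congrArg Units.val h
  rw [scalarGL_val, scalarGL_val] at e
  exact Units.ext (smul_left_injective F one_ne_zero e)

lemma orderOf_scalarGL [Nonempty ι] (c : Fˣ) : orderOf (scalarGL c : GL ι F) = orderOf c :=
  orderOf_injective (Units.map (Matrix.scalar ι : F →+* Matrix ι ι F).toMonoidHom) scalarGL_injective c

lemma mul_pow_of_central_commutator {G : Type*} [Group G] {x y z : G}
    (hz : z ∈ Subgroup.center G) (h : y * x = z * (x * y)) (k : ℕ) :
    (x * y) ^ k = z ^ (k.choose 2) * (x ^ k * y ^ k) := by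
  have hc : ∀ g, g * z = z * g := Subgroup.mem_center_iff.mp hz
  have hck : ∀ (i : ℕ) g, g * z ^ i = z ^ i * g := fun i g =>
    (Commute.pow_right (hc g : Commute g z) i).eq
  have hyx : ∀ i : ℕ, y ^ i * x = z ^ i * (x * y ^ i) := by
    intro i
    induction i with
    | zero => simp
    | succ i ih =>
      calc y ^ (i + 1) * x = y ^ i * (y * x) := by rw [pow_succ, mul_assoc]
        _ = y ^ i * z * (x * y) := by rw [h]; group
        _ = z * (y ^ i * x) * y := by rw [hc]; group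
        _ = z * (z ^ i * (x * y ^ i)) * y := by rw [ih]
        _ = z ^ (i + 1) * (x * y ^ (i + 1)) := by rw [pow_succ', pow_succ y]; group
  induction k with
  | zero => simp
  | succ k ih =>
    have hch : (k + 1).choose 2 = k.choose 2 + k := by
      rw [Nat.choose_succ_succ, Nat.choose_one_right, add_comm]
    calc (x * y) ^ (k + 1) = z ^ k.choose 2 * (x ^ k * (y ^ k * x) * y) := by
          rw [pow_succ, ih]; group
      _ = z ^ k.choose 2 * (x ^ k * z ^ k * (x * y ^ k) * y) := by rw [hyx]; group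
      _ = z ^ k.choose 2 * (z ^ k * x ^ k * (x * y ^ k) * y) := by rw [hck]
      _ = z ^ (k + 1).choose 2 * (x ^ (k + 1) * y ^ (k + 1)) := by
          rw [hch, pow_add z, pow_succ x, pow_succ y]; group

/-- Commutators of `N Z` are commutators of `N`. -/
lemma exists_sign_of_mem_sup {N : Subgroup (GL ι F)} {r : ℕ}
    (hab : ∀ x ∈ N, ∀ y ∈ N, y * x * y⁻¹ * x⁻¹ ∈ Cfsg.Geo.scalars ι F)
    (hpow : ∀ x ∈ N, x ^ r ∈ Cfsg.Geo.scalars ι F) {g h : GL ι F}
    (hg : g ∈ N ⊔ Cfsg.Geo.scalars ι F) (hh : h ∈ N ⊔ Cfsg.Geo.scalars ι F) :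
    ∃ z ∈ Cfsg.Geo.scalars ι F, h * g = z * (g * h) ∧ z ^ r = 1 := by
  rw [← SetLike.mem_coe, Subgroup.mul_normal, Set.mem_mul] at hg hh
  obtain ⟨x, hx, a, ha, rfl⟩ := hg
  obtain ⟨y, hy, b, hb, rfl⟩ := hh
  set z := y * x * y⁻¹ * x⁻¹ with hz
  have hzs := hab x hx y hy
  refine ⟨z, hzs, ?_, ?_⟩
  · calc y * b * (x * a) = y * (b * x) * a := by group
      _ = y * x * (b * a) := by rw [scalars_commute hb]; group
      _ = y * x * (a * b) := by rw [scalars_commute hb a]
      _ = z * (x * (y * a) * b) := by rw [hz]; group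
      _ = z * (x * a * (y * b)) := by rw [← scalars_commute ha y]; group
  · have hxz : y * x * y⁻¹ = z * x := by rw [hz]; group
    have e : (y * x * y⁻¹) ^ r = z ^ r * x ^ r := by
      rw [hxz]; exact Commute.mul_pow (scalars_commute hzs x) r
    rw [conj_pow, ← scalars_commute (hpow x hx) y, mul_assoc, mul_inv_cancel, mul_one] at e
    exact (mul_eq_right.mp e.symm)

/-- The alternatives other than the symplectic-type normaliser. -/
def InFormOrSubfield [Fintype F] (H : Subgroup (GL ι F)) : Prop :=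
  (∃ (F₀ : Subfield F) (r : ℕ) (P : GL ι F), r.Prime ∧ Fintype.card F = Nat.card F₀ ^ r ∧ F₀ ≠ ⊤ ∧
      H ≤ Cfsg.Geo.subfieldSubgroup F₀ P) ∨
  (Odd (Fintype.card F) ∧ ∃ Q : (ι → F) → F, Cfsg.Geo.IsNondegenerateQuadraticForm Q ∧
      H ≤ Cfsg.Geo.quadSimilarityGroup Q) ∨
  (∃ f : (ι → F) → (ι → F) → F, Cfsg.Geo.IsSymplecticForm f ∧ H ≤ Cfsg.Geo.similarityGroup f) ∨
  (∃ (σ : F ≃+* F) (f : (ι → F) → (ι → F) → F), Cfsg.Geo.IsUnitaryForm σ f ∧
      H ≤ Cfsg.Geo.similarityGroup f)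

/-- A normalised group fixing a bilinear form: symmetric or alternating. -/
theorem inFormOrSubfield_of_bilinear [Fintype F] [Nonempty ι] (h2 : (2 : F) ≠ 0)
    {H R : Subgroup (GL ι F)} (hR : Cfsg.Geo.ActsAbsolutelyIrreducibly (Cfsg.Geo.matrixSet R))
    (hnorm : ∀ h ∈ H, ∀ x ∈ R, h * x * h⁻¹ ∈ R) {f : (ι → F) → (ι → F) → F}
    (hf : IsSesquiForm (RingHom.id F) f) (hnd : Cfsg.Geo.IsNondegenerateForm f)
    (hfix : Cfsg.Geo.FixesForm (Cfsg.Geo.matrixSet R) f) : InFormOrSubfield H := by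
  let f' : (ι → F) → (ι → F) → F := fun u v => f v u
  have hf' : IsSesquiForm (RingHom.id F) f' :=
    ⟨fun x y v => hf.add_right v x y, fun c x v => hf.smul_right c v x,
      fun v x y => hf.add_left x y v, fun c v x => hf.smul_left c x v⟩
  obtain ⟨a, ha⟩ := exists_eq_mul_of_fixes hR hf hf' hnd hfix (fun s hs u v => hfix s hs v u)
  obtain ⟨v₀, x₀, hne⟩ := IsNondegenerateForm.exists_ne Fintype.card_pos hnd
  have haa : a * a = 1 := by
    have h1 : f' x₀ v₀ = a * f x₀ v₀ := ha x₀ v₀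
    have h2' : f' v₀ x₀ = a * f v₀ x₀ := ha v₀ x₀
    simp only [f'] at h1 h2'
    rw [h2', ← mul_assoc] at h1
    exact mul_right_cancel₀ hne (h1.symm.trans (one_mul _).symm)
  have hbil : Cfsg.Geo.IsBilinearForm f := ⟨hf.add_left, hf.smul_left, hf.add_right, hf.smul_right⟩
  rcases mul_self_eq_one_iff.mp haa with rfl | rfl
  · have hsymm : ∀ u v, f v u = f u v := fun u v => (ha u v).trans (one_mul _)
    have hpolar : ∀ u v, QuadraticMap.polar (fun v => f v v) u v = 2 * f u v := by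
      intro u v
      simp only [QuadraticMap.polar, hf.add_left, hf.add_right, hsymm u v]
      ring
    have hQ : Cfsg.Geo.IsNondegenerateQuadraticForm (fun v => f v v) :=
      { smul := fun c v => by rw [hbil.smul_left, hbil.smul_right]; ring
        polar_bilinear := by
          refine ⟨fun x y v => ?_, fun c x v => ?_, fun v x y => ?_, fun c v x => ?_⟩ <;>
            simp only [hpolar, hbil.add_left, hbil.smul_left, hbil.add_right, hbil.smul_right] <;> ring
        nondegenerate := fun v hv => by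
          obtain ⟨⟨x, hx⟩, ⟨y, hy⟩⟩ := hnd v hv
          exact ⟨⟨x, by rw [hpolar]; exact mul_ne_zero h2 hx⟩,
            ⟨y, by rw [hpolar]; exact mul_ne_zero h2 hy⟩⟩ }
    exact Or.inr (Or.inl ⟨odd_card_of_two_ne_zero h2, _, hQ,
      le_quadSimilarityGroup_of_normalizes h2 hR hnorm hQ fun s hs v => hfix s hs v v⟩)
  · have hskew : ∀ u v, f v u = - f u v := fun u v => (ha u v).trans (neg_one_mul _)
    have hsymp : Cfsg.Geo.IsSymplecticForm f :=
      ⟨hbil, fun v w => hskew w v, fun v => by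
        have h := hskew v v
        rw [eq_neg_iff_add_eq_zero, ← two_mul] at h
        exact (mul_eq_zero.mp h).resolve_left h2, hnd⟩
    exact Or.inr (Or.inr (Or.inl ⟨f, hsymp, le_similarityGroup_of_normalizes hR hnorm hf hnd hfix⟩))

/-- A normalised group fixing a sesquilinear form for an involution. -/
theorem inFormOrSubfield_of_sesqui [Fintype F] [Nonempty ι] {σ : F ≃+* F}
    (hσ : ∀ a, σ (σ a) = a) (hne : σ ≠ RingEquiv.refl F) {H R : Subgroup (GL ι F)}
    (hR : Cfsg.Geo.ActsAbsolutelyIrreducibly (Cfsg.Geo.matrixSet R))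
    (hnorm : ∀ h ∈ H, ∀ x ∈ R, h * x * h⁻¹ ∈ R) {f : (ι → F) → (ι → F) → F}
    (hf : IsSesquiForm σ.toRingHom f) (hnd : Cfsg.Geo.IsNondegenerateForm f)
    (hfix : Cfsg.Geo.FixesForm (Cfsg.Geo.matrixSet R) f) : InFormOrSubfield H := by
  let f' : (ι → F) → (ι → F) → F := fun u v => σ (f v u)
  have hf' : IsSesquiForm σ.toRingHom f' :=
    ⟨fun x y v => by simp [f', hf.add_right], fun c x v => by simp [f', hf.smul_right, hσ],
      fun v x y => by simp [f', hf.add_left], fun c v x => by simp [f', hf.smul_left]⟩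
  obtain ⟨a, ha⟩ := exists_eq_mul_of_fixes hR hf hf' hnd hfix
    (fun s hs u v => congrArg σ (hfix s hs v u))
  obtain ⟨v₀, x₀, hne₀⟩ := IsNondegenerateForm.exists_ne Fintype.card_pos hnd
  have haa : σ a * a = 1 := by
    have h1 : σ (f x₀ v₀) = a * f v₀ x₀ := ha v₀ x₀
    have h2 : σ (f v₀ x₀) = a * f x₀ v₀ := ha x₀ v₀
    have h3 := congrArg σ h2
    rw [map_mul, hσ, h1, ← mul_assoc] at h3
    exact mul_right_cancel₀ hne₀ (h3.symm.trans (one_mul _).symm)
  obtain ⟨b, hb0, hb⟩ : ∃ b : F, b ≠ 0 ∧ σ b * a = b := by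
    by_cases hex : ∃ t, t + a * σ t ≠ 0
    · obtain ⟨t, ht⟩ := hex
      refine ⟨_, ht, ?_⟩
      rw [map_add, map_mul, hσ, add_mul, mul_right_comm (σ a) t a, haa, one_mul, mul_comm (σ t) a,
        add_comm]
    · push Not at hex
      exfalso
      have h1 := hex 1
      rw [map_one, mul_one] at h1
      have hm1 : a = -1 := eq_neg_of_add_eq_zero_right h1
      refine hne (RingEquiv.ext fun t => ?_)
      have h2 := hex t
      rw [hm1, neg_one_mul, ← sub_eq_add_neg, sub_eq_zero] at h2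
      exact h2.symm
  have hu : Cfsg.Geo.IsUnitaryForm σ (fun u v => b * f u v) :=
    { ne_refl := hne
      involutive := hσ
      add_left := fun x y v => by rw [hf.add_left, mul_add]
      smul_left := fun c x v => by rw [hf.smul_left, mul_left_comm]
      herm := fun v w => by
        have h1 : σ (f w v) = a * f v w := ha v w
        rw [map_mul, h1, ← mul_assoc, hb]
      nondegenerate := fun v hv => by
        obtain ⟨⟨x, hx⟩, ⟨y, hy⟩⟩ := hnd v hv
        exact ⟨⟨x, mul_ne_zero hb0 hx⟩, ⟨y, mul_ne_zero hb0 hy⟩⟩ }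
  exact Or.inr (Or.inr (Or.inr ⟨σ, _, hu, le_similarityGroup_of_normalizes hR hnorm
    (IsSesquiForm.of_unitary hu) hu.nondegenerate fun s hs u v => by rw [hfix s hs u v]⟩))

/-- The elements of `N Z` killed by `r'`. -/
structure IsCover (N R : Subgroup (GL ι F)) (r' : ℕ) : Prop where
  mem_iff : ∀ g, g ∈ R ↔ g ∈ N ⊔ Cfsg.Geo.scalars ι F ∧ g ^ r' = 1

lemma exists_cover {N : Subgroup (GL ι F)} {r r' : ℕ}
    (hab : ∀ x ∈ N, ∀ y ∈ N, y * x * y⁻¹ * x⁻¹ ∈ Cfsg.Geo.scalars ι F)
    (hpow : ∀ x ∈ N, x ^ r ∈ Cfsg.Geo.scalars ι F) (hdvd : r ∣ r'.choose 2) :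
    ∃ R, IsCover N R r' := by
  refine ⟨{ carrier := {g | g ∈ N ⊔ Cfsg.Geo.scalars ι F ∧ g ^ r' = 1},
            one_mem' := ⟨one_mem _, one_pow _⟩,
            mul_mem' := ?_, inv_mem' := ?_ }, ⟨fun g => Iff.rfl⟩⟩
  · rintro g h ⟨hg, hg1⟩ ⟨hh, hh1⟩
    obtain ⟨z, hzs, he, hz⟩ := exists_sign_of_mem_sup hab hpow hg hh
    obtain ⟨m, hm⟩ := hdvd
    refine ⟨mul_mem hg hh, ?_⟩
    rw [mul_pow_of_central_commutator (scalars_le_center hzs) he, hg1, hh1, one_mul, mul_one, hm,
      pow_mul, hz, one_pow]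
  · rintro g ⟨hg, hg1⟩
    exact ⟨inv_mem hg, by rw [inv_pow, hg1, inv_one]⟩

/-- What the cover `R` satisfies when every element of `N` lies in `R Z`. -/
structure CoverData (H N R : Subgroup (GL ι F)) (r' : ℕ) : Prop where
  cover : IsCover N R r'
  onto : ∀ x ∈ N, ∃ c : Fˣ, scalarGL c * x ∈ R
  absIrred : Cfsg.Geo.ActsAbsolutelyIrreducibly (Cfsg.Geo.matrixSet R)
  comm : ∀ x ∈ R, ∀ y ∈ R, y * x * y⁻¹ * x⁻¹ ∈ Cfsg.Geo.scalars ι F
  normal : ∀ h ∈ H, ∀ x ∈ R, h * x * h⁻¹ ∈ R
  scalar_pow : ∀ c : Fˣ, scalarGL c ∈ R → c ^ r' = 1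

lemma coverData [Nonempty ι] {H N R : Subgroup (GL ι F)} {r r' : ℕ} (h : AbelianData H N r)
    (hR : IsCover N R r') (honto : ∀ x ∈ N, ∃ c : Fˣ, scalarGL c * x ∈ R) : CoverData H N R r' := by
  refine ⟨hR, honto, ⟨?_, ?_⟩, ?_, ?_, ?_⟩
  · refine actsIrreducibly_of_forall fun W hW => eq_bot_or_top_of_invariant h.absIrred.1 ?_
    intro x hx v hv
    obtain ⟨c, hc⟩ := honto x hx
    have := hW _ hc v hv
    rw [Units.val_mul, scalarGL_val, Matrix.smul_mul, Matrix.one_mul, smul_mulVec] at this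
    exact (Submodule.smul_mem_iff W c.ne_zero).mp this
  · intro M hM
    refine h.absIrred.2 M ?_
    rintro _ ⟨x, hx, rfl⟩
    obtain ⟨c, hc⟩ := honto x hx
    have := hM _ ⟨_, hc, rfl⟩
    simp only at this ⊢
    rw [Units.val_mul, scalarGL_val, Matrix.smul_mul, Matrix.one_mul, Matrix.mul_smul,
      Matrix.smul_mul] at this
    exact (smul_right_injective _ c.ne_zero) this
  · intro x hx y hy
    obtain ⟨z, hzs, he, -⟩ := exists_sign_of_mem_sup
      (fun a ha b hb => h.comm b hb a ha) h.pow_mem ((hR.mem_iff x).mp hx).1 ((hR.mem_iff y).mp hy).1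
    have : y * x * y⁻¹ * x⁻¹ = z := by rw [he]; group
    exact this ▸ hzs
  · intro g hg x hx
    obtain ⟨hxs, hx1⟩ := (hR.mem_iff x).mp hx
    refine (hR.mem_iff _).mpr ⟨?_, by rw [conj_pow, hx1, mul_one, mul_inv_cancel]⟩
    have : (N ⊔ Cfsg.Geo.scalars ι F).map (MulAut.conj g).toMonoidHom ≤ N ⊔ Cfsg.Geo.scalars ι F := by
      rw [Subgroup.map_sup]
      refine sup_le_sup ?_ ?_
      · rintro _ ⟨a, ha, rfl⟩
        exact h.normal g hg a ha
      · rintro _ ⟨a, ha, rfl⟩
        exact Cfsg.Geo.scalars_normal.conj_mem a ha g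
    exact this ⟨x, hxs, rfl⟩
  · intro c hc
    refine scalarGL_injective (ι := ι) ?_
    rw [scalarGL_pow, ((hR.mem_iff _).mp hc).2]
    exact (map_one _).symm

/-- The scalar adjusting an element to order dividing `r'`: every `x ^ r` is an `r`-th power. -/
lemma exists_root [Finite F] [Nonempty ι] (hn : 2 ≤ Fintype.card ι) {H N : Subgroup (GL ι F)} {r : ℕ}
    (h : AbelianData H N r) (hhom : Odd r ∨ ∃ i : Fˣ, i ^ 2 = -1) :
    ∀ x ∈ N, ∃ c : Fˣ, x ^ r = scalarGL (c ^ r) := by
  classical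
  have := Fact.mk h.prime
  let Pw : Subgroup Fˣ := (powMonoidHom r : Fˣ →* Fˣ).range
  have hlam : ∀ x : N, ∃ c : Fˣ, x.1 ^ r = scalarGL c := fun x => by
    obtain ⟨c, hc⟩ := h.pow_mem x.1 x.2; exact ⟨c, hc.symm⟩
  choose lam hlam using hlam
  have hneg : ∀ c : Fˣ, c ^ r = 1 → c ^ (r.choose 2) ∈ Pw := by
    intro c hc
    rcases hhom with hodd | ⟨i, hi⟩
    · refine ⟨1, ?_⟩
      obtain ⟨m, hm⟩ := hodd
      have : r.choose 2 = r * m := by
        rw [Nat.choose_two_right, hm, show (2 * m + 1) * (2 * m + 1 - 1) = 2 * ((2 * m + 1) * m) by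
          rw [Nat.add_sub_cancel]; ring, Nat.mul_div_cancel_left _ (by norm_num)]
      rw [this, pow_mul, hc, one_pow, map_one]
    · rcases h.prime.eq_two_or_odd' with rfl | hodd
      · have h2 : (c : F) * (c : F) = 1 := by
          rw [← sq, ← Units.val_pow_eq_pow_val, hc, Units.val_one]
        rcases mul_self_eq_one_iff.mp h2 with h1 | h1
        · exact ⟨1, by simp [show c = 1 from Units.ext h1]⟩
        · exact ⟨i, by simp [show c = -1 from Units.ext (by simp [h1]), hi]⟩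
      · refine ⟨1, ?_⟩
        obtain ⟨m, hm⟩ := hodd
        have : r.choose 2 = r * m := by
          rw [Nat.choose_two_right, hm, show (2 * m + 1) * (2 * m + 1 - 1) = 2 * ((2 * m + 1) * m) by
            rw [Nat.add_sub_cancel]; ring, Nat.mul_div_cancel_left _ (by norm_num)]
        rw [this, pow_mul, hc, one_pow, map_one]
  let ψ : N →* Fˣ ⧸ Pw :=
    { toFun := fun x => QuotientGroup.mk (lam x)
      map_one' := by
        have : lam 1 = 1 := scalarGL_injective (ι := ι) ((hlam 1).symm.trans (by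
          rw [OneMemClass.coe_one, one_pow]; exact (map_one _).symm))
        rw [this]; rfl
      map_mul' := fun x y => by
        obtain ⟨z, hzs, he, hz⟩ := exists_sign_of_mem_sup (r := r)
          (fun a ha b hb => h.comm b hb a ha) h.pow_mem
          (Subgroup.mem_sup_left x.2) (Subgroup.mem_sup_left y.2)
        obtain ⟨c, hc⟩ := id hzs
        have hcr : c ^ r = 1 := scalarGL_injective (ι := ι) (by
          rw [scalarGL_pow, show scalarGL c = z from hc, hz]; exact (map_one _).symm)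
        have e : lam (x * y) = c ^ r.choose 2 * (lam x * lam y) := scalarGL_injective (ι := ι) (by
          rw [← hlam, Subgroup.coe_mul, mul_pow_of_central_commutator (scalars_le_center hzs) he,
            hlam, hlam, ← hc]
          simp only [scalarGL, map_mul, map_pow])
        rw [e, ← QuotientGroup.mk_mul]
        refine (QuotientGroup.eq).mpr ?_
        rw [_root_.mul_inv_rev, mul_comm _ (c ^ r.choose 2)⁻¹, mul_assoc, inv_mul_cancel, mul_one]
        exact Pw.inv_mem (hneg c hcr) }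
  by_cases hM : ψ.ker.map N.subtype ≤ Cfsg.Geo.scalars ι F
  · exfalso
    let Zn := (Cfsg.Geo.scalars ι F).subgroupOf N
    have hker : ψ.ker ≤ Zn := fun x hx => hM ⟨x, hx, rfl⟩
    have hcyc : IsCyclic (Fˣ ⧸ Pw) := isCyclic_of_surjective (QuotientGroup.mk' Pw)
      (QuotientGroup.mk'_surjective _)
    have hcycN : IsCyclic (N ⧸ Zn) := by
      have h1 : IsCyclic (N ⧸ ψ.ker) := isCyclic_of_injective (QuotientGroup.kerLift ψ)
        (QuotientGroup.kerLift_injective ψ)
      refine isCyclic_of_surjective (QuotientGroup.map ψ.ker Zn (MonoidHom.id N) hker) ?_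
      intro q
      obtain ⟨x, rfl⟩ := QuotientGroup.mk'_surjective _ q
      exact ⟨QuotientGroup.mk x, rfl⟩
    obtain ⟨g, hg⟩ := hcycN.exists_ofOrder_eq_natCard
    have hdvd : orderOf g ∣ r := by
      refine orderOf_dvd_of_pow_eq_one ?_
      obtain ⟨x, rfl⟩ := QuotientGroup.mk'_surjective _ g
      rw [← map_pow]
      exact (QuotientGroup.eq_one_iff _).mpr (h.pow_mem x.1 x.2)
    rw [hg, h.card_eq] at hdvd
    rcases (Nat.dvd_prime h.prime).mp hdvd with e | e
    · nlinarith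
    · have hp := h.prime
      rw [← e, sq] at hp
      exact Nat.not_prime_mul (by omega) (by omega) hp
  · have hMN : ψ.ker.map N.subtype = N := by
      refine h.minimal _ (Subgroup.map_subtype_le _) ?_ ?_ hM
      · intro z hz
        obtain ⟨c, hc⟩ := id hz.2
        refine ⟨⟨z, h.scalars_le hz⟩, ?_, rfl⟩
        refine (QuotientGroup.eq_one_iff _).mpr ⟨c, ?_⟩
        refine scalarGL_injective (ι := ι) ?_
        rw [← hlam]
        show scalarGL (c ^ r) = z ^ r
        rw [scalarGL_pow, ← hc]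
        rfl
      · rintro g hg _ ⟨x, hx, rfl⟩
        refine ⟨⟨g * x.1 * g⁻¹, h.normal g hg _ x.2⟩, ?_, rfl⟩
        have : lam ⟨g * x.1 * g⁻¹, h.normal g hg _ x.2⟩ = lam x := scalarGL_injective (ι := ι) (by
          rw [← hlam, conj_pow, hlam, ← scalars_commute (scalarGL_mem _), mul_assoc, mul_inv_cancel,
            mul_one])
        rw [SetLike.mem_coe, MonoidHom.mem_ker]
        show QuotientGroup.mk _ = (1 : Fˣ ⧸ Pw)
        rw [this]
        exact hx
    intro x hx
    obtain ⟨⟨y, hy⟩, hyk, rfl⟩ : x ∈ ψ.ker.map N.subtype := hMN.symm ▸ hx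
    obtain ⟨c, hc⟩ := (QuotientGroup.eq_one_iff _).mp hyk
    exact ⟨c, (hlam ⟨y, hy⟩).trans (congrArg scalarGL hc.symm)⟩

/-- The abelian case, in any dimension at least three. -/
theorem symplecticType_cases [Fintype F] (hn : 3 ≤ Fintype.card ι) {H N : Subgroup (GL ι F)} {r : ℕ}
    (h : AbelianData H N r) :
    (∃ R : Subgroup (GL ι F), Cfsg.Geo.IsLinearSymplecticTypeData r R ∧
      H ≤ Cfsg.Geo.subgroupNormalizer R) ∨ InFormOrSubfield H := by
  classical
  have : Nonempty ι := Fintype.card_pos_iff.mp (by omega)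
  have hrp := h.prime
  obtain ⟨j, hj, hnj⟩ := abelianData_isPrimePow (by omega) h
  obtain ⟨p, hchar, e, hp, hcard⟩ : ∃ p : ℕ, CharP F p ∧ ∃ e : ℕ, p.Prime ∧ Fintype.card F = p ^ e := by
    obtain ⟨p, hchar⟩ := CharP.exists F
    obtain ⟨e, hp, hcard⟩ := FiniteField.card F p
    exact ⟨p, hchar, e, hp, hcard⟩
  have := Fact.mk hp
  have hab : ∀ x ∈ N, ∀ y ∈ N, y * x * y⁻¹ * x⁻¹ ∈ Cfsg.Geo.scalars ι F :=
    fun a ha b hb => h.comm b hb a ha
  -- a root of unity of order `r`
  obtain ⟨w, hw⟩ : ∃ w : Fˣ, orderOf w = r := by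
    obtain ⟨x, hx, y, hy, hxy⟩ := exists_not_commute (by omega) h.absIrred
    obtain ⟨z, hzs, he, hz⟩ :=
      exists_sign_of_mem_sup hab h.pow_mem (Subgroup.mem_sup_left hx) (Subgroup.mem_sup_left hy)
    obtain ⟨c, rfl⟩ := id hzs
    have := Fact.mk h.prime
    refine ⟨c, orderOf_eq_prime (scalarGL_injective (ι := ι) ?_) fun h1 => hxy ?_⟩
    · rw [scalarGL_pow]; exact hz.trans (map_one _).symm
    · rw [h1, map_one, one_mul] at he; exact he.symm
  have hdvd : r ∣ p ^ e - 1 := by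
    rw [← hw, ← hcard, ← Fintype.card_units]
    exact orderOf_dvd_card
  have he0 : e ≠ 0 := fun e0 => by
    rw [e0, pow_zero] at hcard
    exact (Fintype.one_lt_card (α := F)).ne' hcard
  have hrne : r ≠ p := fun e' => by
    subst e'
    have h1 : r ∣ r ^ e := dvd_pow_self r he0
    have h2 := Nat.dvd_sub h1 hdvd
    rw [Nat.sub_sub_self (Nat.one_le_pow e r hp.pos)] at h2
    exact hrp.ne_one (Nat.dvd_one.mp h2)
  by_cases hhom : Odd r ∨ ∃ i : Fˣ, i ^ 2 = -1
  swap
  · -- two-groups without a square root of minus one fix a bilinear form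
    push Not at hhom
    obtain ⟨hev, hi⟩ := hhom
    obtain rfl : r = 2 := hrp.eq_two_or_odd'.resolve_right hev
    have hp2 : p ≠ 2 := fun e' => hrne e'.symm
    have hringchar : ringChar F ≠ 2 := by rw [ringChar.eq F p]; exact hp2
    have h2 : (2 : F) ≠ 0 := Ring.two_ne_zero hringchar
    obtain ⟨R, hR⟩ := exists_cover (r' := 4) hab h.pow_mem ⟨3, by decide⟩
    have honto : ∀ x ∈ N, ∃ c : Fˣ, scalarGL c * x ∈ R := by
      intro x hx
      obtain ⟨lam, hlam⟩ := h.pow_mem x hx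
      obtain ⟨μ, hμ⟩ : ∃ μ : Fˣ, μ ^ 2 = lam ∨ μ ^ 2 = -lam := by
        have hsq : ∀ a : Fˣ, a ^ (Fintype.card F / 2) = 1 → ∃ μ : Fˣ, μ ^ 2 = a := fun a ha => by
          obtain ⟨μ, hμ⟩ := (FiniteField.unit_isSquare_iff hringchar a).mpr ha
          exact ⟨μ, by rw [sq, hμ]⟩
        have hdich : ∀ a : Fˣ, a ^ (Fintype.card F / 2) = 1 ∨ a ^ (Fintype.card F / 2) = -1 := fun a => by
          rcases FiniteField.pow_dichotomy hringchar a.ne_zero with h1 | h1
          · exact Or.inl (Units.ext (by simpa using h1))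
          · exact Or.inr (Units.ext (by simpa using h1))
        rcases hdich lam with h1 | h1
        · obtain ⟨μ, hμ⟩ := hsq lam h1; exact ⟨μ, Or.inl hμ⟩
        · have hm1 : (-1 : Fˣ) ^ (Fintype.card F / 2) = -1 := (hdich (-1)).resolve_left fun h' => by
            obtain ⟨μ, hμ⟩ := hsq (-1) h'; exact hi μ hμ
          obtain ⟨μ, hμ⟩ := hsq (-lam) (by rw [← neg_one_mul lam, mul_pow, hm1, h1, neg_mul_neg, one_mul])
          exact ⟨μ, Or.inr hμ⟩
      refine ⟨μ⁻¹, (hR.mem_iff _).mpr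
        ⟨mul_mem (Subgroup.mem_sup_right (scalarGL_mem _)) (Subgroup.mem_sup_left hx), ?_⟩⟩
      rw [Commute.mul_pow (scalars_commute (scalarGL_mem _) x), show (4 : ℕ) = 2 * 2 from rfl,
        pow_mul x, ← hlam, ← scalarGL_pow]
      show scalarGL (μ⁻¹ ^ (2 * 2)) * scalarGL lam ^ 2 = 1
      rw [← scalarGL_pow]
      unfold scalarGL
      rw [← map_mul, pow_mul, inv_pow]
      rcases hμ with h1 | h1 <;> rw [h1] <;> simp
    have hd := coverData h hR honto
    obtain ⟨f, hf, hnd, hfix⟩ := exists_invariant_form hd.absIrred hd.comm (RingHom.id F) (fun c hc => by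
      have h4 := hd.scalar_pow c hc
      have hc2 : c ^ 2 = 1 := by
        have : ((c ^ 2 : Fˣ) : F) * ((c ^ 2 : Fˣ) : F) = 1 := by
          rw [← Units.val_mul, ← pow_add, h4, Units.val_one]
        rcases mul_self_eq_one_iff.mp this with h1 | h1
        · exact Units.ext h1
        · exact absurd (Units.ext (by simpa using h1)) (hi c)
      have : c⁻¹ = c := inv_eq_of_mul_eq_one_right (by rw [← sq, hc2])
      rw [RingHom.id_apply, ← Units.val_inv_eq_inv_val, this])
    exact Or.inr (inFormOrSubfield_of_bilinear h2 hd.absIrred hd.normal hf hnd hfix)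
  -- the adjusted cover
  obtain ⟨r', hr', hdiv, hchoose, hr'cases, u, hu⟩ : ∃ r', r' = r * Nat.gcd 2 r ∧ r ∣ r' ∧
      r ∣ r'.choose 2 ∧ ((Odd r ∧ r' = r) ∨ (r = 2 ∧ r' = 4)) ∧ ∃ u : Fˣ, orderOf u = r' := by
    refine ⟨_, rfl, dvd_mul_right _ _, ?_⟩
    rcases hrp.eq_two_or_odd' with rfl | hodd
    · rcases hhom with h1 | ⟨i, hi⟩
      · exact absurd h1 (by decide)
      refine ⟨by decide, Or.inr ⟨rfl, rfl⟩, i, ?_⟩
      have hne : (-1 : Fˣ) ≠ 1 := fun h1 => hrne (by
        have : (-1 : F) = 1 := by simpa using congrArg Units.val h1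
        have h2' : ((2 : ℕ) : F) = 0 := by
          push_cast
          rw [← one_add_one_eq_two]
          nth_rewrite 1 [← this]
          exact neg_add_cancel 1
        exact ((Nat.prime_dvd_prime_iff_eq hp Nat.prime_two).mp
          ((CharP.cast_eq_zero_iff F p 2).mp h2')).symm)
      exact orderOf_eq_prime_pow (p := 2) (n := 1) (by rw [pow_one, hi]; exact hne)
        (by rw [show (2 : ℕ) ^ (1 + 1) = 2 * 2 from rfl, pow_mul, hi, neg_one_sq])
    · have hg : Nat.gcd 2 r = 1 := (Nat.coprime_primes Nat.prime_two hrp).mpr fun e' => by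
        rw [← e'] at hodd; exact absurd hodd (by decide)
      rw [hg, mul_one]
      refine ⟨?_, Or.inl ⟨hodd, rfl⟩, w, hw⟩
      obtain ⟨m, hm⟩ := hodd
      exact ⟨m, by rw [Nat.choose_two_right, hm, show (2 * m + 1) * (2 * m + 1 - 1) = 2 * ((2 * m + 1) * m) by
        rw [Nat.add_sub_cancel]; ring, Nat.mul_div_cancel_left _ (by norm_num)]⟩
  obtain ⟨R, hR⟩ := exists_cover (r' := r') hab h.pow_mem hchoose
  have honto : ∀ x ∈ N, ∃ c : Fˣ, scalarGL c * x ∈ R := by
    intro x hx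
    obtain ⟨c, hc⟩ := exists_root (by omega) h hhom x hx
    refine ⟨c⁻¹, (hR.mem_iff _).mpr
      ⟨mul_mem (Subgroup.mem_sup_right (scalarGL_mem _)) (Subgroup.mem_sup_left hx), ?_⟩⟩
    obtain ⟨t, ht⟩ := hdiv
    rw [ht, pow_mul, Commute.mul_pow (scalars_commute (scalarGL_mem _) x), hc, ← scalarGL_pow]
    unfold scalarGL
    rw [← map_mul, inv_pow, inv_mul_cancel, map_one, one_pow]
  have hd := coverData h hR honto
  have hr'pos : 0 < r' := hu ▸ orderOf_pos u
  have hroots : ∀ c : Fˣ, scalarGL c ∈ R → c ∈ Subgroup.zpowers u := by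
    intro c hc
    have : NeZero (orderOf u) := ⟨hu.symm ▸ hr'pos.ne'⟩
    obtain ⟨k, -, hk⟩ := ((IsPrimitiveRoot.orderOf u).map_of_injective (f := Units.coeHom F)
      Units.val_injective).eq_pow_of_pow_eq_one (ξ := (c : F)) (by
        rw [hu, ← Units.val_pow_eq_pow_val, hd.scalar_pow c hc, Units.val_one])
    rw [Units.coeHom_apply, ← Units.val_pow_eq_pow_val] at hk
    exact ⟨k, by simp only [zpow_natCast]; exact Units.ext hk⟩
  have huR : scalarGL u ∈ R := (hR.mem_iff _).mpr ⟨Subgroup.mem_sup_right (scalarGL_mem _), by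
    rw [← scalarGL_pow, ← hu, pow_orderOf_eq_one]; exact map_one _⟩
  -- the field of definition
  have hu_dvd : r' ∣ p ^ e - 1 := by
    rw [← hu, ← hcard, ← Fintype.card_units]; exact orderOf_dvd_card
  have hex : ∃ d, 0 < d ∧ r' ∣ p ^ d - 1 := ⟨e, Nat.pos_of_ne_zero he0, hu_dvd⟩
  obtain ⟨hd0, hddvd⟩ := Nat.find_spec hex
  by_cases hde : Nat.find hex < e
  · refine Or.inr (Or.inl ?_)
    set d := Nat.find hex
    let F₁ : Subfield F := RingHom.eqLocusField (iterateFrobenius F p d) (RingHom.id F)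
    have hF₁ : ∀ x, x ∈ F₁ ↔ x ^ p ^ d = x := fun x => Iff.rfl
    have hne : F₁ ≠ ⊤ := by
      intro htop
      obtain ⟨g, hg⟩ := (inferInstance : IsCyclic Fˣ).exists_ofOrder_eq_natCard
      have h1 : (g : F) ^ p ^ d = g := (hF₁ _).mp (htop ▸ Subfield.mem_top _)
      have h2 : g ^ (p ^ d - 1) = 1 := by
        refine mul_left_cancel (a := g) ?_
        rw [← pow_succ', Nat.sub_add_cancel (Nat.one_le_pow _ _ hp.pos), mul_one]
        exact Units.ext (by simpa using h1)
      have h3 := orderOf_dvd_of_pow_eq_one h2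
      rw [hg, Nat.card_eq_fintype_card, Fintype.card_units, hcard] at h3
      have h4 : p ^ d < p ^ e := Nat.pow_lt_pow_right hp.one_lt hde
      have h5 : 1 < p ^ d := Nat.one_lt_pow hd0.ne' hp.one_lt
      have := Nat.le_of_dvd (by omega) h3
      omega
    obtain ⟨F₂, k, hle, hk, hF₂, hne₂⟩ := exists_subfield_prime_index hne
    have hmem : ∀ c : Fˣ, scalarGL c ∈ R → (c : F) ∈ F₂ := by
      intro c hc
      refine hle ((hF₁ _).mpr ?_)
      have h1 : c ^ (p ^ d - 1) = 1 := by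
        obtain ⟨m, hm⟩ := hddvd; rw [hm, pow_mul, hd.scalar_pow c hc, one_pow]
      have h2 : c ^ p ^ d = c := by
        rw [← Nat.sub_add_cancel (Nat.one_le_pow d p hp.pos), pow_succ, h1, one_mul]
      rw [← Units.val_pow_eq_pow_val, h2]
    obtain ⟨B, hB⟩ := realisableOver_of_scalars_mem hd.absIrred hd.comm F₂ hk hF₂ hmem
    exact ⟨F₂, k, B⁻¹, hk, hF₂, hne₂,
      le_subfieldSubgroup_of_realisable hd.absIrred hd.normal hB⟩
  have hdle : Nat.find hex ≤ e := Nat.find_le ⟨Nat.pos_of_ne_zero he0, hu_dvd⟩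
  have hmin : ∀ d, 0 < d → d < e → ¬ r' ∣ p ^ d - 1 := fun d hd1 hd2 hd3 =>
    absurd (Nat.find_le (h := hex) ⟨hd1, hd3⟩) (by omega)
  rcases Nat.even_or_odd e with ⟨e₀, he⟩ | heodd
  · -- a unitary form
    have he₀ : 0 < e₀ := by omega
    let σ : F ≃+* F := iterateFrobeniusEquiv F p e₀
    have hσv : ∀ a, σ a = a ^ p ^ e₀ := fun a => rfl
    have hσ : ∀ a, σ (σ a) = a := fun a => by
      rw [hσv, hσv, ← pow_mul, ← pow_add, ← he, ← hcard, FiniteField.pow_card]
    have hnd' : ¬ r' ∣ p ^ e₀ - 1 := hmin e₀ he₀ (by omega)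
    have hplus : r' ∣ p ^ e₀ + 1 := by
      have h1 : r' ∣ (p ^ e₀ + 1) * (p ^ e₀ - 1) := by
        have : p ^ e - 1 = (p ^ e₀ + 1) * (p ^ e₀ - 1) := by
          rw [he, pow_add, ← sq, ← Nat.sq_sub_sq, one_pow]
        rwa [← this]
      rcases hr'cases with ⟨-, he'⟩ | ⟨he'', he'⟩
      · rw [he'] at h1 hnd' ⊢
        exact (hrp.dvd_mul.mp h1).resolve_right hnd'
      · rw [he'] at hnd' ⊢
        have hpodd : Odd (p ^ e₀) := (hp.odd_of_ne_two fun e' => hrne (he''.trans e'.symm)).pow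
        rw [Nat.odd_iff] at hpodd
        omega
    have hσu : ∀ c : Fˣ, scalarGL c ∈ R → σ.toRingHom c = (c : F)⁻¹ := by
      intro c hc
      have h1 : c ^ p ^ e₀ * c = 1 := by
        rw [← pow_succ]; obtain ⟨m, hm⟩ := hplus; rw [hm, pow_mul, hd.scalar_pow c hc, one_pow]
      show σ c = _
      rw [hσv, ← Units.val_pow_eq_pow_val, eq_inv_of_mul_eq_one_left h1, Units.val_inv_eq_inv_val]
    have hne : σ ≠ RingEquiv.refl F := fun e' => hnd' (by
      have h1 : u ^ p ^ e₀ = u := Units.ext (by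
        rw [Units.val_pow_eq_pow_val, ← hσv, e']; rfl)
      have h2 : u ^ (p ^ e₀ - 1) = 1 := by
        refine mul_left_cancel (a := u) ?_
        rw [← pow_succ', Nat.sub_add_cancel (Nat.one_le_pow _ _ hp.pos), h1, mul_one]
      exact hu ▸ orderOf_dvd_of_pow_eq_one h2)
    obtain ⟨f, hf, hnd, hfix⟩ := exists_invariant_form hd.absIrred hd.comm σ.toRingHom hσu
    exact Or.inr (inFormOrSubfield_of_sesqui hσ hne hd.absIrred hd.normal hf hnd hfix)
  -- the symplectic-type normaliser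
  refine Or.inl ⟨R, ?_, le_normalizer_of_forall_conj hd.normal⟩
  have hcenter : (Subgroup.center R).map R.subtype = Subgroup.zpowers (scalarGL u) := by
    refine le_antisymm ?_ (Subgroup.zpowers_le.mpr ⟨⟨scalarGL u, huR⟩, ?_, rfl⟩)
    · rintro _ ⟨g, hg, rfl⟩
      obtain ⟨c, hc⟩ := mem_scalars_of_commute hd.absIrred (g := g.1) fun z hz =>
        (congrArg Subtype.val (Subgroup.mem_center_iff.mp hg ⟨z, hz⟩)).symm
      obtain ⟨k, hk⟩ := hroots c (show scalarGL c ∈ R from (show scalarGL c = g.1 from hc) ▸ g.2)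
      refine ⟨k, ?_⟩
      show scalarGL u ^ k = g.1
      rw [← hc, ← hk]
      exact (map_zpow _ _ _).symm
    · exact Subgroup.mem_center_iff.mpr fun z => Subtype.ext (scalars_commute (scalarGL_mem u) z.1).symm
  have hcardc : Nat.card (Subgroup.center R) = r' := by
    rw [← Nat.card_congr (Equiv.refl _), ← Subgroup.card_map_of_injective R.subtype_injective, hcenter,
      Nat.card_zpowers, orderOf_scalarGL, hu]
  have hcycc : IsCyclic (Subgroup.center R) := by
    have : IsCyclic ((Subgroup.center R).map R.subtype) := by rw [hcenter]; infer_instance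
    exact isCyclic_of_injective
      ((Subgroup.center R).equivMapOfInjective R.subtype R.subtype_injective).toMonoidHom
      (MulEquiv.injective _)
  have hsub : Subgroup.center R = (Cfsg.Geo.scalars ι F).subgroupOf R := by
    ext g
    constructor
    · intro hg
      exact mem_scalars_of_commute hd.absIrred fun z hz =>
        (congrArg Subtype.val (Subgroup.mem_center_iff.mp hg ⟨z, hz⟩)).symm
    · intro hg
      exact Subgroup.mem_center_iff.mpr fun z => Subtype.ext (scalars_commute hg z.1).symm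
  have hcardR : Nat.card R = r ^ (2 * j) * r' := by
    have hc2 : Nat.card ((Cfsg.Geo.scalars ι F).subgroupOf R) = r' := hsub ▸ hcardc
    rw [Subgroup.card_eq_card_quotient_mul_card_subgroup ((Cfsg.Geo.scalars ι F).subgroupOf R),
      card_quotient_scalars hd.absIrred hd.comm, hc2, hnj, ← pow_add, two_mul]
  have hexp : Monoid.exponent R = r' := by
    refine Nat.dvd_antisymm (Monoid.exponent_dvd_of_forall_pow_eq_one fun g : R =>
      Subtype.ext ((hR.mem_iff g.1).mp g.2).2) ?_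
    have h2 : orderOf (⟨scalarGL u, huR⟩ : R) = r' := by
      rw [← Subgroup.orderOf_coe, orderOf_scalarGL, hu]
    exact h2 ▸ Monoid.order_dvd_exponent _
  have hsymp : Cfsg.Geo.IsSymplecticTypeGroup r R := by
    refine ⟨hrp, fun g => ?_, fun A hA hAc => ?_, hr' ▸ hexp⟩
    · have h1 : g ^ r' = 1 := Subtype.ext ((hR.mem_iff g.1).mp g.2).2
      rcases hr'cases with ⟨-, e'⟩ | ⟨e1, e'⟩
      · exact ⟨1, by rw [pow_one, ← e', h1]⟩
      · exact ⟨2, by rw [e1, show (2 : ℕ) ^ 2 = r' from e'.symm, h1]⟩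
    · have hle : A ≤ Subgroup.center R := by
        rw [hsub]
        intro a ha
        set A' := A.map R.subtype with hA'
        have hA'n : ∀ g ∈ H, ∀ x ∈ A', g * x * g⁻¹ ∈ A' := by
          rintro g hg _ ⟨b, hb, rfl⟩
          let φ : R ≃* R :=
            { toFun := fun z => ⟨g * z.1 * g⁻¹, hd.normal g hg _ z.2⟩
              invFun := fun z => ⟨g⁻¹ * z.1 * g, by simpa using hd.normal g⁻¹ (inv_mem hg) _ z.2⟩
              left_inv := fun z => Subtype.ext (by simp [mul_assoc])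
              right_inv := fun z => Subtype.ext (by simp [mul_assoc])
              map_mul' := fun z z' => Subtype.ext (by simp [mul_assoc]) }
          exact ⟨φ b, Subgroup.mem_comap.mp ((hA.fixed φ).symm ▸ hb : b ∈ A.comap φ.toMonoidHom), rfl⟩
        let M := N ⊓ (A' ⊔ Cfsg.Geo.scalars ι F)
        have hMn : ∀ g ∈ H, ∀ x ∈ M, g * x * g⁻¹ ∈ M := by
          rintro g hg x ⟨hxN, hxA⟩
          refine ⟨h.normal g hg x hxN, ?_⟩
          have : (A' ⊔ Cfsg.Geo.scalars ι F).map (MulAut.conj g).toMonoidHom ≤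
              A' ⊔ Cfsg.Geo.scalars ι F := by
            rw [Subgroup.map_sup]
            refine sup_le_sup ?_ ?_
            · rintro _ ⟨b, hb, rfl⟩; exact hA'n g hg b hb
            · rintro _ ⟨b, hb, rfl⟩; exact Cfsg.Geo.scalars_normal.conj_mem b hb g
          exact this ⟨x, hxA, rfl⟩
        by_cases hMZ : M ≤ Cfsg.Geo.scalars ι F
        · obtain ⟨hxs, -⟩ := (hR.mem_iff a.1).mp a.2
          rw [← SetLike.mem_coe, Subgroup.mul_normal, Set.mem_mul] at hxs
          obtain ⟨x, hx, z, hz, hxz⟩ := hxs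
          have hxA : x ∈ A' ⊔ Cfsg.Geo.scalars ι F := by
            have : x = a.1 * z⁻¹ := eq_mul_inv_of_mul_eq hxz
            exact this ▸ mul_mem (Subgroup.mem_sup_left ⟨a, ha, rfl⟩)
              (Subgroup.mem_sup_right (inv_mem hz))
          show a.1 ∈ Cfsg.Geo.scalars ι F
          exact hxz ▸ mul_mem (hMZ ⟨hx, hxA⟩) hz
        · exfalso
          have hMN := h.minimal M inf_le_left
            (le_inf h.scalars_le (inf_le_right.trans le_sup_right)) hMn hMZ
          obtain ⟨x, hx, y, hy, hxy⟩ := exists_not_commute (by omega) h.absIrred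
          have hxA : x ∈ A' ⊔ Cfsg.Geo.scalars ι F := (hMN.symm ▸ hx : x ∈ M).2
          have hyA : y ∈ A' ⊔ Cfsg.Geo.scalars ι F := (hMN.symm ▸ hy : y ∈ M).2
          rw [← SetLike.mem_coe, Subgroup.mul_normal, Set.mem_mul] at hxA hyA
          obtain ⟨_, ⟨x', hx', rfl⟩, z, hz, rfl⟩ := hxA
          obtain ⟨_, ⟨y', hy', rfl⟩, z', hz', rfl⟩ := hyA
          apply hxy
          have hc : Commute (x'.1 : GL ι F) y'.1 :=
            congrArg (fun t : A => (t.1 : GL ι F)) (hAc.is_comm.comm ⟨x', hx'⟩ ⟨y', hy'⟩)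
          exact ((hc.mul_right (scalars_commute hz' x'.1).symm).mul_left
            (scalars_commute hz _)).eq
      exact isCyclic_of_injective (Subgroup.inclusion hle) (Subgroup.inclusion_injective hle)
  refine ⟨hsymp, hd.absIrred, p, e, hrne, ⟨hp, hchar, hcard, hcardc.symm ▸ hu_dvd, ?_⟩, ?_⟩
  · intro d hd1 hd2
    rw [hcardc]
    exact hmin d hd1 hd2
  rcases hr'cases with ⟨hodd, e'⟩ | ⟨e1, e'⟩
  · exact Or.inl ⟨hodd, heodd, by rw [hcardc, e'], j, hj, by rw [hcardR, e', pow_add, pow_one, mul_comm]⟩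
  · refine Or.inr (Or.inl ⟨e1, ?_, by rw [hcardc, e'], ?_, j, ?_⟩)
    · have h2 : r' ∣ p ^ 2 - 1 := by
        rw [e']
        have hpodd := Nat.odd_iff.mp (hp.odd_of_ne_two fun e2 => hrne (e1.trans e2.symm))
        obtain ⟨k, hk⟩ : ∃ k, p = 2 * k + 1 := ⟨p / 2, by omega⟩
        exact ⟨k * k + k, by rw [hk]; ring_nf; omega⟩
      have := Nat.find_le (h := hex) ⟨by norm_num, h2⟩
      rw [Nat.odd_iff] at heodd
      omega
    · rw [hnj, e1]
      rw [hnj, e1] at hn
      rcases Nat.lt_or_ge j 2 with hj2 | hj2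
      · interval_cases j; omega
      · calc 4 = 2 ^ 2 := rfl
          _ ≤ 2 ^ j := Nat.pow_le_pow_right (by norm_num) hj2
    · rw [hcardR, e1, e', pow_add, mul_comm]; norm_num

end CfsgLib.Aschbacher
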