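import Cfsg.Agent.AschPrime.UnitaryRational

/-!
Subfield structures over the fixed field in any dimension: orthogonal type in odd characteristic, or
symplectic type; a group fixing a bilinear form is realised over the fixed field.
-/

set_option autoImplicit false
set_option linter.unusedSectionVars false
set_option linter.unusedSimpArgs false

namespace CfsgLib.Aschbacher.Unitary

open Cfsg.Geo Module CfsgLib.AschPrime
open scoped Matrix MatrixGroups

variable {F : Type*} [Field F] [Fintype F] {q n : ℕ}
variable (hF : Fintype.card F = q ^ 2)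
include hF

/-- Subfield structures over the fixed field: orthogonal or symplectic type. -/
theorem exists_rational_index_two (hn3 : 2 ≤ n) {P : Subgroup (GL (Fin n) F)}
    (hP : ActsAbsolutelyIrreducibly (matrixSet P)) (hPU : P ≤ Cfsg.GU n F q) {B : GL (Fin n) F}
    (hB : ∀ s ∈ matrixSet P, ∀ i j, (B.val * s * (B⁻¹ : GL (Fin n) F).val) i j ∈ fixedField hF) :
    (Odd q ∧ ∃ P' : GL (Fin n) F, IsFormRationalStructure (Cfsg.hermForm n F q) (fixedField hF) 1 P' ∧
      subfieldSubgroup (fixedField hF) P' = subfieldSubgroup (fixedField hF) B⁻¹) ∨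
    ∃ ζ : F, ζ ≠ 0 ∧ ζ + ζ ^ q = 0 ∧
      IsFormRationalStructure (Cfsg.hermForm n F q) (fixedField hF) ζ B⁻¹ ∧
      ∀ u : Fin n → F, (∀ k, u k ∈ fixedField hF) →
        Cfsg.hermForm n F q ((B⁻¹ : GL (Fin n) F).val *ᵥ u) ((B⁻¹ : GL (Fin n) F).val *ᵥ u) = 0 := by
  classical
  have : Nonempty (Fin n) := ⟨⟨0, by omega⟩⟩
  set F₀ := fixedField hF with hF₀
  set f := Cfsg.hermForm n F q with hf
  set e : Fin n → Fin n → F := fun a => (B⁻¹ : GL (Fin n) F).val *ᵥ Pi.single a 1
  set G : Matrix (Fin n) (Fin n) F := fun a b => f (e a) (e b) with hG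
  have hGherm : ∀ a b, G b a = G a b ^ q := fun a b => herm_symm hF _ _
  have hgram : Cfsg.Geo.gramMatrix (fun u v => f ((B⁻¹ : GL (Fin n) F).val *ᵥ u)
      ((B⁻¹ : GL (Fin n) F).val *ᵥ v)) = G := rfl
  have hdet : G.det ≠ 0 := by
    rw [← hgram]
    refine Aschbacher.det_gramMatrix_ne_zero (σ := (qFrob hF : F ≃+* F).toRingHom)
      ⟨fun x y v => by simp [f, Matrix.mulVec_add, herm_add_left],
       fun c x v => by simp [f, Matrix.mulVec_smul, herm_smul_left],
       fun v x y => by simp [f, Matrix.mulVec_add, herm_add_right hF],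
       fun c v x => by simp [f, Matrix.mulVec_smul, herm_smul_right hF]⟩ fun v hv => ?_
    have hv' : (B⁻¹ : GL (Fin n) F).val *ᵥ v ≠ 0 := fun h => hv (by
      simpa [Matrix.mulVec_mulVec] using congrArg (B.val *ᵥ ·) h)
    obtain ⟨⟨x, hx⟩, y, hy⟩ := herm_isNondegenerateForm hF _ hv'
    exact ⟨⟨B.val *ᵥ x, by simpa [Matrix.mulVec_mulVec] using hx⟩,
      B.val *ᵥ y, by simpa [Matrix.mulVec_mulVec] using hy⟩
  obtain ⟨i, j, hij⟩ : ∃ i j, G i j ≠ 0 := by
    by_contra h
    push Not at h
    exact hdet (by rw [show G = 0 from Matrix.ext h, Matrix.det_zero])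
  have hratio : ∀ a b, (G a b / G i j) ^ q = G a b / G i j := fun a b =>
    gram_ratio_mem (σ := (qFrob hF : F ≃+* F).toRingHom) q_pow_mem hP (herm_sesqui hF)
      (herm_isNondegenerateForm hF) (herm_fixes hF hPU) hB hij a b
  set c := G i j ^ q / G i j with hc
  have hswap : ∀ a b, G b a = c * G a b := by
    intro a b
    have h := hratio a b
    rw [div_pow, ← hGherm a b, div_eq_iff (pow_ne_zero _ hij)] at h
    rw [h, hc]; field_simp
  have hcc : c * c = 1 := by
    refine mul_right_cancel₀ hij ?_
    rw [one_mul, mul_assoc, ← hswap i j, ← hswap j i]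
  have hoddq : (2 : F) ≠ 0 → Odd q := fun h2 => by
    have ho := Aschbacher.odd_card_of_two_ne_zero h2
    rw [hF, pow_two] at ho
    exact Nat.Odd.of_mul_left ho
  have hs : ∀ (a k : Fin n), (Pi.single a (1 : F) : Fin n → F) k ∈ F₀ := fun a k => by
    rcases eq_or_ne k a with rfl | h <;> simp [*, F₀.one_mem, F₀.zero_mem]
  have hd' : ∀ z, (B⁻¹ : GL (Fin n) F).val *ᵥ z = ∑ a, z a • e a := fun z => by
    conv_lhs => rw [pi_eq_sum_univ' z]
    simp [e, Matrix.mulVec_sum, Matrix.mulVec_smul]
  by_cases hd : ∀ a, G a a = 0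
  · by_cases hc1 : c = 1 ∧ (2 : F) ≠ 0
    · left
      refine ⟨hoddq hc1.2, ?_⟩
      have hji : G j i = G i j := by rw [hswap i j, hc1.1, one_mul]
      refine exists_rational_of_value hF (by omega) hP hPU hB (u := Pi.single i 1 + Pi.single j 1)
        (fun k => F₀.add_mem (hs i k) (hs j k)) ?_
      simp only [Matrix.mulVec_add, herm_add_left, herm_add_right hF]
      show G i i + G j i + (G i j + G j j) ≠ 0
      rw [hd i, hd j, hji, zero_add, add_zero, ← two_mul]
      exact mul_ne_zero hc1.2 hij
    · right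
      have hc' : c = -1 := by
        rcases mul_self_eq_one_iff.1 hcc with h | h
        · have h2 : (2 : F) = 0 := by by_contra h2; exact hc1 ⟨h, h2⟩
          rw [h, eq_neg_iff_add_eq_zero, one_add_one_eq_two, h2]
        · exact h
      have hskew : ∀ a b, G b a = -G a b := fun a b => by rw [hswap a b, hc', neg_one_mul]
      have hexp : ∀ x y : Fin n → F, f ((B⁻¹ : GL (Fin n) F).val *ᵥ x) ((B⁻¹ : GL (Fin n) F).val *ᵥ y) =
          ∑ a, ∑ b, x a * (y b ^ q) * G a b := by
        intro x y
        show Cfsg.hermForm n F q _ _ = _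
        rw [hd', hd', (herm_sesqui hF).sum_left]
        refine Finset.sum_congr rfl fun a _ => ?_
        rw [herm_smul_left, (herm_sesqui hF).sum_right, Finset.mul_sum]
        refine Finset.sum_congr rfl fun b _ => ?_
        rw [herm_smul_right hF]; simp only [G, f]; ring
      refine ⟨(G i j)⁻¹, inv_ne_zero hij, ?_, fun x y hx hy => ?_, fun u hu => ?_⟩
      · rw [inv_pow, ← hGherm i j, hskew i j, inv_neg, add_neg_cancel]
      · rw [hexp, Finset.mul_sum]
        refine sum_mem fun a _ => ?_
        rw [Finset.mul_sum]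
        refine sum_mem fun b _ => ?_
        rw [show (G i j)⁻¹ * (x a * y b ^ q * G a b) = x a * y b ^ q * (G a b / G i j) by ring]
        exact mul_mem (mul_mem (hx a) (pow_mem (hy b) q)) ((mem_fixedField hF).2 (hratio a b))
      · rw [hexp, ← Fintype.sum_prod_type' (fun a b => u a * u b ^ q * G a b)]
        refine Finset.sum_involution (fun p _ => p.swap) (fun p _ => ?_) (fun p _ hp hps => ?_)
          (fun p _ => Finset.mem_univ _) (fun p _ => Prod.swap_swap p)
        · simp only [Prod.fst_swap, Prod.snd_swap, (mem_fixedField hF).1 (hu p.1),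
            (mem_fixedField hF).1 (hu p.2), hskew p.1 p.2]
          ring
        · apply hp
          have : p.1 = p.2 := (congrArg Prod.snd hps)
          rw [this, hd, mul_zero]
  · left
    push Not at hd
    obtain ⟨a₀, ha₀⟩ := hd
    have h2 : (2 : F) ≠ 0 := by
      intro h2
      -- in characteristic two the diagonal gives a fixed functional
      have : CharP F 2 := (CharP.charP_iff_prime_eq_zero Nat.prime_two).2 (by exact_mod_cast h2)
      have hsurj : Function.Surjective (frobenius F 2) :=
        (frobenius_inj F 2).bijective_of_finite.2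
      choose s hs using fun a => hsurj (G a a / G i j)
      simp only [frobenius_def] at hs
      let ℓ : (Fin n → F) →ₗ[F] F :=
        { toFun := fun v => ∑ a, s a * (B.val *ᵥ v) a
          map_add' := fun x y => by simp [Matrix.mulVec_add, mul_add, Finset.sum_add_distrib]
          map_smul' := fun c x => by simp [Matrix.mulVec_smul, Finset.mul_sum, mul_left_comm] }
      have hℓ : ∀ u : Fin n → F, (∀ k, u k ∈ F₀) →
          (ℓ ((B⁻¹ : GL (Fin n) F).val *ᵥ u)) ^ 2 =
            f ((B⁻¹ : GL (Fin n) F).val *ᵥ u) ((B⁻¹ : GL (Fin n) F).val *ᵥ u) / G i j := by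
        intro u hu
        have hd' : (B⁻¹ : GL (Fin n) F).val *ᵥ u = ∑ a, u a • e a := by
          conv_lhs => rw [pi_eq_sum_univ' u]
          simp [e, Matrix.mulVec_sum, Matrix.mulVec_smul]
        have hexp : ∀ S : Finset (Fin n), f (∑ a ∈ S, u a • e a) (∑ a ∈ S, u a • e a) =
            ∑ a ∈ S, u a ^ 2 * G a a := by
          intro S
          induction S using Finset.induction with
          | empty => simp [f, herm_zero_left]
          | insert a S ha ih =>
            rw [Finset.sum_insert ha, Finset.sum_insert ha]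
            simp only [f] at ih ⊢
            rw [herm_add_left, herm_add_right hF, herm_add_right hF, ih]
            have hsym : Cfsg.hermForm n F q (∑ x ∈ S, u x • e x) (u a • e a) =
                Cfsg.hermForm n F q (u a • e a) (∑ x ∈ S, u x • e x) := by
              rw [(herm_sesqui hF).sum_left, herm_sum_right hF]
              refine Finset.sum_congr rfl fun b _ => ?_
              simp only [herm_smul_left, herm_smul_right hF, (mem_fixedField hF).1 (hu a),
                (mem_fixedField hF).1 (hu b)]
              have hab := hswap a b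
              rcases mul_self_eq_one_iff.1 hcc with h | h
              · rw [h, one_mul] at hab; simp only [G, f] at hab; rw [hab]; ring
              · rw [h, neg_one_mul] at hab; simp only [G, f] at hab; rw [hab, CharTwo.neg_eq]; ring
            rw [hsym]
            simp only [herm_smul_left, herm_smul_right hF, (mem_fixedField hF).1 (hu a)]
            simp only [G, f]
            linear_combination (u a * Cfsg.hermForm n F q (e a) (∑ x ∈ S, u x • e x)) * h2
        rw [hd', hexp, Finset.sum_div, ← hd']
        simp only [ℓ, LinearMap.coe_mk, AddHom.coe_mk, Matrix.mulVec_mulVec, Units.mul_inv, Matrix.one_mulVec]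
        rw [sum_pow_char 2]
        refine Finset.sum_congr rfl fun a _ => ?_
        rw [mul_pow, hs]; ring
      have hinv : Aschbacher.IsInvariantUnder P (LinearMap.ker ℓ) := by
        intro g hg v hv
        have key : ∀ k, ℓ (g.val *ᵥ e k) = ℓ (e k) := by
          intro k
          refine frobenius_inj F 2 ?_
          simp only [frobenius_def]
          have hsing : ∀ k l, (Pi.single k (1 : F) : Fin n → F) l ∈ F₀ := fun k l => by
            rcases eq_or_ne l k with rfl | h <;> simp [*, F₀.one_mem, F₀.zero_mem]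
          set S := B.val * g.val * (B⁻¹ : GL (Fin n) F).val with hSdef
          have hSk : ∀ l, (S *ᵥ Pi.single k 1) l ∈ F₀ := fun l => by
            rw [Matrix.mulVec_single_one]
            exact hB _ ⟨g, hg, rfl⟩ l k
          have he : g.val *ᵥ e k = (B⁻¹ : GL (Fin n) F).val *ᵥ (S *ᵥ Pi.single k 1) := by
            simp only [hSdef, e, Matrix.mulVec_mulVec, ← mul_assoc, Units.inv_mul, one_mul]
          rw [he, hℓ _ hSk, show e k = (B⁻¹ : GL (Fin n) F).val *ᵥ Pi.single k 1 from rfl, hℓ _ (hsing k), ← he]
          simp only [f]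
          rw [mem_GU.1 (hPU hg)]
        have hd' : ∀ z, z = ∑ a, (B.val *ᵥ z) a • e a := fun z => by
          simp only [e, ← Matrix.mulVec_smul, ← Matrix.mulVec_sum, ← pi_eq_sum_univ', Matrix.mulVec_mulVec,
            Units.inv_mul, Matrix.one_mulVec]
        rw [LinearMap.mem_ker] at hv ⊢
        calc ℓ (g.val *ᵥ v) = ℓ (g.val *ᵥ ∑ a, (B.val *ᵥ v) a • e a) := by rw [← hd' v]
          _ = ∑ a, (B.val *ᵥ v) a • ℓ (g.val *ᵥ e a) := by
            simp only [Matrix.mulVec_sum, Matrix.mulVec_smul, map_sum, map_smul]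
          _ = ℓ (∑ a, (B.val *ᵥ v) a • e a) := by simp only [key, map_sum, map_smul]
          _ = 0 := by rw [← hd' v, hv]
      rcases Aschbacher.eq_bot_or_top_of_invariant hP.1 hinv with h | h
      · have h1 := LinearMap.finrank_range_add_finrank_ker ℓ
        have h2' := Submodule.finrank_le (LinearMap.range ℓ)
        rw [h, finrank_bot, finrank_fin_fun] at h1
        rw [Module.finrank_self] at h2'
        omega
      · have h1 := hℓ (Pi.single a₀ 1) fun k => by
          rcases eq_or_ne k a₀ with rfl | h <;> simp [*, F₀.one_mem, F₀.zero_mem]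
        rw [LinearMap.ker_eq_top.1 h, LinearMap.zero_apply, zero_pow two_ne_zero] at h1
        exact ha₀ ((div_eq_zero_iff.1 h1.symm).resolve_right hij)
    exact ⟨hoddq h2, exists_rational_of_value hF (by omega) hP hPU hB (hs a₀) ha₀⟩

/-- An absolutely irreducible unitary group fixing a non-degenerate bilinear form is realised over
the fixed field. -/
theorem realisableOver_fixed_of_bilinear (hn : 0 < n) {P : Subgroup (GL (Fin n) F)}
    (hP : ActsAbsolutelyIrreducibly (matrixSet P)) (hPU : P ≤ Cfsg.GU n F q) {f₂ : (Fin n → F) → (Fin n → F) → F}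
    (hb : IsBilinearForm f₂) (hnd : IsNondegenerateForm f₂) (hfix : FixesForm (matrixSet P) f₂) :
    RealisableOver (fixedField hF) (matrixSet P) := by
  classical
  have : Nonempty (Fin n) := ⟨⟨0, hn⟩⟩
  set σ := (qFrob hF : F ≃+* F).toRingHom with hσdef
  set M := gramMatrix f₂ with hM
  have hMdet : M.det ≠ 0 := Aschbacher.det_gramMatrix_ne_zero (.of_bilinear hb) hnd
  have hMu : IsUnit M.det := isUnit_iff_ne_zero.2 hMdet
  have hG : gramMatrix (Cfsg.hermForm n F q) = 1 := by
    ext a b
    simp [gramMatrix, Cfsg.hermForm, Pi.single_apply, zero_pow (q_pos hF).ne', ite_pow, Matrix.one_apply, eq_comm]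
  -- conjugating by the Gram matrix gives the Galois twist
  have htwist : ∀ s ∈ matrixSet P, M⁻¹ * s.map σ = s * M⁻¹ := by
    intro s hs
    have h1 := Aschbacher.gramMatrix_of_fixes (herm_sesqui hF) (herm_fixes hF hPU s hs)
    rw [hG, Matrix.one_mul] at h1
    have h2 := Aschbacher.gramMatrix_of_fixes (.of_bilinear hb) (hfix s hs)
    rw [RingHom.coe_id, Matrix.map_id, ← hM] at h2
    have h1' : s.map σ * sᵀ = 1 := mul_eq_one_comm.1 h1
    have h3 : M * s = s.map σ * M := by
      calc M * s = (s.map σ * sᵀ) * (M * s) := by rw [h1', Matrix.one_mul]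
        _ = s.map σ * M := by rw [Matrix.mul_assoc, h2]
    calc M⁻¹ * s.map σ = M⁻¹ * (s.map σ * M) * M⁻¹ := by
          rw [Matrix.mul_assoc, Matrix.mul_assoc, Matrix.mul_nonsing_inv M hMu, Matrix.mul_one]
      _ = s * M⁻¹ := by rw [← h3, ← Matrix.mul_assoc M⁻¹, Matrix.nonsing_inv_mul M hMu, Matrix.one_mul]
  exact realisableOver_fixed_of_twist hF hP M⁻¹ (Matrix.isUnit_nonsing_inv_det _ hMu) htwist

end CfsgLib.Aschbacher.Unitary
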