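import Cfsg.Agent.Aschbacher.UnitaryProper
import Cfsg.Agent.Aschbacher.UnitaryRationalEven
import Cfsg.Agent.Aschbacher.NormalCases
import Cfsg.Agent.Aschbacher.FormsField
import Cfsg.Agent.Aschbacher.FormsTensor

/-!
Aschbacher's reduction for the maximal subgroups of the special unitary group in dimension at least
five, up to the symplectic-type and tensor-induced configurations.
-/

set_option autoImplicit false
set_option linter.unusedSectionVars false

namespace CfsgLib.Aschbacher.Unitary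

open Cfsg.Geo Module CfsgLib.AschPrime
open scoped Matrix MatrixGroups Kronecker

variable {F : Type*} [Field F] [Fintype F] {q n : ℕ}
variable (hF : Fintype.card F = q ^ 2)
include hF

theorem herm_isUnitaryForm : IsUnitaryForm (qFrob hF : F ≃+* F) (Cfsg.hermForm n F q) where
  ne_refl := fun h => by
    obtain ⟨t, ht⟩ := exists_pow_ne_self hF
    exact ht (RingEquiv.congr_fun h t)
  involutive := q_pow_pow hF
  add_left := herm_add_left
  smul_left := herm_smul_left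
  herm := herm_symm hF
  nondegenerate := herm_isNondegenerateForm hF

theorem herm_rform :
    Forms.RForm (qFrob hF : F ≃+* F).toRingHom 1 (Cfsg.hermForm n F q) :=
  Forms.rform_of_unitary (herm_isUnitaryForm hF)

theorem qFrob_ne_id : (qFrob hF : F ≃+* F).toRingHom ≠ RingHom.id F := fun h => by
  obtain ⟨t, ht⟩ := exists_pow_ne_self hF
  exact ht (RingHom.congr_fun h t)

/-- Unitary tensor factors of a normal tensor witness. -/
theorem tensor_case {H N : Subgroup (GL (Fin n) F)} (hn : 5 ≤ n)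
    (hH : IsMaximalIn (Cfsg.GU n F q ⊓ specialLinear (Fin n) F) H) (hNH : N ≤ H) {d k : ℕ}
    {e : Fin n ≃ Fin d × Fin k} {P : GL (Fin n) F} (hT : TensorData H N d k e P) :
    ∃ (d k : ℕ) (e : Fin n ≃ Fin d × Fin k) (P : GL (Fin n) F) (f₁ : (Fin d → F) → (Fin d → F) → F)
      (f₂ : (Fin k → F) → (Fin k → F) → F), 2 ≤ d ∧ d ≤ k ∧ d * k = n ∧
      IsUnitaryFormPow q f₁ ∧ IsUnitaryFormPow q f₂ ∧
      IsTensorFormStructure (fun x : F => x ^ q) (Cfsg.hermForm n F q) f₁ f₂ e P ∧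
      H = tensorProductSubgroup d k e P ⊓ (Cfsg.GU n F q ⊓ specialLinear (Fin n) F) := by
  have hd := hT.two_le_left
  have hk := hT.two_le_right
  have : NeZero d := ⟨by omega⟩
  have : NeZero k := ⟨by omega⟩
  set σ := (qFrob hF : F ≃+* F).toRingHom with hσdef
  have hf := herm_rform (n := n) hF
  have hNU : N ≤ Cfsg.GU n F q := hNH.trans (hH.1.le.trans inf_le_left)
  have hcl : ∀ M : Matrix (Fin d) (Fin d) F, ∃ M' : Matrix (Fin d) (Fin d) F,
      Forms.IsAdj (Cfsg.hermForm n F q) (tconj e P (M ⊗ₖ (1 : Matrix (Fin k) (Fin k) F)))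
        (tconj e P (M' ⊗ₖ (1 : Matrix (Fin k) (Fin k) F))) := by
    intro M
    obtain ⟨Y, hY, hadj⟩ := Forms.closed_adjoin hf (fun g hg => hNU hg) _ ((hT.mem_iff _).2 ⟨M, rfl⟩)
    obtain ⟨M', rfl⟩ := (hT.mem_iff Y).1 hY
    exact ⟨M', hadj⟩
  obtain ⟨X, C, hX, hC, hpull⟩ := Forms.exists_pullGram_eq_kronecker hf hcl
  obtain ⟨X', C', hX', hC', hpull', hXh, hCh⟩ :=
    Forms.exists_hermitian_factors hf (qFrob_ne_id hF) hX hC hpull
  have hmk : ∀ {a : ℕ} {G : Matrix (Fin a) (Fin a) F}, IsUnit G → (∀ i j, G i j = σ (G j i)) →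
      IsUnitaryFormPow q (formOfGram σ G) := by
    intro a G hG hherm
    have hs := Forms.isSesquiForm_formOfGram σ G
    have h1 : ∀ i j, G i j = (1 : F) * σ (G j i) := fun i j => by rw [one_mul]; exact hherm i j
    exact ⟨hs.add_left, hs.smul_left,
      fun v w => (Forms.formOfGram_refl σ (q_pow_pow hF) h1 v w).trans (one_mul _),
      Forms.nondegenerate_formOfGram σ (q_pow_pow hF) one_ne_zero h1 hG⟩
  have hst : IsTensorFormStructure (fun x : F => x ^ q) (Cfsg.hermForm n F q) (formOfGram σ X')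
      (formOfGram σ C') e P := Forms.isTensorFormStructure_of_pullGram hf.sesq hpull'
  have hcard : d * k = n := by simpa using (Fintype.card_congr e).symm
  rcases le_total d k with hle | hle
  · exact ⟨d, k, e, P, _, _, hd, hle, hcard, hmk hX' hXh, hmk hC' hCh, hst,
      eq_inf_of_isMaximalIn hH hT.le_tensor (not_le_tensor hF hd hk (Or.inr (by nlinarith)) e P)⟩
  · refine ⟨k, d, _, P, _, _, hk, hle, by rw [mul_comm, hcard], hmk hC' hCh, hmk hX' hXh,
      Forms.isTensorFormStructure_swap hst, eq_inf_of_isMaximalIn hH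
        (hT.le_tensor.trans (tensorProductSubgroup_comm e P))
        (not_le_tensor hF hk hd (Or.inr (by nlinarith)) _ P)⟩

/-- A normal absolutely irreducible subgroup realised over a proper subfield. -/
theorem subfield_case (hn : 3 ≤ n) {H P : Subgroup (GL (Fin n) F)}
    (hH : IsMaximalIn (Cfsg.GU n F q ⊓ specialLinear (Fin n) F) H) (hP : P ≤ H)
    (hnorm : ∀ h ∈ H, ∀ x ∈ P, h * x * h⁻¹ ∈ P) (hirr : ActsAbsolutelyIrreducibly (matrixSet P))
    {F₀ : Subfield F} (h0 : F₀ ≠ ⊤) (hreal : RealisableOver F₀ (matrixSet P)) :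
    (∃ (F₀ : Subfield F) (r : ℕ) (P : GL (Fin n) F), r.Prime ∧ Odd r ∧
        Fintype.card F = Nat.card F₀ ^ r ∧ IsFormRationalStructure (Cfsg.hermForm n F q) F₀ 1 P ∧
        H = subfieldSubgroup F₀ P ⊓ (Cfsg.GU n F q ⊓ specialLinear (Fin n) F)) ∨
    (Odd q ∧ ∃ (F₀ : Subfield F) (P : GL (Fin n) F), Fintype.card F = Nat.card F₀ ^ 2 ∧
        IsFormRationalStructure (Cfsg.hermForm n F q) F₀ 1 P ∧
        H = subfieldSubgroup F₀ P ⊓ (Cfsg.GU n F q ⊓ specialLinear (Fin n) F)) ∨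
    (∃ (F₀ : Subfield F) (P : GL (Fin n) F) (ζ : F), Fintype.card F = Nat.card F₀ ^ 2 ∧ ζ ≠ 0 ∧
        ζ + ζ ^ q = 0 ∧ IsFormRationalStructure (Cfsg.hermForm n F q) F₀ ζ P ∧
        (∀ u : Fin n → F, (∀ i, u i ∈ F₀) → Cfsg.hermForm n F q
          ((P : Matrix (Fin n) (Fin n) F) *ᵥ u) ((P : Matrix (Fin n) (Fin n) F) *ᵥ u) = 0) ∧
        H = subfieldSubgroup F₀ P ⊓ (Cfsg.GU n F q ⊓ specialLinear (Fin n) F)) := by
  have : Nonempty (Fin n) := ⟨⟨0, by omega⟩⟩
  have hPU : P ≤ Cfsg.GU n F q := hP.trans (hH.1.le.trans inf_le_left)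
  obtain ⟨B, hB⟩ := hreal
  obtain ⟨F₁, r, hle, hr, hcard, htop⟩ := Aschbacher.exists_subfield_prime_index h0
  have hB1 : ∀ s ∈ matrixSet P, ∀ i j, (B.val * s * (B⁻¹ : GL (Fin n) F).val) i j ∈ F₁ :=
    fun s hs i j => hle (hB s hs i j)
  have hsub := Aschbacher.le_subfieldSubgroup_of_realisable hirr hnorm hB1
  rcases hr.eq_two_or_odd' with rfl | hodd
  · have hq : Nat.card F₁ = q := (Nat.pow_left_injective two_ne_zero (hcard.symm.trans hF))
    have hfix : fixedField hF = F₁ := by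
      classical
      have hle1 : F₁ ≤ fixedField hF := fun x hx => by
        have : Fintype F₁ := Fintype.ofFinite _
        have h1 := FiniteField.pow_card (⟨x, hx⟩ : F₁)
        rw [← Nat.card_eq_fintype_card, hq] at h1
        exact (mem_fixedField hF).2 (congrArg Subtype.val h1)
      refine SetLike.coe_injective ((Set.eq_of_subset_of_ncard_le hle1 ?_ (Set.toFinite _)).symm)
      show Nat.card (fixedField hF) ≤ Nat.card F₁
      rw [card_fixedField hF, hq]
    subst hfix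
    have hne := AschPrime.not_le_subfieldSubgroup (n := n) hF hn (fixedField_ne_top hF)
    rcases exists_rational_index_two hF (by omega) hirr hPU (B := B) hB1 with
      ⟨hoq, P', hrat, heq⟩ | ⟨ζ, hζ0, hζ, hrat, hz⟩
    · exact Or.inr (Or.inl ⟨hoq, fixedField hF, P', hcard, hrat,
        eq_inf_of_isMaximalIn hH (heq ▸ hsub) (hne _)⟩)
    · exact Or.inr (Or.inr ⟨fixedField hF, B⁻¹, ζ, hcard, hζ0, hζ, hrat, hz,
        eq_inf_of_isMaximalIn hH hsub (hne _)⟩)
  · left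
    obtain ⟨P', hrat, heq⟩ := exists_rational_odd hF (by omega) hodd hcard hirr hPU (B := B) hB1
    exact ⟨F₁, r, P', hr, hodd, hcard, hrat,
      eq_inf_of_isMaximalIn hH (heq ▸ hsub) (AschPrime.not_le_subfieldSubgroup hF hn htop _)⟩

/-- Aschbacher's reduction for the special unitary group. -/
theorem unitary_maximal_cases (hn : 5 ≤ n) {H : Subgroup (GL (Fin n) F)}
    (hH : IsMaximalIn (Cfsg.GU n F q ⊓ specialLinear (Fin n) F) H) :
    (∃ W : Submodule F (Fin n → F), W ≠ ⊥ ∧ IsTotallySingularFor (Cfsg.hermForm n F q) W ∧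
      H = subspaceStabilizer W ⊓ (Cfsg.GU n F q ⊓ specialLinear (Fin n) F)) ∨
    (∃ W : Submodule F (Fin n → F), W ≠ ⊥ ∧ IsNondegenerateOn (Cfsg.hermForm n F q) W ∧
      2 * finrank F W < n ∧ H = subspaceStabilizer W ⊓ (Cfsg.GU n F q ⊓ specialLinear (Fin n) F)) ∨
    (∃ (t m : ℕ) (D : Fin t → Submodule F (Fin n → F)),
      IsNondegenerateMDecomposition (Cfsg.hermForm n F q) m D ∧ t * m = n ∧
      H = decompositionStabilizer D ⊓ (Cfsg.GU n F q ⊓ specialLinear (Fin n) F)) ∨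
    (∃ (m : ℕ) (D : Fin 2 → Submodule F (Fin n → F)), IsMDecomposition m D ∧ 2 * m = n ∧
      (∀ i, IsTotallySingularFor (Cfsg.hermForm n F q) (D i)) ∧
      H = decompositionStabilizer D ⊓ (Cfsg.GU n F q ⊓ specialLinear (Fin n) F)) ∨
    (∃ (r : ℕ) (K : Subalgebra F (Matrix (Fin n) (Fin n) F)), r.Prime ∧ Odd r ∧ r ∣ n ∧
      IsFieldSubalgebra r K ∧ IsAdjointClosedFor (Cfsg.hermForm n F q) K ∧
      H = subalgebraNormalizer K ⊓ (Cfsg.GU n F q ⊓ specialLinear (Fin n) F)) ∨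
    (∃ (d k : ℕ) (e : Fin n ≃ Fin d × Fin k) (P : GL (Fin n) F) (f₁ : (Fin d → F) → (Fin d → F) → F)
      (f₂ : (Fin k → F) → (Fin k → F) → F), 2 ≤ d ∧ d ≤ k ∧ d * k = n ∧
      IsUnitaryFormPow q f₁ ∧ IsUnitaryFormPow q f₂ ∧
      IsTensorFormStructure (fun x : F => x ^ q) (Cfsg.hermForm n F q) f₁ f₂ e P ∧
      H = tensorProductSubgroup d k e P ⊓ (Cfsg.GU n F q ⊓ specialLinear (Fin n) F)) ∨
    (∃ (F₀ : Subfield F) (r : ℕ) (P : GL (Fin n) F), r.Prime ∧ Odd r ∧
      Fintype.card F = Nat.card F₀ ^ r ∧ IsFormRationalStructure (Cfsg.hermForm n F q) F₀ 1 P ∧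
      H = subfieldSubgroup F₀ P ⊓ (Cfsg.GU n F q ⊓ specialLinear (Fin n) F)) ∨
    (Odd q ∧ ∃ (F₀ : Subfield F) (P : GL (Fin n) F), Fintype.card F = Nat.card F₀ ^ 2 ∧
      IsFormRationalStructure (Cfsg.hermForm n F q) F₀ 1 P ∧
      H = subfieldSubgroup F₀ P ⊓ (Cfsg.GU n F q ⊓ specialLinear (Fin n) F)) ∨
    (∃ (F₀ : Subfield F) (P : GL (Fin n) F) (ζ : F), Fintype.card F = Nat.card F₀ ^ 2 ∧ ζ ≠ 0 ∧
      ζ + ζ ^ q = 0 ∧ IsFormRationalStructure (Cfsg.hermForm n F q) F₀ ζ P ∧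
      (∀ u : Fin n → F, (∀ i, u i ∈ F₀) → Cfsg.hermForm n F q
        ((P : Matrix (Fin n) (Fin n) F) *ᵥ u) ((P : Matrix (Fin n) (Fin n) F) *ᵥ u) = 0) ∧
      H = subfieldSubgroup F₀ P ⊓ (Cfsg.GU n F q ⊓ specialLinear (Fin n) F)) ∨
    InUnitaryResidualClass H ∨
    (∃ N r, AbelianData H N r) ∨
    (∃ d S, CommutingData H d S) := by
  have : Nonempty (Fin n) := ⟨⟨0, by omega⟩⟩
  by_cases hirr : ActsIrreducibly (matrixSet H)
  swap
  · simp only [ActsIrreducibly, not_forall, not_or] at hirr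
    obtain ⟨W, hW, h0, h1⟩ := hirr
    rcases maximal_reducible hF (by omega) hH h0 h1
      (fun g hg => Aschbacher.mem_subspaceStabilizer_of_mapsTo fun v hv => hW _ ⟨g, hg, rfl⟩ ⟨v, hv, rfl⟩) with
      h | h | ⟨m, D, hD, hm, hHD⟩
    · exact Or.inl h
    · exact Or.inr (Or.inl h)
    · exact Or.inr (Or.inr (Or.inl ⟨2, m, D, hD, hm, hHD⟩))
  have hf := herm_rform (n := n) hF
  have hHU : H ≤ Cfsg.GU n F q := hH.1.le.trans inf_le_left
  rcases normal_cases hirr with ⟨N, hN, t, ⟨S⟩⟩ | ⟨N, hN, hfl, hbot⟩ | ⟨N, d, k, e, P, hN, hT⟩ | hall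
  · have hcl := (Forms.closed_adjoin hf (N := N) fun g hg => hHU (hN.le hg)).centre hf
    rcases Forms.frame_form_cases hf (fun g hg => ⟨1, one_ne_zero, fun u v => by rw [one_mul]; exact hHU hg u v⟩)
      S.toFrame (Forms.idemSystem_adj hf (centreAlg_comm_all _) hcl S) with
      ⟨s, m, D, hD, hsm, hle⟩ | ⟨m, D, hD, h2m, hts, hle⟩
    · rw [Fintype.card_fin] at hsm
      refine Or.inr (Or.inr (Or.inl ⟨s, m, D, hD, hsm, eq_inf_of_isMaximalIn hH hle ?_⟩))
      rcases Nat.lt_or_ge m 2 with hm | hm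
      · obtain rfl : m = 1 := by have := hD.decomp.pos; omega
        obtain rfl : s = n := by omega
        exact AschPrime.not_le_decompositionStabilizer hF hD (by omega) (Or.inr (by omega))
      · exact not_le_decomposition hF hD hm
    · rw [Fintype.card_fin] at h2m
      exact Or.inr <| Or.inr <| Or.inr <| Or.inl ⟨m, D, hD, h2m, hts,
        eq_inf_of_isMaximalIn hH hle (not_le_pair hF hD (by omega) hts)⟩
  · obtain ⟨r, hr, hrn, -, hK, hle⟩ := Centre.exists_prime_subfield (normalises_envAlg hN.normal).centreAlg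
      (centreAlg_comm_all _) hfl hbot
    have hcl := Forms.closed_powFixed hf (centreAlg_comm_all _)
      ((Forms.closed_adjoin hf (N := N) fun g hg => hHU (hN.le hg)).centre hf) r
    rcases hr.eq_two_or_odd' with rfl | hodd
    · exact (Forms.false_of_unitary_deg_two hf (qFrob_ne_id hF) hK hcl).elim
    · rw [Fintype.card_fin] at hrn
      exact Or.inr <| Or.inr <| Or.inr <| Or.inr <| Or.inl ⟨r, _, hr, hodd, hrn, hK, hcl,
        eq_inf_of_isMaximalIn hH hle (not_le_field hF (by omega) hr.two_le hK)⟩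
  · exact Or.inr <| Or.inr <| Or.inr <| Or.inr <| Or.inr <| Or.inl (tensor_case hF hn hH hN.le hT)
  refine Or.inr <| Or.inr <| Or.inr <| Or.inr <| Or.inr <| Or.inr ?_
  rcases normal_structure hall (not_le_scalars_of_irreducible hirr (by simp; omega)) with hA | hC | ⟨P, hP⟩
  · exact Or.inr <| Or.inr <| Or.inr <| Or.inr <| Or.inl hA
  · exact Or.inr <| Or.inr <| Or.inr <| Or.inr <| Or.inr hC
  by_cases hreal : ∃ F₀ : Subfield F, F₀ ≠ ⊤ ∧ RealisableOver F₀ (matrixSet P)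
  · obtain ⟨F₀, h0, hr⟩ := hreal
    rcases subfield_case hF (by omega) hH hP.le hP.normal hP.absIrred h0 hr with h | h | h
    · exact Or.inl h
    · exact Or.inr (Or.inl h)
    · exact Or.inr (Or.inr (Or.inl h))
  refine Or.inr <| Or.inr <| Or.inr <| Or.inl ⟨P, hP.isResidualCore fun F₀ h0 h => hreal ⟨F₀, h0, h⟩, ?_, ?_⟩
  · rintro ⟨Q, hQ, hfix⟩
    exact hreal ⟨_, fixedField_ne_top hF,
      realisableOver_fixed_of_quad hF (by omega) hP.absIrred (hP.le.trans hHU) hQ hfix⟩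
  · rintro ⟨f, hf', hfix⟩
    exact hreal ⟨_, fixedField_ne_top hF, realisableOver_fixed_of_bilinear hF (by omega) hP.absIrred
      (hP.le.trans hHU) hf'.bilinear hf'.nondegenerate hfix⟩

end CfsgLib.Aschbacher.Unitary
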