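import Cfsg.Agent.Aschbacher.CoverGroup
import Cfsg.Agent.Aschbacher.UnitaryMaximal
import Cfsg.Agent.AschPrime.UnitaryNormalizer

/-!
The abelian configuration inside the special unitary group: a subfield group or the normaliser of a
symplectic-type group over the minimal field.
-/

set_option autoImplicit false
set_option linter.unusedSectionVars false

namespace CfsgLib.Aschbacher.Unitary

open Cfsg.Geo Module CfsgLib.AschPrime
open scoped Matrix MatrixGroups

variable {F : Type*} [Field F] [Fintype F] {q n : ℕ}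

/-- The derived group of a group inside a subfield group is rational. -/
theorem realisable_commutator {ι : Type} [Fintype ι] [DecidableEq ι] {H : Subgroup (GL ι F)}
    {F₀ : Subfield F} {B : GL ι F} (h : H ≤ subfieldSubgroup F₀ B⁻¹) :
    RealisableOver F₀ (matrixSet (⁅H, H⁆ : Subgroup (GL ι F))) := by
  refine ⟨B, ?_⟩
  rintro _ ⟨x, hx, rfl⟩ i j
  let Rg := (Matrix.GeneralLinearGroup.map (F₀.subtype : F₀ →+* F) : GL ι F₀ →* GL ι F).range
  have hmap : H.map (MulAut.conj B).toMonoidHom ≤ Rg ⊔ scalars ι F := by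
    rintro _ ⟨g, hg, rfl⟩
    obtain ⟨y, hy, hyg⟩ := h hg
    rw [← hyg]
    simpa [mul_assoc] using hy
  have h2 : (⁅H, H⁆ : Subgroup (GL ι F)).map (MulAut.conj B).toMonoidHom ≤ Rg := by
    rw [Subgroup.map_commutator]
    refine (Aschbacher.commutator_sup_central le_rfl hmap).trans (Subgroup.commutator_le.2 ?_)
    intro a ha b hb
    rw [commutatorElement_def]
    exact Rg.mul_mem (Rg.mul_mem (Rg.mul_mem ha hb) (Rg.inv_mem ha)) (Rg.inv_mem hb)
  obtain ⟨s, hs⟩ := h2 ⟨x, hx, rfl⟩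
  have hv : (B : Matrix ι ι F) * x.val * (B⁻¹ : GL ι F).val =
      (Matrix.GeneralLinearGroup.map (F₀.subtype : F₀ →+* F) s).val := by
    rw [hs]; simp [Units.val_mul]
  show ((B : Matrix ι ι F) * x.val * (B⁻¹ : GL ι F).val) i j ∈ F₀
  rw [hv]
  exact (s.val i j).2

variable (hF : Fintype.card F = q ^ 2)
include hF

/-- The abelian configuration in the special unitary group. -/
theorem unitary_abelian_cases (hn : 5 ≤ n) {H N : Subgroup (GL (Fin n) F)} {r : ℕ}
    (hH : IsMaximalIn (Cfsg.GU n F q ⊓ specialLinear (Fin n) F) H) (h : AbelianData H N r) :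
    ((∃ (F₀ : Subfield F) (r : ℕ) (P : GL (Fin n) F), r.Prime ∧ Odd r ∧
        Fintype.card F = Nat.card F₀ ^ r ∧ IsFormRationalStructure (Cfsg.hermForm n F q) F₀ 1 P ∧
        H = subfieldSubgroup F₀ P ⊓ (Cfsg.GU n F q ⊓ specialLinear (Fin n) F)) ∨
    (Odd q ∧ ∃ (F₀ : Subfield F) (P : GL (Fin n) F), Fintype.card F = Nat.card F₀ ^ 2 ∧
        IsFormRationalStructure (Cfsg.hermForm n F q) F₀ 1 P ∧
        H = subfieldSubgroup F₀ P ⊓ (Cfsg.GU n F q ⊓ specialLinear (Fin n) F)) ∨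
    (∃ (F₀ : Subfield F) (P : GL (Fin n) F) (ζ : F), Fintype.card F = Nat.card F₀ ^ 2 ∧ ζ ≠ 0 ∧
        ζ + ζ ^ q = 0 ∧ IsFormRationalStructure (Cfsg.hermForm n F q) F₀ ζ P ∧
        (∀ u : Fin n → F, (∀ i, u i ∈ F₀) → Cfsg.hermForm n F q
          ((P : Matrix (Fin n) (Fin n) F) *ᵥ u) ((P : Matrix (Fin n) (Fin n) F) *ᵥ u) = 0) ∧
        H = subfieldSubgroup F₀ P ⊓ (Cfsg.GU n F q ⊓ specialLinear (Fin n) F))) ∨
    ∃ (R : Subgroup (GL (Fin n) F)) (r' j : ℕ), IsSymplecticTypeGroup r R ∧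
      ActsAbsolutelyIrreducibly (matrixSet R) ∧ R ≤ similarityGroup (Cfsg.hermForm n F q) ∧
      n = r ^ j ∧ r' = r * Nat.gcd 2 r ∧ Nat.card (Subgroup.center R) = r' ∧
      Nat.card R = r ^ (2 * j) * r' ∧
      (∀ p k : ℕ, p.Prime → q = p ^ k → r ≠ p ∧ ∀ d, 0 < d → d < 2 * k → ¬ r' ∣ p ^ d - 1) ∧
      H = subgroupNormalizer R ⊓ (Cfsg.GU n F q ⊓ specialLinear (Fin n) F) := by
  classical
  have : Nonempty (Fin n) := ⟨⟨0, by omega⟩⟩
  have hhom : Odd r ∨ ∃ i : Fˣ, i ^ 2 = -1 := by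
    obtain ⟨a, ha⟩ : IsSquare (-1 : F) := by
      rw [FiniteField.isSquare_neg_one_iff, hF, Nat.pow_mod]
      have := Nat.mod_lt q (show 0 < 4 by norm_num)
      interval_cases q % 4 <;> norm_num
    have ha0 : a ≠ 0 := fun h0 => by
      rw [h0, mul_zero, neg_eq_zero] at ha
      exact one_ne_zero ha
    exact Or.inr ⟨Units.mk0 a ha0, Units.ext (by simp [sq, ha])⟩
  obtain ⟨R, r', j, u, hR⟩ := exists_coverGroup (by simp; omega) h hhom
  have hd := hR.data
  have hHU : H ≤ Cfsg.GU n F q := hH.1.le.trans inf_le_left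
  obtain ⟨p, k, hp, hchar, hq⟩ := exists_char_pow hF
  have := Fact.mk hp
  by_cases hex : ∃ d, 0 < d ∧ d < 2 * k ∧ r' ∣ p ^ d - 1
  · left
    obtain ⟨d, hd0, hd2, hdd⟩ := hex
    have hcard : Fintype.card F = p ^ (2 * k) := by rw [hF, hq, ← pow_mul, mul_comm]
    let F₁ : Subfield F := RingHom.eqLocusField (iterateFrobenius F p d) (RingHom.id F)
    have hF₁ : ∀ x, x ∈ F₁ ↔ x ^ p ^ d = x := fun x => Iff.rfl
    have hne : F₁ ≠ ⊤ := by
      intro htop
      obtain ⟨g, hg⟩ := (inferInstance : IsCyclic Fˣ).exists_ofOrder_eq_natCard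
      have h1 : (g : F) ^ p ^ d = g := (hF₁ _).mp (htop ▸ Subfield.mem_top _)
      have h2 : g ^ (p ^ d - 1) = 1 := by
        refine mul_left_cancel (a := g) ?_
        rw [← pow_succ', Nat.sub_add_cancel (Nat.one_le_pow _ _ hp.pos), mul_one]
        exact Units.ext (by simpa using h1)
      have h3 := orderOf_dvd_of_pow_eq_one h2
      rw [hg, Nat.card_eq_fintype_card, Fintype.card_units, hcard] at h3
      have h4 : p ^ d < p ^ (2 * k) := Nat.pow_lt_pow_right hp.one_lt hd2
      have h5 : 1 < p ^ d := Nat.one_lt_pow hd0.ne' hp.one_lt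
      have := Nat.le_of_dvd (by omega) h3
      omega
    obtain ⟨F₂, l, hle, hl, hF₂, hne₂⟩ := exists_subfield_prime_index hne
    have hmem : ∀ c : Fˣ, scalarGL c ∈ R → (c : F) ∈ F₂ := by
      intro c hc
      refine hle ((hF₁ _).mpr ?_)
      have h1 : c ^ (p ^ d - 1) = 1 := by
        obtain ⟨m, hm⟩ := hdd; rw [hm, pow_mul, hd.scalar_pow c hc, one_pow]
      have h2 : c ^ p ^ d = c := by
        rw [← Nat.sub_add_cancel (Nat.one_le_pow d p hp.pos), pow_succ, h1, one_mul]
      rw [← Units.val_pow_eq_pow_val, h2]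
    obtain ⟨B, hB⟩ := realisableOver_of_scalars_mem hd.absIrred hd.comm F₂ hl hF₂ hmem
    have hsub := le_subfieldSubgroup_of_realisable hd.absIrred hd.normal hB
    have hHH : ⁅H, H⁆ ≤ H := Subgroup.commutator_le.2 fun a ha b hb => by
      rw [commutatorElement_def]
      exact H.mul_mem (H.mul_mem (H.mul_mem ha hb) (H.inv_mem ha)) (H.inv_mem hb)
    exact subfield_case hF (by omega) hH hHH
      (fun g hg => conj_commutator_mem fun x hx => H.mul_mem (H.mul_mem hg hx) (H.inv_mem hg))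
      (h.commutator_absIrred (by simp; omega)) hne₂ (realisable_commutator hsub)
  right
  push Not at hex
  have hsim : R ≤ similarityGroup (Cfsg.hermForm n F q) := fun g hg => by
    refine (show N ⊔ scalars (Fin n) F ≤ similarityGroup (Cfsg.hermForm n F q) from
      sup_le (fun x hx => ⟨1, fun u v => by
        rw [Units.val_one, one_mul]; exact hHU (h.le hx) u v⟩) ?_) ((hd.cover.mem_iff g).1 hg).1
    intro x hx
    obtain ⟨c, rfl⟩ := id hx
    refine ⟨c * c ^ q, fun u v => ?_⟩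
    show Cfsg.hermForm n F q ((scalarGL c).val *ᵥ u) ((scalarGL c).val *ᵥ v) = _
    rw [scalarGL_val, Matrix.smul_mulVec, Matrix.smul_mulVec, Matrix.one_mulVec, Matrix.one_mulVec,
      herm_smul_left, herm_smul_right hF, ← mul_assoc, Units.val_mul, Units.val_pow_eq_pow_val]
  have hn' : n = r ^ j := by simpa using hR.dim_eq
  refine ⟨R, r', j, hR.symplecticType, hd.absIrred, hsim, hn', hR.exp_eq, hR.card_center, hR.card_eq,
    fun p' k' hp' hq' => ?_, eq_inf_of_isMaximalIn hH (le_normalizer_of_forall_conj hd.normal) ?_⟩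
  · obtain rfl : p' = p := by
      have hk : k ≠ 0 := fun h0 => by
        have := one_lt_q hF; rw [hq, h0] at this; simp at this
      have h1 : p ∣ p' ^ k' := by rw [← hq', hq]; exact dvd_pow_self p hk
      exact ((Nat.prime_dvd_prime_iff_eq hp hp').1 (hp.dvd_of_dvd_pow h1)).symm
    obtain rfl : k' = k := Nat.pow_right_injective hp'.two_le (hq'.symm.trans hq)
    exact ⟨hR.prime_ne _ hchar, hex⟩
  · refine not_le_subgroupNormalizer hF (by omega) hd.absIrred ?_ (Or.inl hn)
    exact fun x hx y hy => hd.comm y hy x hx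

end CfsgLib.Aschbacher.Unitary
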