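import Cfsg.Agent.Eq.Def_GeometricClasses
import Cfsg.Agent.Aschbacher.FormsTensor

/-!
An element that fixes a large subspace pointwise commutes with an algebra it normalises, provided the
non-zero elements of the algebra have small kernels; a transvection commuting with an algebra has its
centre as a common eigenvector.
-/

set_option autoImplicit false

namespace CfsgLib.Aschbacher.RankArgument

open Matrix Cfsg Module
open scoped Kronecker

variable {ι : Type} [Fintype ι] [DecidableEq ι] {F : Type*} [Field F]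

/-- An element fixing `U` pointwise and normalising `A` commutes with `A`, if no non-zero element of `A`
has a kernel as large as the intersection of two translates of `U`. -/
theorem commute_of_fixes {T : GL ι F} {A : Subalgebra F (Matrix ι ι F)}
    (hT : T ∈ Geo.subalgebraNormalizer A) {U : Submodule F (ι → F)}
    (hfix : ∀ x ∈ U, (T : Matrix ι ι F) *ᵥ x = x)
    (hbig : ∀ Y ∈ A, Y ≠ 0 →
      finrank F (LinearMap.ker (Matrix.toLin' Y)) + 2 * (Fintype.card ι - finrank F U) < Fintype.card ι) :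
    ∀ X ∈ A, (T : Matrix ι ι F) * X = X * (T : Matrix ι ι F) := by
  intro X hX
  set Y := (T : Matrix ι ι F) * X * ((T⁻¹ : GL ι F) : Matrix ι ι F) with hY
  have hYA : Y ∈ A := (hT X).1 hX
  have hTX : Y * (T : Matrix ι ι F) = (T : Matrix ι ι F) * X := by
    rw [hY, mul_assoc, Units.inv_mul, mul_one]
  by_contra hne
  have hne' : Y - X ≠ 0 := by
    intro h
    rw [sub_eq_zero] at h
    exact hne (by rw [← hTX, h])
  have h1 := hbig _ (A.sub_mem hYA hX) hne'
  let V : Submodule F (ι → F) := U ⊓ Submodule.comap (Matrix.toLin' X) U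
  have hV : V ≤ LinearMap.ker (Matrix.toLin' (Y - X)) := by
    rintro x ⟨hx, hXx⟩
    replace hXx : X *ᵥ x ∈ U := hXx
    have h := congrArg (· *ᵥ x) hTX
    simp only [← Matrix.mulVec_mulVec, hfix x hx, hfix _ hXx] at h
    rw [LinearMap.mem_ker, Matrix.toLin'_apply, Matrix.sub_mulVec, h, sub_self]
  have hcodim : Fintype.card ι ≤ finrank F V + 2 * (Fintype.card ι - finrank F U) := by
    let L : (ι → F) →ₗ[F] ((ι → F) ⧸ U) × ((ι → F) ⧸ U) :=
      U.mkQ.prod (U.mkQ ∘ₗ Matrix.toLin' X)
    have hker : LinearMap.ker L = V := by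
      ext x
      simp [L, V]
    have h2 := LinearMap.finrank_range_add_finrank_ker L
    have h3 := Submodule.finrank_le (LinearMap.range L)
    have h4 := Submodule.finrank_quotient_add_finrank U
    rw [hker, Module.finrank_pi] at h2
    rw [Module.finrank_prod] at h3
    rw [Module.finrank_pi] at h4
    omega
  have h2 := Submodule.finrank_mono hV
  omega

omit [DecidableEq ι] in
/-- If a transvection commutes with a matrix, its centre is an eigenvector. -/
theorem exists_eigen_of_commute [DecidableEq ι] {T X : Matrix ι ι F} (φ : (ι → F) →ₗ[F] F) {v : ι → F}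
    (hT : ∀ x, T *ᵥ x = x + φ x • v) (hφ : φ ≠ 0) (hcomm : T * X = X * T) :
    ∃ c : F, X *ᵥ v = c • v := by
  obtain ⟨x, hx⟩ : ∃ x, φ x ≠ 0 := by
    by_contra! h
    exact hφ (LinearMap.ext h)
  have h := congrArg (· *ᵥ x) hcomm
  simp only [← Matrix.mulVec_mulVec, hT, Matrix.mulVec_add, Matrix.mulVec_smul, add_right_inj] at h
  refine ⟨(φ x)⁻¹ * φ (X *ᵥ x), ?_⟩
  rw [mul_smul, h, smul_smul, inv_mul_cancel₀ hx, one_smul]

/-- A field subalgebra with a common eigenvector is the scalars. -/
theorem finrank_le_one_of_eigen {r : ℕ} {K : Subalgebra F (Matrix ι ι F)}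
    (hK : Geo.IsFieldSubalgebra r K) {v : ι → F} (hv : v ≠ 0)
    (h : ∀ X ∈ K, ∃ c : F, X *ᵥ v = c • v) : r ≤ 1 := by
  have hbot : K = ⊥ := by
    refine le_bot_iff.1 fun X hX => ?_
    obtain ⟨c, hc⟩ := h X hX
    refine Algebra.mem_bot.2 ⟨c, ?_⟩
    by_contra hne
    obtain ⟨y, -, hy⟩ := hK.inv _ (K.sub_mem hX (K.algebraMap_mem c)) (sub_ne_zero.2 (Ne.symm hne))
    have hy' := mul_eq_one_comm.1 hy
    apply hv
    rw [← Matrix.one_mulVec v, ← hy', ← Matrix.mulVec_mulVec, Matrix.sub_mulVec, hc,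
      Algebra.algebraMap_eq_smul_one, Matrix.smul_mulVec, Matrix.one_mulVec, sub_self, Matrix.mulVec_zero]
  have : Nonempty ι := by
    by_contra h0
    rw [not_nonempty_iff] at h0
    exact hv (funext fun i => h0.elim i)
  rw [← hK.finrank_eq, hbot, Subalgebra.finrank_bot]

/-- A non-zero element of a field subalgebra has no kernel. -/
theorem finrank_ker_field {r : ℕ} {K : Subalgebra F (Matrix ι ι F)} (hK : Geo.IsFieldSubalgebra r K)
    {X : Matrix ι ι F} (hX : X ∈ K) (h0 : X ≠ 0) :
    finrank F (LinearMap.ker (Matrix.toLin' X)) = 0 := by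
  obtain ⟨y, -, hy⟩ := hK.inv X hX h0
  have hy' := mul_eq_one_comm.1 hy
  rw [Submodule.finrank_eq_zero, Submodule.eq_bot_iff]
  intro x hx
  rw [LinearMap.mem_ker, Matrix.toLin'_apply] at hx
  rw [← Matrix.one_mulVec x, ← hy', ← Matrix.mulVec_mulVec, hx, Matrix.mulVec_zero]

variable {d k : ℕ} (e : ι ≃ Fin d × Fin k) (P : GL ι F)

/-- The first factor algebra of a tensor decomposition. -/
def factorAlg : Subalgebra F (Matrix ι ι F) where
  carrier := {X | ∃ Y : Matrix (Fin d) (Fin d) F, X = tconj e P (Y ⊗ₖ (1 : Matrix (Fin k) (Fin k) F))}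
  mul_mem' {a b} := by
    rintro ⟨Y, rfl⟩ ⟨Z, rfl⟩
    exact ⟨Y * Z, by rw [← map_mul, ← Matrix.mul_kronecker_mul, one_mul]⟩
  one_mem' := ⟨1, by rw [Matrix.one_kronecker_one, map_one]⟩
  add_mem' {a b} := by
    rintro ⟨Y, rfl⟩ ⟨Z, rfl⟩
    exact ⟨Y + Z, by rw [← map_add, ← Matrix.add_kronecker]⟩
  zero_mem' := ⟨0, by rw [Matrix.zero_kronecker, map_zero]⟩
  algebraMap_mem' c := ⟨algebraMap F _ c, by
    rw [Algebra.algebraMap_eq_smul_one, Algebra.algebraMap_eq_smul_one, Matrix.smul_kronecker,
      Matrix.one_kronecker_one, map_smul, map_one]⟩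

theorem mem_factorAlg {X : Matrix ι ι F} : X ∈ factorAlg e P ↔
    ∃ Y : Matrix (Fin d) (Fin d) F, X = tconj e P (Y ⊗ₖ (1 : Matrix (Fin k) (Fin k) F)) := Iff.rfl

theorem tensorProductSubgroup_le_normalizer :
    Geo.tensorProductSubgroup d k e P ≤ Geo.subalgebraNormalizer (factorAlg e P) := by
  have key : ∀ g ∈ Geo.tensorProductSubgroup d k e P, ∀ X ∈ factorAlg e P,
      (g : Matrix ι ι F) * X * ((g⁻¹ : GL ι F) : Matrix ι ι F) ∈ factorAlg e P := by
    intro g hg X hX
    obtain ⟨Y, rfl⟩ := (mem_factorAlg e P).1 hX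
    obtain ⟨A, B, hAB⟩ := (mem_tensorProductSubgroup_iff e P g).1 hg
    have hinv : ((g⁻¹ : GL ι F) : Matrix ι ι F) = tconj e P
        (((A⁻¹ : GL (Fin d) F) : Matrix (Fin d) (Fin d) F) ⊗ₖ ((B⁻¹ : GL (Fin k) F) : Matrix (Fin k) (Fin k) F)) := by
      refine Units.inv_eq_of_mul_eq_one_right ?_
      rw [hAB, ← map_mul, ← Matrix.mul_kronecker_mul, ← Units.val_mul, ← Units.val_mul, mul_inv_cancel,
        mul_inv_cancel, Units.val_one, Units.val_one, Matrix.one_kronecker_one, map_one]
    refine (mem_factorAlg e P).2 ⟨(A : Matrix _ _ F) * Y * ((A⁻¹ : GL (Fin d) F) : Matrix _ _ F), ?_⟩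
    rw [hAB, hinv, ← map_mul, ← map_mul, ← Matrix.mul_kronecker_mul, ← Matrix.mul_kronecker_mul, mul_one,
      ← Units.val_mul, mul_inv_cancel, Units.val_one]
  intro g hg X
  refine ⟨key g hg X, fun h => ?_⟩
  have h2 := key g⁻¹ (inv_mem hg) _ h
  simpa [mul_assoc] using h2

theorem finrank_ker_factor {X : Matrix ι ι F} (hX : X ∈ factorAlg e P) (h0 : X ≠ 0) :
    finrank F (LinearMap.ker (Matrix.toLin' X)) + k ≤ Fintype.card ι := by
  obtain ⟨Y, rfl⟩ := (mem_factorAlg e P).1 hX
  obtain ⟨i, j, hij⟩ : ∃ i j, Y i j ≠ 0 := by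
    by_contra! h
    exact h0 (by rw [show Y = 0 from Matrix.ext h, Matrix.zero_kronecker, map_zero])
  let L : (Fin k → F) →ₗ[F] LinearMap.range (Matrix.toLin' (tconj e P (Y ⊗ₖ (1 : Matrix (Fin k) (Fin k) F)))) :=
    { toFun := fun z => ⟨_, ⟨Forms.emb e P fun p => if p.1 = j then z p.2 else 0, rfl⟩⟩
      map_add' := fun x y => Subtype.ext (by
        simp only [Submodule.coe_add, ← map_add]
        congr 1
        simp only [Forms.emb, ← Matrix.mulVec_add]
        congr 1
        funext t
        simp only [Function.comp_apply, Pi.add_apply]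
        split <;> simp)
      map_smul' := fun c x => Subtype.ext (by
        simp only [Submodule.coe_smul, RingHom.id_apply, ← map_smul]
        congr 1
        simp only [Forms.emb, ← Matrix.mulVec_smul]
        congr 1
        funext t
        simp only [Function.comp_apply, Pi.smul_apply, smul_eq_mul]
        split <;> simp) }
  have hL : Function.Injective L := by
    intro x y h
    have h' := congrArg Subtype.val h
    simp only [L, LinearMap.coe_mk, AddHom.coe_mk, Matrix.toLin'_apply, Forms.tconj_mulVec_emb] at h'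
    have h'' := Forms.emb_injective h'
    funext l
    have hl := congrFun h'' (i, l)
    simp only [Matrix.mulVec, dotProduct, Fintype.sum_prod_type, Matrix.kroneckerMap_apply] at hl
    rw [Finset.sum_eq_single j (fun b _ hb => by simp [hb]) (by simp),
      Finset.sum_eq_single j (fun b _ hb => by simp [hb]) (by simp)] at hl
    rw [Finset.sum_eq_single l (fun b _ hb => by simp [Ne.symm hb]) (by simp),
      Finset.sum_eq_single l (fun b _ hb => by simp [Ne.symm hb]) (by simp)] at hl
    simp only [Matrix.one_apply_eq, mul_one] at hl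
    exact mul_left_cancel₀ hij hl
  have h1 := LinearMap.finrank_le_finrank_of_injective hL
  have h2 := LinearMap.finrank_range_add_finrank_ker
    (Matrix.toLin' (tconj e P (Y ⊗ₖ (1 : Matrix (Fin k) (Fin k) F))))
  rw [Module.finrank_pi, Fintype.card_fin] at h1
  rw [Module.finrank_pi] at h2
  omega

/-- A factor algebra of dimension at least two has no common eigenvector. -/
theorem not_eigen_factor (hd : 2 ≤ d) {v : ι → F} (hv : v ≠ 0) :
    ¬ ∀ X ∈ factorAlg e P, ∃ c : F, X *ᵥ v = c • v := by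
  intro h
  obtain ⟨x, rfl⟩ := Forms.emb_surjective (e := e) (P := P) v
  obtain ⟨⟨i, l⟩, hil⟩ : ∃ p, x p ≠ 0 := by
    by_contra! h0
    exact hv (by rw [show x = 0 from funext h0]; simp [Forms.emb])
  have : Nontrivial (Fin d) := Fin.nontrivial_iff_two_le.2 hd
  obtain ⟨j, hji⟩ := exists_ne i
  obtain ⟨c, hc⟩ := h _ ⟨Matrix.single j i 1, rfl⟩
  have hs : c • Forms.emb e P x = Forms.emb e P (c • x) := by
    rw [Forms.emb, Forms.emb, ← Matrix.mulVec_smul]
    rfl
  rw [Forms.tconj_mulVec_emb, hs] at hc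
  have hc' := Forms.emb_injective hc
  have h1 := congrFun hc' (j, l)
  have h2 := congrFun hc' (i, l)
  simp only [Matrix.mulVec, dotProduct, Fintype.sum_prod_type, Matrix.kroneckerMap_apply, Matrix.single,
    Matrix.of_apply, Matrix.one_apply, Pi.smul_apply, smul_eq_mul, mul_ite, mul_one, mul_zero, ite_mul, one_mul,
    zero_mul, Finset.sum_ite_eq, Finset.mem_univ, if_true, true_and, hji, false_and, if_false,
    Finset.sum_const_zero] at h1 h2
  rw [eq_comm, mul_eq_zero] at h2
  rcases h2 with h2 | h2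
  · rw [h2, zero_mul] at h1
    exact hil h1
  · exact hil h2

end CfsgLib.Aschbacher.RankArgument
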