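import Cfsg.Agent.Eq.Def_GeometricClasses
import Cfsg.Agent.Aschbacher.NormalStructure
import Cfsg.Agent.Aschbacher.RankArgument

/-!
Two commuting copies of a matrix algebra: the tensor square stabiliser.
-/

set_option autoImplicit false
set_option linter.unusedSectionVars false

namespace CfsgLib.Aschbacher.TensorSquare

open Matrix Module
open scoped Kronecker

variable {ι : Type} [Fintype ι] [DecidableEq ι] {F : Type*} [Field F] {d : ℕ}

/-- The exchange of the two factors, as a matrix. -/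
def swapMat : Matrix (Fin d × Fin d) (Fin d × Fin d) F :=
  Matrix.of fun p q => if q = p.swap then 1 else 0

theorem swapMat_apply (p q : Fin d × Fin d) :
    (swapMat : Matrix _ _ F) p q = if q = p.swap then 1 else 0 := rfl

theorem swapMat_mulVec (x : Fin d × Fin d → F) : swapMat *ᵥ x = fun p => x p.swap := by
  funext p
  simp [Matrix.mulVec, dotProduct, swapMat]

theorem swapMat_mul_self : (swapMat : Matrix (Fin d × Fin d) (Fin d × Fin d) F) * swapMat = 1 := by
  refine Matrix.ext_iff_mulVec.2 fun x => ?_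
  rw [← Matrix.mulVec_mulVec, swapMat_mulVec, swapMat_mulVec, Matrix.one_mulVec]
  funext p
  simp

theorem swapMat_kron (X Y : Matrix (Fin d) (Fin d) F) :
    swapMat * (X ⊗ₖ Y) = (Y ⊗ₖ X) * swapMat := by
  ext p q
  rw [Matrix.mul_apply, Matrix.mul_apply, Finset.sum_eq_single p.swap, Finset.sum_eq_single q.swap]
  · simp [swapMat, Matrix.kroneckerMap_apply, mul_comm]
  · intro b _ hb
    rw [swapMat_apply, if_neg fun h => hb (by rw [h, Prod.swap_swap]), mul_zero]
  · simp
  · intro b _ hb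
    rw [swapMat_apply, if_neg hb, zero_mul]
  · simp

/-- The index bijection of the tensor square. -/
def sqEquiv (e : ι ≃ Fin d × Fin d) : ι ≃ (Fin 2 → Fin d) :=
  e.trans (finTwoArrowEquiv (Fin d)).symm

theorem sqEquiv_apply (e : ι ≃ Fin d × Fin d) (i : ι) :
    (sqEquiv e i 0, sqEquiv e i 1) = e i := by
  simp [sqEquiv]

theorem exists_sqEquiv_eq (e : ι ≃ (Fin 2 → Fin d)) : ∃ e₀ : ι ≃ Fin d × Fin d, sqEquiv e₀ = e :=
  ⟨e.trans (finTwoArrowEquiv (Fin d)), by ext i x; fin_cases x <;> simp [sqEquiv]⟩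

variable (e : ι ≃ Fin d × Fin d) (P : GL ι F)

/-- What the elements of the tensor square stabiliser look like. -/
theorem exists_of_mem_wreath {g : GL ι F}
    (hg : g ∈ Cfsg.Geo.tensorWreathSubgroup d 2 (sqEquiv e) P) :
    ∃ a b : GL (Fin d) F,
      (g : Matrix ι ι F) = tconj e P ((a : Matrix _ _ F) ⊗ₖ (b : Matrix _ _ F)) ∨
      (g : Matrix ι ι F) = tconj e P (((a : Matrix _ _ F) ⊗ₖ (b : Matrix _ _ F)) * swapMat) := by
  let eq2 := finTwoArrowEquiv (Fin d)
  obtain ⟨x, hx, rfl⟩ := hg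
  obtain ⟨k, hk, rfl⟩ := Subgroup.mem_map.1 hx
  suffices h : ∃ a b : GL (Fin d) F,
      (k : Matrix _ _ F).submatrix eq2.symm eq2.symm = (a : Matrix _ _ F) ⊗ₖ (b : Matrix _ _ F) ∨
      (k : Matrix _ _ F).submatrix eq2.symm eq2.symm = ((a : Matrix _ _ F) ⊗ₖ (b : Matrix _ _ F)) * swapMat by
    have hval : ((MulAut.conj P).toMonoidHom ((Cfsg.Geo.glReindex (sqEquiv e).symm).toMonoidHom k) : GL ι F).val =
        tconj e P ((k : Matrix _ _ F).submatrix eq2.symm eq2.symm) := by
      rw [tconj_apply]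
      rfl
    obtain ⟨a, b, h | h⟩ := h
    · exact ⟨a, b, Or.inl (by rw [hval, h])⟩
    · exact ⟨a, b, Or.inr (by rw [hval, h])⟩
  have hmulsub : ∀ (X Y : Matrix (Fin 2 → Fin d) (Fin 2 → Fin d) F),
      (X * Y).submatrix eq2.symm eq2.symm = X.submatrix eq2.symm eq2.symm * Y.submatrix eq2.symm eq2.symm :=
    fun X Y => Matrix.submatrix_mul X Y _ _ _ eq2.symm.bijective
  clear hx
  unfold Cfsg.Geo.tensorWreathStandard at hk
  induction hk using Subgroup.closure_induction with
  | mem y hy =>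
    rcases hy with ⟨gs, hgs⟩ | ⟨σ, hσ⟩
    · refine ⟨gs 0, gs 1, Or.inl ?_⟩
      ext p q
      rw [Matrix.submatrix_apply, hgs, Fin.prod_univ_two]
      simp [eq2, Matrix.kroneckerMap_apply]
    · have hperm2 : ∀ τ : Equiv.Perm (Fin 2), τ = 1 ∨ τ = Equiv.swap 0 1 := by decide
      rcases hperm2 σ with rfl | rfl
      · refine ⟨1, 1, Or.inl ?_⟩
        ext p q
        rw [Matrix.submatrix_apply, hσ, Units.val_one, Matrix.one_kronecker_one]
        simp only [Equiv.Perm.coe_one, Function.comp_id, eq2.symm.injective.eq_iff, Matrix.one_apply, eq_comm]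
      · refine ⟨1, 1, Or.inr ?_⟩
        ext p q
        rw [Matrix.submatrix_apply, hσ, Units.val_one, Matrix.one_kronecker_one, one_mul, swapMat_apply]
        refine if_congr ⟨fun h => ?_, fun h => ?_⟩ rfl rfl
        · have h' := congrArg eq2 h
          rw [Equiv.apply_symm_apply] at h'
          rw [h']
          simp [eq2]
          rfl
        · subst h
          funext i
          fin_cases i <;> simp [eq2]
  | one => exact ⟨1, 1, Or.inl (by simp)⟩
  | mul y z _ _ hy hz =>
    obtain ⟨a, b, hab⟩ := hy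
    obtain ⟨a', b', hab'⟩ := hz
    rw [Units.val_mul, hmulsub]
    rcases hab with h | h <;> rcases hab' with h' | h'
    · exact ⟨a * a', b * b', Or.inl (by rw [h, h', Units.val_mul, Units.val_mul, Matrix.mul_kronecker_mul])⟩
    · exact ⟨a * a', b * b', Or.inr (by
        rw [h, h', Units.val_mul, Units.val_mul, Matrix.mul_kronecker_mul, mul_assoc])⟩
    · exact ⟨a * b', b * a', Or.inr (by
        rw [h, h', Units.val_mul, Units.val_mul, Matrix.mul_kronecker_mul, mul_assoc, swapMat_kron, ← mul_assoc])⟩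
    · exact ⟨a * b', b * a', Or.inl (by
        rw [h, h', Units.val_mul, Units.val_mul, Matrix.mul_kronecker_mul,
          mul_assoc, ← mul_assoc swapMat, swapMat_kron,
          mul_assoc _ swapMat, swapMat_mul_self, mul_one])⟩
  | inv y _ hy =>
    obtain ⟨a, b, hab⟩ := hy
    have h1 : (y : Matrix _ _ F).submatrix eq2.symm eq2.symm *
        ((y⁻¹ : GL (Fin 2 → Fin d) F) : Matrix _ _ F).submatrix eq2.symm eq2.symm = 1 := by
      rw [← hmulsub, Units.mul_inv, Matrix.submatrix_one_equiv]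
    rcases hab with h | h
    · refine ⟨a⁻¹, b⁻¹, Or.inl (left_inv_eq_right_inv ?_ h1).symm⟩
      rw [h, ← Matrix.mul_kronecker_mul, Units.inv_mul, Units.inv_mul, Matrix.one_kronecker_one]
    · refine ⟨b⁻¹, a⁻¹, Or.inr (left_inv_eq_right_inv ?_ h1).symm⟩
      rw [h, mul_assoc, ← mul_assoc swapMat, swapMat_kron, mul_assoc _ swapMat, swapMat_mul_self, mul_one,
        ← Matrix.mul_kronecker_mul, Units.inv_mul, Units.inv_mul, Matrix.one_kronecker_one]

theorem mem_wreath_of_pure {g : GL ι F} {a b : GL (Fin d) F}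
    (hg : (g : Matrix ι ι F) = tconj e P ((a : Matrix _ _ F) ⊗ₖ (b : Matrix _ _ F))) :
    g ∈ Cfsg.Geo.tensorWreathSubgroup d 2 (sqEquiv e) P := by
  let eq2 := finTwoArrowEquiv (Fin d)
  have hu : IsUnit ((a : Matrix (Fin d) (Fin d) F) ⊗ₖ (b : Matrix (Fin d) (Fin d) F)) := by
    rw [← isUnit_map_iff (tconj e P), ← hg]; exact g.isUnit
  obtain ⟨k, hk⟩ := hu
  refine ⟨Cfsg.Geo.glReindex (sqEquiv e).symm (Cfsg.Geo.glReindex eq2.symm k),
    Subgroup.mem_map.2 ⟨_, Subgroup.subset_closure (Or.inl ⟨![a, b], fun x y => ?_⟩), rfl⟩, ?_⟩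
  · rw [Fin.prod_univ_two]
    show (k : Matrix _ _ F).submatrix eq2 eq2 x y = _
    rw [hk]
    simp [eq2, Matrix.kroneckerMap_apply]
  · apply Units.ext
    rw [hg, tconj_apply]
    show _ * ((k : Matrix _ _ F).submatrix eq2 eq2).submatrix (sqEquiv e) (sqEquiv e) * _ = _
    rw [hk, Matrix.submatrix_submatrix]
    congr 2

theorem tensor_le_wreath :
    Cfsg.Geo.tensorProductSubgroup d d e P ≤ Cfsg.Geo.tensorWreathSubgroup d 2 (sqEquiv e) P := by
  intro g hg
  obtain ⟨a, b, h⟩ := (mem_tensorProductSubgroup_iff e P g).1 hg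
  exact mem_wreath_of_pure e P h

theorem exists_swap : ∃ s : GL ι F, s ∈ Cfsg.Geo.tensorWreathSubgroup d 2 (sqEquiv e) P ∧
    (s : Matrix ι ι F) = tconj e P swapMat := by
  let eq2 := finTwoArrowEquiv (Fin d)
  let k : GL (Fin d × Fin d) F := ⟨swapMat, swapMat, swapMat_mul_self, swapMat_mul_self⟩
  refine ⟨_, ⟨_, Subgroup.mem_map.2 ⟨Cfsg.Geo.glReindex eq2.symm k,
    Subgroup.subset_closure (Or.inr ⟨Equiv.swap 0 1, fun x y => ?_⟩), rfl⟩, rfl⟩, ?_⟩
  · show (swapMat : Matrix _ _ F).submatrix eq2 eq2 x y = _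
    rw [Matrix.submatrix_apply, swapMat_apply]
    refine if_congr ⟨fun h => ?_, fun h => ?_⟩ rfl rfl
    · funext i
      have h0 := congrArg Prod.fst h
      have h1 := congrArg Prod.snd h
      simp [eq2] at h0 h1
      fin_cases i <;> simp [h0, h1]
    · subst h
      simp [eq2]
  · rw [tconj_apply]
    show _ * ((swapMat : Matrix _ _ F).submatrix eq2 eq2).submatrix (sqEquiv e) (sqEquiv e) * _ = _
    rw [Matrix.submatrix_submatrix]
    congr 2

theorem card_eq_of_equiv (e : ι ≃ Fin d × Fin d) : Fintype.card ι = d * d := by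
  simp [Fintype.card_congr e]

/-- Two commuting copies of a matrix algebra give the tensor square stabiliser. -/
theorem le_wreath_of_commutingData [NeZero d] {H : Subgroup (GL ι F)} {d' : ℕ}
    {S : Finset (Subalgebra F (Matrix ι ι F))} (hS : CommutingData H d' S) (_h2 : S.card = 2)
    {A : Subalgebra F (Matrix ι ι F)} (hA : A ∈ S) (hAe : A = RankArgument.factorAlg e P) :
    H ≤ Cfsg.Geo.tensorWreathSubgroup d 2 (sqEquiv e) P := by
  classical
  intro h hh
  obtain ⟨B, hB, hperm⟩ := hS.perm h hh A hA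
  have key : ∀ g : GL ι F, (∀ x ∈ RankArgument.factorAlg e P, conjAlg g x ∈ RankArgument.factorAlg e P) →
      g ∈ Cfsg.Geo.tensorWreathSubgroup d 2 (sqEquiv e) P := by
    intro g hg
    refine tensor_le_wreath e P (mem_tensorProductSubgroup_of_normalizes e P fun X => ?_)
    exact (RankArgument.mem_factorAlg e P).1 (hg _ ⟨X, rfl⟩)
  by_cases hBA : B = A
  · subst hBA
    exact key h fun x hx => hAe ▸ (hperm x).1 (hAe.symm ▸ hx)
  obtain ⟨s, hsW, hs⟩ := exists_swap e P
  have hsh : s * h ∈ Cfsg.Geo.tensorWreathSubgroup d 2 (sqEquiv e) P := by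
    refine key _ fun x hx => ?_
    rw [conjAlg_mul]
    have hxB : conjAlg h x ∈ B := (hperm x).1 (hAe.symm ▸ hx)
    obtain ⟨Y, hY⟩ := centralizer_tensor e P (Y := conjAlg h x) fun X =>
      hS.commute A hA B hB (Ne.symm hBA) _ (hAe.symm ▸ ⟨X, rfl⟩) _ hxB
    refine ⟨Y, ?_⟩
    have hsinv : ((s⁻¹ : GL ι F) : Matrix ι ι F) = tconj e P swapMat := by
      refine Units.inv_eq_of_mul_eq_one_right ?_
      rw [hs, ← map_mul, swapMat_mul_self, map_one]
    rw [hY, conjAlg_apply, hs, hsinv, ← map_mul, ← map_mul, swapMat_kron, mul_assoc, swapMat_mul_self,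
      mul_one]
  simpa using mul_mem (inv_mem hsW) hsh

/-- An element fixing a hyperplane does not exchange the factors. -/
theorem mem_tensor_of_fixes (hd : 3 ≤ d) {T : GL ι F}
    (hT : T ∈ Cfsg.Geo.tensorWreathSubgroup d 2 (sqEquiv e) P) (φ : (ι → F) →ₗ[F] F)
    (hfix : ∀ x, φ x = 0 → (T : Matrix ι ι F) *ᵥ x = x) :
    T ∈ Cfsg.Geo.tensorProductSubgroup d d e P := by
  obtain ⟨a, b, h | h⟩ := exists_of_mem_wreath e P hT
  · exact (mem_tensorProductSubgroup_iff e P T).2 ⟨a, b, h⟩
  exfalso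
  have : NeZero d := ⟨by omega⟩
  let i0 : Fin d := 0
  -- the slice over the first basis vector
  let em : (Fin d → F) →ₗ[F] (ι → F) :=
    { toFun := fun w => Forms.emb e P fun p => if p.1 = i0 then w p.2 else 0
      map_add' := fun x y => by
        simp only [Forms.emb, ← Matrix.mulVec_add]
        congr 1
        funext t
        simp only [Function.comp_apply, Pi.add_apply]
        split <;> simp
      map_smul' := fun c x => by
        simp only [Forms.emb, RingHom.id_apply, ← Matrix.mulVec_smul]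
        congr 1
        funext t
        simp only [Function.comp_apply, Pi.smul_apply, smul_eq_mul]
        split <;> simp }
  let K := LinearMap.ker (φ ∘ₗ em)
  have hK : d ≤ finrank F K + 1 := by
    have h1 := LinearMap.finrank_range_add_finrank_ker (φ ∘ₗ em)
    have h2 := Submodule.finrank_le (LinearMap.range (φ ∘ₗ em))
    rw [finrank_fin_fun] at h1
    rw [Module.finrank_self] at h2
    show d ≤ finrank F (LinearMap.ker (φ ∘ₗ em)) + 1
    omega
  have hba : IsUnit (b : Matrix (Fin d) (Fin d) F) := b.isUnit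
  obtain ⟨j, hj⟩ : ∃ j, (b : Matrix (Fin d) (Fin d) F) j i0 ≠ 0 := by
    by_contra! hz
    have hcol : (b : Matrix (Fin d) (Fin d) F) *ᵥ Pi.single i0 1 = 0 := by
      rw [Matrix.mulVec_single_one]
      funext k
      exact hz k
    have := congrFun ((Matrix.mulVec_injective_iff_isUnit.2 hba) (hcol.trans (Matrix.mulVec_zero _).symm)) i0
    simp at this
  let L : K →ₗ[F] F :=
    (LinearMap.proj i0) ∘ₗ (Matrix.toLin' (a : Matrix (Fin d) (Fin d) F)) ∘ₗ K.subtype
  have hL : Function.Injective L := by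
    rw [← LinearMap.ker_eq_bot, Submodule.eq_bot_iff]
    rintro ⟨w, hw⟩ hLw
    replace hLw : ((a : Matrix (Fin d) (Fin d) F) *ᵥ w) i0 = 0 := hLw
    have hfx := hfix (em w) hw
    simp only [em, LinearMap.coe_mk, AddHom.coe_mk, h, Forms.tconj_mulVec_emb, ← Matrix.mulVec_mulVec,
      swapMat_mulVec] at hfx
    have hv := Forms.emb_injective hfx
    have haw : (a : Matrix (Fin d) (Fin d) F) *ᵥ w = 0 := by
      funext i
      by_cases hi : i = i0
      · rw [hi, hLw]; rfl
      have h1 := congrFun hv (i, j)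
      simp only [Matrix.mulVec, dotProduct, Fintype.sum_prod_type, Matrix.kroneckerMap_apply, Prod.swap_prod_mk,
        hi, if_false, mul_ite, mul_zero, Finset.sum_ite_eq', Finset.mem_univ, if_true] at h1
      have h2 : (∑ x, (a : Matrix (Fin d) (Fin d) F) i x * w x) * (b : Matrix (Fin d) (Fin d) F) j i0 = 0 := by
        rw [Finset.sum_mul]
        refine Eq.trans (Finset.sum_congr rfl fun x _ => ?_) h1
        ring
      exact (mul_eq_zero.1 h2).resolve_right hj
    exact Subtype.ext ((Matrix.mulVec_injective_iff_isUnit.2 a.isUnit) (haw.trans (Matrix.mulVec_zero _).symm))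
  have h3 := LinearMap.finrank_le_finrank_of_injective hL
  rw [Module.finrank_self] at h3
  omega

end CfsgLib.Aschbacher.TensorSquare
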