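import Cfsg.Agent.Eq.Def_GeometricClasses
import Cfsg.Agent.Aschbacher.TensorSquare

/-!
Over the field with four elements the isometries of the standard hermitian form in dimension three
normalise an extraspecial group of order 27; the tensor square of it is a symplectic-type group of
order 243 normalised by the unitary tensor square stabiliser.
-/

set_option autoImplicit false
set_option linter.unusedSectionVars false

namespace CfsgLib.Aschbacher.SquareTwo

open Matrix Module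
open scoped Kronecker

variable {F : Type*} [Field F]

/-- `ω` generates the multiplicative group of the field with four elements. -/
structure IsCube (ω : F) : Prop where
  two : (2 : F) = 0
  sum : 1 + ω + ω ^ 2 = 0
  cube : ∀ x : F, x ≠ 0 → x ^ 3 = 1

/-- Powers of `ω`. -/
def wp (ω : F) (j : Fin 3) : F := ω ^ (j : ℕ)

variable {ω : F}

theorem exists_isCube [Fintype F] (h4 : Fintype.card F = 4) : ∃ ω : F, IsCube ω := by
  have hcube : ∀ x : F, x ≠ 0 → x ^ 3 = 1 := fun x hx => by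
    simpa [h4] using FiniteField.pow_card_sub_one_eq_one x hx
  have h2 : (2 : F) = 0 := by
    have h := FiniteField.cast_card_eq_zero F
    rw [h4] at h
    have : (2 : F) * 2 = 0 := by push_cast at h; linear_combination h
    exact mul_self_eq_zero.1 this
  obtain ⟨x, hx0, hx1⟩ : ∃ x : F, x ≠ 0 ∧ x ≠ 1 := by
    classical
    by_contra! h
    have h1 : (Finset.univ : Finset F) ⊆ {0, 1} := fun x _ => by
      rcases eq_or_ne x 0 with rfl | hx
      · simp
      · simp [h x hx]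
    have h2 := Finset.card_le_card h1
    have h3 : ({0, 1} : Finset F).card ≤ 2 := Finset.card_le_two
    rw [Finset.card_univ, h4] at h2
    omega
  refine ⟨x, h2, ?_, hcube⟩
  have h := hcube x hx0
  exact (mul_eq_zero.1 (show (x - 1) * (1 + x + x ^ 2) = 0 by linear_combination h)).resolve_left (sub_ne_zero.2 hx1)

variable (hω : IsCube ω)
include hω

theorem IsCube.ne_zero : ω ≠ 0 := fun h => by
  have := hω.sum
  simp [h] at this

theorem IsCube.ne_one : ω ≠ 1 := fun h => by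
  have := hω.sum
  rw [h, one_pow] at this
  exact one_ne_zero (show (1 : F) = 0 by linear_combination this - hω.two)

theorem IsCube.pow_three : ω ^ 3 = 1 := hω.cube ω hω.ne_zero

theorem wp_ne_zero (j : Fin 3) : wp ω j ≠ 0 := pow_ne_zero _ hω.ne_zero

theorem wp_add (i j : Fin 3) : wp ω (i + j) = wp ω i * wp ω j := by
  rw [wp, wp, wp, ← pow_add, Fin.val_add]
  exact (pow_eq_pow_mod _ hω.pow_three).symm

theorem wp_zero : wp ω 0 = 1 := by simp [wp]

theorem wp_cube (j : Fin 3) : wp ω j ^ 3 = 1 := hω.cube _ (wp_ne_zero hω j)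

theorem wp_neg (j : Fin 3) : wp ω (-j) = wp ω j ^ 2 := by
  apply mul_left_cancel₀ (wp_ne_zero hω j)
  rw [← wp_add hω, add_neg_cancel, wp_zero hω, ← pow_succ', wp_cube hω]

theorem sum_zero : wp ω 0 + wp ω 1 + wp ω 2 = 0 := by
  simpa [wp] using hω.sum

theorem wp_injective : Function.Injective (wp ω) := by
  have h : ∀ j, wp ω j = 1 → j = 0 := by
    intro j hj
    fin_cases j
    · rfl
    · exact absurd (by simpa [wp] using hj) hω.ne_one
    · exfalso
      have h2 : ω ^ 2 = 1 := by simpa [wp] using hj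
      apply hω.ne_one
      linear_combination hω.pow_three - ω * h2
  intro i j hij
  have h1 : wp ω (i - j) * wp ω j = wp ω j := by rw [← wp_add hω, sub_add_cancel, hij]
  exact sub_eq_zero.1 (h _ ((mul_eq_right₀ (wp_ne_zero hω j)).1 h1))

theorem exists_wp {x : F} (hx : x ≠ 0) : ∃ j, wp ω j = x := by
  have h : (x - 1) * ((x - ω) * (x - ω ^ 2)) = 0 := by
    linear_combination hω.cube x hx - hω.pow_three + (-x ^ 2 + ω * x) * hω.sum
  rcases mul_eq_zero.1 h with h | h
  · exact ⟨0, by rw [wp_zero hω]; exact (sub_eq_zero.1 h).symm⟩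
  rcases mul_eq_zero.1 h with h | h
  · exact ⟨1, by rw [sub_eq_zero.1 h]; simp [wp]⟩
  · exact ⟨2, by rw [sub_eq_zero.1 h]; simp [wp]⟩

theorem sum_wp (m : Fin 3) : ∑ j, wp ω (j * m) = if m = 0 then 1 else 0 := by
  rw [Fin.sum_univ_three]
  fin_cases m
  · simp [wp_zero hω]
    linear_combination hω.two
  · simpa using sum_zero hω
  · have h := sum_zero hω
    have e : ((2 : Fin 3) * 2) = 1 := by decide
    simp [e]
    linear_combination h

theorem sum_wp_of_distinct (γ : Fin 3 → Fin 3) (h : Function.Injective γ) : ∑ j, wp ω (γ j) = 0 := by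
  have e := (Equiv.ofBijective γ (Finite.injective_iff_bijective.1 h)).sum_comp (wp ω)
  simp only [Equiv.ofBijective_apply] at e
  rw [e, Fin.sum_univ_three, sum_zero hω]

theorem injective_of_sum_eq_zero (γ : Fin 3 → Fin 3) (h : ∑ j, wp ω (γ j) = 0) : Function.Injective γ := by
  rw [Fin.sum_univ_three] at h
  have hz := hω.two
  have h01 : γ 0 ≠ γ 1 := fun e => wp_ne_zero hω (γ 2) (by rw [e] at h; linear_combination h - wp ω (γ 1) * hz)
  have h02 : γ 0 ≠ γ 2 := fun e => wp_ne_zero hω (γ 1) (by rw [e] at h; linear_combination h - wp ω (γ 2) * hz)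
  have h12 : γ 1 ≠ γ 2 := fun e => wp_ne_zero hω (γ 0) (by rw [e] at h; linear_combination h - wp ω (γ 2) * hz)
  intro i j hij
  fin_cases i <;> fin_cases j <;> first | rfl | exact absurd hij (by assumption) | exact absurd hij.symm (by assumption)

omit hω in
theorem affine_of_sum (γ : Fin 3 → Fin 3) : γ 0 + γ 1 + γ 2 = 0 → ∃ a σ, ∀ j, γ j = a + σ * j := by
  revert γ; decide

omit hω in
theorem affine_of_injective (γ : Fin 3 → Fin 3) : Function.Injective γ → ∃ a σ, ∀ j, γ j = a + σ * j := by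
  revert γ; decide

omit hω in
theorem injective_or_const (δ : Fin 3 → Fin 3) :
    δ 0 + δ 1 + δ 2 = 0 → (∀ j, δ j = δ 0) ∨ Function.Injective δ := by
  revert δ; decide

omit hω in
theorem shift_exponents (ν : Fin 3 → Fin 3) : ∀ k σ : Fin 3,
    (σ * (0 - k) + ν (0 - k) - ν 0) + (σ * (1 - k) + ν (1 - k) - ν 1) + (σ * (2 - k) + ν (2 - k) - ν 2) = 0 := by
  revert ν; decide

omit hω in
theorem sum_eq_orbit (γ : Fin 3 → Fin 3) : ∀ k : Fin 3, k ≠ 0 →
    γ 0 + γ 1 + γ 2 = γ (k + k) + (γ k + γ 0) := by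
  revert γ; decide

omit hω in
theorem rotation_of_cube (π : Fin 3 → Fin 3) : (∀ j, π (π (π j)) = j) → ∃ k, ∀ j, π j = j + k := by
  revert π; decide

/-! ### The extraspecial group of order 27 -/

omit hω in
/-- Shift times diagonal. -/
def E (ω : F) (k σ : Fin 3) : Matrix (Fin 3) (Fin 3) F :=
  Matrix.of fun i j => if i = j + k then wp ω (σ * j) else 0

omit hω in
theorem E_mulVec (k σ : Fin 3) (v : Fin 3 → F) (i : Fin 3) :
    (E ω k σ *ᵥ v) i = wp ω (σ * (i - k)) * v (i - k) := by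
  rw [Matrix.mulVec, dotProduct, Finset.sum_eq_single (i - k)]
  · simp [E]
  · intro b _ hb
    have : ¬ i = b + k := fun h => hb (by rw [h, add_sub_cancel_right])
    simp [E, this]
  · simp

theorem E_zero : E ω 0 0 = (1 : Matrix (Fin 3) (Fin 3) F) := by
  refine Matrix.ext_iff_mulVec.2 fun v => funext fun i => ?_
  simp [E_mulVec, wp_zero hω]

theorem E_mul (k σ k' σ' : Fin 3) :
    E ω k σ * E ω k' σ' = wp ω (σ * k') • E ω (k + k') (σ + σ') := by
  refine Matrix.ext_iff_mulVec.2 fun v => funext fun i => ?_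
  rw [← Matrix.mulVec_mulVec, Matrix.smul_mulVec, Pi.smul_apply, smul_eq_mul, E_mulVec, E_mulVec, E_mulVec,
    ← mul_assoc, ← mul_assoc, ← wp_add hω, ← wp_add hω, ← sub_sub]
  congr 2
  revert i k σ k' σ'
  decide

omit hω in
/-- The standard hermitian form over the field with four elements. -/
def f3 (u v : Fin 3 → F) : F := ∑ i, u i * v i ^ 2

omit hω in
/-- An isometry of the standard form. -/
def IsIso (A : Matrix (Fin 3) (Fin 3) F) : Prop := ∀ u v, f3 (A *ᵥ u) (A *ᵥ v) = f3 u v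

omit hω in
theorem IsIso.mul {A B : Matrix (Fin 3) (Fin 3) F} (hA : IsIso A) (hB : IsIso B) : IsIso (A * B) :=
  fun u v => by rw [← Matrix.mulVec_mulVec, ← Matrix.mulVec_mulVec, hA, hB]

theorem E_iso (k σ : Fin 3) : IsIso (E ω k σ) := by
  intro u v
  rw [f3, f3, ← Equiv.sum_comp (Equiv.addRight k)]
  refine Finset.sum_congr rfl fun i _ => ?_
  rw [Equiv.coe_addRight, E_mulVec, E_mulVec, add_sub_cancel_right]
  linear_combination (u i * v i ^ 2) * wp_cube hω (σ * i)

omit hω in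
/-- `A` fixes every orthonormal frame. -/
def FixesFrames (A : Matrix (Fin 3) (Fin 3) F) : Prop :=
  ∀ v, f3 v v ≠ 0 → (∃ c : F, A *ᵥ v = c • v) ∨ f3 (A *ᵥ v) v = 0

theorem f3_self (v : Fin 3 → F) (h : f3 v v ≠ 0) :
    (∀ i, v i ≠ 0) ∨ ∃ j, ∀ i, i ≠ j → v i = 0 := by
  classical
  by_contra! hc
  obtain ⟨⟨i, hi⟩, hj⟩ := hc
  obtain ⟨a, hai, ha⟩ := hj i
  obtain ⟨b, hba, hb⟩ := hj a
  have hbi : b ≠ i := fun e => hb (e ▸ hi)
  apply h
  have huniv : (Finset.univ : Finset (Fin 3)) = {i, a, b} := by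
    symm
    apply Finset.eq_univ_of_card
    rw [Finset.card_insert_of_notMem (by simp [Ne.symm hai, Ne.symm hbi]),
      Finset.card_pair (Ne.symm hba), Fintype.card_fin]
  rw [f3, huniv, Finset.sum_insert (by simp [Ne.symm hai, Ne.symm hbi]), Finset.sum_pair (Ne.symm hba), hi,
    ← pow_succ' (v a), ← pow_succ' (v b), hω.cube _ ha, hω.cube _ hb]
  linear_combination hω.two

theorem E_fixesFrames (a k σ : Fin 3) : FixesFrames (wp ω a • E ω k σ) := by
  intro v hv
  rcases f3_self hω v hv with hall | ⟨j, hj⟩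
  · choose ν hν using fun i => exists_wp hω (hall i)
    set δ : Fin 3 → Fin 3 := fun i => σ * (i - k) + ν (i - k) - ν i with hδ
    have hval : ∀ i, ((wp ω a • E ω k σ) *ᵥ v) i = wp ω a * wp ω (δ i) * v i := fun i => by
      rw [Matrix.smul_mulVec, Pi.smul_apply, smul_eq_mul, E_mulVec, ← hν, ← hν i, mul_assoc, ← wp_add hω,
        ← wp_add hω, ← wp_add hω]
      simp only [hδ, sub_add_cancel]
      exact wp_add hω _ _
    rcases injective_or_const δ (shift_exponents ν k σ) with hc | hinj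
    · exact Or.inl ⟨wp ω a * wp ω (δ 0), funext fun i => by rw [hval, hc i]; rfl⟩
    · right
      rw [f3, Finset.sum_congr rfl fun i _ =>
        show ((wp ω a • E ω k σ) *ᵥ v) i * v i ^ 2 = wp ω a * wp ω (δ i) by
          rw [hval, mul_assoc, ← pow_succ', hω.cube _ (hall i), mul_one],
        ← Finset.mul_sum, sum_wp_of_distinct hω δ hinj, mul_zero]
  · by_cases hk : k = 0
    · refine Or.inl ⟨wp ω a * wp ω (σ * j), funext fun i => ?_⟩
      rw [Matrix.smul_mulVec, Pi.smul_apply, Pi.smul_apply, smul_eq_mul, smul_eq_mul, E_mulVec, hk, sub_zero]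
      by_cases hi : i = j
      · rw [hi, mul_assoc]
      · rw [hj i hi]; ring
    · refine Or.inr (Finset.sum_eq_zero fun i _ => ?_)
      by_cases hi : i = j
      · have : i - k ≠ j := fun e => hk (by
          rw [hi] at e
          simpa using sub_eq_self.1 e)
        rw [Matrix.smul_mulVec, Pi.smul_apply, smul_eq_mul, E_mulVec, hj _ this]; ring
      · rw [hj i hi]; ring

/-- The isometries of order dividing three fixing all frames. -/
theorem exists_eq_E {s : Matrix (Fin 3) (Fin 3) F} (hs : IsIso s) (hfr : FixesFrames s) (h3 : s * s * s = 1) :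
    ∃ a k σ, s = wp ω a • E ω k σ := by
  have hone : ∀ j : Fin 3, f3 (Pi.single j (1 : F)) (Pi.single j 1) = 1 := fun j => by
    simp [f3, Pi.single_apply]
  have hcol : ∀ j, ∃ p, ∃ c : F, c ≠ 0 ∧ s *ᵥ Pi.single j 1 = Pi.single p c := by
    intro j
    set w := s *ᵥ Pi.single j 1 with hw
    have hww : f3 w w ≠ 0 := by rw [hw, hs, hone]; exact one_ne_zero
    rcases f3_self hω w hww with hall | ⟨p, hp⟩
    · exfalso
      rcases hfr (Pi.single j 1) (by rw [hone]; exact one_ne_zero) with ⟨c, hc⟩ | hz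
      · obtain ⟨i, hi⟩ := exists_ne j
        exact hall i (by rw [hw, hc]; simp [hi])
      · exact hall j (by simpa [f3, Pi.single_apply, ← hw] using hz)
    · refine ⟨p, w p, fun h0 => hww ?_, funext fun i => ?_⟩
      · refine Finset.sum_eq_zero fun i _ => ?_
        by_cases hi : i = p
        · rw [hi, h0, zero_mul]
        · rw [hp i hi, zero_mul]
      · by_cases hi : i = p
        · rw [hi, Pi.single_eq_same]
        · rw [hp i hi, Pi.single_eq_of_ne hi]
  choose π c hc hcol using hcol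
  choose γ hγ using fun j => exists_wp hω (hc j)
  have hstep : ∀ j (x : F), s *ᵥ Pi.single j x = Pi.single (π j) (c j * x) := by
    intro j x
    have : (Pi.single j x : Fin 3 → F) = x • Pi.single j 1 := by
      funext i; simp [Pi.single_apply]
    rw [this, Matrix.mulVec_smul, hcol]
    funext i
    simp [Pi.single_apply, mul_comm]
  have hcube : ∀ j, π (π (π j)) = j ∧ c (π (π j)) * (c (π j) * c j) = 1 := by
    intro j
    have h := congrArg (· *ᵥ Pi.single j (1 : F)) h3
    simp only [← Matrix.mulVec_mulVec, Matrix.one_mulVec, hstep, mul_one] at h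
    have hjj := congrFun h (π (π (π j)))
    rw [Pi.single_eq_same] at hjj
    have hne : c (π (π j)) * (c (π j) * c j) ≠ 0 := mul_ne_zero (hc _) (mul_ne_zero (hc _) (hc _))
    by_cases e : π (π (π j)) = j
    · rw [e, Pi.single_eq_same] at hjj
      exact ⟨e, hjj⟩
    · rw [Pi.single_eq_of_ne e] at hjj
      exact absurd hjj hne
  obtain ⟨k, hk⟩ := rotation_of_cube π fun j => (hcube j).1
  have haff : ∃ a σ, ∀ j, γ j = a + σ * j := by
    by_cases hk0 : k = 0
    · subst hk0
      have hones : (fun _ : Fin 3 => (1 : F)) = ∑ j, Pi.single j (1 : F) := by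
        funext i; simp [Pi.single_apply]
      have hs1 : ∀ i, (s *ᵥ fun _ => (1 : F)) i = wp ω (γ i) := by
        intro i
        rw [hones, Matrix.mulVec_sum, Finset.sum_apply, Finset.sum_eq_single i]
        · rw [hcol, hk, add_zero, Pi.single_eq_same, hγ]
        · intro b _ hb
          rw [hcol, hk, add_zero, Pi.single_eq_of_ne (Ne.symm hb)]
        · simp
      have hne : f3 (fun _ => (1 : F)) (fun _ => 1) ≠ 0 := by
        simp only [f3, one_pow, mul_one, Fin.sum_univ_three]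
        intro h
        exact one_ne_zero (show (1 : F) = 0 by linear_combination h - hω.two)
      rcases hfr _ hne with ⟨x, hx⟩ | hz
      · refine ⟨γ 0, 0, fun j => wp_injective hω ?_⟩
        rw [zero_mul, add_zero, ← hs1, ← hs1, hx]
        rfl
      · simp only [f3, one_pow, mul_one, hs1] at hz
        exact affine_of_injective γ (injective_of_sum_eq_zero hω γ hz)
    · apply affine_of_sum
      refine wp_injective hω ?_
      have h := (hcube 0).2
      rw [hk, hk, zero_add, ← hγ, ← hγ k, ← hγ 0, ← wp_add hω, ← wp_add hω] at h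
      rw [wp_zero hω, ← h]
      exact congrArg _ (sum_eq_orbit γ k hk0)
  obtain ⟨a, σ, ha⟩ := haff
  refine ⟨a, k, σ, Matrix.ext_of_mulVec_single fun j => ?_⟩
  rw [hcol, hk, ← hγ, ha]
  funext i
  rw [Matrix.smul_mulVec, Pi.smul_apply, smul_eq_mul, E_mulVec, wp_add hω]
  by_cases hi : i = j + k
  · subst hi
    rw [add_sub_cancel_right, Pi.single_eq_same, Pi.single_eq_same, mul_one]
  · have : i - k ≠ j := fun e => hi (by rw [← e, sub_add_cancel])
    rw [Pi.single_eq_of_ne hi, Pi.single_eq_of_ne this, mul_zero, mul_zero]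

/-- Conjugates of the group of order 27 under isometries. -/
theorem conj_E {h : GL (Fin 3) F} (hh : IsIso h.val) (k σ : Fin 3) :
    ∃ a k' σ', h.val * E ω k σ * (h⁻¹ : GL (Fin 3) F).val = wp ω a • E ω k' σ' := by
  have hi : IsIso (h⁻¹ : GL (Fin 3) F).val := fun u v => by
    conv_rhs => rw [← Matrix.one_mulVec u, ← Matrix.one_mulVec v, ← Units.mul_inv h,
      ← Matrix.mulVec_mulVec, ← Matrix.mulVec_mulVec, hh]
  refine exists_eq_E hω ((hh.mul (E_iso hω k σ)).mul hi) ?_ ?_
  · intro v hv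
    set w := (h⁻¹ : GL (Fin 3) F).val *ᵥ v with hw
    have hvw : h.val *ᵥ w = v := by rw [hw, Matrix.mulVec_mulVec, Units.mul_inv, Matrix.one_mulVec]
    have e : (h.val * E ω k σ * (h⁻¹ : GL (Fin 3) F).val) *ᵥ v = h.val *ᵥ (E ω k σ *ᵥ w) := by
      rw [Matrix.mulVec_mulVec, hw, Matrix.mulVec_mulVec]
    rcases E_fixesFrames hω 0 k σ w (by rw [hw, hi]; exact hv) with ⟨c, hc⟩ | hz
    · rw [wp_zero hω, one_smul] at hc
      exact Or.inl ⟨c, by rw [e, hc, Matrix.mulVec_smul, hvw]⟩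
    · rw [wp_zero hω, one_smul] at hz
      right
      rw [e, ← hvw, hh, hz]
  · have h3 : E ω k σ * E ω k σ * E ω k σ = 1 := by
      rw [E_mul hω, Matrix.smul_mul, E_mul hω, smul_smul, ← wp_add hω,
        show σ * k + (σ + σ) * k = 0 by revert k σ; decide, wp_zero hω, one_smul,
        show k + k + k = 0 by revert k; decide, show σ + σ + σ = 0 by revert σ; decide, E_zero hω]
    calc _ = h.val * (E ω k σ * ((h⁻¹ : GL (Fin 3) F).val * h.val) * E ω k σ *
          ((h⁻¹ : GL (Fin 3) F).val * h.val) * E ω k σ) * (h⁻¹ : GL (Fin 3) F).val := by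
          simp only [mul_assoc]
      _ = 1 := by rw [Units.inv_mul, mul_one, mul_one, h3, mul_one, Units.mul_inv]

omit hω

/-! ### The group of order 243 -/

/-- Indices of the group of order 243: a scalar and two factors. -/
abbrev Idx : Type := Fin 3 × (Fin 3 × Fin 3) × (Fin 3 × Fin 3)

/-- Its elements. -/
def W (ω : F) (x : Idx) : Matrix (Fin 3 × Fin 3) (Fin 3 × Fin 3) F :=
  wp ω x.1 • (E ω x.2.1.1 x.2.1.2 ⊗ₖ E ω x.2.2.1 x.2.2.2)

/-- The product of indices. -/
def op (x y : Idx) : Idx :=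
  (x.1 + y.1 + (x.2.1.2 * y.2.1.1 + x.2.2.2 * y.2.2.1), (x.2.1.1 + y.2.1.1, x.2.1.2 + y.2.1.2),
    (x.2.2.1 + y.2.2.1, x.2.2.2 + y.2.2.2))

/-- The commutator pairing. -/
def pair (x y : Idx) : Fin 3 :=
  x.2.1.2 * y.2.1.1 + x.2.2.2 * y.2.2.1 - (y.2.1.2 * x.2.1.1 + y.2.2.2 * x.2.2.1)

set_option maxRecDepth 20000 in
theorem exists_op_inv (x : Idx) : ∃ y, op x y = 0 := by
  refine ⟨(-x.1 + (x.2.1.2 * x.2.1.1 + x.2.2.2 * x.2.2.1), (-x.2.1.1, -x.2.1.2), (-x.2.2.1, -x.2.2.2)), ?_⟩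
  revert x
  decide

theorem pair_ne (x : Idx) : (x.2 ≠ 0) → ∃ y, pair x y ≠ 0 := by
  rintro hx
  by_contra! h
  apply hx
  have h1 := h (0, (1, 0), (0, 0))
  have h2 := h (0, (0, 1), (0, 0))
  have h3 := h (0, (0, 0), (1, 0))
  have h4 := h (0, (0, 0), (0, 1))
  simp [pair] at h1 h2 h3 h4
  ext <;> simp [h1, h2, h3, h4]

theorem W_zero (hω : IsCube ω) : W ω 0 = 1 := by
  simp [W, wp_zero hω, E_zero hω]

theorem W_mul (hω : IsCube ω) (x y : Idx) : W ω x * W ω y = W ω (op x y) := by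
  simp only [W, op]
  rw [Matrix.smul_mul, Matrix.mul_smul, ← Matrix.mul_kronecker_mul, E_mul hω, E_mul hω, Matrix.smul_kronecker,
    Matrix.kronecker_smul, smul_smul, smul_smul, smul_smul]
  simp only [wp_add hω, mul_assoc]

theorem W_apply (hω : IsCube ω) (x : Idx) (p r : Fin 3 × Fin 3) : W ω x p r =
    if p = (r.1 + x.2.1.1, r.2 + x.2.2.1) then wp ω (x.1 + x.2.1.2 * r.1 + x.2.2.2 * r.2) else 0 := by
  obtain ⟨i, u⟩ := p
  simp only [W, Matrix.smul_apply, smul_eq_mul, Matrix.kroneckerMap_apply, E, Matrix.of_apply, Prod.mk.injEq]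
  by_cases h1 : i = r.1 + x.2.1.1 <;> by_cases h2 : u = r.2 + x.2.2.1 <;> simp [h1, h2, wp_add hω, mul_assoc]

theorem W_injective (hω : IsCube ω) : Function.Injective (W ω) := by
  intro x y h
  have key : ∀ r : Fin 3 × Fin 3, (r.1 + x.2.1.1, r.2 + x.2.2.1) = (r.1 + y.2.1.1, r.2 + y.2.2.1) ∧
      x.1 + x.2.1.2 * r.1 + x.2.2.2 * r.2 = y.1 + y.2.1.2 * r.1 + y.2.2.2 * r.2 := by
    intro r
    have h1 := congrFun (congrFun h (r.1 + x.2.1.1, r.2 + x.2.2.1)) r
    rw [W_apply hω, W_apply hω, if_pos rfl] at h1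
    by_cases e : (r.1 + x.2.1.1, r.2 + x.2.2.1) = (r.1 + y.2.1.1, r.2 + y.2.2.1)
    · rw [if_pos e] at h1
      exact ⟨e, wp_injective hω h1⟩
    · rw [if_neg e] at h1
      exact absurd h1 (wp_ne_zero hω _)
  obtain ⟨h0, h0'⟩ := key (0, 0)
  obtain ⟨-, h1⟩ := key (1, 0)
  obtain ⟨-, h2⟩ := key (0, 1)
  obtain ⟨a, ⟨k, σ⟩, ⟨l, τ⟩⟩ := x
  obtain ⟨a', ⟨k', σ'⟩, ⟨l', τ'⟩⟩ := y
  simp at h0 h0' h1 h2
  simp_all

theorem W_comm (hω : IsCube ω) (x y : Idx) : W ω x * W ω y = wp ω (pair x y) • (W ω y * W ω x) := by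
  rw [W_mul hω, W_mul hω]
  simp only [W, smul_smul, ← wp_add hω]
  have e : ∀ x y : Idx, (op x y).1 = pair x y + (op y x).1 ∧ (op x y).2 = (op y x).2 := by
    intro x y
    refine ⟨?_, ?_⟩
    · simp only [op, pair]
      have : ∀ a b s t : Fin 3, a + b + s = s - t + (b + a + t) := by decide
      exact this _ _ _ _
    · simp only [op, add_comm]
  rw [(e x y).1, (e x y).2]

theorem single_eq_sum (hω : IsCube ω) (i j : Fin 3 × Fin 3) :
    Matrix.single i j (1 : F) = ∑ s : Fin 3, ∑ t : Fin 3,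
      W ω (-(s * j.1 + t * j.2), (i.1 - j.1, s), (i.2 - j.2, t)) := by
  ext p r
  simp only [Matrix.sum_apply, W_apply hω]
  by_cases hp : p = (r.1 + (i.1 - j.1), r.2 + (i.2 - j.2))
  · have e : ∀ s t : Fin 3, -(s * j.1 + t * j.2) + s * r.1 + t * r.2 = s * (r.1 - j.1) + t * (r.2 - j.2) := by
      have : ∀ s t a b c d : Fin 3, -(s * a + t * b) + s * c + t * d = s * (c - a) + t * (d - b) := by decide
      exact fun s t => this s t _ _ _ _
    simp only [if_pos hp, e, wp_add hω, ← Finset.mul_sum, ← Finset.sum_mul, sum_wp hω]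
    subst hp
    obtain ⟨i1, i2⟩ := i
    obtain ⟨j1, j2⟩ := j
    obtain ⟨r1, r2⟩ := r
    by_cases h1 : r1 = j1 <;> by_cases h2 : r2 = j2
    · subst h1 h2; simp
    all_goals simp [Matrix.single_apply, h1, h2, sub_eq_zero, eq_comm]
    all_goals (intros; exact Ne.symm ‹_›)
  · simp only [if_neg hp, Finset.sum_const_zero, Matrix.single_apply]
    rw [if_neg]
    rintro ⟨rfl, rfl⟩
    exact hp (by simp)

/-! ### Isometries of the tensor square -/

/-- The form on the tensor square. -/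
def f9 (x y : Fin 3 × Fin 3 → F) : F := ∑ p, x p * y p ^ 2

/-- A pure vector. -/
def pure (u w : Fin 3 → F) (p : Fin 3 × Fin 3) : F := u p.1 * w p.2

theorem kron_pure (A B : Matrix (Fin 3) (Fin 3) F) (u w : Fin 3 → F) :
    (A ⊗ₖ B) *ᵥ pure u w = pure (A *ᵥ u) (B *ᵥ w) := by
  funext p
  simp only [Matrix.mulVec, dotProduct, pure, Fintype.sum_prod_type, Matrix.kroneckerMap_apply, Finset.mul_sum,
    Finset.sum_mul]
  rw [Finset.sum_comm]
  exact Finset.sum_congr rfl fun a _ => Finset.sum_congr rfl fun b _ => by ring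

theorem f9_pure (u w u' w' : Fin 3 → F) : f9 (pure u w) (pure u' w') = f3 u u' * f3 w w' := by
  simp only [f9, pure, f3, Fintype.sum_prod_type, Finset.mul_sum, Finset.sum_mul]
  rw [Finset.sum_comm]
  exact Finset.sum_congr rfl fun a _ => Finset.sum_congr rfl fun b _ => by ring

theorem f3_self_sq (hω : IsCube ω) (v : Fin 3 → F) : f3 v v * f3 v v = f3 v v := by
  have e : ∀ i, v i * v i ^ 2 * (v i * v i ^ 2) = v i * v i ^ 2 := by
    intro i
    rcases eq_or_ne (v i) 0 with h | h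
    · simp [h]
    · linear_combination (v i ^ 3) * hω.cube _ h
  simp only [f3, Fin.sum_univ_three]
  linear_combination e 0 + e 1 + e 2 +
    (v 0 * v 0 ^ 2 * (v 1 * v 1 ^ 2) + v 0 * v 0 ^ 2 * (v 2 * v 2 ^ 2) + v 1 * v 1 ^ 2 * (v 2 * v 2 ^ 2)) * hω.two

theorem isIso_factor (hω : IsCube ω) {A B : Matrix (Fin 3) (Fin 3) F}
    (h : ∀ x y, f9 ((A ⊗ₖ B) *ᵥ x) ((A ⊗ₖ B) *ᵥ y) = f9 x y) : IsIso A ∧ IsIso B := by
  have hp : ∀ u u' w w', f3 (A *ᵥ u) (A *ᵥ u') * f3 (B *ᵥ w) (B *ᵥ w') = f3 u u' * f3 w w' := fun u u' w w' => by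
    rw [← f9_pure, ← f9_pure, ← kron_pure, ← kron_pure, h]
  set e : Fin 3 → F := Pi.single 0 1 with he
  have hee : f3 e e = 1 := by simp [he, f3, Pi.single_apply]
  have h1 : f3 (A *ᵥ e) (A *ᵥ e) * f3 (B *ᵥ e) (B *ᵥ e) = 1 := by rw [hp, hee, mul_one]
  have hA : f3 (A *ᵥ e) (A *ᵥ e) = 1 :=
    (mul_eq_right₀ (left_ne_zero_of_mul (h1.symm ▸ one_ne_zero))).1 (f3_self_sq hω _)
  have hB : f3 (B *ᵥ e) (B *ᵥ e) = 1 :=
    (mul_eq_right₀ (right_ne_zero_of_mul (h1.symm ▸ one_ne_zero))).1 (f3_self_sq hω _)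
  constructor <;> intro u v
  · have := hp u v e e
    rwa [hB, hee, mul_one, mul_one] at this
  · have := hp e e u v
    rwa [hA, hee, one_mul, one_mul] at this

theorem f9_swap (x y : Fin 3 × Fin 3 → F) :
    f9 (TensorSquare.swapMat *ᵥ x) (TensorSquare.swapMat *ᵥ y) = f9 x y := by
  rw [TensorSquare.swapMat_mulVec, TensorSquare.swapMat_mulVec]
  exact Equiv.sum_comp (Equiv.prodComm (Fin 3) (Fin 3)) (fun p => x p * y p ^ 2)

theorem conj_W (hω : IsCube ω) {a b : GL (Fin 3) F} (ha : IsIso a.val) (hb : IsIso b.val) (x : Idx) :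
    ∃ y, (a.val ⊗ₖ b.val) * W ω x * ((a⁻¹ : GL (Fin 3) F).val ⊗ₖ (b⁻¹ : GL (Fin 3) F).val) = W ω y := by
  obtain ⟨c, k, s, hc⟩ := conj_E hω ha x.2.1.1 x.2.1.2
  obtain ⟨c', l, t, hc'⟩ := conj_E hω hb x.2.2.1 x.2.2.2
  refine ⟨(x.1 + (c + c'), (k, s), (l, t)), ?_⟩
  simp only [W]
  rw [Matrix.mul_smul, Matrix.smul_mul, ← Matrix.mul_kronecker_mul, ← Matrix.mul_kronecker_mul, hc, hc',
    Matrix.smul_kronecker, Matrix.kronecker_smul, smul_smul, smul_smul, wp_add hω, wp_add hω, mul_assoc]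

theorem swap_W (x : Idx) :
    TensorSquare.swapMat * W ω x * TensorSquare.swapMat = W ω (x.1, x.2.2, x.2.1) := by
  simp only [W]
  rw [Matrix.mul_smul, Matrix.smul_mul, TensorSquare.swapMat_kron, mul_assoc, TensorSquare.swapMat_mul_self,
    mul_one]

/-- The diagonal isometry. -/
def Dm (ω : F) : Matrix (Fin 3) (Fin 3) F := Matrix.diagonal fun j => if j = 2 then ω else 1

/-- The Fourier isometry. -/
def Fm (ω : F) : Matrix (Fin 3) (Fin 3) F := Matrix.of fun i j => wp ω (i * j)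

theorem Dm_E (hω : IsCube ω) (k σ : Fin 3) : ∃ c, Dm ω * E ω k σ = wp ω c • (E ω k (σ + k) * Dm ω) := by
  refine ⟨if k = 2 then 1 else 0, ?_⟩
  have hd : ∀ j : Fin 3, (if j = 2 then ω else 1) = wp ω (if j = 2 then 1 else 0) := fun j => by
    split_ifs <;> simp [wp]
  ext i j
  simp only [Dm, hd, Matrix.smul_apply, Matrix.diagonal_mul, Matrix.mul_diagonal, E, Matrix.of_apply, smul_eq_mul]
  by_cases h : i = j + k
  · subst h
    rw [if_pos rfl, if_pos rfl, ← wp_add hω, ← wp_add hω, ← wp_add hω]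
    refine congrArg _ ?_
    clear hd
    revert j k σ
    decide
  · rw [if_neg h, if_neg h]
    simp

theorem Fm_E (hω : IsCube ω) (k σ : Fin 3) : ∃ c, Fm ω * E ω k σ = wp ω c • (E ω (-σ) k * Fm ω) := by
  refine ⟨-(k * σ), ?_⟩
  ext i j
  rw [Matrix.smul_apply, Matrix.mul_apply, Matrix.mul_apply, Finset.sum_eq_single (j + k),
    Finset.sum_eq_single (i + σ)]
  · simp only [Fm, E, Matrix.of_apply, if_pos, add_neg_cancel_right, smul_eq_mul, ← wp_add hω]
    refine congrArg _ ?_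
    revert i j k σ
    decide
  · intro b _ hb
    have : ¬ i = b + -σ := fun h => hb (by rw [h, neg_add_cancel_right])
    simp [E, this]
  · simp
  · intro b _ hb
    simp [E, hb]
  · simp

theorem isUnit_Dm (hω : IsCube ω) : IsUnit (Dm ω) := by
  rw [Matrix.isUnit_iff_isUnit_det, Dm, Matrix.det_diagonal, isUnit_iff_ne_zero, Finset.prod_ne_zero_iff]
  intro j _
  split_ifs
  exacts [hω.ne_zero, one_ne_zero]

theorem isUnit_Fm (hω : IsCube ω) : IsUnit (Fm ω) := by
  have h : Fm ω * (Matrix.of fun i j : Fin 3 => wp ω (-(i * j))) = 1 := by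
    ext i l
    rw [Matrix.mul_apply, Matrix.one_apply]
    simp only [Fm, Matrix.of_apply, ← wp_add hω]
    have e : ∀ i j l : Fin 3, i * j + -(j * l) = j * (i - l) := by decide
    simp only [e, sum_wp hω, sub_eq_zero]
  exact IsUnit.of_mul_eq_one _ h

set_option maxRecDepth 20000 in
theorem noncommuting (x : Idx) : x.2 ≠ 0 →
    pair x (0, (x.2.1.1, x.2.1.2 + x.2.1.1), x.2.2) ≠ 0 ∨ pair x (0, (-x.2.1.2, x.2.1.1), x.2.2) ≠ 0 ∨
    pair x (0, x.2.1, (x.2.2.1, x.2.2.2 + x.2.2.1)) ≠ 0 ∨ pair x (0, x.2.1, (-x.2.2.2, x.2.2.1)) ≠ 0 := by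
  revert x
  decide

theorem pair_scalar (x y : Idx) (c : Fin 3) : pair x (c, y.2) = pair x y := rfl

section group

variable {ι : Type} [Fintype ι] [DecidableEq ι]

set_option maxRecDepth 20000 in
/-- The tensor square of the group of order 27. -/
theorem exists_group (hω : IsCube ω) (e : ι ≃ Fin 3 × Fin 3) (P : GL ι F) :
    ∃ R : Subgroup (GL ι F), (∀ g, g ∈ R ↔ ∃ x, g.val = tconj e P (W ω x)) ∧
      Cfsg.Geo.IsSymplecticTypeGroup 3 R ∧ Cfsg.Geo.ActsAbsolutelyIrreducibly (Cfsg.Geo.matrixSet R) ∧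
      Nat.card R = 243 ∧ Nat.card (Subgroup.center R) = 3 ∧
      (∀ g ∈ R, ∀ h ∈ R, g * h * g⁻¹ * h⁻¹ ∈ Cfsg.Geo.scalars ι F) := by
  classical
  have hne : Nonempty ι := ⟨e.symm (0, 0)⟩
  have hex : ∀ x, ∃ g : GL ι F, g.val = tconj e P (W ω x) := by
    intro x
    obtain ⟨y, hy⟩ := exists_op_inv x
    have h : tconj e P (W ω x) * tconj e P (W ω y) = 1 := by rw [← map_mul, W_mul hω, hy, W_zero hω, map_one]
    exact ⟨(IsUnit.of_mul_eq_one _ h).unit, rfl⟩
  choose el hel using hex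
  have hmul : ∀ x y, el x * el y = el (op x y) := fun x y =>
    Units.ext (by rw [Units.val_mul, hel, hel, hel, ← map_mul, W_mul hω])
  have hone : el 0 = 1 := Units.ext (by rw [hel, W_zero hω, map_one, Units.val_one])
  have hinj : Function.Injective el := fun x y h => W_injective hω ((tconj e P).injective (by rw [← hel, ← hel, h]))
  let R : Subgroup (GL ι F) :=
    { carrier := Set.range el
      mul_mem' := by rintro _ _ ⟨x, rfl⟩ ⟨y, rfl⟩; exact ⟨op x y, (hmul x y).symm⟩
      one_mem' := ⟨0, hone⟩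
      inv_mem' := by
        rintro _ ⟨x, rfl⟩
        obtain ⟨y, hy⟩ := exists_op_inv x
        exact ⟨y, (inv_eq_of_mul_eq_one_right (by rw [hmul, hy, hone])).symm⟩ }
  have hmem : ∀ g, g ∈ R ↔ ∃ x, g.val = tconj e P (W ω x) := fun g =>
    ⟨fun ⟨x, hx⟩ => ⟨x, by rw [← hx, hel]⟩, fun ⟨x, hx⟩ => ⟨x, Units.ext (by rw [hel, hx])⟩⟩
  let eR : Idx ≃ R := Equiv.ofBijective (fun x => ⟨el x, x, rfl⟩)
    ⟨fun x y h => hinj (congrArg Subtype.val h), fun ⟨g, x, hx⟩ => ⟨x, Subtype.ext hx⟩⟩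
  have hcomm : ∀ x y, el x * el y = el y * el x ↔ pair x y = 0 := by
    intro x y
    constructor
    · intro h
      have h1 := congrArg Units.val h
      rw [Units.val_mul, Units.val_mul, hel, hel, ← map_mul, ← map_mul] at h1
      have h2 := (tconj e P).injective h1
      rw [W_comm hω] at h2
      by_contra hne'
      have h3 : (wp ω (pair x y) - 1) • (W ω y * W ω x) = 0 := by rw [sub_smul, one_smul, h2, sub_self]
      rcases smul_eq_zero.1 h3 with h4 | h4
      · exact hne' (wp_injective hω ((sub_eq_zero.1 h4).trans (wp_zero hω).symm))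
      · rw [W_mul hω] at h4
        obtain ⟨z, hz⟩ := exists_op_inv (op y x)
        have h5 := W_mul hω (op y x) z
        rw [h4, zero_mul, hz, W_zero hω] at h5
        exact zero_ne_one h5
    · intro h
      refine Units.ext ?_
      rw [Units.val_mul, Units.val_mul, hel, hel, ← map_mul, ← map_mul, W_comm hω, h, wp_zero hω, one_smul]
  have hcentre : ∀ x, eR x ∈ Subgroup.center R ↔ x.2 = 0 := by
    intro x
    rw [Subgroup.mem_center_iff]
    constructor
    · intro h
      by_contra hx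
      obtain ⟨y, hy⟩ := pair_ne x hx
      exact hy ((hcomm x y).1 (congrArg Subtype.val (h (eR y))).symm)
    · intro hx g
      obtain ⟨y, rfl⟩ := eR.surjective g
      refine Subtype.ext ((hcomm y x).2 ?_)
      simp [pair, hx]
  have hpow : ∀ x, el x ^ 3 = 1 := by
    intro x
    rw [pow_three', hmul, hmul, ← hone]
    refine congrArg el ?_
    revert x
    decide
  have hscal : ∀ g ∈ R, ∀ h ∈ R, g * h * g⁻¹ * h⁻¹ ∈ Cfsg.Geo.scalars ι F := by
    rintro _ ⟨x, rfl⟩ _ ⟨y, rfl⟩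
    refine (Cfsg.Geo.mem_scalars_iff _).2 ⟨Units.mk0 _ (wp_ne_zero hω (pair x y)), ?_⟩
    have h1 : (el x * el y).val = wp ω (pair x y) • (el y * el x).val := by
      rw [Units.val_mul, Units.val_mul, hel, hel, ← map_mul, ← map_mul, W_comm hω, map_smul]
    have h2 : el x * el y * (el x)⁻¹ * (el y)⁻¹ = el x * el y * (el y * el x)⁻¹ := by group
    rw [h2, Units.val_mul, h1, Matrix.smul_mul, ← Units.val_mul, mul_inv_cancel, Units.val_one, Units.val_mk0]
  have hadj : Algebra.adjoin F (Cfsg.Geo.matrixSet R) = ⊤ := by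
    rw [eq_top_iff]
    intro X _
    obtain ⟨M, rfl⟩ := (tconj e P).surjective X
    rw [Matrix.matrix_eq_sum_single M, map_sum]
    refine sum_mem fun i _ => ?_
    rw [map_sum]
    refine sum_mem fun j _ => ?_
    rw [show Matrix.single i j (M i j) = M i j • Matrix.single i j (1 : F) by rw [Matrix.smul_single, smul_eq_mul, mul_one],
      map_smul, single_eq_sum hω i j, map_sum]
    refine Subalgebra.smul_mem _ (sum_mem fun s _ => ?_) _
    rw [map_sum]
    refine sum_mem fun t _ => ?_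
    rw [← hel]
    exact Algebra.subset_adjoin ⟨_, ⟨_, rfl⟩, rfl⟩
  have hexp : Monoid.exponent R = 3 := by
    refine (Nat.prime_three.eq_one_or_self_of_dvd _ ?_).resolve_left fun h => ?_
    · exact Monoid.exponent_dvd_of_forall_pow_eq_one fun g => by
        obtain ⟨x, rfl⟩ := eR.surjective g
        exact Subtype.ext (hpow x)
    · have hsub := Monoid.exp_eq_one_iff.1 h
      have := Fintype.card_le_one_iff_subsingleton.2 (eR.injective.subsingleton : Subsingleton Idx)
      simp at this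
  -- outer automorphisms
  have haut : ∀ (U : Matrix (Fin 3 × Fin 3) (Fin 3 × Fin 3) F) (φ : Idx → Idx), IsUnit U →
      (∀ x, ∃ c, U * W ω x = W ω (c, (φ x).2) * U) → ∀ A : Subgroup R, A.Characteristic →
      IsMulCommutative A → ∀ x, eR x ∈ A → pair x (φ x) = 0 := by
    intro U φ hU hφ A hA hAc x hx
    obtain ⟨u, hu⟩ := hU.map (tconj e P)
    choose c hc using hφ
    have hconj : ∀ y, u * el y * u⁻¹ = el (c y, (φ y).2) := fun y => by
      rw [mul_inv_eq_iff_eq_mul]
      refine Units.ext ?_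
      rw [Units.val_mul, Units.val_mul, hel, hel, hu, ← map_mul, ← map_mul, hc]
    let f : R →* R :=
      { toFun := fun g => ⟨u * g.1 * u⁻¹, by obtain ⟨y, hy⟩ := g.2; exact ⟨_, (hy ▸ hconj y).symm⟩⟩
        map_one' := Subtype.ext (by simp)
        map_mul' := fun g h => Subtype.ext (by simp [mul_assoc]) }
    have hfi : Function.Injective f := fun g h he => Subtype.ext (by
      have he' : u * g.1 * u⁻¹ = u * h.1 * u⁻¹ := congrArg Subtype.val he
      simpa using he')
    have : Finite R := Finite.of_equiv _ eR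
    let φ' : R ≃* R := MulEquiv.ofBijective f ⟨hfi, Finite.injective_iff_surjective.1 hfi⟩
    have hx' : eR (c x, (φ x).2) ∈ A := by
      have h1 : φ' (eR x) ∈ A := Subgroup.mem_comap.1 ((hA.fixed φ').symm ▸ hx : eR x ∈ A.comap φ'.toMonoidHom)
      rwa [show φ' (eR x) = eR (c x, (φ x).2) from Subtype.ext (hconj x)] at h1
    rw [← pair_scalar x (φ x) (c x)]
    exact (hcomm _ _).1 (congrArg (fun t : A => (t.1 : GL ι F))
      (hAc.is_comm.comm (⟨_, hx⟩ : A) ⟨_, hx'⟩))
  have hkron : ∀ {M N : Matrix (Fin 3) (Fin 3) F}, IsUnit M → IsUnit N → IsUnit (M ⊗ₖ N) := fun hM hN => by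
    rw [Matrix.isUnit_iff_isUnit_det, Matrix.det_kronecker]
    exact (((Matrix.isUnit_iff_isUnit_det _).1 hM).pow _).mul (((Matrix.isUnit_iff_isUnit_det _).1 hN).pow _)
  refine ⟨R, hmem, ⟨Nat.prime_three, fun g => ⟨1, ?_⟩, fun A hA hAc => ?_, hexp⟩,
    absIrred_of_adjoin_eq_top hadj, ?_, ?_, hscal⟩
  · obtain ⟨x, rfl⟩ := eR.surjective g
    exact Subtype.ext (by rw [pow_one]; exact hpow x)
  · -- characteristic abelian subgroups are central, hence cyclic
    have hle : A ≤ Subgroup.center R := by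
      intro g hg
      obtain ⟨x, rfl⟩ := eR.surjective g
      rw [hcentre]
      by_contra hx
      rcases noncommuting x hx with h | h | h | h
      · refine h (haut (Dm ω ⊗ₖ 1) (fun y => (0, (y.2.1.1, y.2.1.2 + y.2.1.1), y.2.2))
          (hkron (isUnit_Dm hω) isUnit_one) (fun y => ?_) A hA hAc x hg)
        obtain ⟨c, hc⟩ := Dm_E hω y.2.1.1 y.2.1.2
        refine ⟨y.1 + c, ?_⟩
        simp only [W]
        rw [Matrix.mul_smul, ← Matrix.mul_kronecker_mul, one_mul, hc, Matrix.smul_kronecker, smul_smul,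
          Matrix.smul_mul, ← Matrix.mul_kronecker_mul, mul_one, wp_add hω]
      · refine h (haut (Fm ω ⊗ₖ 1) (fun y => (0, (-y.2.1.2, y.2.1.1), y.2.2))
          (hkron (isUnit_Fm hω) isUnit_one) (fun y => ?_) A hA hAc x hg)
        obtain ⟨c, hc⟩ := Fm_E hω y.2.1.1 y.2.1.2
        refine ⟨y.1 + c, ?_⟩
        simp only [W]
        rw [Matrix.mul_smul, ← Matrix.mul_kronecker_mul, one_mul, hc, Matrix.smul_kronecker, smul_smul,
          Matrix.smul_mul, ← Matrix.mul_kronecker_mul, mul_one, wp_add hω]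
      · refine h (haut (1 ⊗ₖ Dm ω) (fun y => (0, y.2.1, (y.2.2.1, y.2.2.2 + y.2.2.1)))
          (hkron isUnit_one (isUnit_Dm hω)) (fun y => ?_) A hA hAc x hg)
        obtain ⟨c, hc⟩ := Dm_E hω y.2.2.1 y.2.2.2
        refine ⟨y.1 + c, ?_⟩
        simp only [W]
        rw [Matrix.mul_smul, ← Matrix.mul_kronecker_mul, one_mul, hc, Matrix.kronecker_smul, smul_smul,
          Matrix.smul_mul, ← Matrix.mul_kronecker_mul, mul_one, wp_add hω]
      · refine h (haut (1 ⊗ₖ Fm ω) (fun y => (0, y.2.1, (-y.2.2.2, y.2.2.1)))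
          (hkron isUnit_one (isUnit_Fm hω)) (fun y => ?_) A hA hAc x hg)
        obtain ⟨c, hc⟩ := Fm_E hω y.2.2.1 y.2.2.2
        refine ⟨y.1 + c, ?_⟩
        simp only [W]
        rw [Matrix.mul_smul, ← Matrix.mul_kronecker_mul, one_mul, hc, Matrix.kronecker_smul, smul_smul,
          Matrix.smul_mul, ← Matrix.mul_kronecker_mul, mul_one, wp_add hω]
    -- the centre is cyclic
    have hz : Subgroup.center R ≤ Subgroup.zpowers (eR (1, 0)) := by
      intro g hg
      obtain ⟨⟨a, y⟩, rfl⟩ := eR.surjective g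
      have hy : y = 0 := (hcentre _).1 hg
      subst hy
      refine ⟨(a.val : ℤ), Subtype.ext ?_⟩
      show ((eR (1, 0) ^ (a.val : ℤ) : R) : GL ι F) = el (a, 0)
      rw [zpow_natCast, Subgroup.coe_pow]
      show el (1, 0) ^ a.val = el (a, 0)
      fin_cases a
      · exact (pow_zero _).trans hone.symm
      · exact pow_one _
      · exact (pow_two _).trans (hmul _ _)
    exact isCyclic_of_injective (Subgroup.inclusion (hle.trans hz)) (Subgroup.inclusion_injective _)
  · rw [← Nat.card_congr eR]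
    simp
  · rw [← Nat.card_congr (eR.subtypeEquiv (p := fun x => x.2 = 0) (q := fun g => g ∈ Subgroup.center R)
      fun x => (hcentre x).symm)]
    rw [Nat.card_eq_fintype_card]
    decide

/-- The tensor square stabiliser in the unitary group normalises it. -/
theorem conj_mem (hω : IsCube ω) (e : ι ≃ Fin 3 × Fin 3) (P : GL ι F) {R : Subgroup (GL ι F)}
    (hR : ∀ g, g ∈ R ↔ ∃ x, g.val = tconj e P (W ω x)) {g : GL ι F}
    (hg : g ∈ Cfsg.Geo.tensorWreathSubgroup 3 2 (TensorSquare.sqEquiv e) P)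
    (hiso : ∀ Z, g.val = tconj e P Z → ∀ x y, f9 (Z *ᵥ x) (Z *ᵥ y) = f9 x y) :
    ∀ r ∈ R, g * r * g⁻¹ ∈ R := by
  intro r hr
  obtain ⟨x, hx⟩ := (hR r).1 hr
  obtain ⟨a, b, h | h⟩ := TensorSquare.exists_of_mem_wreath e P hg
  · obtain ⟨ha, hb⟩ := isIso_factor hω (hiso _ h)
    obtain ⟨y, hy⟩ := conj_W hω ha hb x
    refine (hR _).2 ⟨y, ?_⟩
    have hinv : (g⁻¹ : GL ι F).val = tconj e P ((a⁻¹ : GL (Fin 3) F).val ⊗ₖ (b⁻¹ : GL (Fin 3) F).val) := by
      refine Units.inv_eq_of_mul_eq_one_right ?_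
      rw [h, ← map_mul, ← Matrix.mul_kronecker_mul, Units.mul_inv, Units.mul_inv, Matrix.one_kronecker_one,
        map_one]
    rw [Units.val_mul, Units.val_mul, h, hx, hinv, ← map_mul, ← map_mul, hy]
  · have hiso' : ∀ u v, f9 ((a.val ⊗ₖ b.val) *ᵥ u) ((a.val ⊗ₖ b.val) *ᵥ v) = f9 u v := by
      intro u v
      have := hiso _ h (TensorSquare.swapMat *ᵥ u) (TensorSquare.swapMat *ᵥ v)
      rw [Matrix.mulVec_mulVec, Matrix.mulVec_mulVec, mul_assoc, TensorSquare.swapMat_mul_self, mul_one,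
        f9_swap] at this
      exact this
    obtain ⟨ha, hb⟩ := isIso_factor hω hiso'
    obtain ⟨y, hy⟩ := conj_W hω ha hb (x.1, x.2.2, x.2.1)
    refine (hR _).2 ⟨y, ?_⟩
    have hinv : (g⁻¹ : GL ι F).val = tconj e P
        (TensorSquare.swapMat * ((a⁻¹ : GL (Fin 3) F).val ⊗ₖ (b⁻¹ : GL (Fin 3) F).val)) := by
      refine Units.inv_eq_of_mul_eq_one_right ?_
      rw [h, ← map_mul, mul_assoc, ← mul_assoc TensorSquare.swapMat, TensorSquare.swapMat_mul_self, one_mul,
        ← Matrix.mul_kronecker_mul, Units.mul_inv, Units.mul_inv, Matrix.one_kronecker_one, map_one]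
    rw [Units.val_mul, Units.val_mul, h, hx, hinv, ← map_mul, ← map_mul, ← hy, ← swap_W]
    simp only [mul_assoc]

theorem isometry_W (hω : IsCube ω) (z : Idx) (x y : Fin 3 × Fin 3 → F) :
    f9 (W ω z *ᵥ x) (W ω z *ᵥ y) = f9 x y := by
  simp only [f9]
  rw [← Equiv.sum_comp (Equiv.addRight ((z.2.1.1, z.2.2.1) : Fin 3 × Fin 3))]
  refine Finset.sum_congr rfl fun p _ => ?_
  have hv : ∀ v, (W ω z *ᵥ v) (p + (z.2.1.1, z.2.2.1)) = wp ω (z.1 + z.2.1.2 * p.1 + z.2.2.2 * p.2) * v p := by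
    intro v
    rw [Matrix.mulVec, dotProduct, Finset.sum_eq_single p]
    · rw [W_apply hω, if_pos (by simp [Prod.ext_iff])]
    · intro b _ hb
      rw [W_apply hω, if_neg fun h => hb ?_, zero_mul]
      have h1 := congrArg Prod.fst h
      have h2 := congrArg Prod.snd h
      simp at h1 h2
      exact Prod.ext h1.symm h2.symm
    · simp
  rw [Equiv.coe_addRight, hv, hv]
  linear_combination (x p * y p ^ 2) * wp_cube hω (z.1 + z.2.1.2 * p.1 + z.2.2.2 * p.2)

end group

end CfsgLib.Aschbacher.SquareTwo
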