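import Cfsg.Agent.Eq.Def_GeometricClasses
import Cfsg.Agent.Aschbacher.InvariantForms

/-!
Kronecker powers: the tensor wreath group of `2 × 2` matrices fixes the tensor power of the
determinant form up to a scalar.
-/

set_option autoImplicit false

namespace CfsgLib.Aschbacher

open Matrix
open scoped MatrixGroups

variable {F : Type*} [Field F] {d t : ℕ}

/-- The tensor product of `t` matrices, indexed by functions. -/
def kroneckerPow (gs : Fin t → Matrix (Fin d) (Fin d) F) :
    Matrix (Fin t → Fin d) (Fin t → Fin d) F :=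
  Matrix.of fun x y => ∏ i, gs i (x i) (y i)

lemma kroneckerPow_mul (gs hs : Fin t → Matrix (Fin d) (Fin d) F) :
    kroneckerPow gs * kroneckerPow hs = kroneckerPow (fun i => gs i * hs i) := by
  ext x y
  simp only [kroneckerPow, Matrix.mul_apply, Matrix.of_apply]
  rw [Fintype.prod_sum (fun i a => gs i (x i) a * hs i a (y i))]
  exact Finset.sum_congr rfl fun z _ => (Finset.prod_mul_distrib).symm

lemma kroneckerPow_one : kroneckerPow (fun _ => 1 : Fin t → Matrix (Fin d) (Fin d) F) = 1 := by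
  ext x y
  simp only [kroneckerPow, Matrix.of_apply, Matrix.one_apply]
  by_cases h : x = y
  · simp [h]
  · obtain ⟨i, hi⟩ := Function.ne_iff.mp h
    rw [if_neg h]
    exact Finset.prod_eq_zero (Finset.mem_univ i) (if_neg hi)

lemma kroneckerPow_transpose (gs : Fin t → Matrix (Fin d) (Fin d) F) :
    (kroneckerPow gs)ᵀ = kroneckerPow (fun i => (gs i)ᵀ) := rfl

lemma kroneckerPow_smul (c : Fin t → F) (gs : Fin t → Matrix (Fin d) (Fin d) F) :
    kroneckerPow (fun i => c i • gs i) = (∏ i, c i) • kroneckerPow gs := by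
  ext x y
  simp [kroneckerPow, Finset.prod_mul_distrib]

/-- The determinant form of `F²`. -/
def detForm : Matrix (Fin 2) (Fin 2) F := !![0, 1; -1, 0]

lemma transpose_mul_detForm_mul (g : Matrix (Fin 2) (Fin 2) F) :
    gᵀ * detForm * g = g.det • detForm := by
  ext i j
  fin_cases i <;> fin_cases j <;>
    simp [detForm, Matrix.mul_apply, Fin.sum_univ_two, Matrix.det_fin_two] <;> ring

variable {ι : Type} [Fintype ι] [DecidableEq ι]

/-- The tensor power of the determinant form in the coordinates given by `e` and `P`. -/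
def tensorDetForm (e : ι ≃ (Fin t → Fin 2)) (P : GL ι F) : Matrix ι ι F :=
  (P⁻¹ : GL ι F).valᵀ * (kroneckerPow (fun _ => (detForm : Matrix (Fin 2) (Fin 2) F))).submatrix e e *
    (P⁻¹ : GL ι F).val

lemma tensorWreath_similitude {e : ι ≃ (Fin t → Fin 2)} {P : GL ι F} {g : GL ι F}
    (hg : g ∈ Cfsg.Geo.tensorWreathSubgroup 2 t e P) :
    ∃ c : Fˣ, g.valᵀ * tensorDetForm e P * g.val = (c : F) • tensorDetForm e P := by
  set J := kroneckerPow (fun _ : Fin t => (detForm : Matrix (Fin 2) (Fin 2) F)) with hJ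
  let S : Subgroup (GL (Fin t → Fin 2) F) :=
    { carrier := {T | ∃ c : Fˣ, T.valᵀ * J * T.val = (c : F) • J}
      one_mem' := ⟨1, by simp⟩
      mul_mem' := by
        rintro a b ⟨c, hc⟩ ⟨c', hc'⟩
        refine ⟨c * c', ?_⟩
        rw [Units.val_mul, transpose_mul, show b.valᵀ * a.valᵀ * J * (a.val * b.val) =
          b.valᵀ * (a.valᵀ * J * a.val) * b.val by simp [Matrix.mul_assoc], hc, Matrix.mul_smul,
          Matrix.smul_mul, hc', smul_smul, Units.val_mul]
      inv_mem' := by
        rintro a ⟨c, hc⟩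
        refine ⟨c⁻¹, ?_⟩
        have e1 : (a⁻¹ : GL (Fin t → Fin 2) F).valᵀ * (a.valᵀ * J * a.val) *
            (a⁻¹ : GL (Fin t → Fin 2) F).val = J := by
          rw [← Matrix.mul_assoc, ← Matrix.mul_assoc, ← transpose_mul, Units.mul_inv, transpose_one,
            Matrix.one_mul, Matrix.mul_assoc, Units.mul_inv, Matrix.mul_one]
        rw [hc, Matrix.mul_smul, Matrix.smul_mul] at e1
        calc _ = (c : F)⁻¹ • ((c : F) • ((a⁻¹ : GL (Fin t → Fin 2) F).valᵀ * J *
              (a⁻¹ : GL (Fin t → Fin 2) F).val)) := by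
              rw [smul_smul, inv_mul_cancel₀ c.ne_zero, one_smul]
          _ = _ := by rw [e1, Units.val_inv_eq_inv_val] }
  have hle : Cfsg.Geo.tensorWreathStandard 2 t F ≤ S := by
    rw [Cfsg.Geo.tensorWreathStandard, Subgroup.closure_le]
    rintro T (⟨gs, hgs⟩ | ⟨σ, hσ⟩)
    · have hT : T.val = kroneckerPow (fun i => (gs i).val) := Matrix.ext hgs
      refine ⟨∏ i, GeneralLinearGroup.det (gs i), ?_⟩
      rw [hT, hJ, kroneckerPow_transpose, kroneckerPow_mul, kroneckerPow_mul]
      simp only [transpose_mul_detForm_mul]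
      rw [kroneckerPow_smul, Units.coe_prod]
      rfl
    · refine ⟨1, ?_⟩
      rw [Units.val_one, one_smul]
      ext x y
      simp only [Matrix.mul_apply, Matrix.transpose_apply, hσ]
      rw [Finset.sum_eq_single (y ∘ σ.symm), Finset.sum_eq_single (x ∘ σ.symm)]
      · rw [if_pos (by ext i; simp), if_pos (by ext i; simp), one_mul, mul_one, hJ]
        simp only [kroneckerPow, Matrix.of_apply, Function.comp_apply]
        exact Equiv.prod_comp σ.symm (fun i => detForm (x i) (y i))
      · intro b _ hb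
        rw [if_neg (fun h => hb (by ext i; simp [h]))]; ring
      · simp
      · intro b _ hb
        rw [if_neg (fun h => hb (by ext i; simp [h]))]; ring
      · simp
  obtain ⟨g₁, hg₁, rfl⟩ := Subgroup.mem_map.mp hg
  obtain ⟨T, hT, rfl⟩ := Subgroup.mem_map.mp hg₁
  obtain ⟨c, hc⟩ := hle hT
  refine ⟨c, ?_⟩
  have hval : ((MulAut.conj P).toMonoidHom ((Cfsg.Geo.glReindex e.symm).toMonoidHom T)).val =
      P.val * T.val.submatrix e e * (P⁻¹ : GL ι F).val := by rfl
  have hc' : (T.valᵀ.submatrix e e) * (J.submatrix e e) * (T.val.submatrix e e) =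
      (c : F) • J.submatrix e e := by
    rw [Matrix.submatrix_mul_equiv, Matrix.submatrix_mul_equiv, hc]; rfl
  rw [hval, tensorDetForm, ← hJ]
  simp only [transpose_mul, Matrix.mul_assoc]
  have hcancel : ∀ M : Matrix ι ι F, P.valᵀ * ((P⁻¹ : GL ι F).valᵀ * M) = M := fun M => by
    rw [← Matrix.mul_assoc, ← transpose_mul, Units.inv_mul, transpose_one, Matrix.one_mul]
  have hcancel' : ∀ M : Matrix ι ι F, (P⁻¹ : GL ι F).val * (P.val * M) = M := fun M => by
    rw [← Matrix.mul_assoc, Units.inv_mul, Matrix.one_mul]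
  rw [hcancel, hcancel', transpose_submatrix]
  rw [show T.valᵀ.submatrix e e * (J.submatrix e e * (T.val.submatrix e e * (P⁻¹ : GL ι F).val)) =
    (T.valᵀ.submatrix e e * J.submatrix e e * T.val.submatrix e e) * (P⁻¹ : GL ι F).val by
    simp only [Matrix.mul_assoc], hc', Matrix.smul_mul, Matrix.mul_smul]

lemma det_tensorDetForm_ne_zero (e : ι ≃ (Fin t → Fin 2)) (P : GL ι F) :
    (tensorDetForm e P).det ≠ 0 := by
  have hJ : IsUnit (kroneckerPow (fun _ : Fin t => (detForm : Matrix (Fin 2) (Fin 2) F))) := by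
    refine IsUnit.of_mul_eq_one (kroneckerPow fun _ => -detForm) ?_
    rw [kroneckerPow_mul, ← kroneckerPow_one (d := 2)]
    congr 1
    funext i
    ext a b
    fin_cases a <;> fin_cases b <;> simp [detForm, Matrix.mul_apply, Fin.sum_univ_two]
  rw [tensorDetForm, det_mul, det_mul, det_submatrix_equiv_self, det_transpose]
  have hP : (P⁻¹ : GL ι F).val.det ≠ 0 :=
    ((isUnit_iff_isUnit_det _).mp (P⁻¹).isUnit).ne_zero
  exact mul_ne_zero (mul_ne_zero hP ((isUnit_iff_isUnit_det _).mp hJ).ne_zero) hP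

/-- A group inside the tensor wreath group of dimension two consists of similarities of a
symplectic form, or of a quadratic form in odd characteristic. -/
theorem tensorWreath_two_le_similarity [Fintype F] (ht : 0 < t) (e : ι ≃ (Fin t → Fin 2)) (P : GL ι F) :
    (Odd (Fintype.card F) ∧ ∃ Q : (ι → F) → F, Cfsg.Geo.IsNondegenerateQuadraticForm Q ∧
      Cfsg.Geo.tensorWreathSubgroup 2 t e P ≤ Cfsg.Geo.quadSimilarityGroup Q) ∨
    (∃ f : (ι → F) → (ι → F) → F, Cfsg.Geo.IsSymplecticForm f ∧
      Cfsg.Geo.tensorWreathSubgroup 2 t e P ≤ Cfsg.Geo.similarityGroup f) := by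
  set G := tensorDetForm e P with hG
  let f : (ι → F) → (ι → F) → F := fun u v => u ⬝ᵥ G *ᵥ v
  have hbil : Cfsg.Geo.IsBilinearForm f :=
    ⟨fun x y v => add_dotProduct x y _, fun c x v => smul_dotProduct c x _,
      fun v x y => by simp [f, mulVec_add, dotProduct_add],
      fun c v x => by simp [f, mulVec_smul, dotProduct_smul]⟩
  have hnd : Cfsg.Geo.IsNondegenerateForm f := by
    intro v hv
    have hu : IsUnit G := (isUnit_iff_isUnit_det _).mpr
      (isUnit_iff_ne_zero.mpr (det_tensorDetForm_ne_zero e P))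
    have h1 : G *ᵥ v ≠ 0 := fun h0 =>
      hv (mulVec_injective_iff_isUnit.mpr hu (h0.trans (mulVec_zero G).symm))
    have h2 : v ᵥ* G ≠ 0 := fun h0 =>
      hv (vecMul_injective_iff_isUnit.mpr hu (h0.trans (zero_vecMul G).symm))
    obtain ⟨i, hi⟩ := Function.ne_iff.mp h1
    obtain ⟨j, hj⟩ := Function.ne_iff.mp h2
    refine ⟨⟨Pi.single i 1, by simpa [f, single_dotProduct] using hi⟩, ⟨Pi.single j 1, ?_⟩⟩
    show v ⬝ᵥ G *ᵥ _ ≠ 0
    rw [dotProduct_mulVec, dotProduct_single, mul_one]
    exact hj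
  have hle : ∀ g ∈ Cfsg.Geo.tensorWreathSubgroup 2 t e P,
      ∃ c : Fˣ, ∀ u v, f (g.val *ᵥ u) (g.val *ᵥ v) = (c : F) * f u v := by
    intro g hg
    obtain ⟨c, hc⟩ := tensorWreath_similitude hg
    refine ⟨c, fun u v => ?_⟩
    calc (g.val *ᵥ u) ⬝ᵥ G *ᵥ (g.val *ᵥ v) = u ⬝ᵥ (g.valᵀ * G * g.val) *ᵥ v := by
          rw [← mulVec_mulVec, ← mulVec_mulVec, dotProduct_mulVec u g.valᵀ, vecMul_transpose]
      _ = (c : F) * (u ⬝ᵥ G *ᵥ v) := by rw [hc, smul_mulVec, dotProduct_smul, smul_eq_mul]
  have hsym : ∀ a b, G b a = (-1) ^ t * G a b := by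
    intro a b
    have hT : Gᵀ = (-1 : F) ^ t • G := by
      have hd : (detForm : Matrix (Fin 2) (Fin 2) F)ᵀ = (-1 : F) • detForm := by
        ext i j; fin_cases i <;> fin_cases j <;> simp [detForm]
      rw [hG, tensorDetForm, transpose_mul, transpose_mul, transpose_transpose, transpose_submatrix,
        kroneckerPow_transpose, hd, kroneckerPow_smul, Finset.prod_const, Finset.card_univ,
        Fintype.card_fin]
      simp [Matrix.mul_assoc, Matrix.submatrix_smul]
    exact congrFun (congrFun hT a) b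
  have hswap : ∀ u v, f v u = (-1) ^ t * f u v := by
    intro u v
    show v ⬝ᵥ G *ᵥ u = _ * (u ⬝ᵥ G *ᵥ v)
    simp only [dotProduct, mulVec, Finset.mul_sum]
    rw [Finset.sum_comm]
    exact Finset.sum_congr rfl fun a _ => Finset.sum_congr rfl fun b _ => by rw [hsym a b]; ring
  by_cases h2 : (2 : F) = 0
  · have hneg : (-1 : F) = 1 := by rw [neg_eq_iff_add_eq_zero, one_add_one_eq_two, h2]
    refine Or.inr ⟨f, ⟨hbil, fun v w => ?_, fun v => ?_, hnd⟩, hle⟩
    · rw [hswap w v, hneg, one_pow, one_mul, ← neg_one_mul (f w v), hneg, one_mul]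
    · set M := (kroneckerPow (fun _ : Fin t => (detForm : Matrix (Fin 2) (Fin 2) F))).submatrix e e
      let w := (P⁻¹ : GL ι F).val *ᵥ v
      have hfw : f v v = w ⬝ᵥ M *ᵥ w := by
        simp only [f, w, hG, tensorDetForm]
        rw [← mulVec_mulVec, ← mulVec_mulVec, dotProduct_mulVec, vecMul_transpose]
      rw [hfw]
      have hMsym : ∀ a b, M b a = M a b := fun a b => by
        simp only [M, Matrix.submatrix_apply, kroneckerPow, Matrix.of_apply]
        refine Finset.prod_congr rfl fun i _ => ?_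
        generalize e a i = a', e b i = b'
        fin_cases a' <;> fin_cases b' <;> simp [detForm, hneg]
      have hMdiag : ∀ a, M a a = 0 := fun a => by
        have h0 : ∀ z : Fin 2, (detForm : Matrix (Fin 2) (Fin 2) F) z z = 0 := fun z => by
          fin_cases z <;> simp [detForm]
        exact Finset.prod_eq_zero (Finset.mem_univ (⟨0, ht⟩ : Fin t)) (h0 _)
      have hadd : ∀ x y : ι → F, (x + y) ⬝ᵥ M *ᵥ (x + y) = x ⬝ᵥ M *ᵥ x + y ⬝ᵥ M *ᵥ y := by
        intro x y
        have hxy : y ⬝ᵥ M *ᵥ x = x ⬝ᵥ M *ᵥ y := by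
          simp only [dotProduct, mulVec, Finset.mul_sum]
          rw [Finset.sum_comm]
          exact Finset.sum_congr rfl fun a _ => Finset.sum_congr rfl fun b _ => by rw [hMsym a b]; ring
        rw [mulVec_add, add_dotProduct, dotProduct_add, dotProduct_add, hxy]
        linear_combination (x ⬝ᵥ M *ᵥ y) * h2
      have hmap : w ⬝ᵥ M *ᵥ w =
          AddMonoidHom.mk' (fun x : ι → F => x ⬝ᵥ M *ᵥ x) hadd (∑ i, Pi.single i (w i)) := by
        rw [Finset.univ_sum_single]; rfl
      rw [hmap, map_sum]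
      exact Finset.sum_eq_zero fun i _ => by
        simp [mulVec_single, single_dotProduct, hMdiag i]
  rcases Nat.even_or_odd t with hev | hod
  · have hs : ∀ u v, f v u = f u v := fun u v => by rw [hswap, hev.neg_one_pow, one_mul]
    have hpolar : ∀ u v, QuadraticMap.polar (fun v => f v v) u v = 2 * f u v := fun u v => by
      simp only [QuadraticMap.polar, hbil.add_left, hbil.add_right, hs u v]; ring
    refine Or.inl ⟨odd_card_of_two_ne_zero h2, fun v => f v v,
      ⟨fun c v => by rw [hbil.smul_left, hbil.smul_right]; ring, ?_, ?_⟩,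
      fun g hg => (hle g hg).imp fun c hc v => hc v v⟩
    · refine ⟨fun x y v => ?_, fun c x v => ?_, fun v x y => ?_, fun c v x => ?_⟩ <;>
        simp only [hpolar, hbil.add_left, hbil.smul_left, hbil.add_right, hbil.smul_right] <;> ring
    · intro v hv
      obtain ⟨⟨x, hx⟩, ⟨y, hy⟩⟩ := hnd v hv
      exact ⟨⟨x, by rw [hpolar]; exact mul_ne_zero h2 hx⟩,
        ⟨y, by rw [hpolar]; exact mul_ne_zero h2 hy⟩⟩
  · have hs : ∀ v w, f v w = - f w v := fun v w => by
      rw [hswap w v, hod.neg_one_pow, neg_one_mul]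
    refine Or.inr ⟨f, ⟨hbil, hs, fun v => ?_, hnd⟩, hle⟩
    have := hs v v
    rw [eq_neg_iff_add_eq_zero, ← two_mul] at this
    exact (mul_eq_zero.mp this).resolve_left h2

end CfsgLib.Aschbacher
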