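import Cfsg.Agent.Eq.Def_GeometricClasses
import Cfsg.Agent.Aschbacher.NormalStructure
import Cfsg.Agent.Aschbacher.TensorPower

/-!
Commuting copies of a matrix algebra generating the whole algebra are the factors of a tensor power,
and a group permuting them lies in the tensor wreath group.
-/

set_option autoImplicit false

namespace CfsgLib.Aschbacher

open Matrix

variable {ι : Type} [Fintype ι] [DecidableEq ι] {F : Type*} [Field F] {d t : ℕ}

local notation "GLm" => Matrix.GeneralLinearGroup
local notation "Md" => Matrix (Fin d) (Fin d) F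

/-- A monoid homomorphism out of a power of `M_d`, linear in every factor, as a multilinear map. -/
def multilinearOfHom (p : (Fin t → Md) →* Matrix ι ι F)
    (φ : Fin t → Md →ₐ[F] Matrix ι ι F) (hp : ∀ i X, p (Pi.mulSingle i X) = φ i X) :
    MultilinearMap F (fun _ : Fin t => Md) (Matrix ι ι F) :=
  have key : ∀ [DecidableEq (Fin t)] (m : Fin t → Md) (i : Fin t) (X : Md),
      p (Function.update m i X) = p (Function.update m i 1) * φ i X := by
    intro inst m i X
    obtain rfl := Subsingleton.elim inst (instDecidableEqFin t)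
    rw [← hp, ← map_mul]
    congr 1
    funext j
    by_cases h : j = i
    · subst h; simp
    · simp [Function.update_of_ne h, Pi.mulSingle_eq_of_ne h]
  { toFun := p
    map_update_add' := fun m i x y => by rw [key m i (x + y), key m i x, key m i y, map_add, mul_add]
    map_update_smul' := fun m i c x => by
      rw [key m i (c • x), key m i x, map_smul, Matrix.mul_smul] }

lemma multilinearOfHom_apply (p : (Fin t → Md) →* Matrix ι ι F)
    (φ : Fin t → Md →ₐ[F] Matrix ι ι F) (hp : ∀ i X, p (Pi.mulSingle i X) = φ i X) (g : Fin t → Md) :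
    multilinearOfHom p φ hp g = p g := rfl

/-- Commuting copies of `M_d` in `M_{d^t}` are the factors of a tensor power. -/
theorem exists_tensorPower_basis [NeZero d] [Nonempty ι] (φ : Fin t → Md →ₐ[F] Matrix ι ι F)
    (hcomm : ∀ i j, i ≠ j → ∀ X Y, Commute (φ i X) (φ j Y)) (hcard : Fintype.card ι = d ^ t) :
    ∃ (e : ι ≃ (Fin t → Fin d)) (P : GLm ι F),
      ∀ i X, φ i X = tconj e P (kroneckerPow (Pi.mulSingle i X)) := by
  classical
  let E : Fin d → Fin d → Md := fun i j => Matrix.single i j 1
  let ψ : Fin t → Md →* Matrix ι ι F := fun i => (φ i).toRingHom.toMonoidHom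
  have hψ : Pairwise fun i j => ∀ X Y, Commute (ψ i X) (ψ j Y) := fun i j hij X Y => hcomm i j hij X Y
  let p : (Fin t → Md) →* Matrix ι ι F := MonoidHom.noncommPiCoprod ψ hψ
  have hp : ∀ i X, p (Pi.mulSingle i X) = φ i X := fun i X =>
    (MonoidHom.noncommPiCoprod_mulSingle ψ (hcomm := hψ) i X).trans rfl
  let L := multilinearOfHom p φ hp
  have hEE : ∀ a b c : Fin d, E a b * E b c = E a c := fun a b c => by simp [E]
  have hEE0 : ∀ a b b' c : Fin d, b ≠ b' → E a b * E b' c = 0 := fun a b b' c h => by
    simp [E, Matrix.single_mul_single_of_ne _ _ _ _ h]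
  -- the product of the first idempotents is nonzero
  have hu : ∀ T : Finset (Fin t), p (fun i => if i ∈ T then E 0 0 else 1) ≠ 0 := by
    intro T
    induction T using Finset.induction_on with
    | empty =>
      have : (fun i : Fin t => if i ∈ (∅ : Finset (Fin t)) then E 0 0 else 1) = 1 := by funext i; simp
      rw [this, map_one]
      exact one_ne_zero
    | @insert i T hi ih =>
      intro h0
      set g : Fin t → Md := fun k => if k ∈ T then E 0 0 else 1
      have hg : g i = 1 := if_neg hi
      have hins : (fun k => if k ∈ insert i T then E 0 0 else 1) = g * Pi.mulSingle i (E 0 0) := by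
        funext k
        by_cases hk : k = i
        · subst hk; simp [g, hi]
        · simp [g, hk, Pi.mulSingle_eq_of_ne hk]
      rw [hins, map_mul, hp] at h0
      have hcom : ∀ X, p g * φ i X = φ i X * p g := by
        intro X
        rw [← hp, ← map_mul, ← map_mul]
        congr 1
        funext k
        by_cases hk : k = i
        · subst hk; simp [hg]
        · simp [Pi.mulSingle_eq_of_ne hk]
      apply ih
      have hsum : (1 : Md) = ∑ a : Fin d, E a 0 * E 0 0 * E 0 a := by
        simp only [hEE]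
        ext a b
        by_cases hab : a = b
        · subst hab; simp [E, Matrix.sum_apply, Matrix.single_apply]
        · rw [Matrix.sum_apply, Matrix.one_apply_ne hab]
          exact (Finset.sum_eq_zero fun c _ => if_neg fun h => hab (h.1.symm.trans h.2)).symm
      calc p g = p g * φ i 1 := by rw [map_one, mul_one]
        _ = 0 := by
          rw [hsum, map_sum, Finset.mul_sum]
          refine Finset.sum_eq_zero fun a _ => ?_
          rw [map_mul, map_mul, ← mul_assoc, ← mul_assoc, hcom, mul_assoc (φ i (E a 0)), h0, mul_zero,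
            zero_mul]
  have hu0 : p (fun _ => E 0 0) ≠ 0 := by simpa using hu Finset.univ
  obtain ⟨w, hw⟩ : ∃ w, p (fun _ => E 0 0) *ᵥ w ≠ 0 := by
    by_contra hc
    push Not at hc
    exact hu0 (Matrix.ext_of_mulVec_single fun j => by rw [hc, Matrix.zero_mulVec])
  set v0 := p (fun _ => E 0 0) *ᵥ w with hv0def
  have hv0 : p (fun _ => E 0 0) *ᵥ v0 = v0 := by
    rw [hv0def, Matrix.mulVec_mulVec, ← map_mul]
    congr 2
    funext i
    exact hEE 0 0 0
  let b : (Fin t → Fin d) → (ι → F) := fun x => p (fun i => E (x i) 0) *ᵥ v0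
  have hdual : ∀ x y : Fin t → Fin d, p (fun i => E 0 (y i)) *ᵥ b x = if x = y then v0 else 0 := by
    intro x y
    rw [Matrix.mulVec_mulVec, ← map_mul]
    by_cases hxy : x = y
    · subst hxy
      rw [if_pos rfl]
      have : ((fun i => E 0 (x i)) * fun i => E (x i) 0) = fun _ => E 0 0 :=
        funext fun i => hEE 0 (x i) 0
      rw [this, hv0]
    · rw [if_neg hxy]
      obtain ⟨i, hi⟩ := Function.ne_iff.mp hxy
      rw [← multilinearOfHom_apply p φ hp, MultilinearMap.map_coord_zero _ i
        (hEE0 0 (y i) (x i) 0 (Ne.symm hi)), Matrix.zero_mulVec]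
  have hli : LinearIndependent F b := by
    rw [Fintype.linearIndependent_iff]
    intro c hc y
    have h := congrArg (fun v => p (fun i => E 0 (y i)) *ᵥ v) hc
    simp only [Matrix.mulVec_sum, Matrix.mulVec_smul, hdual, Matrix.mulVec_zero, smul_ite, smul_zero,
      Finset.sum_ite_eq', Finset.mem_univ, if_true] at h
    exact (smul_eq_zero.mp h).resolve_right hw
  let e : ι ≃ (Fin t → Fin d) := Fintype.equivOfCardEq (by simp [hcard])
  let M : Matrix ι ι F := Matrix.of fun a c => b (e c) a
  have hM : IsUnit M := by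
    rw [← Matrix.linearIndependent_cols_iff_isUnit]
    exact hli.comp e e.injective
  refine ⟨e, hM.unit, fun i X => ?_⟩
  rw [← hp i X]
  generalize (Pi.mulSingle i X : Fin t → Md) = g
  have hexp : ∀ x, p g *ᵥ b x = ∑ y : Fin t → Fin d, (∏ i, g i (y i) (x i)) • b y := by
    intro x
    rw [Matrix.mulVec_mulVec, ← map_mul]
    have hcol : (g * fun i => E (x i) 0) = fun i => ∑ a, g i a (x i) • E a 0 := by
      funext i
      ext r s
      simp only [Pi.mul_apply, E, Matrix.mul_apply, Matrix.sum_apply, Matrix.smul_apply,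
        Matrix.single_apply, smul_eq_mul]
      by_cases hs : (0 : Fin d) = s
      · simp [hs]
      · simp [hs]
    rw [hcol, ← multilinearOfHom_apply p φ hp, MultilinearMap.map_sum, Matrix.sum_mulVec]
    refine Finset.sum_congr rfl fun y _ => ?_
    rw [MultilinearMap.map_smul_univ, Matrix.smul_mulVec]
    rfl
  have key : p g * M = M * (kroneckerPow g).submatrix e e := by
    ext a c
    have h1 : (p g * M) a c = (p g *ᵥ b (e c)) a := rfl
    rw [h1, hexp, Matrix.mul_apply, ← e.symm.sum_comp, Finset.sum_apply]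
    refine Finset.sum_congr rfl fun y _ => ?_
    simp [M, kroneckerPow, mul_comm]
  rw [tconj_apply]
  change p g = M * _ * _
  rw [← key, mul_assoc]
  have : M * ((hM.unit⁻¹ : GLm ι F) : Matrix ι ι F) = 1 := hM.mul_val_inv
  rw [this, mul_one]

/-- The matrix of a permutation of the tensor factors. -/
def permPow (σ : Equiv.Perm (Fin t)) : Matrix (Fin t → Fin d) (Fin t → Fin d) F :=
  Matrix.of fun x y => if y = x ∘ σ then 1 else 0

lemma permPow_mul_permPow (σ τ : Equiv.Perm (Fin t)) :
    (permPow σ * permPow τ : Matrix (Fin t → Fin d) (Fin t → Fin d) F) = permPow (σ * τ) := by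
  ext x y
  simp only [permPow, Matrix.mul_apply, Matrix.of_apply]
  rw [Finset.sum_eq_single (x ∘ σ) (fun z _ hz => by rw [if_neg hz, zero_mul]) (by simp), if_pos rfl,
    one_mul]
  rfl

lemma permPow_one : (permPow 1 : Matrix (Fin t → Fin d) (Fin t → Fin d) F) = 1 := by
  ext x y
  simp [permPow, Matrix.one_apply, eq_comm]

/-- The matrix of a permutation of the tensor factors, as an invertible matrix. -/
def permPowGL (σ : Equiv.Perm (Fin t)) : GLm (Fin t → Fin d) F where
  val := permPow σ
  inv := permPow σ⁻¹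
  val_inv := by rw [permPow_mul_permPow, mul_inv_cancel, permPow_one]
  inv_val := by rw [permPow_mul_permPow, inv_mul_cancel, permPow_one]

lemma permPow_mul_kroneckerPow (σ : Equiv.Perm (Fin t)) (g : Fin t → Md) :
    permPow σ * kroneckerPow g = kroneckerPow (g ∘ σ.symm) * permPow σ := by
  ext x y
  simp only [Matrix.mul_apply, permPow, Matrix.of_apply, kroneckerPow]
  rw [Finset.sum_eq_single (x ∘ σ), Finset.sum_eq_single (y ∘ σ.symm)]
  · rw [if_pos rfl, if_pos (by ext i; simp), one_mul, mul_one]
    exact (Fintype.prod_equiv σ.symm _ _ fun j => by simp).symm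
  · intro z _ hz
    rw [if_neg (fun h => hz (by ext i; simp [h]))]; ring
  · simp
  · intro z _ hz
    rw [if_neg hz]; ring
  · simp

/-- The tensor product of invertible matrices, as an invertible matrix. -/
def kroneckerPowGL (gs : Fin t → GLm (Fin d) F) : GLm (Fin t → Fin d) F where
  val := kroneckerPow fun i => (gs i : Md)
  inv := kroneckerPow fun i => ((gs i)⁻¹ : GLm (Fin d) F).val
  val_inv := by simp [kroneckerPow_mul, kroneckerPow_one]
  inv_val := by simp [kroneckerPow_mul, kroneckerPow_one]

/-- A group with commuting-algebra data lies in a tensor wreath group whose factor algebras are the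
members of the data. -/
theorem CommutingData.exists_le_tensorWreath_factors [Nonempty ι] {H : Subgroup (GLm ι F)}
    {S : Finset (Subalgebra F (Matrix ι ι F))} (h : CommutingData H d S) :
    ∃ (e : ι ≃ (Fin S.card → Fin d)) (P : GLm ι F),
      H ≤ Cfsg.Geo.tensorWreathSubgroup d S.card e P ∧
      ∀ i, ∃ A ∈ S, ∀ x, x ∈ A ↔ ∃ M, x = tconj e P (kroneckerPow (Pi.mulSingle i M)) := by
  classical
  haveI : NeZero d := ⟨by have := h.two_le; omega⟩
  haveI : NeZero S.card := ⟨by have := h.two_le_card; omega⟩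
  let s := S.equivFin.symm
  let A : Fin S.card → Subalgebra F (Matrix ι ι F) := fun i => (s i).1
  have hAinj : Function.Injective A := fun i j hij => s.injective (Subtype.ext hij)
  have hAmat : ∀ i, ∃ φ : Md →ₐ[F] Matrix ι ι F, φ.range = A i := fun i => h.matrix _ (s i).2
  choose φ hφ using hAmat
  have hcomm : ∀ i j, i ≠ j → ∀ X Y, Commute (φ i X) (φ j Y) := fun i j hij X Y =>
    h.commute _ (s i).2 _ (s j).2 (hAinj.ne hij) _ (hφ i ▸ ⟨X, rfl⟩ : φ i X ∈ A i) _
      (hφ j ▸ ⟨Y, rfl⟩ : φ j Y ∈ A j)
  obtain ⟨e, P, hT⟩ := exists_tensorPower_basis φ hcomm h.card_eq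
  refine ⟨e, P, fun g hg => ?_, fun i => ⟨A i, (s i).2, fun x => ?_⟩⟩
  swap
  · rw [← hφ i]
    constructor
    · rintro ⟨M, rfl⟩
      exact ⟨M, hT i M⟩
    · rintro ⟨M, rfl⟩
      exact ⟨M, hT i M⟩
  have hperm : ∀ i, ∃ j, ∀ x, x ∈ A i ↔ conjAlg g x ∈ A j := by
    intro i
    obtain ⟨B, hB, hiff⟩ := h.perm g hg _ (s i).2
    refine ⟨s.symm ⟨B, hB⟩, ?_⟩
    simpa [A] using hiff
  choose σf hσf using hperm
  have hσinj : Function.Injective σf := fun i j hij => hAinj (by
    ext x
    rw [hσf i, hσf j, hij])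
  let σ : Equiv.Perm (Fin S.card) := Equiv.ofBijective σf (Finite.injective_iff_bijective.mp hσinj)
  have hα : ∀ i, ∃ a : GLm (Fin d) F, ∀ X, conjAlg g (φ i X) = φ (σ i) (conjAlg a X) := by
    intro i
    have hinj : Function.Injective (φ (σ i)) := (φ (σ i)).toRingHom.injective
    let α : Md →ₐ[F] Md := ((AlgEquiv.ofInjective _ hinj).symm.toAlgHom).comp
      (((conjAlg g).toAlgHom.comp (φ i)).codRestrict (φ (σ i)).range fun X => by
        show conjAlg g (φ i X) ∈ (φ (σ i)).range
        rw [hφ]
        exact (hσf i _).1 (hφ i ▸ ⟨X, rfl⟩))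
    obtain ⟨a, ha⟩ := exists_conj α
    refine ⟨a, fun X => ?_⟩
    rw [← ha]
    exact (congrArg Subtype.val ((AlgEquiv.ofInjective _ hinj).apply_symm_apply
      ((((conjAlg g).toAlgHom.comp (φ i)).codRestrict (φ (σ i)).range _) X))).symm
  choose a ha using hα
  let T : GLm (Fin S.card → Fin d) F := kroneckerPowGL (fun j => a (σ.symm j)) * permPowGL σ
  let R : GLm (Fin S.card → Fin d) F →* GLm ι F :=
    (MulAut.conj P).toMonoidHom.comp (Cfsg.Geo.glReindex e.symm).toMonoidHom
  have hR : ∀ U : GLm (Fin S.card → Fin d) F, (R U).val = tconj e P U.val := fun U => rfl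
  have hTcomm : ∀ i X, (R T).val * φ i X = conjAlg g (φ i X) * (R T).val := by
    intro i X
    rw [ha, hT, hT, hR, ← map_mul, ← map_mul]
    congr 1
    show kroneckerPow (fun j => (a (σ.symm j) : Md)) * permPow σ * _ =
      _ * (kroneckerPow (fun j => (a (σ.symm j) : Md)) * permPow σ)
    rw [mul_assoc, permPow_mul_kroneckerPow, ← mul_assoc, ← mul_assoc, kroneckerPow_mul, kroneckerPow_mul]
    congr 2
    funext j
    by_cases hj : j = σ i
    · subst hj
      simp [conjAlg_apply, mul_assoc]
    · have : σ.symm j ≠ i := fun h => hj (by rw [← h, σ.apply_symm_apply])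
      simp [Pi.mulSingle_eq_of_ne hj, Pi.mulSingle_eq_of_ne this]
  set C := g⁻¹ * R T with hC
  have hCcomm : ∀ B ∈ S, ∀ x ∈ B, x * C.val = C.val * x := by
    intro B hB x hx
    obtain ⟨i, hi⟩ : ∃ i, A i = B := ⟨s.symm ⟨B, hB⟩, by simp [A]⟩
    rw [← hi, ← hφ] at hx
    obtain ⟨X, rfl⟩ := hx
    have h1 := hTcomm i X
    rw [conjAlg_apply] at h1
    show φ i X * _ = _ * φ i X
    rw [hC, Units.val_mul, mul_assoc _ (R T).val, h1]
    simp [← mul_assoc]
  have hle : (⊤ : Subalgebra F (Matrix ι ι F)) ≤ Subalgebra.centralizer F {C.val} := by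
    rw [← h.sup_eq_top]
    exact iSup₂_le fun B hB x hx => (Subalgebra.mem_centralizer_iff F).2 fun y hy => by
      rw [Set.mem_singleton_iff.mp hy, hCcomm B hB x hx]
  obtain ⟨c, hc⟩ : C.val ∈ Set.range (Matrix.scalar ι) :=
    Matrix.mem_range_scalar_of_commute_single fun i j _ =>
      ((Subalgebra.mem_centralizer_iff F).1 (hle Algebra.mem_top) C.val rfl).symm
  have hc1 : C.val = c • (1 : Matrix ι ι F) := by rw [← hc]; simp [Matrix.smul_one_eq_diagonal]
  have hc0 : c ≠ 0 := fun h0 => C.ne_zero (by rw [hc1, h0, zero_smul])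
  let z : GLm (Fin S.card → Fin d) F :=
    kroneckerPowGL (Pi.mulSingle 0 (Units.map (algebraMap F Md : F →* Md) (Units.mk0 c hc0)))
  have hz : R z = C := by
    apply Units.ext
    rw [hR, hc1, ← Algebra.algebraMap_eq_smul_one, ← (tconj e P).commutes c]
    congr 1
    show kroneckerPow _ = _
    rw [show (fun j => ((Pi.mulSingle 0 (Units.map (algebraMap F Md : F →* Md) (Units.mk0 c hc0)) :
        Fin S.card → GLm (Fin d) F) j : Md)) = fun j => (Pi.mulSingle 0 c : Fin S.card → F) j • (1 : Md) by
      funext j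
      by_cases hj : j = 0
      · subst hj; simp [Algebra.algebraMap_eq_smul_one]
      · simp [Pi.mulSingle_eq_of_ne hj],
      kroneckerPow_smul, kroneckerPow_one, Fintype.prod_pi_mulSingle',
      Algebra.algebraMap_eq_smul_one]
  have hg' : g = R (T * z⁻¹) := by
    rw [map_mul, map_inv, hz, hC]
    group
  have hmem : T * z⁻¹ ∈ Cfsg.Geo.tensorWreathStandard d S.card F := by
    refine mul_mem (mul_mem ?_ ?_) (inv_mem ?_) <;> apply Subgroup.subset_closure
    · exact Or.inl ⟨_, fun x y => rfl⟩
    · exact Or.inr ⟨σ, fun x y => rfl⟩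
    · exact Or.inl ⟨_, fun x y => rfl⟩
  rw [hg']
  exact ⟨_, ⟨_, hmem, rfl⟩, rfl⟩

/-- A group with commuting-algebra data lies in a tensor wreath group. -/
theorem CommutingData.exists_le_tensorWreath [Nonempty ι] {H : Subgroup (GLm ι F)}
    {S : Finset (Subalgebra F (Matrix ι ι F))} (h : CommutingData H d S) :
    ∃ (e : ι ≃ (Fin S.card → Fin d)) (P : GLm ι F),
      H ≤ Cfsg.Geo.tensorWreathSubgroup d S.card e P :=
  let ⟨e, P, hle, _⟩ := h.exists_le_tensorWreath_factors
  ⟨e, P, hle⟩

end CfsgLib.Aschbacher
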