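import Cfsg.Agent.Eq.Def_GeometricClasses
import Cfsg.Agent.Aschbacher.FormsTensor
import Cfsg.Agent.Aschbacher.TensorInduced

/-!
Tensor powers whose factor algebras are closed under the adjoint of a reflexive form: the form is a
product of forms on the factors, and the similarities in the tensor wreath group act by similarities on
the factors.
-/

set_option autoImplicit false
set_option linter.unusedSectionVars false

namespace CfsgLib.Aschbacher.Forms

open Matrix Cfsg

open scoped Kronecker

variable {ι : Type} [Fintype ι] [DecidableEq ι] {F : Type*} [Field F]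
variable {σ : F →+* F} {ε : F} {f : (ι → F) → (ι → F) → F}
variable {d t : ℕ} {e : ι ≃ (Fin t → Fin d)} {P : GL ι F}

local notation "Md" => Matrix (Fin d) (Fin d) F

/-- The coordinate isomorphism of a tensor power. -/
def powEmb (e : ι ≃ (Fin t → Fin d)) (P : GL ι F) (x : (Fin t → Fin d) → F) : ι → F :=
  (P : Matrix ι ι F) *ᵥ (x ∘ e)

/-- The Gram matrix of the form pulled back to a tensor power. -/
def powGram (f : (ι → F) → (ι → F) → F) (e : ι ≃ (Fin t → Fin d)) (P : GL ι F) :
    Matrix (Fin t → Fin d) (Fin t → Fin d) F :=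
  fun p q => f (powEmb e P (Pi.single p 1)) (powEmb e P (Pi.single q 1))

theorem isSesquiForm_powPull (hf : CfsgLib.Aschbacher.IsSesquiForm σ f) :
    CfsgLib.Aschbacher.IsSesquiForm σ (fun x y => f (powEmb e P x) (powEmb e P y)) where
  add_left x y v := by
    show f (powEmb e P (x + y)) _ = _
    rw [powEmb, show (x + y) ∘ e = x ∘ e + y ∘ e from rfl, Matrix.mulVec_add, hf.add_left]; rfl
  smul_left c x v := by
    show f (powEmb e P (c • x)) _ = _
    rw [powEmb, show (c • x) ∘ e = c • (x ∘ e) from rfl, Matrix.mulVec_smul, hf.smul_left]; rfl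
  add_right v x y := by
    show f _ (powEmb e P (x + y)) = _
    rw [powEmb, powEmb, show (x + y) ∘ e = x ∘ e + y ∘ e from rfl, Matrix.mulVec_add, hf.add_right]; rfl
  smul_right c v x := by
    show f _ (powEmb e P (c • x)) = _
    rw [powEmb, powEmb, show (c • x) ∘ e = c • (x ∘ e) from rfl, Matrix.mulVec_smul, hf.smul_right]; rfl

theorem form_powEmb (hf : CfsgLib.Aschbacher.IsSesquiForm σ f) (x y : (Fin t → Fin d) → F) :
    f (powEmb e P x) (powEmb e P y) = Geo.formOfGram σ (powGram f e P) x y := by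
  have hsum : ∀ x : (Fin t → Fin d) → F, powEmb e P x = ∑ p, x p • powEmb e P (Pi.single p 1) := by
    intro x
    conv_lhs => rw [pi_eq_sum_univ' x]
    simp only [powEmb]
    rw [show ((∑ p, x p • (Pi.single p (1 : F) : (Fin t → Fin d) → F)) ∘ e) =
        ∑ p, x p • ((Pi.single p (1 : F) : (Fin t → Fin d) → F) ∘ e) by ext i; simp,
      Matrix.mulVec_sum]
    exact Finset.sum_congr rfl fun p _ => Matrix.mulVec_smul _ _ _
  rw [hsum x, hsum y, hf.sum_left, Geo.formOfGram]
  refine Finset.sum_congr rfl fun p _ => ?_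
  rw [hf.smul_left, hf.sum_right, Finset.mul_sum]
  refine Finset.sum_congr rfl fun q _ => ?_
  rw [hf.smul_right, powGram]
  ring

theorem powEmb_surjective : Function.Surjective (powEmb e P) := fun v =>
  ⟨(((P⁻¹ : GL ι F) : Matrix ι ι F) *ᵥ v) ∘ e.symm, by
    simp [powEmb, Function.comp_assoc, Matrix.mulVec_mulVec]⟩

theorem tconj_mulVec_powEmb (Z : Matrix (Fin t → Fin d) (Fin t → Fin d) F) (x : (Fin t → Fin d) → F) :
    CfsgLib.Aschbacher.tconj e P Z *ᵥ powEmb e P x = powEmb e P (Z *ᵥ x) := by
  rw [CfsgLib.Aschbacher.tconj_apply, powEmb, powEmb, Matrix.mulVec_mulVec, mul_assoc, Units.inv_mul,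
    mul_one, ← Matrix.mulVec_mulVec]
  congr 1
  rw [Matrix.submatrix_mulVec_equiv, Function.comp_assoc, e.self_comp_symm, Function.comp_id]

theorem powGram_refl (hf : RForm σ ε f) (p q : Fin t → Fin d) :
    powGram f e P p q = ε * σ (powGram f e P q p) :=
  hf.refl _ _

theorem isUnit_powGram (hf : RForm σ ε f) : IsUnit (powGram f e P) := by
  rw [Matrix.isUnit_iff_isUnit_det, isUnit_iff_ne_zero]
  refine CfsgLib.Aschbacher.det_gramMatrix_ne_zero (isSesquiForm_powPull hf.sesq) fun v hv => ?_
  have hv' : powEmb e P v ≠ 0 := fun h => hv (by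
    have h1 := (Matrix.mulVec_injective_iff_isUnit.2 P.isUnit)
      (h.trans (Matrix.mulVec_zero (P : Matrix ι ι F)).symm)
    funext p
    simpa using congrFun h1 (e.symm p))
  obtain ⟨⟨x, hx⟩, y, hy⟩ := hf.nondeg _ hv'
  obtain ⟨x', rfl⟩ := powEmb_surjective (e := e) (P := P) x
  obtain ⟨y', rfl⟩ := powEmb_surjective (e := e) (P := P) y
  exact ⟨⟨x', hx⟩, y', hy⟩

/-- A similarity in coordinates of a tensor power. -/
theorem powGram_similar (hf : CfsgLib.Aschbacher.IsSesquiForm σ f) {g : GL ι F} {c : F}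
    (hg : ∀ u v, f ((g : Matrix ι ι F) *ᵥ u) ((g : Matrix ι ι F) *ᵥ v) = c * f u v)
    {Z : Matrix (Fin t → Fin d) (Fin t → Fin d) F}
    (hZ : (g : Matrix ι ι F) = CfsgLib.Aschbacher.tconj e P Z) :
    Zᵀ * powGram f e P * Z.map σ = c • powGram f e P := by
  ext p q
  have h1 := hg (powEmb e P (Pi.single p 1)) (powEmb e P (Pi.single q 1))
  rw [hZ, tconj_mulVec_powEmb, tconj_mulVec_powEmb, form_powEmb hf] at h1
  rw [Matrix.smul_apply, smul_eq_mul, powGram, ← h1, Geo.formOfGram, Matrix.mul_apply, Finset.sum_comm]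
  refine Finset.sum_congr rfl fun a _ => ?_
  rw [Matrix.mul_apply, Finset.sum_mul]
  refine Finset.sum_congr rfl fun b _ => ?_
  simp [powGram, Matrix.mulVec_single_one]

/-- Singling out one factor of a tensor power. -/
noncomputable def splitAt (d : ℕ) (i : Fin t) :
    (Fin t → Fin d) ≃ Fin d × Fin (Fintype.card ({j // j ≠ i} → Fin d)) :=
  (Equiv.funSplitAt i (Fin d)).trans ((Equiv.refl _).prodCongr (Fintype.equivFin _))

theorem splitAt_fst (i : Fin t) (x : Fin t → Fin d) : (splitAt d i x).1 = x i := rfl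

theorem splitAt_snd_eq {i : Fin t} {x y : Fin t → Fin d} :
    (splitAt d i x).2 = (splitAt d i y).2 ↔ ∀ j, j ≠ i → x j = y j := by
  simp [splitAt, Equiv.funSplitAt, Equiv.piSplitAt, funext_iff]

theorem tconj_splitAt (i : Fin t) (M : Md) :
    CfsgLib.Aschbacher.tconj (e.trans (splitAt d i)) P
      (M ⊗ₖ (1 : Matrix (Fin (Fintype.card ({j // j ≠ i} → Fin d))) _ F)) =
    CfsgLib.Aschbacher.tconj e P (kroneckerPow (Pi.mulSingle i M)) := by
  rw [CfsgLib.Aschbacher.tconj_apply, CfsgLib.Aschbacher.tconj_apply]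
  congr 2
  ext a b
  simp only [Matrix.submatrix_apply, Equiv.trans_apply, Matrix.kroneckerMap_apply, splitAt_fst, kroneckerPow,
    Matrix.of_apply, Matrix.one_apply]
  rw [← Finset.mul_prod_erase Finset.univ _ (Finset.mem_univ i), Pi.mulSingle_eq_same]
  congr 1
  by_cases h : ∀ j, j ≠ i → e a j = e b j
  · rw [if_pos (splitAt_snd_eq.2 h), Finset.prod_eq_one]
    intro j hj
    rw [Pi.mulSingle_eq_of_ne (Finset.mem_erase.1 hj).1, h j (Finset.mem_erase.1 hj).1, Matrix.one_apply_eq]
  · rw [if_neg (mt splitAt_snd_eq.1 h)]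
    push Not at h
    obtain ⟨j, hji, hj⟩ := h
    exact (Finset.prod_eq_zero (i := j) (Finset.mem_erase.2 ⟨hji, Finset.mem_univ j⟩)
      (by rw [Pi.mulSingle_eq_of_ne hji, Matrix.one_apply_ne hj])).symm

/-- The factor algebra of the `i`-th factor is closed under adjoints. -/
def FactorClosed (f : (ι → F) → (ι → F) → F) (e : ι ≃ (Fin t → Fin d)) (P : GL ι F) : Prop :=
  ∀ (i : Fin t) (M : Md), ∃ M' : Md,
    IsAdj f (CfsgLib.Aschbacher.tconj e P (kroneckerPow (Pi.mulSingle i M)))
      (CfsgLib.Aschbacher.tconj e P (kroneckerPow (Pi.mulSingle i M')))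

/-- With closed factor algebras the form is a product of forms on the factors. -/
theorem exists_powGram_eq_kroneckerPow [NeZero d] (hf : RForm σ ε f) (hcl : FactorClosed f e P) :
    ∃ (c : F) (X : Fin t → Md), c ≠ 0 ∧ (∀ i, IsUnit (X i)) ∧
      powGram f e P = c • kroneckerPow X := by
  classical
  set Γ := powGram f e P with hΓdef
  have hrel : ∀ i (x y u v : Fin t → Fin d), Γ x y * Γ u v =
      Γ (Function.update x i (u i)) (Function.update y i (v i)) *
        Γ (Function.update u i (x i)) (Function.update v i (y i)) := by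
    intro i
    haveI : NeZero (Fintype.card ({j // j ≠ i} → Fin d)) := ⟨Fintype.card_ne_zero⟩
    obtain ⟨X, C, -, -, hpull⟩ := exists_pullGram_eq_kronecker hf (e := e.trans (splitAt d i)) (P := P)
      fun M => by
        obtain ⟨M', hM'⟩ := hcl i M
        exact ⟨M', by rw [tconj_splitAt, tconj_splitAt]; exact hM'⟩
    have hval : ∀ x y, Γ x y = X (x i) (y i) * C (splitAt d i x).2 (splitAt d i y).2 := by
      intro x y
      have h := congrFun (congrFun hpull (splitAt d i x)) (splitAt d i y)
      rw [Matrix.kroneckerMap_apply, splitAt_fst, splitAt_fst] at h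
      rw [← h]
      have hs : ∀ z : Fin t → Fin d, emb (e.trans (splitAt d i)) P (Pi.single (splitAt d i z) 1) =
          powEmb e P (Pi.single z 1) := by
        intro z
        rw [emb, powEmb]
        congr 1
        funext a
        simp [Pi.single_apply]
      rw [pullGram, hs, hs, hΓdef, powGram]
    have hsnd : ∀ (z : Fin t → Fin d) a, (splitAt d i (Function.update z i a)).2 = (splitAt d i z).2 :=
      fun z a => splitAt_snd_eq.2 fun j hj => Function.update_of_ne hj _ _
    intro x y u v
    simp only [hval, Function.update_self, hsnd]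
    ring
  have hu : IsUnit Γ := isUnit_powGram hf
  obtain ⟨u, v, h0⟩ : ∃ u v, Γ u v ≠ 0 := by
    by_contra! h0
    exact hu.ne_zero (Matrix.ext h0)
  let X : Fin t → Md := fun i => Matrix.of fun a b =>
    Γ (Function.update u i a) (Function.update v i b) / Γ u v
  have hprod : ∀ (s : Finset (Fin t)) x y, Γ (s.piecewise x u) (s.piecewise y v) =
      Γ u v * ∏ i ∈ s, X i (x i) (y i) := by
    intro s x y
    induction s using Finset.induction_on with
    | empty => simp
    | @insert i s hi ih =>
      rw [Finset.piecewise_insert, Finset.piecewise_insert, Finset.prod_insert hi]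
      have h := hrel i (Function.update (s.piecewise x u) i (x i))
        (Function.update (s.piecewise y v) i (y i)) u v
      have e1 : Function.update (s.piecewise x u) i (u i) = s.piecewise x u :=
        Function.update_eq_self_iff.2 (Finset.piecewise_eq_of_notMem s x u hi).symm
      have e2 : Function.update (s.piecewise y v) i (v i) = s.piecewise y v :=
        Function.update_eq_self_iff.2 (Finset.piecewise_eq_of_notMem s y v hi).symm
      rw [Function.update_idem, Function.update_idem, e1, e2, ih, Function.update_self,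
        Function.update_self] at h
      rw [show X i (x i) (y i) = Γ (Function.update u i (x i)) (Function.update v i (y i)) / Γ u v from rfl]
      field_simp
      apply mul_right_cancel₀ h0
      linear_combination h
  have hΓ : Γ = Γ u v • kroneckerPow X := by
    ext x y
    simpa [kroneckerPow, Finset.piecewise_univ] using hprod Finset.univ x y
  refine ⟨Γ u v, X, h0, fun i => ?_, hΓ⟩
  rw [Matrix.isUnit_iff_isUnit_det, isUnit_iff_ne_zero]
  intro hdet
  obtain ⟨w, hw0, hw⟩ := Matrix.exists_mulVec_eq_zero_iff.2 hdet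
  obtain ⟨a, ha⟩ := Function.ne_iff.1 hw0
  let N : Md := Matrix.of fun r c => if c = 0 then w r else 0
  have hXN : X i * N = 0 := by
    ext r c
    by_cases hc : c = 0
    · subst hc
      simpa [N, Matrix.mul_apply, Matrix.mulVec, dotProduct] using congrFun hw r
    · simp [N, Matrix.mul_apply, hc]
  have hz : Γ * kroneckerPow (Pi.mulSingle i N) = 0 := by
    rw [hΓ, Matrix.smul_mul, kroneckerPow_mul]
    ext x y
    simp only [Matrix.smul_apply, kroneckerPow, Matrix.of_apply, Matrix.zero_apply]
    rw [Finset.prod_eq_zero (Finset.mem_univ i), smul_zero]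
    rw [Pi.mulSingle_eq_same, hXN]
    rfl
  have hz' := hu.mul_right_eq_zero.1 hz
  have := congrFun (congrFun hz' (Function.update 0 i a)) 0
  simp only [kroneckerPow, Matrix.of_apply, Matrix.zero_apply] at this
  rw [Finset.prod_eq_zero_iff] at this
  obtain ⟨j, -, hj⟩ := this
  by_cases hji : j = i
  · subst hji
    simp [N] at hj
    exact ha hj
  · simp [Pi.mulSingle_eq_of_ne hji, Function.update_of_ne hji] at hj

/-- Factors of a pure tensor are unique up to scalars. -/
theorem kroneckerPow_eq_smul {U V : Fin t → Md} {c : F} (hc : c ≠ 0) (hV : ∀ i, V i ≠ 0)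
    (h : kroneckerPow U = c • kroneckerPow V) : ∀ i, ∃ z : F, z ≠ 0 ∧ U i = z • V i := by
  classical
  have hx : ∀ j, ∃ x y, V j x y ≠ 0 := fun j => by
    by_contra! h0
    exact hV j (Matrix.ext h0)
  choose x y hxy using hx
  have key : ∀ p q : Fin t → Fin d, ∏ j, U j (p j) (q j) = c * ∏ j, V j (p j) (q j) := fun p q => by
    simpa [kroneckerPow] using congrFun (congrFun h p) q
  intro i
  have h0 : ∏ j, U j (x j) (y j) ≠ 0 := by
    rw [key]
    exact mul_ne_zero hc (Finset.prod_ne_zero_iff.2 fun j _ => hxy j)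
  have hrest : ∏ j ∈ Finset.univ.erase i, U j (x j) (y j) ≠ 0 :=
    Finset.prod_ne_zero_iff.2 fun j _ => Finset.prod_ne_zero_iff.1 h0 j (Finset.mem_univ j)
  have hrest' : ∏ j ∈ Finset.univ.erase i, V j (x j) (y j) ≠ 0 :=
    Finset.prod_ne_zero_iff.2 fun j _ => hxy j
  refine ⟨c * (∏ j ∈ Finset.univ.erase i, V j (x j) (y j)) / ∏ j ∈ Finset.univ.erase i, U j (x j) (y j),
    div_ne_zero (mul_ne_zero hc hrest') hrest, ?_⟩
  ext a b
  have := key (Function.update x i a) (Function.update y i b)
  rw [← Finset.mul_prod_erase Finset.univ _ (Finset.mem_univ i),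
    ← Finset.mul_prod_erase Finset.univ _ (Finset.mem_univ i)] at this
  simp only [Function.update_self] at this
  have hupd : ∀ W : Fin t → Md, (∏ j ∈ Finset.univ.erase i,
      W j (Function.update x i a j) (Function.update y i b j)) =
      ∏ j ∈ Finset.univ.erase i, W j (x j) (y j) := fun W => Finset.prod_congr rfl fun j hj => by
    rw [Function.update_of_ne (Finset.mem_erase.1 hj).1, Function.update_of_ne (Finset.mem_erase.1 hj).1]
  rw [hupd, hupd] at this
  rw [Matrix.smul_apply, smul_eq_mul, div_mul_eq_mul_div, eq_div_iff hrest]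
  linear_combination this

/-- Reflexivity passes to the factors. -/
theorem powFactor_refl (hf : RForm σ ε f) {c : F} (hc : c ≠ 0) {X : Fin t → Md} (hX : ∀ i, X i ≠ 0)
    (h : powGram f e P = c • kroneckerPow X) :
    ∀ i, ∃ δ : F, δ * σ δ = 1 ∧ ∀ a b, X i a b = δ * σ (X i b a) := by
  have hε : ε ≠ 0 := fun h0 => (smul_ne_zero hc (fun hk => ?_)) (h.symm.trans
    (show powGram f e P = 0 from Matrix.ext fun p q => by
      rw [powGram_refl hf, h0, zero_mul, Matrix.zero_apply]))
  · intro i
    let V : Fin t → Md := fun i => Matrix.of fun a b => σ (X i b a)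
    have hV : ∀ i, V i ≠ 0 := fun j h0 => hX j (Matrix.ext fun a b =>
      σ.injective (by simpa [V] using congrFun (congrFun h0 b) a))
    have hσc : σ c ≠ 0 := (map_ne_zero σ).2 hc
    have hkey : kroneckerPow X = (ε * σ c / c) • kroneckerPow V := by
      ext p q
      have h1 := powGram_refl hf (e := e) (P := P) p q
      rw [h] at h1
      simp only [Matrix.smul_apply, smul_eq_mul, kroneckerPow, Matrix.of_apply, map_mul, map_prod, V] at h1 ⊢
      field_simp
      linear_combination h1
    obtain ⟨z, hz0, hz⟩ := kroneckerPow_eq_smul (div_ne_zero (mul_ne_zero hε hσc) hc) hV hkey i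
    have hz' : ∀ a b, X i a b = z * σ (X i b a) := fun a b => by
      simpa [V] using congrFun (congrFun hz a) b
    refine ⟨z, ?_, hz'⟩
    obtain ⟨a, b, hab⟩ : ∃ a b, X i a b ≠ 0 := by
      by_contra! h0
      exact hX i (Matrix.ext h0)
    have h2 := hz' a b
    rw [hz' b a, map_mul, hf.invol] at h2
    exact (mul_left_eq_self₀.1 (by linear_combination -h2)).resolve_right hab
  · have hx : ∀ i, ∃ a b, X i a b ≠ 0 := fun i => by
      by_contra! h1
      exact hX i (Matrix.ext h1)
    choose a b hab using hx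
    have := congrFun (congrFun hk a) b
    simp [kroneckerPow, Finset.prod_eq_zero_iff, hab] at this

/-- Changing the basis of every factor. -/
theorem powGram_change (hf : CfsgLib.Aschbacher.IsSesquiForm σ f) {c : F} {X : Fin t → Md}
    (h : powGram f e P = c • kroneckerPow X) (A : Fin t → GL (Fin d) F) :
    ∃ P' : GL ι F, Geo.tensorWreathSubgroup d t e P ≤ Geo.tensorWreathSubgroup d t e P' ∧
      powGram f e P' = c • kroneckerPow fun i => (A i : Md)ᵀ * X i * (A i : Md).map σ := by
  set U := kroneckerPowGL A with hU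
  refine ⟨P * Geo.glReindex e.symm U, ?_, ?_⟩
  · rintro _ ⟨_, ⟨T, hT, rfl⟩, rfl⟩
    have hUm : U ∈ Geo.tensorWreathStandard d t F :=
      Subgroup.subset_closure (Or.inl ⟨A, fun x y => rfl⟩)
    refine ⟨_, ⟨U⁻¹ * T * U, mul_mem (mul_mem (inv_mem hUm) hT) hUm, rfl⟩, ?_⟩
    simp [mul_assoc]
  · have hemb : ∀ x, powEmb e (P * Geo.glReindex e.symm U) x = powEmb e P ((U : Matrix _ _ F) *ᵥ x) := by
      intro x
      rw [powEmb, powEmb, Units.val_mul, ← Matrix.mulVec_mulVec]
      congr 1
      show ((U : Matrix _ _ F).submatrix e e) *ᵥ _ = _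
      rw [Matrix.submatrix_mulVec_equiv, Function.comp_assoc, e.self_comp_symm, Function.comp_id]
    have hkey : powGram f e (P * Geo.glReindex e.symm U) =
        (U : Matrix _ _ F)ᵀ * powGram f e P * (U : Matrix _ _ F).map σ := by
      ext p q
      rw [powGram, hemb, hemb, form_powEmb hf, Geo.formOfGram, Matrix.mul_apply, Finset.sum_comm]
      refine Finset.sum_congr rfl fun a _ => ?_
      rw [Matrix.mul_apply, Finset.sum_mul]
      refine Finset.sum_congr rfl fun b _ => ?_
      simp
    have hmap : (U : Matrix _ _ F).map σ = kroneckerPow fun i => (A i : Md).map σ := by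
      ext p q
      show σ (∏ i : Fin t, _) = _
      rw [map_prod]
      rfl
    rw [hkey, hmap, h, Matrix.mul_smul, Matrix.smul_mul]
    show c • ((kroneckerPow fun i => (A i : Md))ᵀ * _ * _) = _
    rw [kroneckerPow_transpose, kroneckerPow_mul, kroneckerPow_mul]

theorem isTensorPowerFormStructure_of_powGram (hf : CfsgLib.Aschbacher.IsSesquiForm σ f) {c : F} (hc : c ≠ 0)
    {X : Md} (h : powGram f e P = c • kroneckerPow fun _ => X) :
    Geo.IsTensorPowerFormStructure σ f (Geo.formOfGram σ X) e P := by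
  refine ⟨c, hc, fun x y => ?_⟩
  show f (powEmb e P x) (powEmb e P y) = _
  rw [form_powEmb hf, h, gramMatrix_formOfGram, Geo.formOfGram, Finset.mul_sum]
  refine Finset.sum_congr rfl fun p _ => ?_
  rw [Finset.mul_sum]
  refine Finset.sum_congr rfl fun q _ => ?_
  simp [kroneckerPow]
  ring

/-- The elements of the tensor wreath group are pure tensors times permutations. -/
theorem mem_tensorWreath_iff {g : GL ι F} :
    g ∈ Geo.tensorWreathSubgroup d t e P ↔ ∃ (gs : Fin t → GL (Fin d) F) (π : Equiv.Perm (Fin t)),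
      (g : Matrix ι ι F) =
        CfsgLib.Aschbacher.tconj e P (kroneckerPow (fun i => (gs i : Md)) * permPow π) := by
  constructor
  · rintro ⟨_, ⟨T, hT, rfl⟩, rfl⟩
    suffices ∃ (gs : Fin t → GL (Fin d) F) (π : Equiv.Perm (Fin t)),
        T = kroneckerPowGL gs * permPowGL π by
      obtain ⟨gs, π, rfl⟩ := this
      exact ⟨gs, π, rfl⟩
    have hswap : ∀ (π : Equiv.Perm (Fin t)) (gs : Fin t → GL (Fin d) F),
        (permPowGL π : GL (Fin t → Fin d) F) * kroneckerPowGL gs =
          kroneckerPowGL (gs ∘ π.symm) * permPowGL π :=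
      fun π gs => Units.ext (permPow_mul_kroneckerPow π _)
    have hK : ∀ gs hs : Fin t → GL (Fin d) F,
        (kroneckerPowGL gs : GL (Fin t → Fin d) F) * kroneckerPowGL hs = kroneckerPowGL (gs * hs) :=
      fun gs hs => Units.ext (kroneckerPow_mul _ _)
    have hP : ∀ π τ : Equiv.Perm (Fin t),
        (permPowGL π : GL (Fin t → Fin d) F) * permPowGL τ = permPowGL (π * τ) :=
      fun π τ => Units.ext (permPow_mul_permPow _ _)
    have hP1 : (permPowGL 1 : GL (Fin t → Fin d) F) = 1 := Units.ext permPow_one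
    have hK1 : (kroneckerPowGL 1 : GL (Fin t → Fin d) F) = 1 := Units.ext kroneckerPow_one
    induction hT using Subgroup.closure_induction with
    | mem U hU =>
      rcases hU with ⟨gs, hgs⟩ | ⟨π, hπ⟩
      · exact ⟨gs, 1, by rw [hP1, mul_one]; exact Units.ext (Matrix.ext hgs)⟩
      · exact ⟨1, π, by rw [hK1, one_mul]; exact Units.ext (Matrix.ext hπ)⟩
    | one => exact ⟨1, 1, by rw [hK1, hP1, one_mul]⟩
    | mul U V _ _ hU hV =>
      obtain ⟨gs, π, rfl⟩ := hU
      obtain ⟨hs, τ, rfl⟩ := hV
      refine ⟨gs * (hs ∘ π.symm), π * τ, ?_⟩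
      rw [mul_assoc, ← mul_assoc (permPowGL π), hswap, mul_assoc, hP, ← mul_assoc, hK]
    | inv U _ hU =>
      obtain ⟨gs, π, rfl⟩ := hU
      refine ⟨gs⁻¹ ∘ (π⁻¹).symm, π⁻¹, ?_⟩
      rw [_root_.mul_inv_rev, ← hswap]
      congr 1
  · rintro ⟨gs, π, hg⟩
    refine ⟨_, ⟨kroneckerPowGL gs * permPowGL π, mul_mem ?_ ?_, rfl⟩, Units.ext hg.symm⟩ <;>
      apply Subgroup.subset_closure
    · exact Or.inl ⟨gs, fun x y => rfl⟩
    · exact Or.inr ⟨π, fun x y => rfl⟩

/-- A similarity in the tensor wreath group acts on the factors by similarities. -/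
theorem powFactor_similar (hf : CfsgLib.Aschbacher.IsSesquiForm σ f) {c : F} (hc : c ≠ 0) {X : Fin t → Md}
    (hX : ∀ i, X i ≠ 0) (h : powGram f e P = c • kroneckerPow X) {g : GL ι F} {μ : F} (hμ : μ ≠ 0)
    (hg : ∀ u v, f ((g : Matrix ι ι F) *ᵥ u) ((g : Matrix ι ι F) *ᵥ v) = μ * f u v)
    {gs : Fin t → GL (Fin d) F} {π : Equiv.Perm (Fin t)}
    (hgs : (g : Matrix ι ι F) =
      CfsgLib.Aschbacher.tconj e P (kroneckerPow (fun i => (gs i : Md)) * permPow π)) :
    ∀ i, ∃ z : F, z ≠ 0 ∧ (gs i : Md)ᵀ * X i * (gs i : Md).map σ = z • X (π.symm i) := by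
  have h1 := powGram_similar hf hg hgs
  rw [h, smul_smul] at h1
  set K := kroneckerPow (fun i => (gs i : Md)) with hK
  have hmap : (K * (permPow π : Matrix (Fin t → Fin d) _ F)).map σ =
      kroneckerPow (fun i => (gs i : Md).map σ) * permPow π := by
    rw [Matrix.map_mul]
    congr 1
    · ext p q
      show σ (∏ i : Fin t, _) = _
      rw [map_prod]
      rfl
    · ext p q
      simp [permPow, apply_ite σ]
  rw [hmap, transpose_mul, hK, kroneckerPow_transpose, Matrix.mul_smul, Matrix.smul_mul] at h1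
  set W : Fin t → Md := fun i => (gs i : Md)ᵀ * X i * (gs i : Md).map σ with hW
  have h2 : c • ((permPow π)ᵀ * kroneckerPow W * permPow π) = (μ * c) • kroneckerPow X := by
    rw [← h1, hW, ← kroneckerPow_mul, ← kroneckerPow_mul]
    simp only [Matrix.mul_assoc]
  have h3 : kroneckerPow W = μ • kroneckerPow (X ∘ π.symm) := by
    have hinv : (permPow π)ᵀ = (permPow π⁻¹ : Matrix (Fin t → Fin d) (Fin t → Fin d) F) := by
      ext p q
      simp only [permPow, Matrix.transpose_apply, Matrix.of_apply]
      refine if_congr ⟨fun h => ?_, fun h => ?_⟩ rfl rfl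
      · rw [h]; funext j; simp
      · rw [h]; funext j; simp
    have h4 : c • kroneckerPow W = c • (μ • kroneckerPow (X ∘ π.symm)) := by
      have h5 := congrArg (fun M => permPow π * M * (permPow π⁻¹ : Matrix (Fin t → Fin d) _ F)) h2
      simp only [Matrix.mul_smul, Matrix.smul_mul, hinv] at h5
      rw [smul_smul, mul_comm c]
      calc c • kroneckerPow W = c • (permPow π * (permPow π⁻¹ * kroneckerPow W * permPow π) * permPow π⁻¹) := by
            simp only [← Matrix.mul_assoc]
            rw [permPow_mul_permPow, mul_inv_cancel, permPow_one, Matrix.one_mul, Matrix.mul_assoc,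
              permPow_mul_permPow, mul_inv_cancel, permPow_one, Matrix.mul_one]
        _ = (μ * c) • (permPow π * kroneckerPow X * permPow π⁻¹) := h5
        _ = _ := by
            rw [permPow_mul_kroneckerPow, Matrix.mul_assoc, permPow_mul_permPow, mul_inv_cancel, permPow_one,
              Matrix.mul_one]
    exact smul_right_injective _ hc h4
  exact kroneckerPow_eq_smul hμ (fun i => hX _) h3

end CfsgLib.Aschbacher.Forms
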