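import Cfsg.Agent.Eq.Def_GeometricClasses
import Cfsg.Agent.Aschbacher.FormsTensorPower
import Cfsg.Agent.Aschbacher.UnitaryMaximal
import Cfsg.Agent.AutPSL.Herm
import Cfsg.Agent.Aschbacher.SymplecticType

/-!
Tensor powers of the standard hermitian form: a member of the tensor-power class, or, for factors of
dimension two, a subfield group over the fixed field.
-/

set_option autoImplicit false
set_option linter.unusedSectionVars false

namespace CfsgLib.Aschbacher.Unitary

open Cfsg.Geo CfsgLib.AschPrime Matrix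
open scoped MatrixGroups Kronecker

/-- The Gram matrix in tensor coordinates is a product of invertible factors. -/
def IsProductGram {F : Type*} [Field F] {ι : Type} [Fintype ι] [DecidableEq ι] {d t : ℕ}
    (f : (ι → F) → (ι → F) → F) (e : ι ≃ (Fin t → Fin d)) (P : GL ι F) : Prop :=
  ∃ (c : F) (X : Fin t → Matrix (Fin d) (Fin d) F), c ≠ 0 ∧ (∀ i, IsUnit (X i)) ∧
    Forms.powGram f e P = c • kroneckerPow X

variable {F : Type*} [Field F] [Fintype F] {q n d t : ℕ}
variable (hF : Fintype.card F = q ^ 2)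
include hF

/-- All hermitian invertible matrices are congruent. -/
theorem exists_congr {X Y : Matrix (Fin d) (Fin d) F} (hXu : IsUnit X) (hYu : IsUnit Y)
    (hX : ∀ i j, X i j = (X j i) ^ q) (hY : ∀ i j, Y i j = (Y j i) ^ q) :
    ∃ A : GL (Fin d) F, (A : Matrix (Fin d) (Fin d) F)ᵀ * X *
      (A : Matrix (Fin d) (Fin d) F).map (qFrob hF : F ≃+* F).toRingHom = Y := by
  set σ : RingAut F := qFrob hF with hσdef
  have hord : orderOf σ = 2 := by
    refine orderOf_eq_prime (RingEquiv.ext fun x => ?_) fun h => ?_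
    · rw [sq]; exact q_pow_pow hF x
    · obtain ⟨t, ht⟩ := exists_pow_ne_self hF
      exact ht (RingEquiv.congr_fun h t)
  obtain ⟨g, hg⟩ := AutPSL.exists_eq_mul_conjTranspose hord hXu.unit fun i j => (hX i j).symm
  obtain ⟨h, hh⟩ := AutPSL.exists_eq_mul_conjTranspose hord hYu.unit fun i j => (hY i j).symm
  rw [IsUnit.unit_spec] at hg hh
  set M : Matrix (Fin d) (Fin d) F := h.val * (g⁻¹ : GL (Fin d) F).val with hM
  have hMu : IsUnit Mᵀ := (Matrix.isUnit_transpose _).2 (h * g⁻¹).isUnit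
  refine ⟨hMu.unit, ?_⟩
  rw [IsUnit.unit_spec, transpose_transpose, hg, hh]
  have hmap : (Mᵀ).map (qFrob hF : F ≃+* F).toRingHom = (M.map σ)ᵀ := rfl
  have h1 : (g.val.map σ)ᵀ * (M.map σ)ᵀ = (h.val.map σ)ᵀ := by
    rw [← transpose_mul, hM, ← Matrix.map_mul, mul_assoc, Units.inv_mul, mul_one]
  rw [hmap, show M * (g.val * (g.val.map σ)ᵀ) * (M.map σ)ᵀ = M * g.val * ((g.val.map σ)ᵀ * (M.map σ)ᵀ) by
    simp only [Matrix.mul_assoc], h1, hM, mul_assoc h.val, Units.inv_mul, mul_one]

/-- With closed factors the form is a tensor power of any prescribed hermitian form. -/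
theorem exists_standard [NeZero d] {e : Fin n ≃ (Fin t → Fin d)} {P : GL (Fin n) F}
    (hcl : IsProductGram (Cfsg.hermForm n F q) e P) {X₀ : Matrix (Fin d) (Fin d) F}
    (h0u : IsUnit X₀) (h0 : ∀ i j, X₀ i j = (X₀ j i) ^ q) :
    ∃ (c : F) (P' : GL (Fin n) F), c ≠ 0 ∧
      tensorWreathSubgroup d t e P ≤ tensorWreathSubgroup d t e P' ∧
      Forms.powGram (Cfsg.hermForm n F q) e P' = c • kroneckerPow fun _ => X₀ := by
  classical
  have hf := herm_rform (n := n) hF
  set σ := (qFrob hF : F ≃+* F).toRingHom with hσdef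
  obtain ⟨c, X, hc, hX, hΓ⟩ := hcl
  have hδ := Forms.powFactor_refl hf hc (fun i => (hX i).ne_zero) hΓ
  choose δ hδ1 hδ2 using hδ
  have hμ : ∀ i, ∃ z : F, z + δ i * σ z ≠ 0 := by
    intro i
    by_contra! h0
    apply qFrob_ne_id hF
    have h1 : δ i = -1 := by
      have := h0 1
      rw [map_one, mul_one] at this
      exact eq_neg_of_add_eq_zero_right this
    ext z
    have := h0 z
    rw [h1] at this
    simpa [σ] using (eq_of_sub_eq_zero (by linear_combination this : z - σ z = 0)).symm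
  choose z hz using hμ
  let μ : Fin t → F := fun i => σ (z i + δ i * σ (z i))
  have hμ0 : ∀ i, μ i ≠ 0 := fun i => (map_ne_zero σ).2 (hz i)
  have hμh : ∀ i a b, μ i * X i a b = (μ i * X i b a) ^ q := by
    intro i a b
    show _ = σ (μ i * X i b a)
    simp only [μ, map_mul, map_add, hf.invol, hδ2 i a b]
    linear_combination (σ (z i) * δ i * σ (X i b a) - σ (z i) * δ i * σ (X i b a)) * hδ1 i +
      (z i * σ (X i b a)) * hδ1 i
  have hA : ∀ i, ∃ A : GL (Fin d) F, (A : Matrix (Fin d) (Fin d) F)ᵀ * (μ i • X i) *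
      (A : Matrix (Fin d) (Fin d) F).map σ = X₀ := fun i =>
    exists_congr hF (by simpa using (hX i).smul (Units.mk0 (μ i) (hμ0 i))) h0u (hμh i) h0
  choose A hA using hA
  have hΓ' : Forms.powGram (Cfsg.hermForm n F q) e P =
      (c / ∏ i, μ i) • kroneckerPow fun i => μ i • X i := by
    rw [kroneckerPow_smul, smul_smul, div_mul_cancel₀ _ (Finset.prod_ne_zero_iff.2 fun i _ => hμ0 i), hΓ]
  obtain ⟨P', hP', hP''⟩ := Forms.powGram_change hf.sesq hΓ' A
  refine ⟨c / ∏ i, μ i, P', div_ne_zero hc (Finset.prod_ne_zero_iff.2 fun i _ => hμ0 i), hP', ?_⟩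
  rw [hP'']
  simp only [hA]

/-- Factors of dimension two: a subfield group over the fixed field. -/
theorem wreath_two_subfield_data (ht : 0 < t) {e : Fin n ≃ (Fin t → Fin 2)} {P : GL (Fin n) F}
    (hcl : IsProductGram (Cfsg.hermForm n F q) e P) :
    (Odd q ∧ ∃ (F₀ : Subfield F) (P₁ : GL (Fin n) F), Fintype.card F = Nat.card F₀ ^ 2 ∧
        IsFormRationalStructure (Cfsg.hermForm n F q) F₀ 1 P₁ ∧
        tensorWreathSubgroup 2 t e P ⊓ Cfsg.GU n F q ≤ subfieldSubgroup F₀ P₁ ⊓ Cfsg.GU n F q) ∨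
      ∃ (F₀ : Subfield F) (P₁ : GL (Fin n) F) (ζ : F), Fintype.card F = Nat.card F₀ ^ 2 ∧ ζ ≠ 0 ∧
        ζ + ζ ^ q = 0 ∧ IsFormRationalStructure (Cfsg.hermForm n F q) F₀ ζ P₁ ∧
        (∀ u : Fin n → F, (∀ i, u i ∈ F₀) → Cfsg.hermForm n F q
          ((P₁ : Matrix (Fin n) (Fin n) F) *ᵥ u) ((P₁ : Matrix (Fin n) (Fin n) F) *ᵥ u) = 0) ∧
        tensorWreathSubgroup 2 t e P ⊓ Cfsg.GU n F q ≤ subfieldSubgroup F₀ P₁ ⊓ Cfsg.GU n F q := by
  classical
  obtain ⟨s, hs⟩ := exists_pow_ne_self hF
  set ζ : F := s - s ^ q with hζdef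
  have hζ0 : ζ ≠ 0 := sub_ne_zero.2 (Ne.symm hs)
  have hζq : ζ ^ q = -ζ := by rw [hζdef, q_sub_pow hF, q_pow_pow hF]; ring
  set J : Matrix (Fin 2) (Fin 2) F := CfsgLib.Aschbacher.detForm with hJ
  have hJu : IsUnit (ζ • J) := by
    rw [Matrix.isUnit_iff_isUnit_det, isUnit_iff_ne_zero, det_smul]
    refine mul_ne_zero (pow_ne_zero _ hζ0) ?_
    simp [J, detForm, det_fin_two]
  have hJh : ∀ i j, (ζ • J) i j = ((ζ • J) j i) ^ q := by
    intro i j
    have h0 : (0 : F) ^ q = 0 := zero_pow (q_pos hF).ne'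
    fin_cases i <;> fin_cases j <;> simp [J, detForm, hζq, h0, q_neg_pow hF]
  obtain ⟨c, P', hc, hle, hΓ⟩ := exists_standard hF hcl hJu hJh
  have hf := herm_rform (n := n) hF
  set σ := (qFrob hF : F ≃+* F).toRingHom with hσdef
  set F₀ := fixedField hF
  have hcardF : Fintype.card F = Nat.card F₀ ^ 2 := by rw [card_fixedField hF, hF]
  -- the group is inside the subfield group
  have hsub : tensorWreathSubgroup 2 t e P ⊓ Cfsg.GU n F q ≤ subfieldSubgroup F₀ P' ⊓ Cfsg.GU n F q := by
    rintro g ⟨hgw, hgU⟩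
    refine ⟨?_, hgU⟩
    obtain ⟨gs, π, hgs⟩ := Forms.mem_tensorWreath_iff.1 (hle hgw)
    have hsim := Forms.powFactor_similar hf.sesq hc (fun _ => hJu.ne_zero) hΓ one_ne_zero
      (fun u v => by rw [one_mul]; exact hgU u v) hgs
    have hrat : ∀ i, ∃ (a : F) (B : Matrix (Fin 2) (Fin 2) F₀), a ≠ 0 ∧
        (gs i : Matrix (Fin 2) (Fin 2) F) = a • B.map F₀.subtype := by
      intro i
      obtain ⟨z, hz0, hz⟩ := hsim i
      set G : Matrix (Fin 2) (Fin 2) F := (gs i : Matrix (Fin 2) (Fin 2) F) with hG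
      have hz' : Gᵀ * J * G.map σ = z • J := by
        rw [Matrix.mul_smul, Matrix.smul_mul, smul_comm z ζ] at hz
        exact smul_right_injective _ hζ0 hz
      have hdet : Gᵀ * J * G = G.det • J := CfsgLib.Aschbacher.transpose_mul_detForm_mul G
      have hGd : G.det ≠ 0 := ((Matrix.isUnit_iff_isUnit_det _).1 (gs i).isUnit).ne_zero
      have hGJ : IsUnit (Gᵀ * J) := by
        refine ((Matrix.isUnit_transpose _).2 (gs i).isUnit).mul ?_
        rw [Matrix.isUnit_iff_isUnit_det, isUnit_iff_ne_zero]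
        simp [J, detForm, det_fin_two]
      have hconj : G.map σ = (z / G.det) • G := by
        refine hGJ.mul_right_injective ?_
        show Gᵀ * J * G.map σ = Gᵀ * J * ((z / G.det) • G)
        rw [hz', Matrix.mul_smul, hdet, smul_smul, div_mul_cancel₀ z hGd]
      obtain ⟨a, b, hab⟩ : ∃ a b, G a b ≠ 0 := by
        by_contra! h0
        exact (gs i).isUnit.ne_zero (Matrix.ext h0)
      have hent : ∀ x y, G x y ^ q = z / G.det * G x y := fun x y => congrFun (congrFun hconj x) y
      refine ⟨G a b, Matrix.of fun x y => ⟨G x y / G a b, ?_⟩, hab, ?_⟩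
      · rw [mem_fixedField hF, div_pow, hent, hent, mul_div_mul_left _ _ (div_ne_zero hz0 hGd)]
      · ext x y
        simp [mul_div_cancel₀ _ hab]
    choose a B ha hB using hrat
    let K : Matrix (Fin n) (Fin n) F₀ :=
      (kroneckerPow B * (permPow π : Matrix (Fin t → Fin 2) (Fin t → Fin 2) F₀)).submatrix e e
    have hK : (kroneckerPow (fun i => (gs i : Matrix (Fin 2) (Fin 2) F)) * permPow π).submatrix e e =
        (∏ i, a i) • K.map F₀.subtype := by
      simp only [hB, kroneckerPow_smul, Matrix.smul_mul]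
      rw [Matrix.submatrix_smul, Pi.smul_apply, Pi.smul_apply]
      congr 1
      show _ = ((kroneckerPow B * permPow π).map F₀.subtype).submatrix e e
      rw [Matrix.map_mul]
      congr 2
      · ext p q; simp [kroneckerPow, map_prod]
      · ext p q
        simp only [permPow, Matrix.map_apply, Matrix.of_apply]
        split_ifs <;> simp
    have hprod : (∏ i, a i) ≠ 0 := Finset.prod_ne_zero_iff.2 fun i _ => ha i
    let X : GL (Fin n) F := P'⁻¹ * g * P'
    have hX : (X : Matrix (Fin n) (Fin n) F) = (∏ i, a i) • K.map F₀.subtype := by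
      rw [← hK, show (X : Matrix (Fin n) (Fin n) F) =
        (P'⁻¹ : GL (Fin n) F).val * (g : Matrix (Fin n) (Fin n) F) * P'.val by simp [X], hgs,
        CfsgLib.Aschbacher.tconj_apply]
      simp [← mul_assoc]
    have hKdet : K.det ≠ 0 := by
      intro h0
      have h1 := RingHom.map_det F₀.subtype K
      rw [h0, map_zero, RingHom.mapMatrix_apply] at h1
      apply ((Matrix.isUnit_iff_isUnit_det _).1 X.isUnit).ne_zero
      rw [hX, det_smul, ← h1, mul_zero]
    refine Subgroup.mem_map.2 ⟨X, ?_, by simp [X, mul_assoc]⟩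
    have hXeq : X = GeneralLinearGroup.map (F₀.subtype : F₀ →+* F) (GeneralLinearGroup.mkOfDetNeZero K hKdet) *
        scalarGL (Units.mk0 _ hprod) := by
      refine Units.ext ?_
      rw [hX]
      show _ = (K.map F₀.subtype) * (scalarGL (Units.mk0 _ hprod)).val
      rw [scalarGL_val, Matrix.mul_smul, Matrix.mul_one, Units.val_mk0]
    rw [hXeq]
    exact mul_mem (Subgroup.mem_sup_left ⟨_, rfl⟩) (Subgroup.mem_sup_right (scalarGL_mem _))
  -- the subfield structure
  set Jt : Matrix (Fin t → Fin 2) (Fin t → Fin 2) F := kroneckerPow fun _ => J with hJt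
  set a : F := c * ζ ^ t with ha
  have hΓa : Forms.powGram (Cfsg.hermForm n F q) e P' = a • Jt := by
    rw [hΓ, kroneckerPow_smul, Finset.prod_const, Finset.card_univ, Fintype.card_fin, smul_smul]
  have ha0 : a ≠ 0 := mul_ne_zero hc (pow_ne_zero _ hζ0)
  have hJswap : ∀ x y, Jt y x = (-1) ^ t * Jt x y := by
    intro x y
    simp only [Jt, kroneckerPow, Matrix.of_apply]
    rw [show (-1 : F) ^ t = ∏ _i : Fin t, (-1 : F) by simp, ← Finset.prod_mul_distrib]
    refine Finset.prod_congr rfl fun i _ => ?_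
    generalize x i = u, y i = v
    fin_cases u <;> fin_cases v <;> simp [J, detForm]
  have hJF : ∀ x y, Jt x y ∈ F₀ := by
    intro x y
    simp only [Jt, kroneckerPow, Matrix.of_apply]
    refine prod_mem fun i _ => ?_
    generalize x i = u, y i = v
    fin_cases u <;> fin_cases v <;> simp [J, detForm]
  have haq : a ^ q = (-1) ^ t * a := by
    obtain ⟨x, y, hxy⟩ : ∃ x y, Jt x y ≠ 0 := by
      refine ⟨fun _ => 0, fun _ => 1, ?_⟩
      simp [Jt, kroneckerPow, J, detForm]
    have h1 := Forms.powGram_refl hf (e := e) (P := P') x y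
    rw [hΓa] at h1
    replace h1 : a * Jt x y = 1 * (a * Jt y x) ^ q := h1
    rw [one_mul, mul_pow, (mem_fixedField hF).1 (hJF y x)] at h1
    rw [hJswap x y] at h1
    have h2 : ((-1 : F) ^ t) * ((-1) ^ t) = 1 := by rw [← mul_pow]; simp
    apply mul_right_cancel₀ hxy
    linear_combination (-1 : F) ^ t * (-1) * h1 - a ^ q * Jt x y * h2
  have hform : ∀ u v : Fin n → F, Cfsg.hermForm n F q (P'.val *ᵥ u) (P'.val *ᵥ v) =
      a * ∑ x, ∑ y, u (e.symm x) * Jt x y * v (e.symm y) ^ q := by
    intro u v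
    have := Forms.form_powEmb hf.sesq (e := e) (P := P') (u ∘ e.symm) (v ∘ e.symm)
    rw [hΓa] at this
    simp only [Forms.powEmb, Function.comp_assoc, e.symm_comp_self, Function.comp_id] at this
    rw [this, formOfGram, Finset.mul_sum]
    refine Finset.sum_congr rfl fun x _ => ?_
    rw [Finset.mul_sum]
    refine Finset.sum_congr rfl fun y _ => ?_
    simp only [Matrix.smul_apply, smul_eq_mul, Function.comp_apply]
    show _ * σ _ = _
    rw [show σ (v (e.symm y)) = v (e.symm y) ^ q from rfl]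
    ring
  have hsum : ∀ u v : Fin n → F, (∀ i, u i ∈ F₀) → (∀ i, v i ∈ F₀) →
      ∑ x, ∑ y, u (e.symm x) * Jt x y * v (e.symm y) ^ q ∈ F₀ := fun u v hu hv =>
    sum_mem fun x _ => sum_mem fun y _ => mul_mem (mul_mem (hu _) (hJF x y)) (pow_mem (hv _) q)
  rcases (neg_one_pow_eq_or F t) with hpos | hneg
  · by_cases hq : Odd q
    · refine Or.inl ⟨hq, F₀, P', hcardF, fun u v hu hv => ?_, hsub⟩
      rw [one_mul, hform]
      exact mul_mem ((mem_fixedField hF).2 (by rw [haq, hpos, one_mul])) (hsum u v hu hv)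
    · have h2 : (2 : F) = 0 := by
        by_contra h2
        have := CfsgLib.Aschbacher.odd_card_of_two_ne_zero h2
        rw [hF, Nat.odd_pow_iff two_ne_zero] at this
        exact hq this
      have hm1 : (-1 : F) = 1 := by linear_combination -h2
      have hζF : ζ ∈ F₀ := (mem_fixedField hF).2 (by rw [hζq, ← neg_one_mul, hm1, one_mul])
      refine Or.inr ⟨F₀, P', ζ, hcardF, hζ0, ?_, fun u v hu hv => ?_, fun u hu => ?_, hsub⟩
      · rw [hζq]; ring
      · rw [hform]
        exact mul_mem hζF (mul_mem ((mem_fixedField hF).2 (by rw [haq, hpos, one_mul])) (hsum u v hu hv))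
      · rw [hform, mul_eq_zero]
        right
        have hswap : ∀ x y, Jt y x = Jt x y := fun x y => by rw [hJswap, hpos, one_mul]
        rw [← Finset.sum_product']
        refine Finset.sum_involution (fun p _ => (p.2, p.1)) (fun p _ => ?_) (fun p _ hp => ?_)
          (fun p _ => by simp) (fun p _ => rfl)
        · rw [hswap p.1 p.2, (mem_fixedField hF).1 (hu _), (mem_fixedField hF).1 (hu _)]
          linear_combination (u (e.symm p.1) * Jt p.1 p.2 * u (e.symm p.2)) * h2
        · intro hpp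
          apply hp
          have : p.1 = p.2 := (congrArg Prod.fst hpp).symm
          rw [this]
          have h0 : Jt p.2 p.2 = 0 := by
            simp only [Jt, kroneckerPow, Matrix.of_apply]
            exact Finset.prod_eq_zero (Finset.mem_univ (⟨0, ht⟩ : Fin t)) (by
              generalize p.2 ⟨0, ht⟩ = z
              fin_cases z <;> simp [J, detForm])
          rw [h0]; ring
  · refine Or.inr ⟨F₀, P', ζ, hcardF, hζ0, ?_, fun u v hu hv => ?_, fun u hu => ?_, hsub⟩
    · rw [hζq]; ring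
    · rw [hform, ← mul_assoc]
      exact mul_mem ((mem_fixedField hF).2 (by rw [mul_pow, hζq, haq, hneg]; ring)) (hsum u v hu hv)
    · rw [hform, mul_eq_zero]
      right
      have hswap : ∀ x y, Jt y x = - Jt x y := fun x y => by rw [hJswap, hneg, neg_one_mul]
      rw [← Finset.sum_product']
      refine Finset.sum_involution (fun p _ => (p.2, p.1)) (fun p _ => ?_) (fun p _ hp => ?_)
        (fun p _ => by simp) (fun p _ => rfl)
      · rw [hswap p.1 p.2, (mem_fixedField hF).1 (hu _), (mem_fixedField hF).1 (hu _)]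
        ring
      · intro hpp
        apply hp
        have : p.1 = p.2 := (congrArg Prod.fst hpp).symm
        rw [this]
        have h0 : Jt p.2 p.2 = 0 := by
          simp only [Jt, kroneckerPow, Matrix.of_apply]
          exact Finset.prod_eq_zero (Finset.mem_univ (⟨0, ht⟩ : Fin t)) (by
            generalize p.2 ⟨0, ht⟩ = z
            fin_cases z <;> simp [J, detForm])
        rw [h0]; ring

/-- Factors of dimension two: containment in a member of the partial class. -/
theorem wreath_two_subfield (ht : 0 < t) {e : Fin n ≃ (Fin t → Fin 2)} {P : GL (Fin n) F}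
    (hcl : IsProductGram (Cfsg.hermForm n F q) e P) :
    ∃ M, InUnitaryPartialClass n F q M ∧ tensorWreathSubgroup 2 t e P ⊓ Cfsg.GU n F q ≤ M := by
  rcases wreath_two_subfield_data hF ht hcl with
    ⟨hq, F₀, P₁, hc, hr, hle⟩ | ⟨F₀, P₁, ζ, hc, hz, htr, hr, hvan, hle⟩
  · refine ⟨_, ?_, hle⟩
    unfold InUnitaryPartialClass
    exact .inr <| .inr <| .inr <| .inr <| .inr <| .inl ⟨F₀, P₁, hq, hc, hr, rfl⟩
  · refine ⟨_, ?_, hle⟩
    unfold InUnitaryPartialClass
    refine .inr <| .inr <| .inr <| .inr <| .inr <| .inr <| .inl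
      ⟨F₀, P₁, ζ, ?_, hc, hz, htr, hr, hvan, rfl⟩
    rw [show n = 2 ^ t by simpa using Fintype.card_congr e]
    exact Nat.even_pow.2 ⟨even_two, by omega⟩

/-- A member of the tensor-power class. -/
theorem wreath_member [NeZero d] (hd : 3 ≤ d) (ht : 2 ≤ t) (hex : ¬ (q = 2 ∧ d = 3))
    {e : Fin n ≃ (Fin t → Fin d)} {P : GL (Fin n) F}
    (hcl : IsProductGram (Cfsg.hermForm n F q) e P) :
    ∃ M, InUnitaryClass n F q M ∧ tensorWreathSubgroup d t e P ⊓ Cfsg.GU n F q ≤ M := by
  have h1 : ∀ i j, (1 : Matrix (Fin d) (Fin d) F) i j = ((1 : Matrix (Fin d) (Fin d) F) j i) ^ q := by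
    intro i j
    by_cases h : i = j
    · subst h; simp
    · simp [h, Ne.symm h, zero_pow (q_pos hF).ne']
  obtain ⟨c, P', hc, hle, hΓ⟩ := exists_standard hF hcl isUnit_one h1
  have hf := herm_rform (n := n) hF
  refine ⟨_, ?_, inf_le_inf hle le_rfl⟩
  unfold InUnitaryClass
  refine .inr <| .inr <| .inr ⟨d, t, e, P', _, hd, ht, hex, ?_,
    Forms.isTensorPowerFormStructure_of_powGram hf.sesq hc hΓ, rfl⟩
  set σ := (qFrob hF : F ≃+* F).toRingHom with hσdef
  have hs := Forms.isSesquiForm_formOfGram σ (1 : Matrix (Fin d) (Fin d) F)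
  have h2 : ∀ i j, (1 : Matrix (Fin d) (Fin d) F) i j = (1 : F) * σ ((1 : Matrix (Fin d) (Fin d) F) j i) :=
    fun i j => by rw [one_mul]; exact h1 i j
  exact ⟨hs.add_left, hs.smul_left,
    fun v w => (Forms.formOfGram_refl σ (q_pow_pow hF) h2 v w).trans (one_mul _),
    Forms.nondegenerate_formOfGram σ (q_pow_pow hF) one_ne_zero h2 isUnit_one⟩

end CfsgLib.Aschbacher.Unitary
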