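import Cfsg.Agent.Eq.Def_GeometricClasses
import Cfsg.Agent.Aschbacher.UnitaryTensorPower
import Cfsg.Agent.Aschbacher.SquareTwo

/-!
Over the field with four elements the tensor powers of the three-dimensional unitary group normalise a
symplectic-type group of exponent three.
-/

set_option autoImplicit false
set_option linter.unusedSectionVars false

namespace CfsgLib.Aschbacher.Hessian

open Matrix CfsgLib.Aschbacher CfsgLib.AschPrime
open scoped MatrixGroups

/-- In a group of exponent three whose commutators are central powers of `z`, a characteristic abelian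
subgroup is central. -/
theorem le_center_of_characteristic {G : Type*} [Group G] [Finite G] (hexp : ∀ g : G, g ^ 3 = 1) (z : G)
    (hz : ∀ g, g * z = z * g) (hcomm : ∀ g h : G, ∃ n : ℤ, g * h = z ^ n * (h * g))
    (A : Subgroup G) (hA : A.Characteristic) (hAc : IsMulCommutative A) : A ≤ Subgroup.center G := by
  intro a ha
  rw [Subgroup.mem_center_iff]
  intro x
  have hmod : ∀ (g : G) (m k : ℤ), g ^ m = g ^ (m + 3 * k) := fun g m k => by
    rw [_root_.zpow_add, _root_.zpow_mul, show (g : G) ^ (3 : ℤ) = 1 by rw [← hexp g]; norm_cast, _root_.one_zpow, mul_one]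
  choose n hn using fun g => hcomm g x
  by_cases hz1 : z = 1
  · have := hn a
    rw [hz1, _root_.one_zpow, one_mul] at this
    exact this.symm
  have hzord : ∀ m : ℤ, z ^ m = 1 ↔ (3 : ℤ) ∣ m := by
    intro m
    rw [← orderOf_dvd_iff_zpow_eq_one, orderOf_eq_prime (p := 3) (hexp z) hz1]
    norm_num
  have hzc : ∀ (m : ℤ) (g : G), Commute (z ^ m) g := fun m g => Commute.zpow_left (hz g).symm m
  -- commutation with powers of `x`
  have hpow : ∀ (g : G) (m : ℤ), g * x ^ m = z ^ (n g * m) * (x ^ m * g) := by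
    intro g m
    have h1 : g * x * g⁻¹ = z ^ n g * x := by rw [hn g]; group
    have h2 : (g * x * g⁻¹) ^ m = g * x ^ m * g⁻¹ := conj_zpow
    rw [h1, (hzc _ x).mul_zpow, ← _root_.zpow_mul] at h2
    rw [← mul_assoc, h2]
    group
  have hnadd : ∀ g h, (3 : ℤ) ∣ n (g * h) - (n g + n h) := by
    intro g h
    rw [← hzord]
    have h1 : z ^ n (g * h) * (x * (g * h)) = z ^ (n g + n h) * (x * (g * h)) := by
      rw [← hn, mul_assoc g h x, hn h, ← mul_assoc g, ← (hzc _ g).eq, mul_assoc _ g, ← mul_assoc g x h,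
        hn g, _root_.zpow_add, (hzc (n g) (z ^ n h)).eq]
      group
    have h2 := mul_right_cancel h1
    rw [_root_.zpow_sub, h2, mul_inv_cancel]
  let ψ : G → G := fun g => g * x ^ n g * z ^ (n g * n g)
  have hψmul : ∀ g h, ψ (g * h) = ψ g * ψ h := by
    intro g h
    obtain ⟨k, hk⟩ := hnadd g h
    have e1 : x ^ n (g * h) = x ^ (n g + n h) := by
      rw [show n (g * h) = n g + n h + 3 * k by omega]; exact (hmod _ _ _).symm
    have e2 : z ^ (n (g * h) * n (g * h)) = z ^ (n g * n g + n h * n h - n g * n h) := by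
      rw [show n (g * h) = n g + n h + 3 * k by omega]
      have : (n g + n h + 3 * k) * (n g + n h + 3 * k) = (n g * n g + n h * n h - n g * n h) +
          3 * (n g * n h + 2 * k * (n g + n h) + 3 * k * k) := by ring
      rw [this]; exact (hmod _ _ _).symm
    have e3 : x ^ n g * h = z ^ (-(n h * n g)) * (h * x ^ n g) := by
      rw [hpow h (n g), ← mul_assoc, ← _root_.zpow_add, neg_add_cancel, zpow_zero, one_mul]
    show g * h * x ^ n (g * h) * z ^ (n (g * h) * n (g * h)) = g * x ^ n g * z ^ (n g * n g) *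
      (h * x ^ n h * z ^ (n h * n h))
    symm
    calc g * x ^ n g * z ^ (n g * n g) * (h * x ^ n h * z ^ (n h * n h))
        = g * (x ^ n g * h) * x ^ n h * (z ^ (n g * n g) * z ^ (n h * n h)) := by
          simp only [mul_assoc]
          congr 2
          rw [← mul_assoc (z ^ (n g * n g)), (hzc (n g * n g) h).eq, mul_assoc h]
          congr 1
          rw [← mul_assoc (z ^ (n g * n g)), (hzc (n g * n g) (x ^ n h)).eq, mul_assoc]
      _ = z ^ (-(n h * n g)) * (g * h * (x ^ n g * x ^ n h)) * (z ^ (n g * n g) * z ^ (n h * n h)) := by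
          rw [e3, ← mul_assoc g, ← (hzc _ g).eq]
          simp only [mul_assoc]
      _ = g * h * x ^ (n g + n h) * (z ^ (-(n h * n g)) * (z ^ (n g * n g) * z ^ (n h * n h))) := by
          rw [(hzc (-(n h * n g)) _).eq, ← _root_.zpow_add]
          simp only [mul_assoc]
      _ = _ := by
          rw [e1, e2, ← _root_.zpow_add, ← _root_.zpow_add]
          congr 2
          ring
  have hinj : Function.Injective ψ := by
    intro g h hgh
    let φ : G →* G := MonoidHom.mk' ψ hψmul
    have h1 : φ (g * h⁻¹) = 1 := by rw [map_mul, map_inv]; exact mul_inv_eq_one.2 hgh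
    set y := g * h⁻¹
    have h2 : y * x ^ n y * z ^ (n y * n y) = 1 := h1
    rcases (show (3 : ℤ) ∣ n y ∨ ¬ (3 : ℤ) ∣ n y from em _) with ⟨k, hk⟩ | hnd
    · have hx1 : x ^ n y = 1 := by
        rw [show n y = 0 + 3 * k by omega, ← hmod, zpow_zero]
      have hz2 : z ^ (n y * n y) = 1 := (hzord _).2 ⟨k * n y, by rw [hk]; ring⟩
      rw [hx1, hz2, mul_one, mul_one] at h2
      exact mul_inv_eq_one.1 h2
    · exfalso
      apply hnd
      rw [← hzord]
      have hy : y = (x ^ n y * z ^ (n y * n y))⁻¹ := eq_inv_of_mul_eq_one_left (by rw [← mul_assoc]; exact h2)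
      have hcx : y * x = x * y := by
        rw [hy]
        exact ((((Commute.refl x).zpow_left (n y)).mul_left (hzc _ x)).inv_left).eq
      have h3 := hn y
      rw [hcx] at h3
      exact (mul_eq_right.1 h3.symm)
  let φ : G ≃* G := MulEquiv.ofBijective (MonoidHom.mk' ψ hψmul) ⟨hinj, Finite.injective_iff_surjective.1 hinj⟩
  have hψa : ψ a ∈ A := by
    have := (hA.fixed φ).symm ▸ ha
    exact Subgroup.mem_comap.1 this
  have hac : Commute a (x ^ n a) := by
    have h1 : Commute a (ψ a) := congrArg (fun t : A => (t : G))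
      (hAc.is_comm.comm (⟨a, ha⟩ : A) ⟨ψ a, hψa⟩)
    have h2 : x ^ n a = a⁻¹ * ψ a * (z ^ (n a * n a))⁻¹ := by simp only [ψ]; group
    rw [h2]
    exact (((Commute.refl a).inv_right).mul_right h1).mul_right (hzc _ a).symm.inv_right
  by_cases hd : (3 : ℤ) ∣ n a
  · have := hn a
    rw [(hzord _).2 hd, one_mul] at this
    exact this.symm
  · have hx : x = (x ^ n a) ^ n a := by
      rw [← _root_.zpow_mul]
      have : (n a * n a - 1) % 3 = 0 := by
        have h3 : n a % 3 = 1 ∨ n a % 3 = 2 := by omega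
        rcases h3 with h | h <;> simp [Int.sub_emod, Int.mul_emod, h]
      obtain ⟨k, hk⟩ := Int.dvd_of_emod_eq_zero this
      rw [show n a * n a = 1 + 3 * k by omega, ← hmod, zpow_one]
    rw [hx]
    exact (hac.zpow_right _).eq.symm

variable {F : Type*} [Field F] {t : ℕ}

open SquareTwo in
/-- A product of elements of the group of order 27 in the factors. -/
def word (ω : F) (v : Fin t → Fin 3 × Fin 3) : Matrix (Fin t → Fin 3) (Fin t → Fin 3) F :=
  kroneckerPow fun i => E ω (v i).1 (v i).2

variable {ω : F} (hω : SquareTwo.IsCube ω)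
include hω

open SquareTwo in
theorem word_mul (v w : Fin t → Fin 3 × Fin 3) :
    ∃ z : F, z ≠ 0 ∧ word ω v * word ω w = z • word ω (v + w) := by
  refine ⟨∏ i, wp ω ((v i).2 * (w i).1), Finset.prod_ne_zero_iff.2 fun i _ => wp_ne_zero hω _, ?_⟩
  rw [word, word, kroneckerPow_mul]
  simp only [E_mul hω]
  rw [kroneckerPow_smul]
  rfl

open SquareTwo in
theorem word_zero : word ω (0 : Fin t → Fin 3 × Fin 3) = 1 := by
  rw [word]
  simp only [Pi.zero_apply, Prod.fst_zero, Prod.snd_zero, E_zero hω]
  exact kroneckerPow_one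

open SquareTwo in
theorem word_cube (v : Fin t → Fin 3 × Fin 3) : word ω v * word ω v * word ω v = 1 := by
  rw [word, kroneckerPow_mul, kroneckerPow_mul, ← kroneckerPow_one]
  congr 1
  funext i
  rw [E_mul hω, Matrix.smul_mul, E_mul hω, smul_smul, ← wp_add hω]
  have : ∀ k s : Fin 3, s * k + (s + s) * k = 0 ∧ k + k + k = 0 ∧ s + s + s = 0 := by decide
  obtain ⟨h1, h2, h3⟩ := this (v i).1 (v i).2
  rw [h1, h2, h3, wp_zero hω, one_smul, E_zero hω]

open SquareTwo in
theorem word_comm (v w : Fin t → Fin 3 × Fin 3) :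
    ∃ z : F, z ≠ 0 ∧ word ω v * word ω w = z • (word ω w * word ω v) := by
  obtain ⟨z, hz, h⟩ := word_mul hω v w
  obtain ⟨z', hz', h'⟩ := word_mul hω w v
  refine ⟨z / z', div_ne_zero hz hz', ?_⟩
  rw [h, h', smul_smul, div_mul_cancel₀ z hz', add_comm]

open SquareTwo in
theorem single_eq_sum (a b : Fin 3) :
    Matrix.single a b (1 : F) = ∑ s : Fin 3, wp ω (-(s * b)) • E ω (a - b) s := by
  ext i j
  simp only [Matrix.sum_apply, Matrix.smul_apply, E, Matrix.of_apply, smul_eq_mul]
  by_cases h : i = j + (a - b)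
  · simp only [if_pos h, ← wp_add hω]
    have e : ∀ s : Fin 3, -(s * b) + s * j = s * (j - b) := by
      have : ∀ s b j : Fin 3, -(s * b) + s * j = s * (j - b) := by decide
      exact fun s => this s b j
    simp only [e, sum_wp hω, sub_eq_zero, Matrix.single_apply]
    subst h
    by_cases hj : j = b
    · subst hj; simp
    · simp [hj, Ne.symm hj]
  · simp only [if_neg h, mul_zero, Finset.sum_const_zero, Matrix.single_apply]
    rw [if_neg]
    rintro ⟨rfl, rfl⟩
    exact h (by simp)

open SquareTwo in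
theorem transpose_mul_map {σ : F →+* F} (hσ : ∀ x, σ x = x ^ 2) {A : Matrix (Fin 3) (Fin 3) F} :
    IsIso A ↔ Aᵀ * A.map σ = 1 := by
  have hf : ∀ u v : Fin 3 → F, f3 (A *ᵥ u) (A *ᵥ v) = u ⬝ᵥ (Aᵀ * A.map σ) *ᵥ (fun c => σ (v c)) := by
    intro u v
    rw [← Matrix.mulVec_mulVec, Matrix.dotProduct_mulVec u Aᵀ, Matrix.vecMul_transpose]
    simp only [f3, dotProduct]
    refine Finset.sum_congr rfl fun i _ => ?_
    congr 1
    rw [← hσ]
    exact RingHom.map_mulVec σ A v i
  constructor
  · intro h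
    ext i j
    have := h (Pi.single i 1) (Pi.single j 1)
    rw [hf] at this
    have hs : (fun c => σ ((Pi.single j (1 : F) : Fin 3 → F) c)) = Pi.single j 1 := by
      funext c; simp [Pi.single_apply, apply_ite σ]
    rw [hs, Matrix.mulVec_single_one, single_dotProduct, one_mul] at this
    rw [Matrix.col_apply] at this
    rw [this, f3, Finset.sum_eq_single i]
    · by_cases hij : i = j
      · subst hij; simp
      · simp [hij, Ne.symm hij]
    · intro c _ hc; simp [hc]
    · simp
  · intro h u v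
    rw [hf, h, Matrix.one_mulVec]
    simp [f3, dotProduct, hσ]

end CfsgLib.Aschbacher.Hessian

namespace CfsgLib.Aschbacher.Unitary

open Cfsg.Geo CfsgLib.AschPrime Matrix SquareTwo Hessian
open scoped MatrixGroups

variable {F : Type*} [Field F] [Fintype F] {q n t : ℕ}
variable (hF : Fintype.card F = q ^ 2)
include hF

/-- Three-dimensional factors over the field with four elements: a symplectic-type member. -/
theorem wreath_hessian (hq : q = 2) (ht : 1 ≤ t) {e : Fin n ≃ (Fin t → Fin 3)} {P : GL (Fin n) F}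
    (hcl : IsProductGram (Cfsg.hermForm n F q) e P) :
    ∃ M, InUnitaryPartialClass n F q M ∧ tensorWreathSubgroup 3 t e P ⊓ Cfsg.GU n F q ≤ M := by
  classical
  have h4 : Fintype.card F = 4 := by rw [hF, hq]; norm_num
  obtain ⟨ω, hω⟩ := exists_isCube h4
  have h1 : ∀ i j, (1 : Matrix (Fin 3) (Fin 3) F) i j = ((1 : Matrix (Fin 3) (Fin 3) F) j i) ^ q := by
    intro i j
    by_cases h : i = j
    · subst h; simp
    · simp [h, Ne.symm h, zero_pow (q_pos hF).ne']
  obtain ⟨c, P', hc, hle, hΓ⟩ := exists_standard hF hcl isUnit_one h1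
  have hf := herm_rform (n := n) hF
  set σ := (qFrob hF : F ≃+* F).toRingHom with hσdef
  have hσ2 : ∀ x, σ x = x ^ 2 := fun x => by subst hq; rfl
  have : Nonempty (Fin n) := ⟨e.symm fun _ => 0⟩
  set Sc := scalars (Fin n) F
  let R : Subgroup (GL (Fin n) F) :=
    { carrier := {g | ∃ (z : F) (v : Fin t → Fin 3 × Fin 3), z ≠ 0 ∧
          g.val = tconj e P' (z • word ω v)}
      one_mem' := ⟨1, 0, one_ne_zero, by rw [word_zero hω, one_smul, map_one, Units.val_one]⟩
      mul_mem' := by
        rintro a b ⟨z, v, hz, hv⟩ ⟨z', v', hz', hv'⟩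
        obtain ⟨y, hy, h⟩ := word_mul hω v v'
        refine ⟨z * z' * y, v + v', mul_ne_zero (mul_ne_zero hz hz') hy, ?_⟩
        rw [Units.val_mul, hv, hv', ← map_mul, Matrix.smul_mul, Matrix.mul_smul, h, smul_smul, smul_smul,
          mul_assoc]
      inv_mem' := by
        rintro a ⟨z, v, hz, hv⟩
        obtain ⟨y, hy, h⟩ := word_mul hω v v
        refine ⟨z * z * y, v + v, mul_ne_zero (mul_ne_zero hz hz) hy, ?_⟩
        refine Units.inv_eq_of_mul_eq_one_right ?_
        rw [hv, ← map_mul, show z * z * y = (z * z) * y from rfl, ← smul_smul (z * z) y, ← h,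
          Matrix.smul_mul, Matrix.mul_smul, smul_smul, ← mul_assoc (word ω v), word_cube hω,
          show z * (z * z) = z ^ 3 by ring, hω.cube z hz, one_smul, map_one] }
  have hR : ∀ {g : GL (Fin n) F}, g ∈ R ↔ ∃ (z : F) (v : Fin t → Fin 3 × Fin 3), z ≠ 0 ∧
      g.val = tconj e P' (z • word ω v) := Iff.rfl
  have hcube : ∀ g ∈ R, g ^ 3 = 1 := by
    rintro g ⟨z, v, hz, hv⟩
    refine Units.ext ?_
    rw [pow_three', Units.val_mul, Units.val_mul, hv, ← map_mul, ← map_mul]
    simp only [Matrix.smul_mul, Matrix.mul_smul, word_cube hω, smul_smul]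
    rw [show z * (z * z) = z ^ 3 by ring, hω.cube z hz, one_smul, map_one, Units.val_one]
  have hscR : Sc ≤ R := by
    intro g hg
    obtain ⟨u, rfl⟩ := id hg
    refine ⟨u, 0, u.ne_zero, ?_⟩
    rw [word_zero hω, ← Algebra.algebraMap_eq_smul_one, (tconj e P').commutes]
    rfl
  have hcomm : ∀ x ∈ R, ∀ y ∈ R, x * y * x⁻¹ * y⁻¹ ∈ Sc := by
    rintro x ⟨z, v, hz, hv⟩ y ⟨z', v', hz', hv'⟩
    obtain ⟨w, hw, h⟩ := word_comm hω v v'
    have h2 : x * y = scalarGL (Units.mk0 w hw) * (y * x) := by
      refine Units.ext ?_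
      simp only [Units.val_mul, scalarGL_val, Units.val_mk0, Matrix.smul_mul, Matrix.one_mul]
      rw [hv, hv', ← map_mul, ← map_mul, ← map_smul]
      congr 1
      simp only [Matrix.smul_mul, Matrix.mul_smul, h, smul_smul]
      congr 1
      ring
    rw [h2]
    simpa [mul_assoc] using scalarGL_mem (Units.mk0 w hw)
  have hadj : Algebra.adjoin F (matrixSet R) = ⊤ := by
    rw [eq_top_iff]
    intro X _
    obtain ⟨M, rfl⟩ := (tconj e P').surjective X
    have hM : M = ∑ x, ∑ y, M x y • kroneckerPow (fun i => Matrix.single (x i) (y i) (1 : F)) := by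
      ext a b
      simp only [Matrix.sum_apply, Matrix.smul_apply, kroneckerPow, Matrix.of_apply, smul_eq_mul]
      rw [Finset.sum_eq_single a, Finset.sum_eq_single b]
      · simp
      · intro y _ hy
        obtain ⟨i, hi⟩ := Function.ne_iff.1 hy
        rw [Finset.prod_eq_zero (Finset.mem_univ i) (by simp [Matrix.single_apply, hi]), mul_zero]
      · simp
      · intro x _ hx
        obtain ⟨i, hi⟩ := Function.ne_iff.1 hx
        refine Finset.sum_eq_zero fun y _ => ?_
        rw [Finset.prod_eq_zero (Finset.mem_univ i) (by simp [Matrix.single_apply, hi]), mul_zero]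
      · simp
    rw [hM, map_sum]
    refine sum_mem fun x _ => ?_
    rw [map_sum]
    refine sum_mem fun y _ => ?_
    rw [map_smul]
    refine Subalgebra.smul_mem _ ?_ _
    have hexp : kroneckerPow (fun i => Matrix.single (x i) (y i) (1 : F)) =
        ∑ s : Fin t → Fin 3, (∏ i, wp ω (-(s i * y i))) • word ω (fun i => (x i - y i, s i)) := by
      ext a b
      simp only [Matrix.sum_apply, Matrix.smul_apply, word, kroneckerPow, Matrix.of_apply,
        Hessian.single_eq_sum hω, smul_eq_mul, ← Finset.prod_mul_distrib]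
      exact Fintype.prod_sum _
    rw [hexp, map_sum]
    refine sum_mem fun s _ => ?_
    have hne : (∏ i, wp ω (-(s i * y i))) ≠ 0 := Finset.prod_ne_zero_iff.2 fun i _ => wp_ne_zero hω _
    obtain ⟨y', -, hy'⟩ := word_mul hω (fun i => (x i - y i, s i)) 0
    have hu : IsUnit (tconj e P' ((∏ i, wp ω (-(s i * y i))) • word ω (fun i => (x i - y i, s i)))) := by
      refine IsUnit.map _ ?_
      have : IsUnit (word ω (fun i => (x i - y i, s i))) :=
        IsUnit.of_mul_eq_one _ ((mul_assoc _ _ _).symm.trans (word_cube hω _))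
      simpa using this.smul (Units.mk0 _ hne)
    exact Algebra.subset_adjoin ⟨hu.unit, ⟨_, _, hne, rfl⟩, rfl⟩
  have habs := absIrred_of_adjoin_eq_top hadj
  have hn2 : Fintype.card (Fin n) = 3 ^ t := by simpa using Fintype.card_congr e
  have hcentre : Subgroup.center R = Sc.subgroupOf R := by
    ext g
    constructor
    · intro hg
      exact mem_scalars_of_commute habs fun z hz =>
        (congrArg Subtype.val (Subgroup.mem_center_iff.mp hg ⟨z, hz⟩)).symm
    · intro hg
      exact Subgroup.mem_center_iff.mpr fun z => Subtype.ext (scalars_commute hg z.1).symm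
  have hcardSc : Nat.card (Sc.subgroupOf R) = 3 := by
    rw [Nat.card_congr (Subgroup.subgroupOfEquivOfLe hscR).toEquiv]
    have : Function.Bijective (fun u : Fˣ => (⟨scalarGL u, scalarGL_mem u⟩ : Sc)) := by
      refine ⟨fun a b h => scalarGL_injective (congrArg Subtype.val h), fun ⟨g, hg⟩ => ?_⟩
      obtain ⟨u, rfl⟩ := id hg
      exact ⟨u, rfl⟩
    rw [← Nat.card_eq_of_bijective _ this, Nat.card_units, Nat.card_eq_fintype_card, h4]
  have hcardR : Nat.card R = 3 ^ (1 + 2 * t) := by
    rw [Subgroup.card_eq_card_quotient_mul_card_subgroup (Sc.subgroupOf R),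
      card_quotient_of_comm_scalar habs hcomm, hcardSc, hn2, ← pow_mul, pow_add, pow_one]
    ring
  obtain ⟨g0, hg0, hg0ne⟩ : ∃ g : GL (Fin n) F, g ∈ Sc ∧ g ≠ 1 := by
    refine ⟨scalarGL (Units.mk0 ω hω.ne_zero), scalarGL_mem _, fun h => hω.ne_one ?_⟩
    have h' := scalarGL_injective (h.trans (map_one _).symm)
    simpa using congrArg Units.val h'
  have hexp : Monoid.exponent R = 3 := by
    refine (Nat.prime_three.eq_one_or_self_of_dvd _
      (Monoid.exponent_dvd_of_forall_pow_eq_one fun g : R => Subtype.ext (hcube g g.2))).resolve_left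
        fun h => hg0ne ?_
    have := Monoid.exp_eq_one_iff.1 h
    exact congrArg Subtype.val (Subsingleton.elim (⟨g0, hscR hg0⟩ : R) 1)
  have hzgen : ∀ g : R, g ∈ Subgroup.center R → ∃ k : ℤ, g = (⟨g0, hscR hg0⟩ : R) ^ k := by
    intro g hg
    have hcard : Nat.card (Subgroup.center R) = 3 := hcentre ▸ hcardSc
    have hmem : (⟨g0, hscR hg0⟩ : R) ∈ Subgroup.center R := by
      rw [hcentre]; exact hg0
    have hne : (⟨_, hmem⟩ : Subgroup.center R) ≠ 1 := fun h =>
      hg0ne (congrArg (fun z : Subgroup.center R => (z.1 : GL (Fin n) F)) h)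
    obtain ⟨k, hk⟩ := mem_zpowers_of_prime_card (hp := ⟨Nat.prime_three⟩) hcard hne (g' := ⟨g, hg⟩)
    exact ⟨k, (congrArg Subtype.val hk).symm⟩
  have hsymp : IsSymplecticTypeGroup 3 R := by
    refine ⟨Nat.prime_three, fun g => ⟨1, by rw [pow_one]; exact Subtype.ext (hcube g g.2)⟩,
      fun A hA hAc => ?_, hexp⟩
    have hle' := Hessian.le_center_of_characteristic (fun g : R => Subtype.ext (hcube g g.2))
      ⟨g0, hscR hg0⟩ (fun g => Subtype.ext (scalars_commute hg0 g.1).symm) (fun g h => by
        have hc' : g * h * g⁻¹ * h⁻¹ ∈ Subgroup.center R := by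
          rw [hcentre]; exact hcomm g.1 g.2 h.1 h.2
        obtain ⟨k, hk⟩ := hzgen _ hc'
        exact ⟨k, by rw [← hk]; group⟩) A hA hAc
    have hcyc : IsCyclic (Subgroup.center R) := isCyclic_of_prime_card (hp := ⟨Nat.prime_three⟩) (hcentre ▸ hcardSc)
    exact isCyclic_of_injective (Subgroup.inclusion hle') (Subgroup.inclusion_injective hle')
  -- isometries
  have hRU : R ≤ Cfsg.GU n F q := by
    rintro g ⟨z, v, hz, hv⟩ u w
    obtain ⟨x, rfl⟩ := Forms.powEmb_surjective (e := e) (P := P') u
    obtain ⟨y, rfl⟩ := Forms.powEmb_surjective (e := e) (P := P') w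
    show Cfsg.hermForm n F q (g.val *ᵥ _) (g.val *ᵥ _) = _
    rw [hv, Forms.tconj_mulVec_powEmb, Forms.tconj_mulVec_powEmb, Forms.form_powEmb hf.sesq,
      Forms.form_powEmb hf.sesq, hΓ, Forms.formOfGram_eq, Forms.formOfGram_eq]
    have hmap : (fun c => σ (((z • word ω v) *ᵥ y) c)) = (z • word ω v).map σ *ᵥ fun c => σ (y c) :=
      funext fun c => RingHom.map_mulVec σ _ _ c
    rw [hmap, Matrix.mulVec_mulVec]
    conv_lhs => rw [← Matrix.vecMul_transpose, ← Matrix.dotProduct_mulVec, Matrix.mulVec_mulVec]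
    congr 2
    have hW : (z • word ω v).map σ = σ z • kroneckerPow (fun i => (E ω (v i).1 (v i).2).map σ) := by
      ext a b
      simp [word, kroneckerPow, map_prod]
    rw [hW, Matrix.transpose_smul, Matrix.smul_mul, Matrix.mul_smul, Matrix.smul_mul, Matrix.mul_smul,
      word, kroneckerPow_transpose, kroneckerPow_mul, Matrix.mul_smul, kroneckerPow_mul, smul_smul, smul_smul]
    simp only [Matrix.one_mul, (Hessian.transpose_mul_map hω hσ2).1 (E_iso hω _ _), kroneckerPow_one]
    congr 1
    rw [hσ2, show z * z ^ 2 * c = c * z ^ 3 by ring, hω.cube z hz, mul_one]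
  have hsim : R ≤ similarityGroup (Cfsg.hermForm n F q) := fun g hg => ⟨1, fun u v => by
    rw [Units.val_one, one_mul]; exact hRU hg u v⟩
  refine ⟨subgroupNormalizer R ⊓ Cfsg.GU n F q, ?_, ?_⟩
  · unfold InUnitaryPartialClass
    refine .inr <| .inr <| .inr <| .inr <| .inr <| .inr <| .inr ⟨3, R, 2, 2, t, hsymp, habs, hsim, by norm_num, ?_,
      Or.inl ⟨by decide, hcentre ▸ hcardSc, ht, hcardR⟩, rfl⟩
    refine ⟨Nat.prime_two, ?_, h4, by rw [hcentre, hcardSc]; norm_num, fun d hd0 hd2 => ?_⟩
    · obtain ⟨p, k, hp, hchar, hqp⟩ := exists_char_pow hF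
      have h2 : p ∣ 2 := by
        have h' := hω.two
        exact (CharP.cast_eq_zero_iff F p 2).1 (by exact_mod_cast h')
      rwa [(Nat.prime_dvd_prime_iff_eq hp Nat.prime_two).1 h2] at hchar
    · obtain rfl : d = 1 := by omega
      rw [hcentre, hcardSc]; norm_num
  rintro g ⟨hgw, hgU⟩
  refine ⟨?_, hgU⟩
  obtain ⟨gs, π, hgs⟩ := Forms.mem_tensorWreath_iff.1 (hle hgw)
  have hsimf := Forms.powFactor_similar hf.sesq hc (fun _ => isUnit_one.ne_zero) hΓ one_ne_zero
    (fun u v => by rw [one_mul]; exact hgU u v) hgs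
  have hiso : ∀ i, IsIso (gs i).val := by
    intro i
    obtain ⟨z, hz, h⟩ := hsimf i
    rw [Matrix.mul_one] at h
    have hz1 : z = 1 := by
      have hzq : σ z = z := by
        have h2 := congrArg (fun M => (Matrix.map M σ)ᵀ) h
        simp only [Matrix.map_mul, transpose_mul] at h2
        have e1 : ((gs i).val.map σ).map σ = (gs i).val := by
          ext a b; exact q_pow_pow hF _
        have e2 : ((gs i).val)ᵀ.map σ = ((gs i).val.map σ)ᵀ := rfl
        rw [e1, e2, transpose_transpose, h] at h2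
        have := congrFun (congrFun h2 0) 0
        simpa using this.symm
      rw [hσ2] at hzq
      exact (mul_left_eq_self₀.1 (by rw [← sq]; exact hzq)).resolve_right hz
    rw [hz1, one_smul] at h
    exact (Hessian.transpose_mul_map hω hσ2).2 h
  have hconj : ∀ x ∈ R, g * x * g⁻¹ ∈ R := by
    rintro x ⟨z, v, hz, hv⟩
    choose a k s hak using fun i => conj_E hω (hiso i) (v (π.symm i)).1 (v (π.symm i)).2
    have hkey : kroneckerPow (fun i => (gs i).val) * permPow π * word ω v =
        (∏ i, wp ω (a i)) • (word ω (fun i => (k i, s i)) * (kroneckerPow (fun i => (gs i).val) * permPow π)) := by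
      rw [word, word, mul_assoc, permPow_mul_kroneckerPow, ← mul_assoc, kroneckerPow_mul,
        ← mul_assoc (kroneckerPow _) (kroneckerPow _), kroneckerPow_mul, ← Matrix.smul_mul,
        ← kroneckerPow_smul]
      congr 2
      funext i
      rw [← Matrix.smul_mul, ← hak i, mul_assoc, Units.inv_mul, mul_one]
      rfl
    refine ⟨z * ∏ i, wp ω (a i), fun i => (k i, s i),
      mul_ne_zero hz (Finset.prod_ne_zero_iff.2 fun i _ => wp_ne_zero hω _), ?_⟩
    have h3 : g.val * x.val = tconj e P' ((z * ∏ i, wp ω (a i)) • word ω (fun i => (k i, s i))) * g.val := by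
      rw [hv, hgs, ← map_mul, ← map_mul]
      congr 1
      rw [Matrix.mul_smul, hkey, smul_smul, Matrix.smul_mul]
    rw [Units.val_mul, Units.val_mul, h3, mul_assoc, Units.mul_inv, mul_one]
  refine Subgroup.mem_normalizer_iff.2 fun x => ⟨fun hx => hconj x hx, fun hx => ?_⟩
  let φ : R → R := fun y => ⟨g * y * g⁻¹, hconj y y.2⟩
  have hinj : Function.Injective φ := fun y y' h => Subtype.ext (by simpa [φ] using congrArg Subtype.val h)
  obtain ⟨y, hy⟩ := Finite.injective_iff_surjective.1 hinj ⟨g * x * g⁻¹, hx⟩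
  have hy' : g * y.1 * g⁻¹ = g * x * g⁻¹ := congrArg Subtype.val hy
  rw [← show y.1 = x by simpa using hy']
  exact y.2

end CfsgLib.Aschbacher.Unitary
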