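import Cfsg.Agent.Eq.Def_GeometricClasses
import Cfsg.Agent.Aschbacher.UnitaryHessian
import Cfsg.Agent.Aschbacher.UnitaryAbelian

/-!
Aschbacher's structure theorem for the subgroups of the special unitary group: containment in a member
of a geometric class, or the residual class.
-/

set_option autoImplicit false
set_option linter.unusedSectionVars false

namespace CfsgLib.Aschbacher.UnitaryStructure

open Cfsg.Geo Module CfsgLib.AschPrime CfsgLib.Aschbacher CfsgLib.Aschbacher.Unitary
open scoped Matrix MatrixGroups Kronecker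

variable {F : Type*} [Field F] [Fintype F] {q n : ℕ}
variable (hF : Fintype.card F = q ^ 2)
include hF

/-- A reducible group lies in a member of the first two classes. -/
theorem reducible_case {H : Subgroup (GL (Fin n) F)} (hHU : H ≤ Cfsg.GU n F q) (hn : 2 ≤ n)
    {W : Submodule F (Fin n → F)} (h0 : W ≠ ⊥) (htop : W ≠ ⊤) (hinv : H ≤ subspaceStabilizer W) :
    ∃ M, InUnitaryPartialClass n F q M ∧ H ≤ M := by
  have hperpinv : H ≤ subspaceStabilizer (hperp q W) := fun g hg =>
    subspaceStabilizer_le_hperp hF (hHU hg) (hinv hg)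
  by_cases hrad : W ⊓ hperp q W = ⊥
  · have hnd := isNondegenerateOn_of_inf_eq_bot hF hrad
    have hdim := finrank_hperp hF W
    have hp0 : hperp q W ≠ ⊥ := fun h => htop (by rw [← sup_hperp_of_nondeg hF hnd, h, sup_bot_eq])
    rcases Nat.lt_trichotomy (2 * finrank F W) n with hlt | heq | hgt
    · refine ⟨_, ?_, le_inf hinv hHU⟩
      unfold InUnitaryPartialClass
      exact .inr <| .inl ⟨W, h0, hnd, hlt, rfl⟩
    · have hdimp : finrank F (hperp q W) = finrank F W := by omega
      have hpair : IsNondegenerateMDecomposition (Cfsg.hermForm n F q) (finrank F W) ![W, hperp q W] := by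
        refine ⟨⟨le_rfl, by omega, fun i => by fin_cases i; exacts [rfl, hdimp], ?_, ?_⟩, fun i => ?_,
          fun i j hij => ?_⟩
        · rw [iSupIndep_pair (i := (0 : Fin 2)) (j := 1) (by simp) (fun k => by fin_cases k <;> simp)]
          exact disjoint_iff.2 hrad
        · refine top_le_iff.1 ?_
          rw [← sup_hperp_of_nondeg hF hnd]
          exact sup_le (le_iSup_of_le 0 (by simp)) (le_iSup_of_le 1 (by simp))
        · fin_cases i
          · simpa using hnd
          · simpa using hperp_nondeg hF hnd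
        · fin_cases i <;> fin_cases j <;> simp at hij ⊢
          · exact fun u hu v hv => (mem_hperp' hF).1 hv u hu
          · exact fun u hu v hv => mem_hperp.1 hu v hv
      have hstab : ∀ {g : GL (Fin n) F} {U : Submodule F (Fin n → F)}, g ∈ subspaceStabilizer U →
          U.map (Matrix.toLin' (g : Matrix (Fin n) (Fin n) F)) = U := by
        intro g U hg
        refine Submodule.eq_of_le_of_finrank_eq ?_ ?_
        · rintro _ ⟨x, hx, rfl⟩
          exact (hg x).1 hx
        · exact (Submodule.equivMapOfInjective (Matrix.toLin' (g : Matrix (Fin n) (Fin n) F))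
            (Matrix.mulVec_injective_iff_isUnit.2 g.isUnit) U).finrank_eq.symm
      refine ⟨decompositionStabilizer ![W, hperp q W] ⊓ Cfsg.GU n F q, ?_, le_inf ?_ hHU⟩
      · unfold InUnitaryPartialClass
        exact .inr <| .inr <| .inl ⟨2, _, _, hpair, rfl⟩
      · intro g hg
        refine ⟨1, fun i => ?_⟩
        fin_cases i
        · simpa using hstab (hinv hg)
        · simpa using hstab (hperpinv hg)
    · refine ⟨_, ?_, le_inf hperpinv hHU⟩
      unfold InUnitaryPartialClass
      exact .inr <| .inl ⟨hperp q W, hp0, hperp_nondeg hF hnd, by omega, rfl⟩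
  · have hts : IsTotallySingularFor (Cfsg.hermForm n F q) (W ⊓ hperp q W) :=
      fun u hu v hv => mem_hperp.1 hu.2 v hv.1
    have hinv' : H ≤ subspaceStabilizer (W ⊓ hperp q W) := fun g hg v =>
      and_congr (hinv hg v) (hperpinv hg v)
    refine ⟨_, ?_, le_inf hinv' hHU⟩
    unfold InUnitaryPartialClass
    exact .inl ⟨_, hrad, hts, rfl⟩

/-- A normal absolutely irreducible subgroup realised over a proper subfield. -/
theorem subfield_case (hn : 2 ≤ n) {H P : Subgroup (GL (Fin n) F)} (hHU : H ≤ Cfsg.GU n F q) (hP : P ≤ H)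
    (hnorm : ∀ h ∈ H, ∀ x ∈ P, h * x * h⁻¹ ∈ P) (hirr : ActsAbsolutelyIrreducibly (matrixSet P))
    {F₀ : Subfield F} (h0 : F₀ ≠ ⊤) (hreal : RealisableOver F₀ (matrixSet P)) :
    ∃ M, InUnitaryPartialClass n F q M ∧ H ≤ M := by
  have : Nonempty (Fin n) := ⟨⟨0, by omega⟩⟩
  have hPU : P ≤ Cfsg.GU n F q := hP.trans hHU
  obtain ⟨B, hB⟩ := hreal
  obtain ⟨F₁, r, hle, hr, hcard, htop⟩ := Aschbacher.exists_subfield_prime_index h0
  have hB1 : ∀ s ∈ matrixSet P, ∀ i j, (B.val * s * (B⁻¹ : GL (Fin n) F).val) i j ∈ F₁ :=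
    fun s hs i j => hle (hB s hs i j)
  have hsub := Aschbacher.le_subfieldSubgroup_of_realisable hirr hnorm hB1
  rcases hr.eq_two_or_odd' with rfl | hodd
  · have hq : Nat.card F₁ = q := (Nat.pow_left_injective two_ne_zero (hcard.symm.trans hF))
    have hfix : fixedField hF = F₁ := by
      classical
      have hle1 : F₁ ≤ fixedField hF := fun x hx => by
        have : Fintype F₁ := Fintype.ofFinite _
        have h1 := FiniteField.pow_card (⟨x, hx⟩ : F₁)
        rw [← Nat.card_eq_fintype_card, hq] at h1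
        exact (mem_fixedField hF).2 (congrArg Subtype.val h1)
      refine SetLike.coe_injective ((Set.eq_of_subset_of_ncard_le hle1 ?_ (Set.toFinite _)).symm)
      show Nat.card (fixedField hF) ≤ Nat.card F₁
      rw [card_fixedField hF, hq]
    subst hfix
    rcases exists_rational_index_two hF hn hirr hPU (B := B) hB1 with
      ⟨hoq, P', hrat, heq⟩ | ⟨ζ, hζ0, hζ, hrat, hz⟩
    · refine ⟨_, ?_, le_inf (heq ▸ hsub) hHU⟩
      unfold InUnitaryPartialClass
      exact .inr <| .inr <| .inr <| .inr <| .inr <| .inl ⟨fixedField hF, P', hoq, hcard, hrat, rfl⟩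
    · have hev : Even n := by
        rw [← Nat.not_odd_iff_even]
        intro hodd
        set G : Matrix (Fin n) (Fin n) F := fun a b => Cfsg.hermForm n F q
          ((B⁻¹ : GL (Fin n) F).val *ᵥ Pi.single a 1) ((B⁻¹ : GL (Fin n) F).val *ᵥ Pi.single b 1) with hG
        have hs1 : ∀ a : Fin n, ∀ k, (Pi.single a (1 : F) : Fin n → F) k ∈ fixedField hF := fun a k => by
          rcases eq_or_ne k a with rfl | hne
          · simp
          · simp [hne]
        have hskew : ∀ a b, G a b = - G b a := by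
          intro a b
          have h1 : (ζ * G a b) ^ q = ζ * G a b := (mem_fixedField hF).1 (hrat _ _ (hs1 a) (hs1 b))
          have h2 : G b a = G a b ^ q := herm_symm hF _ _
          rw [mul_pow, ← h2, eq_neg_of_add_eq_zero_right hζ] at h1
          apply mul_left_cancel₀ hζ0
          linear_combination -h1
        have hdiag : ∀ a, G a a = 0 := fun a => hz _ (hs1 a)
        refine Aschbacher.det_gramMatrix_ne_zero (f := fun u v => Cfsg.hermForm n F q
            ((B⁻¹ : GL (Fin n) F).val *ᵥ u) ((B⁻¹ : GL (Fin n) F).val *ᵥ v))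
          (σ := (qFrob hF : F ≃+* F).toRingHom)
          ⟨fun x y v => by simp [Matrix.mulVec_add, herm_add_left],
           fun c x v => by simp [Matrix.mulVec_smul, herm_smul_left],
           fun v x y => by simp [Matrix.mulVec_add, herm_add_right hF],
           fun c v x => by simp [Matrix.mulVec_smul, herm_smul_right hF]⟩ (fun v hv => ?_)
          (det_eq_zero_of_alternating (by simpa using hodd) hskew hdiag)
        have hv' : (B⁻¹ : GL (Fin n) F).val *ᵥ v ≠ 0 := fun h => hv (by
          simpa [Matrix.mulVec_mulVec] using congrArg (B.val *ᵥ ·) h)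
        obtain ⟨⟨x, hx⟩, y, hy⟩ := herm_isNondegenerateForm hF _ hv'
        exact ⟨⟨B.val *ᵥ x, by simpa [Matrix.mulVec_mulVec] using hx⟩,
          B.val *ᵥ y, by simpa [Matrix.mulVec_mulVec] using hy⟩
      refine ⟨_, ?_, le_inf hsub hHU⟩
      unfold InUnitaryPartialClass
      exact .inr <| .inr <| .inr <| .inr <| .inr <| .inr <| .inl
        ⟨fixedField hF, B⁻¹, ζ, hev, hcard, hζ0, hζ, hrat, hz, rfl⟩
  · obtain ⟨P', hrat, heq⟩ := exists_rational_odd hF (by omega) hodd hcard hirr hPU (B := B) hB1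
    refine ⟨_, ?_, le_inf (heq ▸ hsub) hHU⟩
    unfold InUnitaryPartialClass
    exact .inr <| .inr <| .inr <| .inr <| .inl ⟨F₁, r, P', hr, hodd, hcard, hrat, rfl⟩

/-- The abelian configuration. -/
theorem abelian_case (hn : 3 ≤ n) {H N : Subgroup (GL (Fin n) F)} {r : ℕ}
    (hHU : H ≤ Cfsg.GU n F q) (h : AbelianData H N r) :
    ∃ M, InUnitaryPartialClass n F q M ∧ H ≤ M := by
  classical
  have : Nonempty (Fin n) := ⟨⟨0, by omega⟩⟩
  have hhom : Odd r ∨ ∃ i : Fˣ, i ^ 2 = -1 := by
    obtain ⟨a, ha⟩ : IsSquare (-1 : F) := by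
      rw [FiniteField.isSquare_neg_one_iff, hF, Nat.pow_mod]
      have := Nat.mod_lt q (show 0 < 4 by norm_num)
      interval_cases q % 4 <;> norm_num
    have ha0 : a ≠ 0 := fun h0 => by
      rw [h0, mul_zero, neg_eq_zero] at ha
      exact one_ne_zero ha
    exact Or.inr ⟨Units.mk0 a ha0, Units.ext (by simp [sq, ha])⟩
  obtain ⟨R, r', j, u, hR⟩ := exists_coverGroup (by simp; omega) h hhom
  have hd := hR.data
  obtain ⟨p, k, hp, hchar, hq⟩ := exists_char_pow hF
  have := Fact.mk hp
  have hcard : Fintype.card F = p ^ (2 * k) := by rw [hF, hq, ← pow_mul, mul_comm]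
  by_cases hex : ∃ d, 0 < d ∧ d < 2 * k ∧ r' ∣ p ^ d - 1
  · obtain ⟨d, hd0, hd2, hdd⟩ := hex
    let F₁ : Subfield F := RingHom.eqLocusField (iterateFrobenius F p d) (RingHom.id F)
    have hF₁ : ∀ x, x ∈ F₁ ↔ x ^ p ^ d = x := fun x => Iff.rfl
    have hne : F₁ ≠ ⊤ := by
      intro htop
      obtain ⟨g, hg⟩ := (inferInstance : IsCyclic Fˣ).exists_ofOrder_eq_natCard
      have h1 : (g : F) ^ p ^ d = g := (hF₁ _).mp (htop ▸ Subfield.mem_top _)
      have h2 : g ^ (p ^ d - 1) = 1 := by
        refine mul_left_cancel (a := g) ?_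
        rw [← pow_succ', Nat.sub_add_cancel (Nat.one_le_pow _ _ hp.pos), mul_one]
        exact Units.ext (by simpa using h1)
      have h3 := orderOf_dvd_of_pow_eq_one h2
      rw [hg, Nat.card_eq_fintype_card, Fintype.card_units, hcard] at h3
      have h4 : p ^ d < p ^ (2 * k) := Nat.pow_lt_pow_right hp.one_lt hd2
      have h5 : 1 < p ^ d := Nat.one_lt_pow hd0.ne' hp.one_lt
      have := Nat.le_of_dvd (by omega) h3
      omega
    obtain ⟨F₂, l, hle, hl, hF₂, hne₂⟩ := exists_subfield_prime_index hne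
    have hmem : ∀ c : Fˣ, scalarGL c ∈ R → (c : F) ∈ F₂ := by
      intro c hc
      refine hle ((hF₁ _).mpr ?_)
      have h1 : c ^ (p ^ d - 1) = 1 := by
        obtain ⟨m, hm⟩ := hdd; rw [hm, pow_mul, hd.scalar_pow c hc, one_pow]
      have h2 : c ^ p ^ d = c := by
        rw [← Nat.sub_add_cancel (Nat.one_le_pow d p hp.pos), pow_succ, h1, one_mul]
      rw [← Units.val_pow_eq_pow_val, h2]
    obtain ⟨B, hB⟩ := realisableOver_of_scalars_mem hd.absIrred hd.comm F₂ hl hF₂ hmem
    have hsub := le_subfieldSubgroup_of_realisable hd.absIrred hd.normal hB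
    have hHH : ⁅H, H⁆ ≤ H := Subgroup.commutator_le.2 fun a ha b hb => by
      rw [commutatorElement_def]
      exact H.mul_mem (H.mul_mem (H.mul_mem ha hb) (H.inv_mem ha)) (H.inv_mem hb)
    exact subfield_case hF (by omega) hHU hHH
      (fun g hg => conj_commutator_mem fun x hx => H.mul_mem (H.mul_mem hg hx) (H.inv_mem hg))
      (h.commutator_absIrred (by simp; omega)) hne₂ (realisable_commutator hsub)
  push Not at hex
  have hsim : R ≤ similarityGroup (Cfsg.hermForm n F q) := fun g hg => by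
    refine (show N ⊔ scalars (Fin n) F ≤ similarityGroup (Cfsg.hermForm n F q) from
      sup_le (fun x hx => ⟨1, fun u v => by
        rw [Units.val_one, one_mul]; exact hHU (h.le hx) u v⟩) ?_) ((hd.cover.mem_iff g).1 hg).1
    intro x hx
    obtain ⟨c, rfl⟩ := id hx
    refine ⟨c * c ^ q, fun u v => ?_⟩
    show Cfsg.hermForm n F q ((scalarGL c).val *ᵥ u) ((scalarGL c).val *ᵥ v) = _
    rw [scalarGL_val, Matrix.smul_mulVec, Matrix.smul_mulVec, Matrix.one_mulVec, Matrix.one_mulVec,
      herm_smul_left, herm_smul_right hF, ← mul_assoc, Units.val_mul, Units.val_pow_eq_pow_val]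
  have hn' : n = r ^ j := by simpa using hR.dim_eq
  have hj : 1 ≤ j := by
    by_contra hj
    obtain rfl : j = 0 := by omega
    rw [pow_zero] at hn'
    omega
  have hrp : r ≠ p := hR.prime_ne p hchar
  have hdvd : r' ∣ p ^ (2 * k) - 1 := by
    rw [← hR.root, ← hcard, ← Fintype.card_units]
    exact orderOf_dvd_card
  refine ⟨_, ?_, le_inf (le_normalizer_of_forall_conj hd.normal) hHU⟩
  unfold InUnitaryPartialClass
  refine .inr <| .inr <| .inr <| .inr <| .inr <| .inr <| .inr
    ⟨r, R, p, 2 * k, j, hR.symplecticType, hd.absIrred, hsim, hrp,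
      ⟨hp, hchar, hcard, hR.card_center.symm ▸ hdvd, hR.card_center.symm ▸ hex⟩, ?_, rfl⟩
  rw [hR.card_center, hR.card_eq, hR.exp_eq]
  rcases h.prime.eq_two_or_odd' with rfl | hodd
  · right
    have h4 : r' = 4 := by rw [hR.exp_eq]; rfl
    refine ⟨rfl, ?_, rfl, by simp [pow_add]; ring⟩
    have hp2 : p % 2 = 1 := (hp.eq_two_or_odd).resolve_left (Ne.symm hrp)
    have h8 : 4 ∣ p ^ 2 - 1 := by
      obtain ⟨a, rfl⟩ : ∃ a, p = 2 * a + 1 := ⟨p / 2, by omega⟩
      have : (2 * a + 1) ^ 2 = 4 * (a * a + a) + 1 := by ring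
      rw [this, Nat.add_sub_cancel]
      exact dvd_mul_right _ _
    have hk : k ≠ 0 := fun h0 => by
      have := one_lt_q hF; rw [hq, h0] at this; simp at this
    by_contra hk1
    exact hex 2 (by omega) (by omega) (h4 ▸ h8)
  · left
    have hg : Nat.gcd 2 r = 1 := (Nat.coprime_primes Nat.prime_two h.prime).mpr fun e' => by
      rw [← e'] at hodd; exact absurd hodd (by decide)
    refine ⟨hodd, by rw [hg, mul_one], hj, ?_⟩
    rw [hg, mul_one, pow_add, pow_one, mul_comm]

/-- A tensor power whose Gram matrix is a product lies in a member. -/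
theorem wreath_case {d t : ℕ} (hd : 2 ≤ d) (ht : 2 ≤ t) {e : Fin n ≃ (Fin t → Fin d)}
    {P : GL (Fin n) F} (hprod : IsProductGram (Cfsg.hermForm n F q) e P) :
    ∃ M, InUnitaryClass n F q M ∧ tensorWreathSubgroup d t e P ⊓ Cfsg.GU n F q ≤ M := by
  rcases hd.eq_or_lt with rfl | hd3
  · obtain ⟨M, hM, hle⟩ := wreath_two_subfield hF (by omega) hprod
    exact ⟨M, Or.inl hM, hle⟩
  · have : NeZero d := ⟨by omega⟩
    by_cases hex : q = 2 ∧ d = 3
    · obtain ⟨hq, rfl⟩ := hex
      obtain ⟨M, hM, hle⟩ := wreath_hessian hF hq (by omega) hprod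
      exact ⟨M, Or.inl hM, hle⟩
    · exact wreath_member hF hd3 ht hex hprod

/-- The tensor configuration. -/
theorem tensor_case {H N : Subgroup (GL (Fin n) F)} (hHU : H ≤ Cfsg.GU n F q) (hNH : N ≤ H) {d k : ℕ}
    {e : Fin n ≃ Fin d × Fin k} {P : GL (Fin n) F} (hT : TensorData H N d k e P) :
    ∃ M, InUnitaryClass n F q M ∧ H ≤ M := by
  have hd := hT.two_le_left
  have hk := hT.two_le_right
  have : NeZero d := ⟨by omega⟩
  have : NeZero k := ⟨by omega⟩
  set σ := (qFrob hF : F ≃+* F).toRingHom with hσdef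
  have hf := herm_rform (n := n) hF
  have hNU : N ≤ Cfsg.GU n F q := hNH.trans hHU
  have hcl : ∀ M : Matrix (Fin d) (Fin d) F, ∃ M' : Matrix (Fin d) (Fin d) F,
      Forms.IsAdj (Cfsg.hermForm n F q) (tconj e P (M ⊗ₖ (1 : Matrix (Fin k) (Fin k) F)))
        (tconj e P (M' ⊗ₖ (1 : Matrix (Fin k) (Fin k) F))) := by
    intro M
    obtain ⟨Y, hY, hadj⟩ := Forms.closed_adjoin hf (fun g hg => hNU hg) _ ((hT.mem_iff _).2 ⟨M, rfl⟩)
    obtain ⟨M', rfl⟩ := (hT.mem_iff Y).1 hY
    exact ⟨M', hadj⟩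
  obtain ⟨X, C, hX, hC, hpull⟩ := Forms.exists_pullGram_eq_kronecker hf hcl
  rcases eq_or_ne d k with rfl | hdk
  · let ε : Fin d × Fin d ≃ (Fin 2 → Fin d) :=
      { toFun := fun p => ![p.1, p.2]
        invFun := fun f => (f 0, f 1)
        left_inv := fun p => by simp
        right_inv := fun f => by ext i; fin_cases i <;> simp }
    have hprod : IsProductGram (Cfsg.hermForm n F q) (e.trans ε) P := by
      refine ⟨1, ![X, C], one_ne_zero, fun i => by fin_cases i <;> simpa, ?_⟩
      ext x y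
      have h := congrFun (congrFun hpull (x 0, x 1)) (y 0, y 1)
      have hs : ∀ z : Fin 2 → Fin d, Forms.powEmb (e.trans ε) P (Pi.single z 1) =
          Forms.emb e P (Pi.single (z 0, z 1) 1) := by
        intro z
        rw [Forms.powEmb, Forms.emb]
        congr 1
        funext a
        simp only [Function.comp_apply, Equiv.trans_apply, Pi.single_apply]
        refine if_congr ?_ rfl rfl
        constructor
        · intro h1; rw [← h1]; simp [ε]
        · intro h1; rw [h1]; ext i; fin_cases i <;> simp [ε]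
      rw [Forms.powGram, hs, hs]
      rw [Forms.pullGram] at h
      rw [h]
      simp [kroneckerPow, Fin.prod_univ_two, Matrix.kroneckerMap_apply]
    have hle : tensorProductSubgroup d d e P ≤ tensorWreathSubgroup d 2 (e.trans ε) P := by
      intro g hg
      obtain ⟨a, b, hab⟩ := (mem_tensorProductSubgroup_iff e P g).1 hg
      refine Forms.mem_tensorWreath_iff.2 ⟨![a, b], 1, ?_⟩
      rw [hab, permPow_one, Matrix.mul_one, tconj_apply, tconj_apply]
      congr 2
      ext i j
      simp [kroneckerPow, Fin.prod_univ_two, Matrix.kroneckerMap_apply, ε]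
    obtain ⟨M, hM, hM'⟩ := wreath_case hF hd le_rfl hprod
    exact ⟨M, hM, (le_inf (hT.le_tensor.trans hle) hHU).trans hM'⟩
  obtain ⟨X', C', hX', hC', hpull', hXh, hCh⟩ :=
    Forms.exists_hermitian_factors hf (qFrob_ne_id hF) hX hC hpull
  have hmk : ∀ {a : ℕ} {G : Matrix (Fin a) (Fin a) F}, IsUnit G → (∀ i j, G i j = σ (G j i)) →
      IsUnitaryFormPow q (formOfGram σ G) := by
    intro a G hG hherm
    have hs := Forms.isSesquiForm_formOfGram σ G
    have h1 : ∀ i j, G i j = (1 : F) * σ (G j i) := fun i j => by rw [one_mul]; exact hherm i j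
    exact ⟨hs.add_left, hs.smul_left,
      fun v w => (Forms.formOfGram_refl σ (q_pow_pow hF) h1 v w).trans (one_mul _),
      Forms.nondegenerate_formOfGram σ (q_pow_pow hF) one_ne_zero h1 hG⟩
  have hst : IsTensorFormStructure (fun x : F => x ^ q) (Cfsg.hermForm n F q) (formOfGram σ X')
      (formOfGram σ C') e P := Forms.isTensorFormStructure_of_pullGram hf.sesq hpull'
  rcases Nat.lt_or_gt_of_ne hdk with hlt | hlt
  · refine ⟨_, ?_, le_inf hT.le_tensor hHU⟩
    unfold InUnitaryClass
    exact .inr <| .inr <| .inl ⟨d, k, e, P, _, _, hd, hlt, hmk hX' hXh, hmk hC' hCh, hst, rfl⟩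
  · refine ⟨_, ?_, le_inf (hT.le_tensor.trans (tensorProductSubgroup_comm e P)) hHU⟩
    unfold InUnitaryClass
    exact .inr <| .inr <| .inl ⟨k, d, _, P, _, _, hk, hlt, hmk hC' hCh, hmk hX' hXh,
      Forms.isTensorFormStructure_swap hst, rfl⟩

/-- The tensor-induced configuration. -/
theorem commuting_case [Nonempty (Fin n)] {H : Subgroup (GL (Fin n) F)} {d : ℕ}
    {S : Finset (Subalgebra F (Matrix (Fin n) (Fin n) F))} (hHU : H ≤ Cfsg.GU n F q)
    (h : CommutingData H d S) : ∃ M, InUnitaryClass n F q M ∧ H ≤ M := by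
  have : NeZero d := ⟨by have := h.two_le; omega⟩
  obtain ⟨e, P, hle, hfac⟩ := h.exists_le_tensorWreath_factors
  have hf := herm_rform (n := n) hF
  have hHH : ⁅H, H⁆ ≤ H := Subgroup.commutator_le.2 fun a ha b hb => by
    rw [commutatorElement_def]
    exact H.mul_mem (H.mul_mem (H.mul_mem ha hb) (H.inv_mem ha)) (H.inv_mem hb)
  have hcl : Forms.FactorClosed (Cfsg.hermForm n F q) e P := by
    intro i M
    obtain ⟨A, hA, hmem⟩ := hfac i
    obtain ⟨D, hD, rfl⟩ := h.generated A hA
    obtain ⟨Y, hY, hadj⟩ := Forms.closed_adjoin hf (fun g hg => hHU (hHH (hD hg))) _ ((hmem _).2 ⟨M, rfl⟩)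
    obtain ⟨M', rfl⟩ := (hmem Y).1 hY
    exact ⟨M', hadj⟩
  obtain ⟨M, hM, hM'⟩ := wreath_case hF h.two_le h.two_le_card
    (Forms.exists_powGram_eq_kroneckerPow hf hcl)
  exact ⟨M, hM, (le_inf hle hHU).trans hM'⟩

/-- Aschbacher's theorem for subgroups of the special unitary group. -/
theorem structure_theorem (hn : 3 ≤ n) {H : Subgroup (GL (Fin n) F)} (hHU : H ≤ Cfsg.GU n F q) :
    (∃ M, InUnitaryClass n F q M ∧ H ≤ M) ∨ InUnitaryResidualClass H := by
  have : Nonempty (Fin n) := ⟨⟨0, by omega⟩⟩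
  have part : (∃ M, InUnitaryPartialClass n F q M ∧ H ≤ M) →
      (∃ M, InUnitaryClass n F q M ∧ H ≤ M) := fun ⟨M, hM, hle⟩ => ⟨M, Or.inl hM, hle⟩
  by_cases hirr : ActsIrreducibly (matrixSet H)
  swap
  · simp only [ActsIrreducibly, not_forall, not_or] at hirr
    obtain ⟨W, hW, h0, h1⟩ := hirr
    exact Or.inl (part (reducible_case hF hHU (by omega) h0 h1
      (fun g hg => Aschbacher.mem_subspaceStabilizer_of_mapsTo fun v hv => hW _ ⟨g, hg, rfl⟩ ⟨v, hv, rfl⟩)))
  have hf := herm_rform (n := n) hF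
  rcases normal_cases hirr with ⟨N, hN, t, ⟨S⟩⟩ | ⟨N, hN, hfl, hbot⟩ | ⟨N, d, k, e, P, hN, hT⟩ | hall
  · have hcl := (Forms.closed_adjoin hf (N := N) fun g hg => hHU (hN.le hg)).centre hf
    rcases Forms.frame_form_cases hf (fun g hg => ⟨1, one_ne_zero, fun u v => by rw [one_mul]; exact hHU hg u v⟩)
      S.toFrame (Forms.idemSystem_adj hf (centreAlg_comm_all _) hcl S) with
      ⟨s, m, D, hD, -, hle⟩ | ⟨m, D, hD, h2m, hts, hle⟩
    · refine Or.inl (part ⟨_, ?_, le_inf hle hHU⟩)
      unfold InUnitaryPartialClass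
      exact .inr <| .inr <| .inl ⟨s, m, D, hD, rfl⟩
    · rw [Fintype.card_fin] at h2m
      refine Or.inl (part ⟨_, ?_, le_inf hle hHU⟩)
      unfold InUnitaryPartialClass
      exact .inr <| .inr <| .inr <| .inl ⟨m, D, h2m, hD, hts, rfl⟩
  · obtain ⟨r, hr, -, -, hK, hle⟩ := Centre.exists_prime_subfield (normalises_envAlg hN.normal).centreAlg
      (centreAlg_comm_all _) hfl hbot
    have hcl := Forms.closed_powFixed hf (centreAlg_comm_all _)
      ((Forms.closed_adjoin hf (N := N) fun g hg => hHU (hN.le hg)).centre hf) r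
    rcases hr.eq_two_or_odd' with rfl | hodd
    · exact (Forms.false_of_unitary_deg_two hf (qFrob_ne_id hF) hK hcl).elim
    · refine Or.inl ⟨_, ?_, le_inf hle hHU⟩
      unfold InUnitaryClass
      exact .inr <| .inl ⟨r, _, hr, hodd, hK, hcl, rfl⟩
  · exact Or.inl (tensor_case hF hHU hN.le hT)
  rcases normal_structure hall (not_le_scalars_of_irreducible hirr (by simp; omega)) with
    ⟨N, r, hA⟩ | ⟨d, S, hC⟩ | ⟨P, hP⟩
  · exact Or.inl (part (abelian_case hF hn hHU hA))
  · exact Or.inl (commuting_case hF hHU hC)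
  by_cases hreal : ∃ F₀ : Subfield F, F₀ ≠ ⊤ ∧ RealisableOver F₀ (matrixSet P)
  · obtain ⟨F₀, h0, hr⟩ := hreal
    exact Or.inl (part (subfield_case hF (by omega) hHU hP.le hP.normal hP.absIrred h0 hr))
  refine Or.inr ⟨P, hP.isResidualCore fun F₀ h0 h => hreal ⟨F₀, h0, h⟩, ?_, ?_⟩
  · rintro ⟨Q, hQ, hfix⟩
    exact hreal ⟨_, fixedField_ne_top hF,
      realisableOver_fixed_of_quad hF (by omega) hP.absIrred (hP.le.trans hHU) hQ hfix⟩
  · rintro ⟨f, hf', hfix⟩
    exact hreal ⟨_, fixedField_ne_top hF, realisableOver_fixed_of_bilinear hF (by omega) hP.absIrred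
      (hP.le.trans hHU) hf'.bilinear hf'.nondegenerate hfix⟩

end CfsgLib.Aschbacher.UnitaryStructure
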