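import Mathlib
import Cfsg.Agent.Eq.Def_GeometricClasses
import Cfsg.Agent.Aschbacher.Basic

/-!
The special linear group normalises no non-scalar group of order prime to the characteristic power.
-/

set_option autoImplicit false
set_option linter.unusedSectionVars false

namespace CfsgLib.Aschbacher

open Matrix Module

variable {ι : Type} [Fintype ι] [DecidableEq ι] {F : Type*} [Field F]

local notation "GLm" => Matrix.GeneralLinearGroup

/-- A non-scalar matrix moves some line. -/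
lemma exists_mulVec_notMem_span {x : GLm ι F} (hx : x ∉ Cfsg.Geo.scalars ι F) :
    ∃ v : ι → F, x.val *ᵥ v ∉ Submodule.span F {v} := by
  by_contra hcon
  push Not at hcon
  obtain ⟨c, hc⟩ := LinearMap.exists_eq_smul_id_of_forall_notLinearIndependent
    (f := Matrix.toLin' x.val) (fun v h => by
      obtain ⟨a, ha⟩ := Submodule.mem_span_singleton.1 (hcon v)
      have h' := LinearIndependent.pair_iff.1 h (-a) 1 (by
        rw [Matrix.toLin'_apply, one_smul, neg_smul, ha, neg_add_cancel])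
      exact one_ne_zero h'.2)
  apply hx
  have hval : x.val = c • (1 : Matrix ι ι F) := by
    apply Matrix.toLin'.injective
    rw [hc, map_smul, Matrix.toLin'_one]
    rfl
  rcases isEmpty_or_nonempty ι with hι | hι
  · exact (Cfsg.Geo.mem_scalars_iff x).2 ⟨1, Matrix.ext fun a => (hι.false a).elim⟩
  · refine (Cfsg.Geo.mem_scalars_iff x).2 ⟨Units.mk0 c fun h0 => ?_, hval⟩
    exact x.isUnit.ne_zero (by rw [hval, h0, zero_smul])

/-- The special linear group normalises no non-scalar `r`-group, `r` prime to the characteristic. -/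
theorem not_specialLinear_le_normalizer_of_isPGroup (hn : 3 ≤ Fintype.card ι) {p r : ℕ}
    [Fact p.Prime] [CharP F p] (hr : r.Prime) (hrp : r ≠ p) {R : Subgroup (GLm ι F)}
    (hR : IsPGroup r R) (hns : ¬ R ≤ Cfsg.Geo.scalars ι F) :
    ¬ Cfsg.Geo.specialLinear ι F ≤ Cfsg.Geo.subgroupNormalizer R := by
  intro hle
  have : Nonempty ι := Fintype.card_pos_iff.1 (by omega)
  obtain ⟨x, hxR, hxs⟩ : ∃ x ∈ R, x ∉ Cfsg.Geo.scalars ι F := by
    simpa [SetLike.le_def] using hns
  obtain ⟨v, hv⟩ := exists_mulVec_notMem_span hxs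
  set u := x.val *ᵥ v with hu
  obtain ⟨φ, hφ0, hφv', hφu'⟩ := exists_ne_zero_dot_eq_zero hn v u
  have hφv : φ ⬝ᵥ v = 0 := by rwa [dotProduct_comm]
  have hφu : φ ⬝ᵥ u = 0 := by rwa [dotProduct_comm]
  set T := transvec v φ hφv with hT
  have hTn := hle (transvec_mem_specialLinear v φ hφv)
  rw [Cfsg.Geo.subgroupNormalizer, Subgroup.mem_normalizer_iff] at hTn
  set y := T * x * T⁻¹ * x⁻¹ with hy
  have hyR : y ∈ R := mul_mem ((hTn x).1 hxR) (inv_mem hxR)
  -- the commutator is unipotent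
  set ψ : ι → F := φ ᵥ* (x⁻¹ : GLm ι F).val with hψ
  have hyw : ∀ w, y.val *ᵥ w - w = (φ ⬝ᵥ w) • v - (ψ ⬝ᵥ w) • u := by
    intro w
    rw [hy, Units.val_mul, Units.val_mul, Units.val_mul, ← mulVec_mulVec, ← mulVec_mulVec,
      ← mulVec_mulVec, hT, transvec_inv_mulVec, mulVec_sub, mulVec_smul, mulVec_inv_mulVec,
      transvec_mulVec, dotProduct_sub, dotProduct_smul, ← hu, hφu, smul_zero, sub_zero, hψ,
      ← dotProduct_mulVec]
    abel
  have hψu : ψ ⬝ᵥ u = 0 := by
    rw [hψ, hu, ← dotProduct_mulVec, inv_mulVec_mulVec]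
    exact hφv
  have hNw : ∀ w, (y.val - 1) *ᵥ w = (φ ⬝ᵥ w) • v - (ψ ⬝ᵥ w) • u := fun w => by
    rw [sub_mulVec, one_mulVec, hyw]
  have hcube : (y.val - 1) ^ 3 = 0 := by
    refine Matrix.toLin'.injective (LinearMap.ext fun w => ?_)
    rw [Matrix.toLin'_apply, map_zero, LinearMap.zero_apply, pow_succ, pow_two, ← mulVec_mulVec,
      ← mulVec_mulVec, hNw, hNw, hNw]
    simp [hφv, hφu, hψu]
  have hord : y ^ (p ^ 2) = 1 := by
    refine Units.ext ?_
    rw [Units.val_pow_eq_pow_val, Units.val_one]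
    have h3 : 3 ≤ p ^ 2 := by
      have := (Fact.out : p.Prime).two_le; nlinarith
    obtain ⟨m, hm⟩ : ∃ m, p ^ 2 = 3 + m := ⟨p ^ 2 - 3, by omega⟩
    have hzero : (y.val - 1) ^ (p ^ 2) = 0 := by rw [hm, pow_add, hcube, zero_mul]
    have h := add_pow_char_pow_of_commute (R := Matrix ι ι F) (p := p) (n := 2)
      (h := Commute.one_right (y.val - 1))
    rwa [sub_add_cancel, hzero, one_pow, zero_add] at h
  have hy1 : y = 1 := by
    obtain ⟨k, hk⟩ := hR ⟨y, hyR⟩
    have hk' : y ^ r ^ k = 1 := congrArg Subtype.val hk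
    have hco : Nat.Coprime (p ^ 2) (r ^ k) :=
      Nat.Coprime.pow _ _ ((Nat.coprime_primes Fact.out hr).2 (Ne.symm hrp))
    simpa [hco.gcd_eq_one] using pow_gcd_eq_one.2 ⟨hord, hk'⟩
  obtain ⟨w, hw⟩ := exists_dot_eq_one hφ0
  have h1 := hNw w
  rw [hy1, Units.val_one, sub_self, zero_mulVec, hw, one_smul] at h1
  have hv' : v = (ψ ⬝ᵥ w) • u := sub_eq_zero.1 h1.symm
  rcases eq_or_ne (ψ ⬝ᵥ w) 0 with h0 | h0
  · rw [h0, zero_smul] at hv'
    exact hv (by rw [hu, hv', mulVec_zero]; exact zero_mem _)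
  · exact hv (Submodule.mem_span_singleton.2 ⟨(ψ ⬝ᵥ w)⁻¹, by
      conv_lhs => rw [hv', smul_smul, inv_mul_cancel₀ h0, one_smul]⟩)

/-- The class-six members are proper in the special linear group. -/
theorem not_specialLinear_le_symplecticType [Fintype F] (hn : 3 ≤ Fintype.card ι) {r : ℕ}
    {R : Subgroup (GLm ι F)} (hR : Cfsg.Geo.IsLinearSymplecticTypeData r R) :
    ¬ Cfsg.Geo.specialLinear ι F ≤ Cfsg.Geo.subgroupNormalizer R := by
  obtain ⟨p, e, hrp, ⟨hp, hchar, -, -, -⟩, -⟩ := hR.field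
  haveI := Fact.mk hp
  refine not_specialLinear_le_normalizer_of_isPGroup hn hR.symplecticType.prime hrp
    hR.symplecticType.pGroup fun hle => ?_
  have : Nonempty ι := Fintype.card_pos_iff.1 (by omega)
  obtain ⟨i⟩ := this
  let W : Submodule F (ι → F) := Submodule.span F {Pi.single i 1}
  rcases hR.absIrred.1 W (by
      rintro _ ⟨g, hg, rfl⟩ _ ⟨v, hv, rfl⟩
      obtain ⟨c, hc⟩ := (Cfsg.Geo.mem_scalars_iff g).1 (hle hg)
      rw [Matrix.toLin'_apply]
      show g.val *ᵥ v ∈ W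
      rw [hc, smul_mulVec, one_mulVec]
      exact W.smul_mem _ hv) with h | h
  · exact absurd h (by simp [W])
  · have h1 : finrank F W = 1 := finrank_span_singleton (by simp)
    rw [h, finrank_top, Module.finrank_pi] at h1
    omega

end CfsgLib.Aschbacher
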