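import Cfsg.Agent.Aschbacher.SympExtraspecial
import Cfsg.Agent.Aschbacher.FormsTensorPower
import Cfsg.Agent.Aschbacher.TensorPower

/-!
Tensor powers of a two-dimensional space under an alternating form: a quadratic form in even
characteristic, an extraspecial normalised group over the field with three elements, and a tensor
power member otherwise.
-/

set_option autoImplicit false
set_option linter.unusedSectionVars false

namespace CfsgLib.Aschbacher.Symp

open Matrix Module
open scoped MatrixGroups
open Cfsg CfsgLib.Aschbacher.Centre CfsgLib.Aschbacher.Forms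

variable {ι : Type} [Fintype ι] [DecidableEq ι] {F : Type*} [Field F]
variable {f : (ι → F) → (ι → F) → F} {t : ℕ} {e : ι ≃ (Fin t → Fin 2)} {P : GL ι F}

/-- Commutators of similarities fix the form. -/
theorem commutator_fixes {g : (ι → F) → (ι → F) → F} {H : Subgroup (GL ι F)}
    (hH : H ≤ Geo.similarityGroup g) :
    Geo.FixesForm (Geo.matrixSet (⁅H, H⁆ : Subgroup (GL ι F))) g := by
  let K : Subgroup (GL ι F) :=
    { carrier := {a | ∀ u v, g (a.val *ᵥ u) (a.val *ᵥ v) = g u v}
      mul_mem' := fun {a b} ha hb u v => by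
        rw [Units.val_mul, ← Matrix.mulVec_mulVec, ← Matrix.mulVec_mulVec, ha, hb]
      one_mem' := fun u v => by simp
      inv_mem' := fun {a} ha u v => by
        rw [← ha ((a⁻¹ : GL ι F).val *ᵥ u) ((a⁻¹ : GL ι F).val *ᵥ v)]
        simp [Matrix.mulVec_mulVec] }
  have hDK : (⁅H, H⁆ : Subgroup (GL ι F)) ≤ K := Subgroup.commutator_le.2 fun a ha b hb u v => by
    obtain ⟨c, hc⟩ := hH ha
    obtain ⟨d, hd⟩ := hH hb
    have hinv : ∀ (x : GL ι F) (k : Fˣ), (∀ u v, g (x.val *ᵥ u) (x.val *ᵥ v) = (k : F) * g u v) →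
        ∀ u v, g ((x⁻¹ : GL ι F).val *ᵥ u) ((x⁻¹ : GL ι F).val *ᵥ v) = ((k⁻¹ : Fˣ) : F) * g u v := by
      intro x k hk u v
      have h := hk ((x⁻¹ : GL ι F).val *ᵥ u) ((x⁻¹ : GL ι F).val *ᵥ v)
      simp only [Matrix.mulVec_mulVec, ← Units.val_mul, mul_inv_cancel, Units.val_one,
        Matrix.one_mulVec] at h
      rw [h, ← mul_assoc, ← Units.val_mul, inv_mul_cancel, Units.val_one, one_mul]
    simp only [commutatorElement_def, Units.val_mul, ← Matrix.mulVec_mulVec, hc, hd, hinv a c hc,
      hinv b d hd]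
    rw [← mul_assoc, ← mul_assoc, ← mul_assoc, ← Units.val_mul, ← Units.val_mul, ← Units.val_mul,
      show c * d * c⁻¹ * d⁻¹ = 1 by rw [mul_comm c d, mul_inv_cancel_right, mul_inv_cancel],
      Units.val_one, one_mul]
  rintro _ ⟨x, hx, rfl⟩ u v
  exact hDK hx u v

/-- The coordinates of a vector. -/
def coords (e : ι ≃ (Fin t → Fin 2)) (P : GL ι F) (v : ι → F) : (Fin t → Fin 2) → F :=
  (((P⁻¹ : GL ι F) : Matrix ι ι F) *ᵥ v) ∘ e.symm

theorem coords_powEmb (x : (Fin t → Fin 2) → F) : coords e P (powEmb e P x) = x := by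
  simp [coords, powEmb, Matrix.mulVec_mulVec, Function.comp_assoc]

theorem powEmb_coords (v : ι → F) : powEmb e P (coords e P v) = v := by
  simp [coords, powEmb, Matrix.mulVec_mulVec, Function.comp_assoc]

theorem coords_add (u v : ι → F) : coords e P (u + v) = coords e P u + coords e P v := by
  funext p; simp [coords, Matrix.mulVec_add]

theorem coords_smul (c : F) (v : ι → F) : coords e P (c • v) = c • coords e P v := by
  funext p; simp [coords, Matrix.mulVec_smul]

/-- The bilinear form of the tensor determinant form. -/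
theorem detForm_powEmb (x y : (Fin t → Fin 2) → F) :
    powEmb e P x ⬝ᵥ (tensorDetForm e P *ᵥ powEmb e P y) =
      x ⬝ᵥ (kroneckerPow (fun _ => (detForm : Matrix (Fin 2) (Fin 2) F)) *ᵥ y) := by
  have hc : ∀ z : ι → F, ((P⁻¹ : GL ι F) : Matrix ι ι F) *ᵥ ((P : Matrix ι ι F) *ᵥ z) = z := fun z => by
    rw [Matrix.mulVec_mulVec, Units.inv_mul, Matrix.one_mulVec]
  rw [tensorDetForm, ← Matrix.mulVec_mulVec, ← Matrix.mulVec_mulVec, powEmb, powEmb, hc,
    Matrix.submatrix_mulVec_equiv, Function.comp_assoc, e.self_comp_symm, Function.comp_id,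
    Matrix.dotProduct_mulVec, Matrix.vecMul_transpose, hc]
  exact e.sum_comp (fun p => x p * (kroneckerPow (fun _ => (detForm : Matrix (Fin 2) (Fin 2) F)) *ᵥ y) p)

/-- A group with absolutely irreducible derived group in a binary tensor wreath group: the form is a
multiple of the tensor determinant form. -/
theorem powGram_eq_det [Fintype F] [Nonempty ι] (hf : Geo.IsSymplecticForm f) {H : Subgroup (GL ι F)}
    (hle : H ≤ Geo.tensorWreathSubgroup 2 t e P)
    (hiso : ∀ g ∈ H, ∀ u v, f ((g : Matrix ι ι F) *ᵥ u) ((g : Matrix ι ι F) *ᵥ v) = f u v)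
    (hirr : Geo.ActsAbsolutelyIrreducibly (Geo.matrixSet (⁅H, H⁆ : Subgroup (GL ι F)))) :
    ∃ c : F, c ≠ 0 ∧ powGram f e P = c • kroneckerPow fun _ => (detForm : Matrix (Fin 2) (Fin 2) F) := by
  set G := tensorDetForm e P
  let fG : (ι → F) → (ι → F) → F := fun u v => u ⬝ᵥ (G *ᵥ v)
  have hbil : Geo.IsBilinearForm fG :=
    ⟨fun x y v => add_dotProduct x y _, fun c x v => smul_dotProduct c x _,
      fun v x y => by simp [fG, mulVec_add, dotProduct_add],
      fun c v x => by simp [fG, mulVec_smul, dotProduct_smul]⟩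
  have hsim : H ≤ Geo.similarityGroup fG := fun g hg => by
    obtain ⟨c, hc⟩ := tensorWreath_similitude (hle hg)
    refine ⟨c, fun u v => ?_⟩
    calc (g.val *ᵥ u) ⬝ᵥ G *ᵥ (g.val *ᵥ v) = u ⬝ᵥ (g.valᵀ * G * g.val) *ᵥ v := by
          rw [← mulVec_mulVec, ← mulVec_mulVec, dotProduct_mulVec u g.valᵀ, vecMul_transpose]
      _ = (c : F) * (u ⬝ᵥ G *ᵥ v) := by rw [hc, smul_mulVec, dotProduct_smul, smul_eq_mul]
  have hfix : Geo.FixesForm (Geo.matrixSet (⁅H, H⁆ : Subgroup (GL ι F))) f :=
    commutator_fixes (H := H) fun g hg => ⟨1, fun u v => by rw [Units.val_one, one_mul]; exact hiso g hg u v⟩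
  obtain ⟨k, hk⟩ := exists_eq_mul_of_fixes hirr (IsSesquiForm.of_bilinear hf.bilinear)
    (IsSesquiForm.of_bilinear hbil) hf.nondegenerate hfix (commutator_fixes hsim)
  have hval : ∀ p q, fG (powEmb e P (Pi.single p 1)) (powEmb e P (Pi.single q 1)) =
      kroneckerPow (fun _ => (detForm : Matrix (Fin 2) (Fin 2) F)) p q := fun p q => by
    show _ ⬝ᵥ (G *ᵥ _) = _
    rw [detForm_powEmb, single_dotProduct, one_mul, Matrix.mulVec_single_one]
    rfl
  have hk0 : k ≠ 0 := fun h => by
    have := hval (fun _ => 0) (fun _ => 1)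
    rw [hk, h, zero_mul] at this
    simp [kroneckerPow, detForm] at this
  refine ⟨k⁻¹, inv_ne_zero hk0, ?_⟩
  ext p q
  rw [Matrix.smul_apply, smul_eq_mul, ← hval, hk, inv_mul_cancel_left₀ hk0]
  rfl

/-- A pure tensor. -/
def pureVec (u : Fin t → Fin 2 → F) (p : Fin t → Fin 2) : F := ∏ i, u i (p i)

theorem pure_eval (Y : Fin t → Matrix (Fin 2) (Fin 2) F) (u : Fin t → Fin 2 → F) :
    pureVec u ⬝ᵥ (kroneckerPow Y *ᵥ pureVec u) = ∏ i, u i ⬝ᵥ (Y i *ᵥ u i) := by
  simp only [dotProduct, Matrix.mulVec, kroneckerPow, Matrix.of_apply, pureVec, Finset.mul_sum,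
    Fintype.prod_sum]
  refine Finset.sum_congr rfl fun p _ => Finset.sum_congr rfl fun q _ => ?_
  rw [← Finset.prod_mul_distrib, ← Finset.prod_mul_distrib]

theorem kron_single (gs : Fin t → Matrix (Fin 2) (Fin 2) F) (π : Equiv.Perm (Fin t)) (q : Fin t → Fin 2) :
    (kroneckerPow gs * permPow π) *ᵥ Pi.single q 1 =
      pureVec fun i => fun a => gs i a (q (π.symm i)) := by
  funext p
  rw [Matrix.mulVec_single_one, Matrix.col_apply, Matrix.mul_apply,
    Finset.sum_eq_single (q ∘ π.symm)]
  · simp [permPow, kroneckerPow, pureVec, Function.comp_assoc]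
  · intro b _ hb
    rw [permPow, Matrix.of_apply, if_neg fun h => hb ?_, mul_zero]
    rw [h, Function.comp_assoc, π.self_comp_symm, Function.comp_id]
  · simp

/-- In even characteristic the wreath group fixes a quadratic form polarising to the form. -/
theorem binary_quad_pure [Fintype F] (hf : Geo.IsSymplecticForm f) (ht : 2 ≤ t) (h2 : (2 : F) = 0)
    {c : F} (hΓ : powGram f e P = c • kroneckerPow fun _ => (detForm : Matrix (Fin 2) (Fin 2) F)) :
    ∃ Q : (ι → F) → F, Geo.IsNondegenerateQuadraticForm Q ∧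
      (∀ u v, QuadraticMap.polar Q u v = f u v) ∧ (∀ u, Q (powEmb e P (pureVec u)) = 0) ∧
      ∀ g ∈ Geo.tensorWreathSubgroup 2 t e P,
        (∀ u v, f ((g : Matrix ι ι F) *ᵥ u) ((g : Matrix ι ι F) *ᵥ v) = f u v) →
        g ∈ Geo.quadSimilarityGroup Q := by
  have : NeZero t := ⟨by omega⟩
  set Y : Fin t → Matrix (Fin 2) (Fin 2) F := Function.update (fun _ => detForm) 0 !![0, 1; 0, 0] with hY
  set M := kroneckerPow Y
  set J := kroneckerPow fun _ : Fin t => (detForm : Matrix (Fin 2) (Fin 2) F)
  have hneg : (-1 : F) = 1 := by linear_combination -h2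
  have hMJ : ∀ p q, M p q + M q p = J p q := fun p q => by
    simp only [M, J, kroneckerPow, Matrix.of_apply,
      ← Finset.mul_prod_erase Finset.univ _ (Finset.mem_univ (0 : Fin t))]
    have hrest : ∀ a b : Fin t → Fin 2, (∏ i ∈ Finset.univ.erase 0, Y i (a i) (b i)) =
        ∏ i ∈ Finset.univ.erase 0, (detForm : Matrix (Fin 2) (Fin 2) F) (a i) (b i) := fun a b =>
      Finset.prod_congr rfl fun i hi => by rw [hY, Function.update_of_ne (Finset.mem_erase.1 hi).1]
    have hsym : ∀ a b : Fin 2, (detForm : Matrix (Fin 2) (Fin 2) F) b a = detForm a b := fun a b => by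
      fin_cases a <;> fin_cases b <;> simp [detForm, hneg]
    rw [hrest, hrest, Finset.prod_congr rfl fun i _ => hsym (p i) (q i), ← add_mul]
    congr 1
    rw [hY, Function.update_self]
    generalize p 0 = a, q 0 = b
    fin_cases a <;> fin_cases b <;> simp [detForm, hneg]
  let Q : (ι → F) → F := fun v => c * (coords e P v ⬝ᵥ (M *ᵥ coords e P v))
  have hform : ∀ u v, f u v = c * (coords e P u ⬝ᵥ (J *ᵥ coords e P v)) := fun u v => by
    conv_lhs => rw [← powEmb_coords (e := e) (P := P) u, ← powEmb_coords (e := e) (P := P) v]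
    rw [form_powEmb (σ := RingHom.id F) (IsSesquiForm.of_bilinear hf.bilinear), hΓ, Geo.formOfGram]
    simp only [dotProduct, Matrix.mulVec, Finset.mul_sum, RingHom.id_apply, Matrix.smul_apply, smul_eq_mul]
    exact Finset.sum_congr rfl fun a _ => Finset.sum_congr rfl fun b _ => by ring
  have hpol : ∀ u v, QuadraticMap.polar Q u v = f u v := fun u v => by
    rw [hform]
    simp only [QuadraticMap.polar, Q, coords_add]
    generalize coords e P u = x, coords e P v = y
    have hsum : y ⬝ᵥ (M *ᵥ x) + x ⬝ᵥ (M *ᵥ y) = x ⬝ᵥ (J *ᵥ y) := by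
      simp only [dotProduct, Matrix.mulVec, Finset.mul_sum]
      rw [Finset.sum_comm, ← Finset.sum_add_distrib]
      refine Finset.sum_congr rfl fun a _ => ?_
      rw [← Finset.sum_add_distrib]
      refine Finset.sum_congr rfl fun b _ => ?_
      rw [← hMJ a b]; ring
    rw [Matrix.mulVec_add, dotProduct_add, add_dotProduct, add_dotProduct]
    linear_combination c * hsum
  have hfun : QuadraticMap.polar Q = f := funext₂ hpol
  have hQ : Geo.IsNondegenerateQuadraticForm Q :=
    ⟨fun a v => by simp only [Q, coords_smul, Matrix.mulVec_smul, dotProduct_smul, smul_dotProduct,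
        smul_eq_mul]; ring,
      hfun.symm ▸ hf.bilinear, hfun.symm ▸ hf.nondegenerate⟩
  have hpure : ∀ u, Q (powEmb e P (pureVec u)) = 0 := fun u => by
    show c * _ = 0
    rw [coords_powEmb, pure_eval]
    refine mul_eq_zero_of_right _ (Finset.prod_eq_zero (Finset.mem_univ (⟨1, by omega⟩ : Fin t)) ?_)
    rw [hY, Function.update_of_ne (by simp [Fin.ext_iff])]
    simp [detForm, dotProduct, Matrix.mulVec, Fin.sum_univ_two]
    ring
  refine ⟨Q, hQ, hpol, hpure, fun g hg hiso => ⟨1, fun v => ?_⟩⟩
  obtain ⟨gs, π, hgs⟩ := mem_tensorWreath_iff.1 hg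
  let D : (ι → F) → F := fun v => Q ((g : Matrix ι ι F) *ᵥ v) - Q v
  have hDadd : ∀ u v, D (u + v) = D u + D v := fun u v => by
    have h1 := hiso u v
    rw [← hpol, ← hpol] at h1
    simp only [QuadraticMap.polar, ← Matrix.mulVec_add] at h1
    simp only [D]
    linear_combination h1
  have hDsmul : ∀ (a : F) v, D (a • v) = a ^ 2 * D v := fun a v => by
    simp only [D, Matrix.mulVec_smul, hQ.smul]; ring
  have hD0 : ∀ p, D (powEmb e P (Pi.single p 1)) = 0 := fun p => by
    have hsing : (Pi.single p (1 : F) : (Fin t → Fin 2) → F) = pureVec fun i => Pi.single (p i) 1 := by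
      funext r
      rw [pureVec]
      by_cases hr : r = p
      · subst hr; simp
      · obtain ⟨i, hi⟩ := Function.ne_iff.1 hr
        rw [Pi.single_eq_of_ne hr, Finset.prod_eq_zero (Finset.mem_univ i) (Pi.single_eq_of_ne hi _)]
    show Q _ - Q _ = 0
    rw [hgs, tconj_mulVec_powEmb, kron_single, hpure, hsing, hpure, sub_zero]
  let Dh : (ι → F) →+ F := AddMonoidHom.mk' D hDadd
  have : D v = 0 := by
    have hv : v = ∑ p, coords e P v p • powEmb e P (Pi.single p 1) := by
      conv_lhs => rw [← powEmb_coords (e := e) (P := P) v, pi_eq_sum_univ' (coords e P v)]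
      simp only [powEmb]
      rw [show ((∑ p, coords e P v p • (Pi.single p (1 : F) : (Fin t → Fin 2) → F)) ∘ e) =
          ∑ p, coords e P v p • ((Pi.single p (1 : F) : (Fin t → Fin 2) → F) ∘ e) by ext i; simp,
        Matrix.mulVec_sum]
      exact Finset.sum_congr rfl fun p _ => Matrix.mulVec_smul _ _ _
    rw [hv, show D _ = Dh _ from rfl, map_sum]
    exact Finset.sum_eq_zero fun p _ => by
      show D _ = 0
      rw [hDsmul, hD0, mul_zero]
  rw [Units.val_one, one_mul]
  exact sub_eq_zero.1 this

/-- In even characteristic the wreath group fixes a quadratic form polarising to the form. -/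
theorem binary_quad [Fintype F] (hf : Geo.IsSymplecticForm f) (ht : 2 ≤ t) (h2 : (2 : F) = 0)
    {c : F} (hΓ : powGram f e P = c • kroneckerPow fun _ => (detForm : Matrix (Fin 2) (Fin 2) F)) :
    ∃ Q : (ι → F) → F, Geo.IsNondegenerateQuadraticForm Q ∧
      (∀ u v, QuadraticMap.polar Q u v = f u v) ∧
      ∀ g ∈ Geo.tensorWreathSubgroup 2 t e P,
        (∀ u v, f ((g : Matrix ι ι F) *ᵥ u) ((g : Matrix ι ι F) *ᵥ v) = f u v) →
        g ∈ Geo.quadSimilarityGroup Q := by
  obtain ⟨Q, h1, h2', -, h3⟩ := binary_quad_pure hf ht h2 hΓ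
  exact ⟨Q, h1, h2', h3⟩

/-- An element of the quaternion group of order eight inside the two by two matrices over the field
with three elements. -/
def IsQuatElem (M : Matrix (Fin 2) (Fin 2) F) : Prop :=
  M = 1 ∨ M = -1 ∨ (M.trace = 0 ∧ M.det = 1)

theorem zmod_three_quat : ∀ a b c d b' c' : ZMod 3, -a * a - b * c = 1 → -d * d - b' * c' = 1 →
    ((a * d + b * c' = 1 ∧ a * b' - b * d = 0 ∧ c * d - a * c' = 0 ∧ c * b' + a * d = 1) ∨
      (a * d + b * c' = -1 ∧ a * b' - b * d = 0 ∧ c * d - a * c' = 0 ∧ c * b' + a * d = -1) ∨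
      a * d + b * c' + (c * b' + a * d) = 0) := by
  decide

/-- Transport to the prime field. -/
theorem three_ringEquiv [Fintype F] (h3 : Fintype.card F = 3) : Nonempty (ZMod 3 ≃+* F) := by
  have := Fact.mk Nat.prime_three
  exact ⟨ZMod.ringEquivOfPrime F Nat.prime_three h3⟩

theorem IsQuatElem.mul [Fintype F] (h3 : Fintype.card F = 3) {M M' : Matrix (Fin 2) (Fin 2) F}
    (h : IsQuatElem M) (h' : IsQuatElem M') : IsQuatElem (M * M') := by
  have hneg : ∀ {X : Matrix (Fin 2) (Fin 2) F}, IsQuatElem X → IsQuatElem (-X) := by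
    rintro X (rfl | rfl | ⟨h1, h2⟩)
    · exact Or.inr (Or.inl rfl)
    · exact Or.inl (neg_neg 1)
    · exact Or.inr (Or.inr ⟨by rw [Matrix.trace_neg, h1, neg_zero],
        by rw [Matrix.det_neg, h2, Fintype.card_fin]; norm_num⟩)
  rcases h with rfl | rfl | ⟨t1, d1⟩
  · rwa [one_mul]
  · rw [neg_one_mul]; exact hneg h'
  rcases h' with rfl | rfl | ⟨t2, d2⟩
  · rw [mul_one]; exact Or.inr (Or.inr ⟨t1, d1⟩)
  · rw [mul_neg_one]; exact hneg (Or.inr (Or.inr ⟨t1, d1⟩))
  obtain ⟨φ⟩ := three_ringEquiv h3
  have hM : M 1 1 = - M 0 0 := by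
    rw [Matrix.trace_fin_two] at t1; linear_combination t1
  have hM' : M' 1 1 = - M' 0 0 := by
    rw [Matrix.trace_fin_two] at t2; linear_combination t2
  rw [Matrix.det_fin_two, hM] at d1
  rw [Matrix.det_fin_two, hM'] at d2
  have key := zmod_three_quat (φ.symm (M 0 0)) (φ.symm (M 0 1)) (φ.symm (M 1 0)) (φ.symm (M' 0 0))
    (φ.symm (M' 0 1)) (φ.symm (M' 1 0)) (by
      apply φ.injective; simp only [map_sub, map_mul, map_neg, RingEquiv.apply_symm_apply, map_one]
      linear_combination d1) (by
      apply φ.injective; simp only [map_sub, map_mul, map_neg, RingEquiv.apply_symm_apply, map_one]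
      linear_combination d2)
  simp only [← φ.injective.eq_iff, map_add, map_sub, map_mul, map_neg, RingEquiv.apply_symm_apply,
    map_one, map_zero] at key
  rcases key with ⟨e00, e01, e10, e11⟩ | ⟨e00, e01, e10, e11⟩ | etr
  · refine Or.inl (Matrix.ext fun i j => ?_)
    fin_cases i <;> fin_cases j <;> simp [Matrix.mul_apply, Fin.sum_univ_two, hM, hM'] <;>
      first | linear_combination e00 | linear_combination e01 | linear_combination e10 | linear_combination e11
  · refine Or.inr (Or.inl (Matrix.ext fun i j => ?_))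
    fin_cases i <;> fin_cases j <;> simp [Matrix.mul_apply, Fin.sum_univ_two, hM, hM'] <;>
      first | linear_combination e00 | linear_combination e01 | linear_combination e10 | linear_combination e11
  · refine Or.inr (Or.inr ⟨?_, by rw [Matrix.det_mul, Matrix.det_fin_two, Matrix.det_fin_two, hM, hM', d1, d2, mul_one]⟩)
    rw [Matrix.trace_fin_two]
    simp only [Matrix.mul_apply, Fin.sum_univ_two, hM, hM']
    linear_combination etr

theorem IsQuatElem.det {M : Matrix (Fin 2) (Fin 2) F} (h : IsQuatElem M) : M.det = 1 := by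
  rcases h with rfl | rfl | ⟨-, h⟩
  · exact Matrix.det_one
  · rw [Matrix.det_neg, Matrix.det_one, Fintype.card_fin]; norm_num
  · exact h

theorem IsQuatElem.sq {M : Matrix (Fin 2) (Fin 2) F} (h : IsQuatElem M) : M * M = 1 ∨ M * M = -1 := by
  rcases h with rfl | rfl | ⟨h1, h2⟩
  · exact Or.inl (mul_one 1)
  · exact Or.inl (by simp)
  · refine Or.inr (Matrix.ext fun i j => ?_)
    rw [Matrix.trace_fin_two] at h1
    rw [Matrix.det_fin_two] at h2
    fin_cases i <;> fin_cases j <;> simp [Matrix.mul_apply, Fin.sum_univ_two]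
    · linear_combination M 0 0 * h1 - h2
    · linear_combination M 0 1 * h1
    · linear_combination M 1 0 * h1
    · linear_combination M 1 1 * h1 - h2

/-- Over the field with three elements the binary tensor wreath group normalises an extraspecial
group. -/
theorem binary_three [Fintype F] (hf : Geo.IsSymplecticForm f) (h3 : Fintype.card F = 3) (ht : 1 ≤ t)
    {c : F} (hΓ : powGram f e P = c • kroneckerPow fun _ => (detForm : Matrix (Fin 2) (Fin 2) F)) :
    ∃ R : Subgroup (GL ι F), IsExtra f R ∧
      ∀ g ∈ Geo.tensorWreathSubgroup 2 t e P, ∀ x ∈ R, g * x * g⁻¹ ∈ R := by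
  classical
  have hne : Nonempty ι := ⟨e.symm fun _ => 0⟩
  let Q8 : Set (GL (Fin 2) F) := {M | IsQuatElem M.val}
  have q1 : (1 : GL (Fin 2) F) ∈ Q8 := Or.inl rfl
  have qinv : ∀ M ∈ Q8, M⁻¹ ∈ Q8 := fun M hM => by
    rcases hM.sq with e1 | e1
    · rw [show M⁻¹ = M from inv_eq_of_mul_eq_one_right (Units.ext e1)]; exact hM
    · have : M⁻¹ = -M := inv_eq_of_mul_eq_one_right (Units.ext (by
        rw [Units.val_mul, Units.val_neg, mul_neg, e1, neg_neg, Units.val_one]))
      rw [this]
      show IsQuatElem (-M.val)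
      rw [← neg_one_mul]
      exact IsQuatElem.mul h3 (Or.inr (Or.inl rfl)) hM
  let T : GL (Fin t → Fin 2) F →* GL ι F :=
    (MulAut.conj P).toMonoidHom.comp (Geo.glReindex e.symm).toMonoidHom
  have hT : ∀ U : GL (Fin t → Fin 2) F, (T U).val = tconj e P U.val := fun U => rfl
  let K : (Fin t → GL (Fin 2) F) →* GL ι F :=
    { toFun := fun gs => T (kroneckerPowGL gs)
      map_one' := by
        rw [show kroneckerPowGL (1 : Fin t → GL (Fin 2) F) = 1 from Units.ext kroneckerPow_one, map_one]
      map_mul' := fun gs hs => by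
        rw [show kroneckerPowGL (gs * hs) = kroneckerPowGL gs * kroneckerPowGL hs from
          Units.ext (kroneckerPow_mul _ _).symm, map_mul] }
  let S : Subgroup (Fin t → GL (Fin 2) F) :=
    { carrier := {gs | ∀ i, gs i ∈ Q8}
      one_mem' := fun i => q1
      mul_mem' := fun {a b} ha hb i => IsQuatElem.mul h3 (ha i) (hb i)
      inv_mem' := fun {a} ha i => qinv _ (ha i) }
  refine ⟨S.map K, ⟨hf, ?_, ?_, ?_, ?_⟩, ?_⟩
  · rintro _ ⟨gs, hgs, rfl⟩ u v
    have hJ : ((kroneckerPowGL gs).val)ᵀ * powGram f e P * (kroneckerPowGL gs).val.map (RingHom.id F) =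
        powGram f e P := by
      rw [RingHom.coe_id, Matrix.map_id, hΓ, Matrix.mul_smul, Matrix.smul_mul]
      congr 1
      show (kroneckerPow fun i => (gs i).val)ᵀ * _ * (kroneckerPow fun i => (gs i).val) = _
      rw [kroneckerPow_transpose, kroneckerPow_mul, kroneckerPow_mul]
      congr 1
      funext i
      rw [transpose_mul_detForm_mul, (hgs i).det, one_smul]
    have hs := IsSesquiForm.of_bilinear hf.bilinear
    obtain ⟨x, rfl⟩ := powEmb_surjective (e := e) (P := P) u
    obtain ⟨y, rfl⟩ := powEmb_surjective (e := e) (P := P) v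
    show f ((T _).val *ᵥ _) ((T _).val *ᵥ _) = _
    rw [hT, tconj_mulVec_powEmb, tconj_mulVec_powEmb, form_powEmb hs, form_powEmb hs, formOfGram_eq,
      formOfGram_eq]
    simp only [RingHom.id_apply]
    conv_rhs => rw [← hJ, RingHom.coe_id, Matrix.map_id]
    rw [← Matrix.mulVec_mulVec, ← Matrix.mulVec_mulVec, Matrix.dotProduct_mulVec _ _ᵀ,
      Matrix.vecMul_transpose]
  · refine absIrred_of_adjoin_eq_top (eq_top_iff.2 fun X _ => ?_)
    obtain ⟨Y, rfl⟩ := (tconj e P).surjective X
    set A := Algebra.adjoin F (Geo.matrixSet (S.map K))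
    have hone : ∀ i : Fin t, ∀ M : Matrix (Fin 2) (Fin 2) F,
        tconj e P (kroneckerPow (Pi.mulSingle i M)) ∈ A := by
      intro i
      let W : Submodule F (Matrix (Fin 2) (Fin 2) F) :=
        { carrier := {M | tconj e P (kroneckerPow (Pi.mulSingle i M)) ∈ A}
          add_mem' := fun {a b} ha hb => by
            have : kroneckerPow (Pi.mulSingle i (a + b) : Fin t → Matrix (Fin 2) (Fin 2) F) =
                kroneckerPow (Pi.mulSingle i a) + kroneckerPow (Pi.mulSingle i b) := by
              ext p q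
              simp only [kroneckerPow, Matrix.of_apply, Matrix.add_apply,
                ← Finset.mul_prod_erase Finset.univ _ (Finset.mem_univ i)]
              rw [Pi.mulSingle_eq_same, Pi.mulSingle_eq_same, Pi.mulSingle_eq_same, Matrix.add_apply, add_mul]
              congr 1
              all_goals congr 1
              all_goals refine Finset.prod_congr rfl fun j hj => ?_
              all_goals rw [Pi.mulSingle_eq_of_ne (Finset.mem_erase.1 hj).1,
                Pi.mulSingle_eq_of_ne (Finset.mem_erase.1 hj).1]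
            show tconj e P _ ∈ A
            rw [this, map_add]; exact add_mem ha hb
          zero_mem' := by
            show tconj e P _ ∈ A
            rw [show kroneckerPow (Pi.mulSingle i (0 : Matrix (Fin 2) (Fin 2) F)) = 0 by
              ext p q
              rw [kroneckerPow, Matrix.of_apply, Finset.prod_eq_zero (Finset.mem_univ i) (by simp)]
              rfl, map_zero]
            exact A.zero_mem
          smul_mem' := fun r a ha => by
            have : kroneckerPow (Pi.mulSingle i (r • a) : Fin t → Matrix (Fin 2) (Fin 2) F) =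
                r • kroneckerPow (Pi.mulSingle i a) := by
              ext p q
              simp only [kroneckerPow, Matrix.of_apply, Matrix.smul_apply, smul_eq_mul,
                ← Finset.mul_prod_erase Finset.univ _ (Finset.mem_univ i)]
              rw [Pi.mulSingle_eq_same, Pi.mulSingle_eq_same, Matrix.smul_apply, smul_eq_mul, mul_assoc]
              congr 2
              exact Finset.prod_congr rfl fun j hj => by
                rw [Pi.mulSingle_eq_of_ne (Finset.mem_erase.1 hj).1,
                  Pi.mulSingle_eq_of_ne (Finset.mem_erase.1 hj).1]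
            show tconj e P _ ∈ A
            rw [this, map_smul]; exact A.smul_mem ha r }
      have hW : ∀ M : GL (Fin 2) F, M ∈ Q8 → M.val ∈ W := fun M hM => by
        refine Algebra.subset_adjoin ⟨K (Pi.mulSingle i M), ⟨_, fun j => ?_, rfl⟩, ?_⟩
        · by_cases hj : j = i
          · subst hj; rwa [Pi.mulSingle_eq_same]
          · rw [Pi.mulSingle_eq_of_ne hj]; exact q1
        · show (T _).val = _
          rw [hT]
          refine congrArg _ (congrArg kroneckerPow ?_)
          funext j
          exact (Pi.apply_mulSingle (fun _ (g : GL (Fin 2) F) => (g : Matrix (Fin 2) (Fin 2) F))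
            (fun _ => rfl) i M j)
      have hW' : ∀ M : Matrix (Fin 2) (Fin 2) F, IsQuatElem M → M ∈ W := fun M hM => by
        have hu : IsUnit M := (Matrix.isUnit_iff_isUnit_det _).2 (by rw [hM.det]; exact isUnit_one)
        exact hW hu.unit hM
      have h30 : (3 : F) = 0 := by
        have h := Nat.cast_card_eq_zero F
        rw [h3] at h
        simpa using h
      intro M
      have m1 := hW' 1 (Or.inl rfl)
      have m2 := hW' !![0, 1; -1, 0] (Or.inr (Or.inr ⟨by simp [Matrix.trace_fin_two],
        by simp [Matrix.det_fin_two]⟩))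
      have m3 := hW' !![1, 1; 1, -1] (Or.inr (Or.inr ⟨by simp [Matrix.trace_fin_two],
        by simp [Matrix.det_fin_two]; linear_combination -h30⟩))
      have m4 := hW' !![1, -1; -1, -1] (Or.inr (Or.inr ⟨by simp [Matrix.trace_fin_two],
        by simp [Matrix.det_fin_two]; linear_combination -h30⟩))
      have hM : M = (-(M 0 0 + M 1 1)) • (1 : Matrix (Fin 2) (Fin 2) F) +
          (-(M 0 1 - M 1 0)) • !![0, 1; -1, 0] + (M 0 0 - M 1 1 + (M 0 1 + M 1 0)) • !![1, 1; 1, -1] +
          (M 0 0 - M 1 1 - (M 0 1 + M 1 0)) • !![1, -1; -1, -1] := by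
        ext a b
        fin_cases a <;> fin_cases b <;> simp
        · linear_combination (M 1 1) * h30
        · linear_combination -(M 1 0) * h30
        · linear_combination -(M 0 1) * h30
        · linear_combination (M 0 0) * h30
      exact hM ▸ W.add_mem (W.add_mem (W.add_mem (W.smul_mem _ m1) (W.smul_mem _ m2)) (W.smul_mem _ m3))
        (W.smul_mem _ m4)
    rw [Matrix.matrix_eq_sum_single Y, map_sum]
    refine sum_mem fun p _ => ?_
    rw [map_sum]
    refine sum_mem fun q _ => ?_
    rw [show Matrix.single p q (Y p q) = Y p q • Matrix.single p q (1 : F) by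
      rw [Matrix.smul_single, smul_eq_mul, mul_one], map_smul]
    refine A.smul_mem ?_ _
    have hprod : ∀ s : Finset (Fin t), tconj e P
        (kroneckerPow fun i => if i ∈ s then Matrix.single (p i) (q i) (1 : F) else 1) ∈ A := by
      intro s
      induction s using Finset.induction_on with
      | empty => simp [kroneckerPow_one, A.one_mem]
      | @insert i s hi ih =>
        have hsplit : (fun j => if j ∈ insert i s then Matrix.single (p j) (q j) (1 : F) else 1) =
            fun j => (Pi.mulSingle i (Matrix.single (p i) (q i) (1 : F)) :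
              Fin t → Matrix (Fin 2) (Fin 2) F) j * if j ∈ s then Matrix.single (p j) (q j) (1 : F) else 1 := by
          funext j
          by_cases hj : j = i
          · subst hj; simp [hi]
          · simp [hj]
        rw [hsplit, ← kroneckerPow_mul, map_mul]
        exact A.mul_mem (hone i _) ih
    have := hprod Finset.univ
    simp only [Finset.mem_univ, if_true] at this
    convert this using 2
    ext x y
    simp only [kroneckerPow, Matrix.of_apply, Matrix.single_apply]
    split_ifs with hxy
    · obtain ⟨rfl, rfl⟩ := hxy; simp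
    · symm
      rw [Finset.prod_eq_zero_iff]
      by_contra hall
      push Not at hall
      exact hxy ⟨funext fun i => (ite_ne_right_iff.1 (hall i (Finset.mem_univ i))).1.1,
        funext fun i => (ite_ne_right_iff.1 (hall i (Finset.mem_univ i))).1.2⟩
  · rintro _ ⟨a, ha, rfl⟩ _ ⟨b, hb, rfl⟩
    have hs : ∀ i, ∃ s : F, (b i * a i * (b i)⁻¹ * (a i)⁻¹ : GL (Fin 2) F).val = s • 1 := fun i => by
      have sq' : ∀ {M : Matrix (Fin 2) (Fin 2) F}, IsQuatElem M →
          ∃ s : F, s * s = 1 ∧ M * M = s • 1 := fun hM => by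
        rcases hM.sq with h | h
        · exact ⟨1, one_mul 1, by rw [h, one_smul]⟩
        · exact ⟨-1, by ring, by rw [h, neg_one_smul]⟩
      have i2 : ∀ (g : GL (Fin 2) F) (s : F), g.val * g.val = s • 1 → s * s = 1 →
          (g⁻¹ : GL (Fin 2) F).val = s • g.val := fun g s h hs => by
        refine Units.inv_eq_of_mul_eq_one_right ?_
        rw [Matrix.mul_smul, h, smul_smul, hs, one_smul]
      obtain ⟨s₁, -, e₁⟩ := sq' (IsQuatElem.mul h3 (hb i) (ha i))
      obtain ⟨s₂, q₂, e₂⟩ := sq' (hb i)
      obtain ⟨s₃, q₃, e₃⟩ := sq' (ha i)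
      refine ⟨s₃ * (s₂ * s₁), ?_⟩
      rw [Units.val_mul, Units.val_mul, Units.val_mul, i2 _ _ e₂ q₂, i2 _ _ e₃ q₃, Matrix.mul_smul,
        Matrix.mul_smul, Matrix.smul_mul, mul_assoc ((b i).val * (a i).val), e₁, smul_smul, smul_smul]
      congr 1
      ring
    choose s hs using hs
    have hs0 : ∀ i, s i ≠ 0 := fun i h0 => by
      have := hs i
      rw [h0, zero_smul] at this
      exact (Units.ne_zero _) this
    refine (Geo.mem_scalars_iff _).2 ⟨Units.mk0 (∏ i, s i) (Finset.prod_ne_zero_iff.2 fun i _ => hs0 i), ?_⟩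
    rw [← map_inv, ← map_inv, ← map_mul, ← map_mul, ← map_mul]
    show (T _).val = _
    rw [hT, Units.val_mk0]
    show tconj e P (kroneckerPow fun i => ((b * a * b⁻¹ * a⁻¹) i).val) = _
    simp only [Pi.mul_apply, Pi.inv_apply, hs]
    rw [kroneckerPow_smul, kroneckerPow_one, map_smul, map_one]
  · rw [Fintype.card_congr e, Fintype.card_fun, Fintype.card_fin, Fintype.card_fin]
    exact Nat.le_self_pow (by omega) 2
  · rintro g hg _ ⟨a, ha, rfl⟩
    obtain ⟨gs, π, hgs⟩ := mem_tensorWreath_iff.1 hg
    let b : Fin t → GL (Fin 2) F := fun i => gs i * a (π.symm i) * (gs i)⁻¹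
    refine ⟨b, fun i => ?_, ?_⟩
    · show IsQuatElem (b i).val
      have hh := ha (π.symm i)
      simp only [b, Units.val_mul]
      rcases hh with h | h | ⟨h1, h2⟩
      · exact Or.inl (by rw [h, mul_one, Units.mul_inv])
      · exact Or.inr (Or.inl (by rw [h, mul_neg_one, neg_mul, Units.mul_inv]))
      · refine Or.inr (Or.inr ⟨?_, ?_⟩)
        · rw [Matrix.trace_units_conj]; exact h1
        · rw [Matrix.det_units_conj]; exact h2
    · rw [eq_mul_inv_iff_mul_eq]
      refine Units.ext ?_
      show (T _).val * g.val = g.val * (T _).val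
      rw [hT, hT, hgs, ← map_mul, ← map_mul]
      congr 1
      show kroneckerPow _ * _ = _ * kroneckerPow _
      rw [← mul_assoc, kroneckerPow_mul, mul_assoc (kroneckerPow fun i => (gs i).val),
        permPow_mul_kroneckerPow, ← mul_assoc, kroneckerPow_mul]
      congr 2
      funext i
      simp [b, mul_assoc]

/-- Otherwise the wreath group is a tensor power member. -/
theorem binary_member [Fintype F] (hf : Geo.IsSymplecticForm f) (h2 : (2 : F) ≠ 0) {c : F} (hc : c ≠ 0)
    (hΓ : powGram f e P = c • kroneckerPow fun _ => (detForm : Matrix (Fin 2) (Fin 2) F)) :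
    ∃ f₁ : (Fin 2 → F) → (Fin 2 → F) → F, Geo.IsSymplecticForm f₁ ∧
      Geo.IsTensorPowerFormStructure id f f₁ e P := by
  refine ⟨Geo.formOfGram (RingHom.id F) detForm, ?_,
    isTensorPowerFormStructure_of_powGram (IsSesquiForm.of_bilinear hf.bilinear) hc hΓ⟩
  have hs := isSesquiForm_formOfGram (RingHom.id F) (detForm : Matrix (Fin 2) (Fin 2) F)
  have hX : ∀ i j, (detForm : Matrix (Fin 2) (Fin 2) F) i j = (-1) * (RingHom.id F) (detForm j i) := by
    intro i j; fin_cases i <;> fin_cases j <;> simp [detForm]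
  have hskew : ∀ v w, Geo.formOfGram (RingHom.id F) detForm v w =
      - Geo.formOfGram (RingHom.id F) detForm w v := fun v w => by
    rw [formOfGram_refl _ (fun _ => rfl) hX v w]; simp
  refine ⟨⟨hs.add_left, hs.smul_left, hs.add_right, fun c v x => hs.smul_right c v x⟩, hskew, fun v => ?_,
    nondegenerate_formOfGram _ (fun _ => rfl) (by simp) hX ?_⟩
  · exact (mul_eq_zero.1 (show (2 : F) * Geo.formOfGram (RingHom.id F) detForm v v = 0 by
      linear_combination hskew v v)).resolve_left h2
  · rw [Matrix.isUnit_iff_isUnit_det]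
    simp [detForm, Matrix.det_fin_two]

end CfsgLib.Aschbacher.Symp
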