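import Cfsg.Agent.Aschbacher.SymplecticType

/-!
The symplectic-type cover attached to an abelian configuration, independently of the field of
definition, and the absolute irreducibility of the derived group.
-/

set_option autoImplicit false
set_option linter.unusedSectionVars false
set_option linter.unusedVariables false

namespace CfsgLib.Aschbacher

open Matrix Module
open scoped MatrixGroups

variable {ι : Type} [Fintype ι] [DecidableEq ι] {F : Type*} [Field F]

/-- The symplectic-type cover of an abelian configuration. -/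
structure CoverGroup (H N R : Subgroup (GL ι F)) (r r' j : ℕ) (u : Fˣ) : Prop where
  symplecticType : Cfsg.Geo.IsSymplecticTypeGroup r R
  data : CoverData H N R r'
  dim_eq : Fintype.card ι = r ^ j
  exp_eq : r' = r * Nat.gcd 2 r
  root : orderOf u = r'
  root_mem : scalarGL u ∈ R
  scalar_mem_zpowers : ∀ c : Fˣ, scalarGL c ∈ R → c ∈ Subgroup.zpowers u
  card_center : Nat.card (Subgroup.center R) = r'
  card_eq : Nat.card R = r ^ (2 * j) * r'
  prime_ne : ∀ p : ℕ, CharP F p → r ≠ p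

/-- The cover exists as soon as `-1` is a square or the prime is odd. -/
theorem exists_coverGroup [Fintype F] (hn : 3 ≤ Fintype.card ι) {H N : Subgroup (GL ι F)} {r : ℕ}
    (h : AbelianData H N r) (hhom : Odd r ∨ ∃ i : Fˣ, i ^ 2 = -1) :
    ∃ (R : Subgroup (GL ι F)) (r' j : ℕ) (u : Fˣ), CoverGroup H N R r r' j u := by
  classical
  have : Nonempty ι := Fintype.card_pos_iff.mp (by omega)
  have hrp := h.prime
  obtain ⟨j, hj, hnj⟩ := abelianData_isPrimePow (by omega) h
  obtain ⟨p, hchar, e, hp, hcard⟩ : ∃ p : ℕ, CharP F p ∧ ∃ e : ℕ, p.Prime ∧ Fintype.card F = p ^ e := by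
    obtain ⟨p, hchar⟩ := CharP.exists F
    obtain ⟨e, hp, hcard⟩ := FiniteField.card F p
    exact ⟨p, hchar, e, hp, hcard⟩
  have := Fact.mk hp
  have hab : ∀ x ∈ N, ∀ y ∈ N, y * x * y⁻¹ * x⁻¹ ∈ Cfsg.Geo.scalars ι F :=
    fun a ha b hb => h.comm b hb a ha
  -- a root of unity of order `r`
  obtain ⟨w, hw⟩ : ∃ w : Fˣ, orderOf w = r := by
    obtain ⟨x, hx, y, hy, hxy⟩ := exists_not_commute (by omega) h.absIrred
    obtain ⟨z, hzs, he, hz⟩ :=
      exists_sign_of_mem_sup hab h.pow_mem (Subgroup.mem_sup_left hx) (Subgroup.mem_sup_left hy)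
    obtain ⟨c, rfl⟩ := id hzs
    have := Fact.mk h.prime
    refine ⟨c, orderOf_eq_prime (scalarGL_injective (ι := ι) ?_) fun h1 => hxy ?_⟩
    · rw [scalarGL_pow]; exact hz.trans (map_one _).symm
    · rw [h1, map_one, one_mul] at he; exact he.symm
  have hdvd : r ∣ p ^ e - 1 := by
    rw [← hw, ← hcard, ← Fintype.card_units]
    exact orderOf_dvd_card
  have he0 : e ≠ 0 := fun e0 => by
    rw [e0, pow_zero] at hcard
    exact (Fintype.one_lt_card (α := F)).ne' hcard
  have hrne : r ≠ p := fun e' => by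
    subst e'
    have h1 : r ∣ r ^ e := dvd_pow_self r he0
    have h2 := Nat.dvd_sub h1 hdvd
    rw [Nat.sub_sub_self (Nat.one_le_pow e r hp.pos)] at h2
    exact hrp.ne_one (Nat.dvd_one.mp h2)
  -- the adjusted cover
  obtain ⟨r', hr', hdiv, hchoose, hr'cases, u, hu⟩ : ∃ r', r' = r * Nat.gcd 2 r ∧ r ∣ r' ∧
      r ∣ r'.choose 2 ∧ ((Odd r ∧ r' = r) ∨ (r = 2 ∧ r' = 4)) ∧ ∃ u : Fˣ, orderOf u = r' := by
    refine ⟨_, rfl, dvd_mul_right _ _, ?_⟩
    rcases hrp.eq_two_or_odd' with rfl | hodd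
    · rcases hhom with h1 | ⟨i, hi⟩
      · exact absurd h1 (by decide)
      refine ⟨by decide, Or.inr ⟨rfl, rfl⟩, i, ?_⟩
      have hne : (-1 : Fˣ) ≠ 1 := fun h1 => hrne (by
        have : (-1 : F) = 1 := by simpa using congrArg Units.val h1
        have h2' : ((2 : ℕ) : F) = 0 := by
          push_cast
          rw [← one_add_one_eq_two]
          nth_rewrite 1 [← this]
          exact neg_add_cancel 1
        exact ((Nat.prime_dvd_prime_iff_eq hp Nat.prime_two).mp
          ((CharP.cast_eq_zero_iff F p 2).mp h2')).symm)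
      exact orderOf_eq_prime_pow (p := 2) (n := 1) (by rw [pow_one, hi]; exact hne)
        (by rw [show (2 : ℕ) ^ (1 + 1) = 2 * 2 from rfl, pow_mul, hi, neg_one_sq])
    · have hg : Nat.gcd 2 r = 1 := (Nat.coprime_primes Nat.prime_two hrp).mpr fun e' => by
        rw [← e'] at hodd; exact absurd hodd (by decide)
      rw [hg, mul_one]
      refine ⟨?_, Or.inl ⟨hodd, rfl⟩, w, hw⟩
      obtain ⟨m, hm⟩ := hodd
      exact ⟨m, by rw [Nat.choose_two_right, hm, show (2 * m + 1) * (2 * m + 1 - 1) = 2 * ((2 * m + 1) * m) by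
        rw [Nat.add_sub_cancel]; ring, Nat.mul_div_cancel_left _ (by norm_num)]⟩
  obtain ⟨R, hR⟩ := exists_cover (r' := r') hab h.pow_mem hchoose
  have honto : ∀ x ∈ N, ∃ c : Fˣ, scalarGL c * x ∈ R := by
    intro x hx
    obtain ⟨c, hc⟩ := exists_root (by omega) h hhom x hx
    refine ⟨c⁻¹, (hR.mem_iff _).mpr
      ⟨mul_mem (Subgroup.mem_sup_right (scalarGL_mem _)) (Subgroup.mem_sup_left hx), ?_⟩⟩
    obtain ⟨t, ht⟩ := hdiv
    rw [ht, pow_mul, Commute.mul_pow (scalars_commute (scalarGL_mem _) x), hc, ← scalarGL_pow]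
    unfold scalarGL
    rw [← map_mul, inv_pow, inv_mul_cancel, map_one, one_pow]
  have hd := coverData h hR honto
  have hr'pos : 0 < r' := hu ▸ orderOf_pos u
  have hroots : ∀ c : Fˣ, scalarGL c ∈ R → c ∈ Subgroup.zpowers u := by
    intro c hc
    have : NeZero (orderOf u) := ⟨hu.symm ▸ hr'pos.ne'⟩
    obtain ⟨k, -, hk⟩ := ((IsPrimitiveRoot.orderOf u).map_of_injective (f := Units.coeHom F)
      Units.val_injective).eq_pow_of_pow_eq_one (ξ := (c : F)) (by
        rw [hu, ← Units.val_pow_eq_pow_val, hd.scalar_pow c hc, Units.val_one])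
    rw [Units.coeHom_apply, ← Units.val_pow_eq_pow_val] at hk
    exact ⟨k, by simp only [zpow_natCast]; exact Units.ext hk⟩
  have huR : scalarGL u ∈ R := (hR.mem_iff _).mpr ⟨Subgroup.mem_sup_right (scalarGL_mem _), by
    rw [← scalarGL_pow, ← hu, pow_orderOf_eq_one]; exact map_one _⟩
  have hcenter : (Subgroup.center R).map R.subtype = Subgroup.zpowers (scalarGL u) := by
    refine le_antisymm ?_ (Subgroup.zpowers_le.mpr ⟨⟨scalarGL u, huR⟩, ?_, rfl⟩)
    · rintro _ ⟨g, hg, rfl⟩
      obtain ⟨c, hc⟩ := mem_scalars_of_commute hd.absIrred (g := g.1) fun z hz =>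
        (congrArg Subtype.val (Subgroup.mem_center_iff.mp hg ⟨z, hz⟩)).symm
      obtain ⟨k, hk⟩ := hroots c (show scalarGL c ∈ R from (show scalarGL c = g.1 from hc) ▸ g.2)
      refine ⟨k, ?_⟩
      show scalarGL u ^ k = g.1
      rw [← hc, ← hk]
      exact (map_zpow _ _ _).symm
    · exact Subgroup.mem_center_iff.mpr fun z => Subtype.ext (scalars_commute (scalarGL_mem u) z.1).symm
  have hcardc : Nat.card (Subgroup.center R) = r' := by
    rw [← Nat.card_congr (Equiv.refl _), ← Subgroup.card_map_of_injective R.subtype_injective, hcenter,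
      Nat.card_zpowers, orderOf_scalarGL, hu]
  have hcycc : IsCyclic (Subgroup.center R) := by
    have : IsCyclic ((Subgroup.center R).map R.subtype) := by rw [hcenter]; infer_instance
    exact isCyclic_of_injective
      ((Subgroup.center R).equivMapOfInjective R.subtype R.subtype_injective).toMonoidHom
      (MulEquiv.injective _)
  have hsub : Subgroup.center R = (Cfsg.Geo.scalars ι F).subgroupOf R := by
    ext g
    constructor
    · intro hg
      exact mem_scalars_of_commute hd.absIrred fun z hz =>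
        (congrArg Subtype.val (Subgroup.mem_center_iff.mp hg ⟨z, hz⟩)).symm
    · intro hg
      exact Subgroup.mem_center_iff.mpr fun z => Subtype.ext (scalars_commute hg z.1).symm
  have hcardR : Nat.card R = r ^ (2 * j) * r' := by
    have hc2 : Nat.card ((Cfsg.Geo.scalars ι F).subgroupOf R) = r' := hsub ▸ hcardc
    rw [Subgroup.card_eq_card_quotient_mul_card_subgroup ((Cfsg.Geo.scalars ι F).subgroupOf R),
      card_quotient_scalars hd.absIrred hd.comm, hc2, hnj, ← pow_add, two_mul]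
  have hexp : Monoid.exponent R = r' := by
    refine Nat.dvd_antisymm (Monoid.exponent_dvd_of_forall_pow_eq_one fun g : R =>
      Subtype.ext ((hR.mem_iff g.1).mp g.2).2) ?_
    have h2 : orderOf (⟨scalarGL u, huR⟩ : R) = r' := by
      rw [← Subgroup.orderOf_coe, orderOf_scalarGL, hu]
    exact h2 ▸ Monoid.order_dvd_exponent _
  have hsymp : Cfsg.Geo.IsSymplecticTypeGroup r R := by
    refine ⟨hrp, fun g => ?_, fun A hA hAc => ?_, hr' ▸ hexp⟩
    · have h1 : g ^ r' = 1 := Subtype.ext ((hR.mem_iff g.1).mp g.2).2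
      rcases hr'cases with ⟨-, e'⟩ | ⟨e1, e'⟩
      · exact ⟨1, by rw [pow_one, ← e', h1]⟩
      · exact ⟨2, by rw [e1, show (2 : ℕ) ^ 2 = r' from e'.symm, h1]⟩
    · have hle : A ≤ Subgroup.center R := by
        rw [hsub]
        intro a ha
        set A' := A.map R.subtype with hA'
        have hA'n : ∀ g ∈ H, ∀ x ∈ A', g * x * g⁻¹ ∈ A' := by
          rintro g hg _ ⟨b, hb, rfl⟩
          let φ : R ≃* R :=
            { toFun := fun z => ⟨g * z.1 * g⁻¹, hd.normal g hg _ z.2⟩
              invFun := fun z => ⟨g⁻¹ * z.1 * g, by simpa using hd.normal g⁻¹ (inv_mem hg) _ z.2⟩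
              left_inv := fun z => Subtype.ext (by simp [mul_assoc])
              right_inv := fun z => Subtype.ext (by simp [mul_assoc])
              map_mul' := fun z z' => Subtype.ext (by simp [mul_assoc]) }
          exact ⟨φ b, Subgroup.mem_comap.mp ((hA.fixed φ).symm ▸ hb : b ∈ A.comap φ.toMonoidHom), rfl⟩
        let M := N ⊓ (A' ⊔ Cfsg.Geo.scalars ι F)
        have hMn : ∀ g ∈ H, ∀ x ∈ M, g * x * g⁻¹ ∈ M := by
          rintro g hg x ⟨hxN, hxA⟩
          refine ⟨h.normal g hg x hxN, ?_⟩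
          have : (A' ⊔ Cfsg.Geo.scalars ι F).map (MulAut.conj g).toMonoidHom ≤
              A' ⊔ Cfsg.Geo.scalars ι F := by
            rw [Subgroup.map_sup]
            refine sup_le_sup ?_ ?_
            · rintro _ ⟨b, hb, rfl⟩; exact hA'n g hg b hb
            · rintro _ ⟨b, hb, rfl⟩; exact Cfsg.Geo.scalars_normal.conj_mem b hb g
          exact this ⟨x, hxA, rfl⟩
        by_cases hMZ : M ≤ Cfsg.Geo.scalars ι F
        · obtain ⟨hxs, -⟩ := (hR.mem_iff a.1).mp a.2
          rw [← SetLike.mem_coe, Subgroup.mul_normal, Set.mem_mul] at hxs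
          obtain ⟨x, hx, z, hz, hxz⟩ := hxs
          have hxA : x ∈ A' ⊔ Cfsg.Geo.scalars ι F := by
            have : x = a.1 * z⁻¹ := eq_mul_inv_of_mul_eq hxz
            exact this ▸ mul_mem (Subgroup.mem_sup_left ⟨a, ha, rfl⟩)
              (Subgroup.mem_sup_right (inv_mem hz))
          show a.1 ∈ Cfsg.Geo.scalars ι F
          exact hxz ▸ mul_mem (hMZ ⟨hx, hxA⟩) hz
        · exfalso
          have hMN := h.minimal M inf_le_left
            (le_inf h.scalars_le (inf_le_right.trans le_sup_right)) hMn hMZ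
          obtain ⟨x, hx, y, hy, hxy⟩ := exists_not_commute (by omega) h.absIrred
          have hxA : x ∈ A' ⊔ Cfsg.Geo.scalars ι F := (hMN.symm ▸ hx : x ∈ M).2
          have hyA : y ∈ A' ⊔ Cfsg.Geo.scalars ι F := (hMN.symm ▸ hy : y ∈ M).2
          rw [← SetLike.mem_coe, Subgroup.mul_normal, Set.mem_mul] at hxA hyA
          obtain ⟨_, ⟨x', hx', rfl⟩, z, hz, rfl⟩ := hxA
          obtain ⟨_, ⟨y', hy', rfl⟩, z', hz', rfl⟩ := hyA
          apply hxy
          have hc : Commute (x'.1 : GL ι F) y'.1 :=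
            congrArg (fun t : A => (t.1 : GL ι F)) (hAc.is_comm.comm ⟨x', hx'⟩ ⟨y', hy'⟩)
          exact ((hc.mul_right (scalars_commute hz' x'.1).symm).mul_left
            (scalars_commute hz _)).eq
      exact isCyclic_of_injective (Subgroup.inclusion hle) (Subgroup.inclusion_injective hle)
  refine ⟨R, r', j, u, ⟨hsymp, hd, hnj, hr', hu, huR, hroots, hcardc, hcardR, fun p' hp' => ?_⟩⟩
  obtain rfl : p' = p := CharP.eq F hp' hchar
  exact hrne

/-- The derived group of the configuration is absolutely irreducible. -/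
theorem AbelianData.commutator_absIrred [Finite F] {H N : Subgroup (GL ι F)} {r : ℕ}
    (hn : 2 ≤ Fintype.card ι) (h : AbelianData H N r) :
    Cfsg.Geo.ActsAbsolutelyIrreducibly (Cfsg.Geo.matrixSet (⁅H, H⁆ : Subgroup (GL ι F))) := by
  have : Nonempty ι := Fintype.card_pos_iff.mp (by omega)
  set Sc := Cfsg.Geo.scalars ι F
  have hconj : ∀ a ∈ H, ∀ z ∈ H ⊓ Sc, a * z * a⁻¹ = z := fun a ha z hz => by
    rw [← scalars_commute hz.2, mul_assoc, mul_inv_cancel, mul_one]
  have hHN : ∀ a ∈ H, ∀ x ∈ N, a * x * a⁻¹ * x⁻¹ ∈ N := fun a ha x hx =>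
    N.mul_mem (h.normal a ha x hx) (N.inv_mem hx)
  have hle : ⁅H, H⁆ ≤ H := Subgroup.commutator_le.2 fun a ha b hb => by
    rw [commutatorElement_def]; exact H.mul_mem (H.mul_mem (H.mul_mem ha hb) (H.inv_mem ha)) (H.inv_mem hb)
  by_cases hc : ∀ a ∈ H, ∀ x ∈ N, a * x * a⁻¹ * x⁻¹ ∈ Sc
  · -- otherwise `N` is cyclic modulo scalars
    exfalso
    obtain ⟨x, hx, y, hy, hxy⟩ := exists_not_commute (by omega) h.absIrred
    have hxs : x ∉ Sc := fun hx' => hxy (scalars_commute hx' y)
    have hM : N = (H ⊓ Sc) ⊔ Subgroup.zpowers x := by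
      refine (h.minimal _ (sup_le h.scalars_le (Subgroup.zpowers_le.2 hx)) le_sup_left ?_ fun hle' =>
        hxs (hle' (Subgroup.mem_sup_right (Subgroup.mem_zpowers x)))).symm
      intro a ha z hz
      have hmap : ((H ⊓ Sc) ⊔ Subgroup.zpowers x).map (MulAut.conj a).toMonoidHom ≤
          (H ⊓ Sc) ⊔ Subgroup.zpowers x := by
        rw [Subgroup.map_sup]
        refine sup_le ?_ ?_
        · rintro _ ⟨w, hw, rfl⟩
          refine Subgroup.mem_sup_left ?_
          show a * w * a⁻¹ ∈ _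
          rw [hconj a ha w hw]; exact hw
        · rw [MonoidHom.map_zpowers]
          refine Subgroup.zpowers_le.2 ?_
          have e : (MulAut.conj a).toMonoidHom x = a * x * a⁻¹ * x⁻¹ * x := by simp
          rw [e]
          exact Subgroup.mul_mem_sup ⟨h.le (hHN a ha x hx), hc a ha x hx⟩ (Subgroup.mem_zpowers x)
      exact hmap ⟨z, hz, rfl⟩
    have hyM : y ∈ (H ⊓ Sc) ⊔ Subgroup.zpowers x := hM ▸ hy
    have hcent : (H ⊓ Sc) ⊔ Subgroup.zpowers x ≤ Subgroup.centralizer {x} := by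
      refine sup_le (fun z hz => ?_) (Subgroup.zpowers_le.2 ?_)
      · rintro _ rfl; exact (scalars_commute hz.2 _).symm
      · rintro _ rfl; rfl
    exact hxy (hcent hyM x rfl)
  push Not at hc
  obtain ⟨a, ha, x, hx, hax⟩ := hc
  have hT : N ⊓ (⁅H, H⁆ ⊔ (H ⊓ Sc)) = N := by
    refine h.minimal _ inf_le_left (le_inf h.scalars_le le_sup_right) ?_ fun hle' => hax ?_
    · rintro g hg z ⟨hzN, hzT⟩
      refine ⟨h.normal g hg z hzN, ?_⟩
      have hmap : (⁅H, H⁆ ⊔ (H ⊓ Sc)).map (MulAut.conj g).toMonoidHom ≤ ⁅H, H⁆ ⊔ (H ⊓ Sc) := by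
        have hH : H.map (MulAut.conj g).toMonoidHom ≤ H := by
          rintro _ ⟨w, hw, rfl⟩; exact H.mul_mem (H.mul_mem hg hw) (H.inv_mem hg)
        rw [Subgroup.map_sup, Subgroup.map_commutator]
        refine sup_le_sup (Subgroup.commutator_mono hH hH) ?_
        rintro _ ⟨w, hw, rfl⟩
        show g * w * g⁻¹ ∈ _
        rw [hconj g hg w hw]; exact hw
      exact hmap ⟨z, hzT, rfl⟩
    · exact hle' ⟨hHN a ha x hx, Subgroup.mem_sup_left (by
        simpa [commutatorElement_def] using Subgroup.commutator_mem_commutator ha (h.le hx))⟩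
  refine absIrred_of_adjoin_eq_top (eq_top_iff.2 ?_)
  rw [← adjoin_eq_top_of_absIrred h.absIrred]
  refine Algebra.adjoin_le ?_
  rintro _ ⟨z, hz, rfl⟩
  have hz' : z ∈ ⁅H, H⁆ ⊔ (H ⊓ Sc) := ((hT.symm ▸ hz : z ∈ N ⊓ (⁅H, H⁆ ⊔ (H ⊓ Sc)))).2
  obtain ⟨d, hd, w, hw, rfl⟩ := exists_mul_of_mem_sup (inf_le_right : H ⊓ Sc ≤ Sc) hz'
  obtain ⟨c, hc⟩ := matrix_scalar_of_mem_scalars hw.2
  simp only [Units.val_mul, hc]
  exact mul_mem (Algebra.subset_adjoin ⟨d, hd, rfl⟩) (Subalgebra.algebraMap_mem _ c)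

end CfsgLib.Aschbacher
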