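import Mathlib

/-!
The dimension of the commutant of an endomorphism annihilated by a product of linear factors, the
fixed space of a monomial map, and the resulting bound on an eigenspace.
-/

set_option autoImplicit false

namespace CfsgLib.Aschbacher.EigenBound

open Module

universe u v

variable {K : Type u} [Field K]

section Commutant

variable {U : Type v} [AddCommGroup U] [Module K U]

/-- The space of endomorphisms commuting with `a`. -/
def commutant (a : Module.End K U) : Submodule K (Module.End K U) :=
  LinearMap.ker (LinearMap.mulLeft K a - LinearMap.mulRight K a)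

lemma mem_commutant {a x : Module.End K U} : x ∈ commutant a ↔ a * x = x * a := by
  simp [commutant, sub_eq_zero]

lemma commutant_sub (a : Module.End K U) (r : K) :
    commutant (a - algebraMap K (Module.End K U) r) = commutant a := by
  ext x
  rw [mem_commutant, mem_commutant, sub_mul, mul_sub, Algebra.commutes, sub_left_inj]

/-- The restriction of `a` to its own image. -/
def onRange (a : Module.End K U) : Module.End K (LinearMap.range a) :=
  a.rangeRestrict.comp (LinearMap.range a).subtype

lemma coe_onRange (a : Module.End K U) (y : LinearMap.range a) :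
    ((onRange a y : LinearMap.range a) : U) = a y := rfl

variable [FiniteDimensional K U]

theorem sq_ker_add_commutant_le_aux {U' : Type v} [AddCommGroup U'] [Module K U']
    [FiniteDimensional K U'] (a : Module.End K U) (i : U' →ₗ[K] U) (r : U →ₗ[K] U')
    (hi : Function.Injective i) (hr : Function.Surjective r) (hir : ∀ x, i (r x) = a x)
    (b : Module.End K U') (hb : ∀ y, b y = r (i y)) :
    finrank K (LinearMap.ker a) ^ 2 + finrank K (commutant b) ≤ finrank K (commutant a) := by
  obtain ⟨σ, hσ⟩ := LinearMap.exists_rightInverse_of_surjective r (LinearMap.range_eq_top.2 hr)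
  obtain ⟨p, hp⟩ := LinearMap.exists_leftInverse_of_injective i (LinearMap.ker_eq_bot.2 hi)
  have hσ' : ∀ y, a (σ y) = i y := fun y => by
    rw [← hir]; exact congrArg i (LinearMap.congr_fun hσ y)
  have hp' : ∀ y, p (i y) = y := fun y => LinearMap.congr_fun hp y
  have hra : ∀ x, b (r x) = r (a x) := fun x => by rw [hb, hir]
  let L₁ : Module.End K U' →ₗ[K] Module.End K U :=
    { toFun := fun ψ => i.comp (ψ.comp p) + σ.comp (ψ.comp (r - b.comp p))
      map_add' := fun _ _ => by ext x; simp; abel
      map_smul' := fun _ _ => by ext x; simp }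
  let L₂ : ((U ⧸ LinearMap.range a) →ₗ[K] LinearMap.ker a) →ₗ[K] Module.End K U :=
    { toFun := fun χ => (LinearMap.ker a).subtype.comp (χ.comp (LinearMap.range a).mkQ)
      map_add' := fun _ _ => by ext x; simp
      map_smul' := fun _ _ => by ext x; simp }
  have hq : ∀ x, (LinearMap.range a).mkQ (a x) = 0 := fun x =>
    (Submodule.Quotient.mk_eq_zero _).2 (LinearMap.mem_range_self a x)
  let Φ : commutant b × ((U ⧸ LinearMap.range a) →ₗ[K] LinearMap.ker a) →ₗ[K] Module.End K U :=
    (L₁.comp (commutant b).subtype).coprod L₂
  have hmem : ∀ z, Φ z ∈ commutant a := by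
    rintro ⟨⟨ψ, hψ⟩, χ⟩
    refine mem_commutant.2 (LinearMap.ext fun x => ?_)
    have h1 : p (a x) = r x := by rw [← hir, hp']
    have h2 : ∀ y, b (ψ y) = ψ (b y) := fun y => LinearMap.congr_fun (mem_commutant.1 hψ) y
    have h3 : a (i (ψ (p x))) = i (ψ (b (p x))) := by rw [← hir, ← hb, h2]
    have h4 : a (χ ((LinearMap.range a).mkQ x) : U) = 0 := (χ ((LinearMap.range a).mkQ x)).2
    have h6 : (LinearMap.range a).mkQ (a x) = 0 := hq x
    simp only [Φ, L₁, L₂, Module.End.mul_apply, LinearMap.coprod_apply, LinearMap.coe_comp,
      Function.comp_apply, Submodule.coe_subtype, LinearMap.coe_mk, AddHom.coe_mk,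
      LinearMap.add_apply, LinearMap.sub_apply, map_add, map_sub, hσ', h3, h4, h1, hra, h6,
      sub_self, map_zero, Submodule.coe_zero]
    abel
  have hinj : Function.Injective Φ := by
    refine (injective_iff_map_eq_zero Φ).2 ?_
    rintro ⟨⟨ψ, hψ⟩, χ⟩ h
    have hψ0 : ψ = 0 := LinearMap.ext fun y => by
      have hy : (LinearMap.range a).mkQ (i y) = 0 := by
        obtain ⟨x, rfl⟩ := hr y
        rw [hir]; exact hq x
      have := LinearMap.congr_fun h (i y)
      simp only [Φ, L₁, L₂, LinearMap.coprod_apply, LinearMap.coe_comp, Function.comp_apply,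
        Submodule.coe_subtype, LinearMap.coe_mk, AddHom.coe_mk, LinearMap.add_apply,
        LinearMap.sub_apply, hp', hy, ← hb, sub_self, map_zero, Submodule.coe_zero, add_zero,
        LinearMap.zero_apply] at this
      exact hi (this.trans (map_zero i).symm)
    subst hψ0
    have hχ : χ = 0 := LinearMap.ext fun z => by
      obtain ⟨x, rfl⟩ := (LinearMap.range a).mkQ_surjective z
      have := LinearMap.congr_fun h x
      simp [Φ, L₁, L₂] at this
      exact this
    simp [hχ]
  have := LinearMap.finrank_le_finrank_of_injective (f := Φ.codRestrict (commutant a) hmem)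
    (fun x y h => hinj (congrArg Subtype.val h))
  rw [Module.finrank_prod, Module.finrank_linearMap] at this
  have hquot : finrank K (U ⧸ LinearMap.range a) = finrank K (LinearMap.ker a) := by
    have h1 := (LinearMap.range a).finrank_quotient_add_finrank
    have h2 := a.finrank_range_add_finrank_ker
    omega
  rw [hquot, ← sq] at this
  omega

theorem sq_ker_add_commutant_le (a : Module.End K U) :
    finrank K (LinearMap.ker a) ^ 2 + finrank K (commutant (onRange a))
      ≤ finrank K (commutant a) :=
  sq_ker_add_commutant_le_aux a (LinearMap.range a).subtype a.rangeRestrict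
    (Submodule.injective_subtype _) a.surjective_rangeRestrict (fun _ => rfl) (onRange a)
    (fun _ => rfl)

omit [FiniteDimensional K U] in
lemma prod_onRange (a : Module.End K U) (l : List K) (y : LinearMap.range a) :
    (((l.map fun s => onRange a - algebraMap K _ s).prod y : LinearMap.range a) : U) =
      (l.map fun s => a - algebraMap K _ s).prod (y : U) := by
  induction l generalizing y with
  | nil => simp
  | cons s l ih =>
    simp only [List.map_cons, List.prod_cons, Module.End.mul_apply, LinearMap.sub_apply,
      AddSubgroupClass.coe_sub, coe_onRange, Module.algebraMap_end_apply, Submodule.coe_smul, ih]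

omit [FiniteDimensional K U] in
lemma prod_shift (a : Module.End K U) (r : K) (l : List K) :
    (l.map fun s => (a - algebraMap K _ r) - algebraMap K _ (s - r)).prod =
      (l.map fun s => a - algebraMap K _ s).prod := by
  congr 1
  exact List.map_congr_left fun s _ => by rw [map_sub]; abel

omit [FiniteDimensional K U] in
/-- The factors after the first, shifted, kill the image of the first. -/
lemma prod_onRange_eq_zero (a : Module.End K U) (r : K) (l : List K)
    (h : ((r :: l).map fun s => a - algebraMap K _ s).prod = 0) :
    ((l.map fun s => s - r).map fun s =>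
      onRange (a - algebraMap K _ r) - algebraMap K _ s).prod = 0 := by
  refine LinearMap.ext fun y => Subtype.ext ?_
  obtain ⟨_, x, rfl⟩ := y
  rw [prod_onRange, List.map_map]
  show (l.map fun s => (a - algebraMap K _ r) - algebraMap K _ (s - r)).prod _ = 0
  rw [prod_shift]
  have hc : Commute (a - algebraMap K (Module.End K U) r)
      (l.map fun s => a - algebraMap K _ s).prod := by
    refine Commute.list_prod_right _ _ fun b hb => ?_
    obtain ⟨s, -, rfl⟩ := List.mem_map.1 hb
    exact ((Commute.refl a).sub_right (Algebra.commute_algebraMap_right s a)).sub_left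
      (Algebra.commute_algebraMap_left r _)
  rw [List.map_cons, List.prod_cons, hc.eq] at h
  exact LinearMap.congr_fun h x

end Commutant

theorem sq_finrank_le_length_mul_commutant (l : List K) :
    ∀ (U : Type v) [AddCommGroup U] [Module K U] [FiniteDimensional K U] (a : Module.End K U),
      (l.map fun s => a - algebraMap K _ s).prod = 0 →
      finrank K U ^ 2 ≤ l.length * finrank K (commutant a) := by
  induction hk : l.length generalizing l with
  | zero =>
    intro U _ _ _ a h
    rw [List.length_eq_zero_iff.1 hk, List.map_nil, List.prod_nil] at h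
    have : Subsingleton U := ⟨fun x y => by
      rw [← Module.End.one_apply (R := K) x, ← Module.End.one_apply (R := K) y, h]; simp⟩
    simp [Module.finrank_zero_of_subsingleton]
  | succ k ih =>
    intro U _ _ _ a h
    obtain ⟨r, l', rfl⟩ : ∃ r l', l = r :: l' := by
      cases l with
      | nil => simp at hk
      | cons r l' => exact ⟨r, l', rfl⟩
    have hl' : l'.length = k := by simpa using hk
    have h2 := ih _ (by simpa using hl') _ _ (prod_onRange_eq_zero a r l' h)
    have h1 := sq_ker_add_commutant_le (a - algebraMap K _ r)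
    rw [commutant_sub] at h1
    have h3 := (a - algebraMap K _ r).finrank_range_add_finrank_ker
    rw [← h3]
    set C := finrank K (commutant a)
    set C' := finrank K (commutant (onRange (a - algebraMap K _ r)))
    set b := finrank K (LinearMap.ker (a - algebraMap K _ r))
    set m := finrank K (LinearMap.range (a - algebraMap K _ r))
    rcases k.eq_zero_or_pos with rfl | hkpos
    · have hm : m = 0 := by
        have : m ^ 2 ≤ 0 := by simpa using h2
        nlinarith
      rw [hm]
      nlinarith
    · zify at h1 h2 hkpos ⊢
      refine le_of_mul_le_mul_left ?_ hkpos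
      have h4 : (k : ℤ) * (k + 1) * ((b : ℤ) ^ 2 + C') ≤ (k : ℤ) * (k + 1) * C :=
        mul_le_mul_of_nonneg_left h1 (by positivity)
      nlinarith [sq_nonneg ((k : ℤ) * b - m), mul_le_mul_of_nonneg_left h2 (show (0:ℤ) ≤ k + 1 by omega)]

/-- The commutant of a map of order dividing `ϖ` against its fixed space. -/
theorem fixed_commutant_le [IsAlgClosed K] {U : Type v} [AddCommGroup U] [Module K U]
    [FiniteDimensional K U] {ϖ : ℕ} (hϖ : 0 < ϖ) (G : Module.End K U) (hG : G ^ ϖ = 1) :
    (ϖ - 1) * finrank K (LinearMap.ker (G - 1)) ^ 2 +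
        (finrank K U - finrank K (LinearMap.ker (G - 1))) ^ 2
      ≤ (ϖ - 1) * finrank K (commutant G) := by
  classical
  set P : Polynomial K := Polynomial.X ^ ϖ - Polynomial.C 1 with hP
  have hPm : P.Monic := Polynomial.monic_X_pow_sub_C 1 hϖ.ne'
  have hroots : P.roots.card = P.natDegree := by
    rw [IsAlgClosed.card_roots_eq_natDegree]
  have h1 : (1 : K) ∈ P.roots := by
    rw [Polynomial.mem_roots hPm.ne_zero, Polynomial.IsRoot, hP]; simp
  let l := (P.roots.erase 1).toList
  have hl : P.roots = ((1 : K) :: l : List K) := by
    rw [← Multiset.cons_coe, Multiset.coe_toList, Multiset.cons_erase h1]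
  have hprod : (((1 : K) :: l).map fun s => G - algebraMap K _ s).prod = 0 := by
    have e := Polynomial.prod_multiset_X_sub_C_of_monic_of_roots_card_eq hPm hroots
    rw [hl, Multiset.map_coe, Multiset.prod_coe] at e
    have := congrArg (Polynomial.aeval G) e
    rw [map_list_prod, List.map_map] at this
    convert this using 1
    · congr 1
      refine List.map_congr_left fun s _ => ?_
      simp
    · simp [hP, hG]
  have h2 := sq_finrank_le_length_mul_commutant _ _ _ (prod_onRange_eq_zero G 1 l hprod)
  have hlen : (l.map fun s => s - 1).length = ϖ - 1 := by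
    have := congrArg Multiset.card hl
    rw [hroots, hP, Polynomial.natDegree_X_pow_sub_C, Multiset.coe_card, List.length_cons] at this
    rw [List.length_map]
    omega
  rw [hlen, map_one] at h2
  have h3 := sq_ker_add_commutant_le (G - 1)
  have e : commutant (G - 1) = commutant G := by
    rw [← map_one (algebraMap K (Module.End K U)), commutant_sub]
  rw [e] at h3
  have h4 := (G - 1).finrank_range_add_finrank_ker
  rw [← h4, Nat.add_sub_cancel]
  calc _ ≤ (ϖ - 1) * finrank K (LinearMap.ker (G - 1)) ^ 2
        + (ϖ - 1) * finrank K (commutant (onRange (G - 1))) := Nat.add_le_add_left h2 _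
    _ ≤ _ := by rw [← Nat.mul_add]; exact Nat.mul_le_mul_left _ h3

/-- Representatives of the orbits of a permutation of prime order. -/
theorem exists_orbit_reps {α : Type*} [Fintype α] [DecidableEq α] {ϖ : ℕ} (hϖ : ϖ.Prime)
    (f : α → α) (hf : ∀ x, f^[ϖ] x = x) :
    ∃ T : Finset α, (∀ x, ∃ t ∈ T, ∃ i, f^[i] t = x) ∧
      ϖ * T.card ≤ Fintype.card α + (ϖ - 1) * {x | f x = x}.toFinset.card := by
  have := Fact.mk hϖ
  classical
  let num := Fintype.equivFin α
  let T : Finset α := Finset.univ.filter fun x => ∀ i, num x ≤ num (f^[i] x)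
  let S : Finset α := {x | f x = x}.toFinset
  have hper : ∀ x k, f^[ϖ * k] x = x := fun x k => (Function.IsPeriodicPt.mul_const (hf x) k)
  have hinv : ∀ x i, ∃ j, f^[j] (f^[i] x) = x := fun x i => ⟨ϖ * i - i, by
    rw [← Function.iterate_add_apply, Nat.sub_add_cancel (Nat.le_mul_of_pos_left i hϖ.pos)]
    exact hper x i⟩
  refine ⟨T, fun x => ?_, ?_⟩
  · obtain ⟨y, hy, hmin⟩ := Finset.exists_min_image (Finset.univ.filter fun y => ∃ i, f^[i] x = y) num
      ⟨x, by simp only [Finset.mem_filter, Finset.mem_univ, true_and]; exact ⟨0, rfl⟩⟩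
    obtain ⟨i, rfl⟩ := (Finset.mem_filter.1 hy).2
    refine ⟨f^[i] x, Finset.mem_filter.2 ⟨Finset.mem_univ _, fun j => hmin _ (Finset.mem_filter.2
      ⟨Finset.mem_univ _, j + i, Function.iterate_add_apply f j i x⟩)⟩, hinv x i⟩
  · have hS : ∀ x, x ∈ S ↔ f x = x := fun x => by simp [S]
    have hfix : ∀ t i, f (f^[i] t) = f^[i] t → f t = t := by
      intro t i h
      obtain ⟨j, hj⟩ := hinv t i
      calc f t = f (f^[j] (f^[i] t)) := by rw [hj]
        _ = f^[j] (f (f^[i] t)) := by exact (Function.Commute.iterate_self f j _).symm
        _ = t := by rw [h, hj]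
    have hcard : (T \ S).card * ϖ ≤ Fintype.card α - S.card := by
      have : ((T \ S) ×ˢ Finset.range ϖ).card ≤ Sᶜ.card := by
        refine Finset.card_le_card_of_injOn (fun p => f^[p.2] p.1) ?_ ?_
        · rintro ⟨t, i⟩ hp
          simp only [Finset.coe_product, Set.mem_prod, Finset.coe_sdiff, Set.mem_sdiff,
            Finset.mem_coe] at hp
          simp only [Finset.coe_compl, Set.mem_compl_iff, Finset.mem_coe, hS]
          exact fun h => hp.1.2 ((hS t).2 (hfix t i h))
        · rintro ⟨t, i⟩ hp ⟨s, j⟩ hq (h : f^[i] t = f^[j] s)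
          simp only [Finset.coe_product, Set.mem_prod, Finset.coe_sdiff, Set.mem_sdiff,
            Finset.mem_coe, Finset.coe_range, Set.mem_Iio, T, Finset.mem_filter,
            Finset.mem_univ, true_and, hS] at hp hq
          have hts : t = s := by
            obtain ⟨i', hi'⟩ := hinv t i
            obtain ⟨j', hj'⟩ := hinv s j
            rw [h, ← Function.iterate_add_apply] at hi'
            rw [← h, ← Function.iterate_add_apply] at hj'
            have h1 := hp.1.1 (j' + i)
            have h2 := hq.1.1 (i' + j)
            rw [hj'] at h1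
            rw [hi'] at h2
            exact num.injective (le_antisymm h1 h2)
          subst hts
          have hmp : Function.minimalPeriod f t = ϖ :=
            Function.minimalPeriod_eq_prime (hf t) hp.1.2
          exact Prod.ext rfl (Function.iterate_injOn_Iio_minimalPeriod
            (by rw [hmp]; exact hp.2) (by rw [hmp]; exact hq.2) h)
      rwa [Finset.card_product, Finset.card_range, Finset.card_compl] at this
    have h1 : T.card ≤ (T \ S).card + S.card := Finset.card_le_card_sdiff_add_card
    have h2 : S.card ≤ Fintype.card α := Finset.card_le_univ S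
    obtain ⟨k, hk⟩ := Nat.exists_eq_add_of_le hϖ.one_le
    subst hk
    rw [Nat.add_sub_cancel_left]
    show (1 + k) * T.card ≤ Fintype.card α + k * S.card
    have h3 : (T \ S).card * (1 + k) + S.card ≤ Fintype.card α := by omega
    nlinarith [Nat.mul_le_mul_left (1 + k) h1]

/-- The commutant of a map conjugating a spanning family monomially. -/
theorem commutant_le_orbits {U : Type v} [AddCommGroup U] [Module K U] [FiniteDimensional K U]
    {α : Type*} [Fintype α] [DecidableEq α] {ϖ : ℕ} (hϖ : ϖ.Prime) (b : Basis α K (Module.End K U))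
    (G : Module.End K U) (hG : IsUnit G) (π : Equiv.Perm α) (hπ : ∀ x, (⇑π)^[ϖ] x = x) (μ : α → K)
    (hμ : ∀ x, G * b x = μ x • (b (π x) * G)) :
    ϖ * finrank K (commutant G) ≤ Fintype.card α + (ϖ - 1) * {x | π x = x}.toFinset.card := by
  obtain ⟨T, hT, hle⟩ := exists_orbit_reps hϖ (⇑π) hπ
  refine le_trans (Nat.mul_le_mul_left ϖ ?_) hle
  let L : commutant G →ₗ[K] (T → K) :=
    { toFun := fun X t => b.repr (X : Module.End K U) t
      map_add' := fun _ _ => by funext t; simp
      map_smul' := fun _ _ => by funext t; simp }
  have hinj : Function.Injective L := by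
    rw [← LinearMap.ker_eq_bot, LinearMap.ker_eq_bot']
    rintro ⟨X, hX⟩ h
    refine Subtype.ext (b.ext_elem fun x => ?_)
    have hstep : ∀ x, b.repr X (π x) = μ x * b.repr X x := by
      intro x
      have e : ∑ y, b.repr X y • b y = X := b.sum_repr X
      have h1 : G * X = (∑ y, (b.repr X y * μ y) • b (π y)) * G := by
        conv_lhs => rw [← e]
        simp only [Finset.mul_sum, Finset.sum_mul, mul_smul_comm, hμ, smul_smul, smul_mul_assoc]
      rw [mem_commutant.1 hX] at h1
      have h2 : X = ∑ z, (b.repr X (π.symm z) * μ (π.symm z)) • b z := by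
        rw [← hG.mul_left_inj, h1]
        exact congrArg (· * G) (Fintype.sum_equiv π _ _ fun y => by simp)
      conv_lhs => rw [h2]
      rw [b.repr_sum_self]
      simp only [Equiv.symm_apply_apply, mul_comm]
    obtain ⟨t, ht, i, rfl⟩ := hT x
    induction i with
    | zero => exact (congrFun h ⟨t, ht⟩).trans (by simp)
    | succ i ih =>
      rw [Function.iterate_succ_apply', hstep, ih]
      simp
  simpa using LinearMap.finrank_le_finrank_of_injective hinj

/-- The fixed space of `G` when conjugation by `G` is monomial in a basis of `End U`. -/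
theorem fixed_bound [IsAlgClosed K] {U : Type v} [AddCommGroup U] [Module K U] [FiniteDimensional K U]
    {α : Type*} [Fintype α] [DecidableEq α] {ϖ : ℕ} (hϖ : ϖ.Prime) (b : Basis α K (Module.End K U))
    (G : Module.End K U) (hG : G ^ ϖ = 1) (π : Equiv.Perm α) (hπ : ∀ x, (⇑π)^[ϖ] x = x) (μ : α → K)
    (hμ : ∀ x, G * b x = μ x • (b (π x) * G)) :
    ϖ * ((ϖ - 1) * finrank K (LinearMap.ker (G - 1)) ^ 2 +
        (finrank K U - finrank K (LinearMap.ker (G - 1))) ^ 2)
      ≤ (ϖ - 1) * (Fintype.card α + (ϖ - 1) * {x | π x = x}.toFinset.card) := by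
  have hu : IsUnit G := IsUnit.of_pow_eq_one hG hϖ.ne_zero
  calc _ ≤ ϖ * ((ϖ - 1) * finrank K (commutant G)) :=
        Nat.mul_le_mul_left _ (fixed_commutant_le hϖ.pos G hG)
    _ = (ϖ - 1) * (ϖ * finrank K (commutant G)) := by ring
    _ ≤ _ := Nat.mul_le_mul_left _ (commutant_le_orbits hϖ b G hu π hπ μ hμ)

/-- Operators twisted by distinct characters are few. -/
theorem card_le_sq_of_twist {U : Type v} [AddCommGroup U] [Module K U] [FiniteDimensional K U]
    [Nontrivial U] {α : Type*} [Fintype α] {β : Type*} (T : α → Module.End K U) (hT : ∀ i, T i ≠ 0)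
    (S : β → Module.End K U) (χ : α → β → K) (htw : ∀ i j, S j * T i = χ i j • (T i * S j))
    (hS : ∀ j, IsUnit (S j)) (hinj : Function.Injective χ) :
    Fintype.card α ≤ finrank K U ^ 2 := by
  classical
  have key : ∀ (s : Finset α) (c : α → K), ∑ i ∈ s, c i • T i = 0 → ∀ i ∈ s, c i = 0 := by
    intro s
    induction s using Finset.induction_on with
    | empty => simp
    | @insert a s ha ih =>
      intro c hc i hi
      rw [Finset.sum_insert ha] at hc
      have hz : ∀ k ∈ s, c k = 0 := by
        intro k hk
        obtain ⟨j, hj⟩ := Function.ne_iff.1 (fun e => ha (hinj e ▸ hk) : χ k ≠ χ a)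
        have h1 := congrArg (fun X => S j * X) hc
        have h2 := congrArg (fun X => χ a j • (X * S j)) hc
        simp only [mul_add, Finset.mul_sum, mul_smul_comm, htw, mul_zero, smul_smul] at h1
        simp only [add_mul, Finset.sum_mul, smul_mul_assoc, zero_mul, smul_zero, smul_add,
          Finset.smul_sum, smul_smul] at h2
        have h3 : (∑ x ∈ s, (c x * (χ x j - χ a j)) • T x) * S j = 0 := by
          have := congrArg₂ (· - ·) h1 h2
          simp only [sub_zero, mul_comm (χ a j) (c a), add_sub_add_left_eq_sub,
            ← Finset.sum_sub_distrib, ← sub_smul] at this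
          rw [Finset.sum_mul]
          simpa only [smul_mul_assoc, mul_sub, mul_comm (χ a j)] using this
        rw [(hS j).mul_left_eq_zero] at h3
        have := ih (fun x => c x * (χ x j - χ a j)) h3 k hk
        exact (mul_eq_zero.1 this).resolve_right (sub_ne_zero.2 hj)
      rcases Finset.mem_insert.1 hi with rfl | hi
      · rw [Finset.sum_eq_zero (fun k hk => by rw [hz k hk, zero_smul]), add_zero] at hc
        exact (smul_eq_zero.1 hc).resolve_right (hT _)
      · exact hz i hi
  have hli : LinearIndependent K T :=
    Fintype.linearIndependent_iff.2 fun c hc i => key Finset.univ c hc i (Finset.mem_univ i)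
  simpa [Module.finrank_linearMap, ← sq] using hli.fintype_card_le_finrank

end CfsgLib.Aschbacher.EigenBound
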