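import Cfsg.Agent.Aschbacher.ExtraEigen

/-!
The bounds `3n/4`, `2n/3` and `n/2` for the fixed space.
-/

set_option autoImplicit false
set_option linter.unusedSectionVars false

namespace CfsgLib.Aschbacher.ExtraEigen

open Matrix Module Cfsg
open scoped MatrixGroups

variable {ι : Type} [Fintype ι] [DecidableEq ι] {F : Type*} [Field F] [Finite F]
variable {N : Subgroup (GL ι F)} {g : GL ι F} {r ϖ : ℕ}

theorem endo_sub_ne_zero {x : GL ι F} (hx : x ≠ 1) : endo x - 1 ≠ 0 := fun e => by
  refine hx (Units.ext ?_)
  have h1 : endo x = endo (1 : GL ι F) := by rw [map_one]; exact sub_eq_zero.1 e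
  exact (Matrix.toLinAlgEquiv' : Matrix ι ι F ≃ₐ[F] _).injective h1

/-- Four displacements: the fixed space is at most a half. -/
theorem Data.half_of_four (h : Data N g r ϖ)
    (hfix : ∀ x : N, (QuotientGroup.mk x : Quot' N) ∈ h.disp.ker → g * (x : GL ι F) = x * g)
    (hd : Disjoint h.disp.ker h.disp.range) (h4 : Nat.card h.disp.range = 4) :
    2 * finrank F (fixedSpace g) ≤ Fintype.card ι := by
  classical
  have := h.nonempty
  have hg1 : g ≠ 1 := fun e => h.g_nonscalar (e ▸ Subgroup.one_mem _)
  set X := LinearMap.range (endo g - 1)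
  have hX : X ≠ ⊥ := fun e => endo_sub_ne_zero hg1 (LinearMap.range_eq_bot.1 e)
  have hb := h.card_le_of_invariant h.disp.ker X hX (by
    rintro a ha _ ⟨u, rfl⟩
    refine ⟨endo (a : GL ι F) u, ?_⟩
    rw [LinearMap.sub_apply, LinearMap.sub_apply, Module.End.one_apply, Module.End.one_apply,
      map_sub, endo_commute (hfix a ha)]) 1 (by
    intro S hS
    refine Finset.card_le_one.2 fun a ha b hb => ?_
    have key : ∀ c ∈ S, c = 1 := fun c hc => by
      rw [← QuotientGroup.out_eq' c]
      refine h.scalar_of_commute c.out (h.centClass c.out) (fun d hd => h.mem_centClass.1 hd) ?_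
      rw [eq_top_iff, ← h.sup_eq_top hd]
      refine sup_le (fun d hd' => ?_) fun d hd' => ?_
      · rw [← QuotientGroup.out_eq' d]
        exact h.mem_centClass.2 ((hS c hc).2 d hd')
      · rw [← QuotientGroup.out_eq' d]
        exact h.mem_centClass.2 (h.commute_ker_range hfix ((QuotientGroup.out_eq' c).symm ▸ (hS c hc).1)
          ((QuotientGroup.out_eq' d).symm ▸ hd'))
    rw [key a ha, key b hb])
  have hc := h.card_ker_mul_range
  rw [h4] at hc
  have h1 := (endo g - 1).finrank_range_add_finrank_ker
  rw [Module.finrank_pi] at h1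
  change finrank F X + finrank F (fixedSpace g) = _ at h1
  rw [← h1] at hc ⊢
  set x := finrank F X
  set w := finrank F (fixedSpace g)
  by_contra hlt
  have hxw : x < w := by omega
  nlinarith [Nat.mul_lt_mul_of_lt_of_lt hxw hxw]

/-- A transvection of order five: the fixed space is at most a half. -/
theorem Data.half_of_five (h : Data N g 5 5)
    (hroot : ∀ x : N, ∃ y : N, (QuotientGroup.mk y : Quot' N) = QuotientGroup.mk x ∧ (y : GL ι F) ^ 5 = 1)
    (hfix : ∀ x : N, (QuotientGroup.mk x : Quot' N) ∈ h.disp.ker → g * (x : GL ι F) = x * g)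
    (h5 : Nat.card h.disp.range = 5) :
    2 * finrank F (fixedSpace g) ≤ Fintype.card ι := by
  classical
  have := h.nonempty
  have := Fact.mk h.pr
  have hle : h.disp.range ≤ h.disp.ker := by
    rcases Subgroup.eq_bot_or_eq_top_of_prime_card (G := h.disp.range) (hp := ⟨by rw [h5]; norm_num⟩)
      ((h.disp.ker ⊓ h.disp.range).subgroupOf h.disp.range) with e | e
    · exact absurd h5 (h.not_prime_range hfix (disjoint_iff.2 (by
        rw [Subgroup.subgroupOf_eq_bot, disjoint_iff, inf_assoc, inf_idem] at e
        exact e)))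
    · rw [Subgroup.subgroupOf_eq_top] at e
      exact e.trans inf_le_left
  obtain ⟨q, hq⟩ := h.exists_moved hfix
  have hu : h.disp q ≠ 1 := fun e => hq (h.mem_ker.1 e)
  obtain ⟨x₀, hx₀⟩ := QuotientGroup.mk_surjective (h.disp q)
  obtain ⟨y, hy, hy5⟩ := hroot x₀
  have hymem : (QuotientGroup.mk y : Quot' N) ∈ h.disp.range := ⟨q, by rw [hy, hx₀]⟩
  have hgy : g * (y : GL ι F) = y * g := hfix y (hle hymem)
  have hyns : (y : GL ι F) ∉ Geo.scalars ι F := fun e => hu (by
    rw [← hx₀, ← hy, QuotientGroup.eq_one_iff, Subgroup.mem_subgroupOf]; exact e)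
  obtain ⟨z, hz, hne⟩ : ∃ z ∈ N, (y : GL ι F) * z ≠ z * y := by
    by_contra! hcon
    exact hyns (mem_scalars_of_commute h.absIrred hcon)
  set ζ := twist (y : GL ι F) z
  have hord : orderOf ζ = 5 :=
    orderOf_eq_prime (h.twist_pow y.2 hz) fun e => hne ((h.twist_eq_one_iff y.2 hz).1 e)
  have hprim : IsPrimitiveRoot ζ 5 := hord ▸ IsPrimitiveRoot.orderOf ζ
  have hinj : Function.Injective fun i : Fin 5 => ζ ^ (i : ℕ) := fun i j e =>
    Fin.ext (pow_injOn_Iio_orderOf (by rw [hord]; exact i.2) (by rw [hord]; exact j.2) e)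
  let f : Fin 5 → Module.End F (ι → F) := fun i => endo (y : GL ι F) - algebraMap F _ (ζ ^ (i : ℕ))
  let p : Fin 5 → Submodule F (ι → F) := fun i => fixedSpace g ⊓ LinearMap.ker (f i)
  have hp_eigen : ∀ i, LinearMap.ker (f i) = Module.End.eigenspace (endo (y : GL ι F)) (ζ ^ (i : ℕ)) :=
    fun i => by rw [Module.End.eigenspace_def]; simp [f, Algebra.algebraMap_eq_smul_one]
  have hindep : iSupIndep p := by
    refine ((Module.End.eigenspaces_iSupIndep (endo (y : GL ι F))).comp hinj).mono fun i => ?_
    exact inf_le_right.trans (hp_eigen i).le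
  -- the product of the five factors vanishes
  have hprod : (List.ofFn f).prod = 0 := by
    have hroots := hprim.nthRoots_eq (show (1 : F) ^ 5 = 1 by simp)
    have e := Polynomial.prod_multiset_X_sub_C_of_monic_of_roots_card_eq
      (Polynomial.monic_X_pow_sub_C (1 : F) (show (5 : ℕ) ≠ 0 by norm_num))
      (by rw [Polynomial.natDegree_X_pow_sub_C, ← Polynomial.nthRoots, hroots]; simp)
    rw [← Polynomial.nthRoots, hroots, Multiset.map_map, Multiset.map_congr rfl (g := fun i =>
      Polynomial.X - Polynomial.C (ζ ^ i)) (fun i _ => by simp)] at e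
    have hl : ((Multiset.range 5).map fun i => Polynomial.X - Polynomial.C (ζ ^ i)) =
        ((List.ofFn fun i : Fin 5 => Polynomial.X - Polynomial.C (ζ ^ (i : ℕ))) : List (Polynomial F)) := by
      rw [← Multiset.coe_range, Multiset.map_coe, List.ofFn_eq_map,
        ← List.map_coe_finRange_eq_range, List.map_map]
      rfl
    rw [hl, Multiset.prod_coe] at e
    have := congrArg (Polynomial.aeval (endo (y : GL ι F))) e
    rw [map_list_prod, List.map_ofFn] at this
    convert this using 1
    · congr 2
      funext i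
      simp [f, map_pow]
    · rw [Polynomial.C_1, map_sub, map_pow, Polynomial.aeval_X, map_one, ← map_pow, hy5, map_one, sub_self]
  have hWinv : ∀ k ∈ List.ofFn f, ∀ v ∈ fixedSpace g, k v ∈ fixedSpace g := by
    intro k hk v hv
    obtain ⟨i, rfl⟩ := List.mem_ofFn.1 hk
    rw [mem_fixedSpace] at hv ⊢
    simp only [f, LinearMap.sub_apply, map_sub, Module.algebraMap_end_apply, map_smul,
      endo_commute hgy, hv]
  have hupper : finrank F (fixedSpace g) ≤ ∑ i, finrank F (p i) := by
    have e := inf_le_sum_finrank _ (fixedSpace g) hWinv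
    rw [hprod, LinearMap.ker_zero, inf_top_eq, List.map_ofFn, List.sum_ofFn] at e
    exact e
  have hlower : ∑ i, finrank F (p i) ≤ finrank F (fixedSpace g) := by
    rw [sum_finrank_le p hindep]
    exact Submodule.finrank_mono (Finset.sup_le fun i _ => inf_le_left)
  have hcentY : ∀ a : N, (QuotientGroup.mk a : Quot' N) ∈ h.disp.ker →
      (a : GL ι F) * y = y * a := fun a ha => h.commute_ker_range hfix ha hymem
  have hkr := h.card_ker_mul_range
  rw [h5] at hkr
  -- few classes fixed by g commute with all of them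
  obtain ⟨z₀, hz₀⟩ : ∃ z₀ : N, (QuotientGroup.mk z₀ : Quot' N) ∉ h.disp.ker := by
    obtain ⟨z₀, rfl⟩ := QuotientGroup.mk_surjective q
    exact ⟨z₀, fun e => hq (h.mem_ker.1 e)⟩
  have hk5 : ∀ S : Finset (Quot' N), (∀ c ∈ S, c ∈ h.disp.ker ∧ ∀ d ∈ h.disp.ker,
      (c.out : GL ι F) * (d.out : GL ι F) = (d.out : GL ι F) * c.out) → S.card ≤ 5 := by
    intro S hS
    have h1 : (S.image fun c : Quot' N => twist (c.out : GL ι F) (z₀ : GL ι F)).card = S.card := by
      refine Finset.card_image_of_injOn fun c hc c' hc' (e : twist _ _ = twist _ _) => ?_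
      set a : N := c.out⁻¹ * c'.out with ha
      have haz : twist (a : GL ι F) z₀ = 1 := by
        rw [ha, Subgroup.coe_mul, Subgroup.coe_inv, h.twist_mul (N.inv_mem c.out.2) c'.out.2 z₀.2,
          ← e, ← h.twist_mul (N.inv_mem c.out.2) c.out.2 z₀.2, inv_mul_cancel,
          h.twist_scalar (one_mem _) z₀.2]
      have hker : h.disp.ker ≤ h.centClass a := fun d hd => by
        rw [← QuotientGroup.out_eq' d]
        refine h.mem_centClass.2 ?_
        have e1 : Commute (c.out : GL ι F) (d.out : GL ι F) := (hS c hc).2 d hd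
        have e2 : Commute (c'.out : GL ι F) (d.out : GL ι F) := (hS c' hc').2 d hd
        exact (e1.inv_left.mul_left e2).eq
      have htop : h.centClass a = ⊤ := by
        refine Subgroup.eq_top_of_le_card _ ?_
        rw [h.card_quot, ← hkr]
        have hd1 : Nat.card h.disp.ker ∣ Nat.card (h.centClass a) := Subgroup.card_dvd_of_le hker
        have hd2 : Nat.card (h.centClass a) ∣ Nat.card h.disp.ker * 5 := by
          rw [hkr, ← h.card_quot]; exact Subgroup.card_subgroup_dvd_card _
        obtain ⟨j, hj⟩ := hd1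
        rw [hj] at hd2 ⊢
        rcases (Nat.dvd_prime (by norm_num : Nat.Prime 5)).1
          ((Nat.mul_dvd_mul_iff_left Nat.card_pos).1 hd2) with rfl | rfl
        · exfalso
          refine hz₀ ((Subgroup.eq_of_le_of_card_ge hker (by rw [hj, mul_one])).symm ▸
            h.mem_centClass.2 ((h.twist_eq_one_iff a.2 z₀.2).1 haz))
        · exact le_rfl
      have h0 := h.scalar_of_commute a _ (fun d hd => h.mem_centClass.1 hd) htop
      rw [ha, QuotientGroup.mk_mul, QuotientGroup.mk_inv, QuotientGroup.out_eq', QuotientGroup.out_eq',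
        inv_mul_eq_one] at h0
      exact h0
    rw [← h1]
    calc _ ≤ ((Polynomial.nthRoots 5 (1 : F)).toFinset).card := Finset.card_le_card fun t ht => by
          obtain ⟨c, -, rfl⟩ := Finset.mem_image.1 ht
          rw [Multiset.mem_toFinset, Polynomial.mem_nthRoots (by norm_num)]
          exact h.twist_pow c.out.2 z₀.2
      _ ≤ _ := (Multiset.toFinset_card_le _).trans (Polynomial.card_nthRoots _ _)
  have hdich : ∀ i, finrank F (p i) = 0 ∨ 5 * finrank F (p i) = Fintype.card ι := by
    intro i
    rcases eq_or_ne (p i) ⊥ with e | e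
    · exact Or.inl (by rw [e, finrank_bot])
    right
    refine le_antisymm ?_ ?_
    · refine le_trans (Nat.mul_le_mul_left 5 ?_) (h.eigen_le y.2 hyns (ζ ^ (i : ℕ)))
      exact Submodule.finrank_mono (inf_le_right.trans (hp_eigen i).le)
    · have hb := h.card_le_of_invariant h.disp.ker (p i) e (by
        intro a ha v hv
        obtain ⟨hv1, hv2⟩ := hv
        refine ⟨?_, ?_⟩
        · rw [SetLike.mem_coe, mem_fixedSpace] at hv1 ⊢
          rw [endo_commute (hfix a ha), hv1]
        · rw [SetLike.mem_coe, LinearMap.mem_ker] at hv2 ⊢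
          have : f i (endo (a : GL ι F) v) = endo (a : GL ι F) (f i v) := by
            simp only [f, LinearMap.sub_apply, map_sub, Module.algebraMap_end_apply, map_smul,
              endo_commute (hcentY a ha)]
          rw [this, hv2, map_zero]) 5 hk5
      by_contra hlt
      push Not at hlt
      nlinarith [Nat.mul_lt_mul_of_lt_of_lt hlt hlt]
  have hmul : ∃ s, 5 * finrank F (fixedSpace g) = s * Fintype.card ι := by
    rw [le_antisymm hupper hlower, Finset.mul_sum]
    refine ⟨∑ i, if finrank F (p i) = 0 then 0 else 1, ?_⟩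
    rw [Finset.sum_mul]
    refine Finset.sum_congr rfl fun i _ => ?_
    rcases hdich i with e | e
    · simp [e]
    · rw [if_neg (fun e0 => by rw [e0] at e; have := h.two_le; omega), one_mul, e]
  obtain ⟨s, hs⟩ := hmul
  obtain ⟨w, hw1, hw2, hineq⟩ := h.count
  set n := Fintype.card ι
  set w₀ := finrank F (fixedSpace g)
  by_contra hlt
  have hn := h.two_le
  have hs3 : 3 ≤ s := by
    by_contra hs2
    have : s * n ≤ 2 * n := Nat.mul_le_mul_right n (by omega)
    omega
  have h53 : 3 * n ≤ 5 * w := by
    have : 3 * n ≤ s * n := Nat.mul_le_mul_right n hs3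
    omega
  obtain ⟨m, hm⟩ := Nat.exists_eq_add_of_le hw2
  rw [hm] at hineq hkr h53
  simp only [Nat.add_sub_cancel_left, show (5 : ℕ) - 1 = 4 from rfl] at hineq
  have hm2 : 3 * m ≤ 2 * w := by omega
  have hpos : 0 < w := by omega
  zify at hineq hkr hm2 hpos
  nlinarith [mul_le_mul hm2 hm2 (by positivity) (by positivity)]

/-- The three bounds for the fixed space, and the fourth for dimension prime to three. -/
theorem Data.bounds (h : Data N g r ϖ)
    (hroot : r = 5 → ∀ x : N, ∃ y : N,
      (QuotientGroup.mk y : Quot' N) = QuotientGroup.mk x ∧ (y : GL ι F) ^ 5 = 1) :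
    (ϖ = 2 → 4 * finrank F (fixedSpace g) ≤ 3 * Fintype.card ι) ∧
    (ϖ = 3 → 3 * finrank F (fixedSpace g) ≤ 2 * Fintype.card ι) ∧
    (3 < ϖ → 2 * finrank F (fixedSpace g) ≤ Fintype.card ι) ∧
    (ϖ = 3 → r ≠ 3 → 2 * finrank F (fixedSpace g) ≤ Fintype.card ι) := by
  classical
  set w := finrank F (fixedSpace g)
  set n := Fintype.card ι
  have hr2 := h.pr.two_le
  rcases h.small_or_fix with hsm | hfix
  · exact ⟨fun _ => by omega, fun _ => by omega, fun _ => hsm, fun _ _ => hsm⟩
  obtain ⟨q, hq⟩ := h.exists_moved hfix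
  have hcomm : 2 * r * w ≤ n * (r + 1) := by
    obtain ⟨x, hx⟩ := QuotientGroup.mk_surjective q
    refine h.fixed_le_of_comm x.2 fun hs => hq ?_
    rw [← hx, h.act_mk, mk_eq_iff]
    have e : (h.conjN x : GL ι F)⁻¹ * x = (g * x * g⁻¹)⁻¹ * (g * x * g⁻¹ * (x : GL ι F)⁻¹)⁻¹ *
        (g * x * g⁻¹) := by rw [h.coe_conjN]; group
    rw [e, ← scalars_commute ((Geo.scalars ι F).inv_mem hs), inv_mul_cancel_right]
    exact (Geo.scalars ι F).inv_mem hs
  have hL := h.order_le_range hq
  obtain ⟨d, hd⟩ := h.range_isPow
  have hkr := h.card_ker_mul_range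
  have hhalf : 3 ≤ ϖ → (ϖ = 3 → r ≠ 3) → 2 * w ≤ n := by
    intro h3 hr3
    by_cases hbig : 4 * (ϖ - 1) ^ 2 ≤ Nat.card h.disp.range * (ϖ - 2) ^ 2
    · obtain ⟨w', hw1, hw2, hineq⟩ := h.count
      have := half_of_count h3 hw2 hineq hkr hbig
      omega
    push Not at hbig
    have hϖ : ϖ ≤ 6 := by
      by_contra h7
      obtain ⟨a, rfl⟩ := Nat.exists_eq_add_of_le (show 2 ≤ ϖ by omega)
      rw [show 2 + a - 1 = a + 1 by omega, Nat.add_sub_cancel_left] at hbig
      have : (2 + a) * a ^ 2 ≤ Nat.card h.disp.range * a ^ 2 := Nat.mul_le_mul_right _ hL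
      nlinarith
    have hcase : ϖ = 3 ∨ ϖ = 5 := by
      have := h.po
      interval_cases ϖ <;> simp_all (config := { decide := true })
    rcases hcase with e | e <;> subst e
    · have hne := hr3 rfl
      have hdis := h.disjoint_of_ne hne
      have hmod : Nat.card h.disp.range % 3 = 1 := by
        have := Fact.mk h.po
        have : Fintype h.disp.range := Fintype.ofFinite _
        let f : h.disp.range → h.disp.range := fun a => ⟨h.act a.1, by
          obtain ⟨b, hb⟩ := a.2
          exact ⟨h.act b, by rw [h.disp_apply, ← hb, h.disp_apply, map_mul, map_inv]⟩⟩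
        have hit : ∀ (k : ℕ) a, ((f^[k] a).1) = (⇑h.act)^[k] a.1 := fun k a => by
          induction k with
          | zero => rfl
          | succ k ih => rw [Function.iterate_succ_apply', Function.iterate_succ_apply', ← ih]
        have := Equiv.Perm.card_fixedPoints_modEq (α := h.disp.range) (f := f) (p := 3) (n := 1)
          (funext fun a => Subtype.ext (by rw [pow_one]; exact (hit 3 a).trans (h.act_iterate _)))
        have hone : Fintype.card (Function.fixedPoints f) = 1 := by
          rw [Fintype.card_eq_one_iff]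
          refine ⟨⟨1, Subtype.ext (by simp [f])⟩, fun a => Subtype.ext (Subtype.ext ?_)⟩
          have ha : h.act a.1.1 = a.1.1 := congrArg Subtype.val a.2
          exact Subgroup.disjoint_def.1 hdis (h.mem_ker.2 ha) a.1.2
        rw [hone] at this
        rw [Nat.card_eq_fintype_card]
        exact this
      have hlt : Nat.card h.disp.range < 16 := by omega
      refine h.half_of_four hfix hdis ?_
      rcases Nat.lt_trichotomy d 1 with hd1 | rfl | hd1
      · rw [show d = 0 by omega, pow_zero] at hd; omega
      · exact absurd (hd.trans (pow_one r)) (h.not_prime_range hfix hdis)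
      · have h2 : r ^ 2 ≤ r ^ d := Nat.pow_le_pow_right h.pr.pos hd1
        have hr5 : r < 4 := by nlinarith
        have : r = 2 := by omega
        subst this
        have : d < 4 := by
          by_contra hd4
          have : 2 ^ 4 ≤ 2 ^ d := Nat.pow_le_pow_right (by norm_num) (by omega)
          omega
        interval_cases d <;> omega
    · have hlt : Nat.card h.disp.range < 8 := by omega
      have hd1 : d = 1 := by
        rcases Nat.lt_trichotomy d 1 with hd1 | hd1 | hd1
        · rw [show d = 0 by omega, pow_zero] at hd; omega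
        · exact hd1
        · exfalso
          have h2 : r ^ 2 ≤ r ^ d := Nat.pow_le_pow_right h.pr.pos hd1
          have hr5 : r < 3 := by nlinarith
          have : r = 2 := by omega
          subst this
          have : d < 3 := by
            by_contra hd4
            have : 2 ^ 3 ≤ 2 ^ d := Nat.pow_le_pow_right (by norm_num) (by omega)
            omega
          interval_cases d
          omega
      subst hd1
      rw [pow_one] at hd
      have hr5 : r = 5 := by
        by_contra hne
        exact h.not_prime_range hfix (h.disjoint_of_ne hne) hd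
      subst hr5
      exact h.half_of_five (hroot rfl) hfix hd
  refine ⟨fun _ => by nlinarith, fun e => ?_, fun e => hhalf (by omega) (fun e' => by omega),
    fun e hne => hhalf (by omega) fun _ => hne⟩
  by_cases h3r : r = 3
  · subst h3r; omega
  · have := hhalf (by omega) fun _ => h3r
    omega

end CfsgLib.Aschbacher.ExtraEigen
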