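import Cfsg.Agent.Aschbacher.Density

/-!
An absolutely irreducible group in odd prime dimension, commutative modulo scalars and of
determinant one, is extraspecial of order `ℓ³` and monomial with `ℓ`-th roots of unity as entries.
-/

set_option autoImplicit false

namespace CfsgLib.Aschbacher

open Matrix Module Polynomial
open scoped MatrixGroups

variable {ι : Type} [Fintype ι] [DecidableEq ι] {F : Type*} [Field F]

lemma det_val_eq_one {g : GL ι F} (hg : g ∈ Cfsg.Geo.specialLinear ι F) : g.val.det = 1 :=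
  congrArg Units.val (MonoidHom.mem_ker.mp hg)

/-- Conjugation data of an element of `N` by another when `N` is commutative modulo scalars. -/
lemma exists_conj_eq_smul {N : Subgroup (GL ι F)}
    (hab : ∀ x ∈ N, ∀ y ∈ N, y * x * y⁻¹ * x⁻¹ ∈ Cfsg.Geo.scalars ι F) {x y : GL ι F}
    (hx : x ∈ N) (hy : y ∈ N) :
    ∃ w : F, (y * x * y⁻¹ * x⁻¹).val = w • (1 : Matrix ι ι F) ∧
      y.val * x.val = w • (x.val * y.val) := by
  obtain ⟨c, hc⟩ := (Cfsg.Geo.mem_scalars_iff _).mp (hab x hx y hy)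
  refine ⟨c, hc, ?_⟩
  have h : y * x = y * x * y⁻¹ * x⁻¹ * (x * y) := by group
  have e := congrArg Units.val h
  rw [Units.val_mul, Units.val_mul (y * x * y⁻¹ * x⁻¹), hc, Units.val_mul, Matrix.smul_mul,
    Matrix.one_mul] at e
  exact e

/-- Modulo scalars, `N` is non-cyclic of order `ℓ²`. -/
lemma pow_card_mem_scalars [Finite F] {N : Subgroup (GL ι F)} (hp : (Fintype.card ι).Prime)
    (h : Cfsg.Geo.ActsAbsolutelyIrreducibly (Cfsg.Geo.matrixSet N))
    (hab : ∀ x ∈ N, ∀ y ∈ N, y * x * y⁻¹ * x⁻¹ ∈ Cfsg.Geo.scalars ι F) {x : GL ι F}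
    (hx : x ∈ N) : x ^ Fintype.card ι ∈ Cfsg.Geo.scalars ι F := by
  have : Nonempty ι := Fintype.card_pos_iff.mp hp.pos
  set q : N ⧸ (Cfsg.Geo.scalars ι F).subgroupOf N := QuotientGroup.mk (⟨x, hx⟩ : N) with hq
  have hord := orderOf_dvd_natCard q
  rw [card_quotient_scalars h hab, ← sq] at hord
  obtain ⟨k, hk, hordk⟩ := (Nat.dvd_prime_pow hp).mp hord
  suffices hdvd : orderOf q ∣ Fintype.card ι by
    have := orderOf_dvd_iff_pow_eq_one.mp hdvd
    rw [hq, ← QuotientGroup.mk_pow, QuotientGroup.eq_one_iff] at this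
    simpa [Subgroup.mem_subgroupOf] using this
  rcases Nat.lt_or_ge k 2 with hk2 | hk2
  · rw [hordk]
    conv_rhs => rw [← pow_one (Fintype.card ι)]
    exact pow_dvd_pow _ (by omega)
  exfalso
  have hk' : k = 2 := le_antisymm hk hk2
  have htop : Subgroup.zpowers q = ⊤ := by
    apply Subgroup.eq_top_of_card_eq
    rw [Nat.card_zpowers, hordk, hk', card_quotient_scalars h hab, sq]
  have hcyc : ∀ y ∈ N, ∃ n : ℤ, (x ^ n)⁻¹ * y ∈ Cfsg.Geo.scalars ι F := by
    intro y hy
    obtain ⟨n, hn⟩ := Subgroup.mem_zpowers_iff.mp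
      (htop ▸ Subgroup.mem_top (QuotientGroup.mk (⟨y, hy⟩ : N)) : _ ∈ Subgroup.zpowers q)
    rw [hq, ← QuotientGroup.mk_zpow, QuotientGroup.eq] at hn
    exact ⟨n, by simpa [Subgroup.mem_subgroupOf] using hn⟩
  obtain ⟨a, ha, b, hb, hne⟩ := exists_not_commute hp.two_le h
  obtain ⟨m, hm⟩ := hcyc a ha
  obtain ⟨n, hn⟩ := hcyc b hb
  apply hne
  have h1 : Commute ((x ^ m)⁻¹ * a) b := scalars_commute hm b
  have h2 : Commute ((x ^ n)⁻¹ * b) (x ^ m) := scalars_commute hn _
  have h3 : Commute (x ^ m) b := by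
    have h4 : Commute (x ^ m) (x ^ n * ((x ^ n)⁻¹ * b)) :=
      (Commute.zpow_zpow (Commute.refl x) m n).mul_right h2.symm
    rwa [mul_inv_cancel_left] at h4
  have h5 : Commute (x ^ m * ((x ^ m)⁻¹ * a)) b := h3.mul_left h1
  rwa [mul_inv_cancel_left] at h5

/-- A non-scalar element of `N` has minimal and characteristic polynomial `X^ℓ - λ`. -/
lemma charpoly_eq_of_notMem_scalars [Finite F] {N : Subgroup (GL ι F)}
    (hp : (Fintype.card ι).Prime)
    (h : Cfsg.Geo.ActsAbsolutelyIrreducibly (Cfsg.Geo.matrixSet N))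
    (hab : ∀ x ∈ N, ∀ y ∈ N, y * x * y⁻¹ * x⁻¹ ∈ Cfsg.Geo.scalars ι F) {x : GL ι F}
    (hx : x ∈ N) (hxZ : x ∉ Cfsg.Geo.scalars ι F) :
    ∃ c : F, x.val ^ Fintype.card ι = c • 1 ∧
      x.val.charpoly = X ^ Fintype.card ι - C c := by
  classical
  have : Nonempty ι := Fintype.card_pos_iff.mp hp.pos
  obtain ⟨c, hc⟩ := (Cfsg.Geo.mem_scalars_iff _).mp (pow_card_mem_scalars hp h hab hx)
  rw [Units.val_pow_eq_pow_val] at hc
  set n := Fintype.card ι with hn
  refine ⟨c, hc, ?_⟩
  have hmon : (X ^ n - C (c : F)).Monic := monic_X_pow_sub_C _ hp.ne_zero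
  have haev : aeval x.val (X ^ n - C (c : F)) = 0 := by
    simp [hc, Algebra.algebraMap_eq_smul_one]
  have hmdvd := minpoly.dvd F x.val haev
  have hint : IsIntegral F x.val := Algebra.IsIntegral.isIntegral _
  have hdeg : n ≤ (minpoly F x.val).natDegree := by
    by_contra! hlt
    set d := (minpoly F x.val).natDegree with hd
    have hli : LinearIndependent F fun i : Fin n => (x ^ (i : ℕ)).val := by
      refine linearIndependent_of_distinct_classes h hab (fun i : Fin n => x ^ (i : ℕ))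
        (fun i => pow_mem hx _) fun i j hij => ?_
      by_contra hne
      let Z := Cfsg.Geo.scalars ι F
      have hzij : x ^ (((j : ℕ) : ℤ) - ((i : ℕ) : ℤ)) ∈ Z := by
        rw [sub_eq_neg_add, _root_.zpow_add, _root_.zpow_neg, zpow_natCast, zpow_natCast]
        exact hij
      have hzn : x ^ (n : ℤ) ∈ Z := by
        rw [zpow_natCast]; exact pow_card_mem_scalars hp h hab hx
      have hcop : IsCoprime (((j : ℕ) : ℤ) - ((i : ℕ) : ℤ)) (n : ℤ) := by
        rw [Int.isCoprime_iff_nat_coprime, Int.natAbs_natCast]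
        refine (hp.coprime_iff_not_dvd.mpr fun hdvd => ?_).symm
        have h1 := Nat.le_of_dvd (by
          rw [Int.natAbs_pos, sub_ne_zero]
          exact fun e => hne (Fin.ext (Int.ofNat.inj e)).symm) hdvd
        have h2 := i.2
        have h3 := j.2
        omega
      obtain ⟨a, b, hab'⟩ := hcop
      apply hxZ
      rw [← _root_.zpow_one x, ← hab', _root_.zpow_add, mul_comm a, mul_comm b, _root_.zpow_mul,
        _root_.zpow_mul]
      exact mul_mem (zpow_mem hzij a) (zpow_mem hzn b)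
    have hsum : ∑ i : Fin n, (minpoly F x.val).coeff i • (x ^ (i : ℕ)).val = 0 := by
      have e := minpoly.aeval F x.val
      rw [aeval_eq_sum_range' hlt, ← Fin.sum_univ_eq_sum_range
        (fun i => (minpoly F x.val).coeff i • x.val ^ i) n] at e
      simpa [Units.val_pow_eq_pow_val] using e
    have : (minpoly F x.val).coeff (minpoly F x.val).natDegree = 0 :=
      Fintype.linearIndependent_iff.mp hli _ hsum ⟨d, hlt⟩
    rw [← Polynomial.leadingCoeff, (minpoly.monic hint).leadingCoeff] at this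
    exact one_ne_zero this
  have h1 : minpoly F x.val = X ^ n - C (c : F) := by
    refine Polynomial.eq_of_monic_of_dvd_of_natDegree_le (minpoly.monic hint) hmon hmdvd ?_ |>.symm
    rw [natDegree_X_pow_sub_C]
    exact hdeg
  rw [← h1]
  refine Polynomial.eq_of_monic_of_dvd_of_natDegree_le (minpoly.monic hint) (charpoly_monic _)
    (minpoly_dvd_charpoly _) ?_
  rw [charpoly_natDegree_eq_dim]
  exact hdeg

/-- `R` is monomial in the basis `b`, all coefficients being `ℓ`-th roots of unity. -/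
def IsRootMonomial (R : Subgroup (GL ι F)) (b : Basis ι F (ι → F)) : Prop :=
  ∀ g ∈ R, ∃ (σ : Equiv.Perm ι) (c : ι → F),
    (∀ i, c i ^ Fintype.card ι = 1) ∧ ∀ i, g.val *ᵥ b i = c i • b (σ i)

/-- Extraspecial of order `ℓ³`, absolutely irreducible, with a root-monomial basis. -/
structure IsHeisenberg (R : Subgroup (GL ι F)) : Prop where
  symplecticType : Cfsg.Geo.IsSymplecticTypeGroup (Fintype.card ι) R
  absIrred : Cfsg.Geo.ActsAbsolutelyIrreducibly (Cfsg.Geo.matrixSet R)
  card_eq : Nat.card R = Fintype.card ι ^ 3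
  card_center : Nat.card (Subgroup.center R) = Fintype.card ι
  dvd_card_units : Fintype.card ι ∣ Nat.card Fˣ
  monomial : ∃ b : Basis ι F (ι → F), IsRootMonomial R b

lemma pow_card_eq_one [Finite F] {N : Subgroup (GL ι F)} (hp : (Fintype.card ι).Prime)
    (hodd : Odd (Fintype.card ι))
    (h : Cfsg.Geo.ActsAbsolutelyIrreducibly (Cfsg.Geo.matrixSet N))
    (hab : ∀ x ∈ N, ∀ y ∈ N, y * x * y⁻¹ * x⁻¹ ∈ Cfsg.Geo.scalars ι F)
    (hdet : N ≤ Cfsg.Geo.specialLinear ι F) {x : GL ι F} (hx : x ∈ N) :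
    x ^ Fintype.card ι = 1 := by
  refine Units.ext ?_
  rw [Units.val_pow_eq_pow_val, Units.val_one]
  by_cases hxZ : x ∈ Cfsg.Geo.scalars ι F
  · obtain ⟨c, hc⟩ := (Cfsg.Geo.mem_scalars_iff x).mp hxZ
    have hd := det_val_eq_one (hdet hx)
    rw [hc, det_smul, det_one, mul_one] at hd
    rw [hc, _root_.smul_pow, hd, one_pow, one_smul]
  · obtain ⟨c, hc, hcp⟩ := charpoly_eq_of_notMem_scalars hp h hab hx hxZ
    have hd := det_val_eq_one (hdet hx)
    rw [det_eq_sign_charpoly_coeff, hcp, coeff_sub, coeff_X_pow, if_neg (Ne.symm hp.ne_zero),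
      coeff_C_zero, zero_sub, hodd.neg_one_pow, neg_mul_neg, one_mul] at hd
    rw [hc, hd, one_smul]

theorem isHeisenberg_of_abelian_mod_scalars [Finite F] {N : Subgroup (GL ι F)}
    (hp : (Fintype.card ι).Prime) (hodd : Odd (Fintype.card ι))
    (h : Cfsg.Geo.ActsAbsolutelyIrreducibly (Cfsg.Geo.matrixSet N))
    (hab : ∀ x ∈ N, ∀ y ∈ N, y * x * y⁻¹ * x⁻¹ ∈ Cfsg.Geo.scalars ι F)
    (hdet : N ≤ Cfsg.Geo.specialLinear ι F)
    (hchar : ∀ A : Subgroup N, A.Characteristic → IsMulCommutative A →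
      A.map N.subtype ≤ Cfsg.Geo.scalars ι F) : IsHeisenberg N := by
  classical
  have : Nonempty ι := Fintype.card_pos_iff.mp hp.pos
  have := Fact.mk hp
  set n := Fintype.card ι with hn
  set Z := Cfsg.Geo.scalars ι F
  have hpow : ∀ x ∈ N, x ^ n = 1 := fun x hx => pow_card_eq_one hp hodd h hab hdet hx
  obtain ⟨x, hx, y, hy, hxy⟩ := exists_not_commute hp.two_le h
  obtain ⟨w, hwc, hw⟩ := exists_conj_eq_smul hab hx hy
  have hw1 : w ≠ 1 := fun e => hxy (Units.ext (by rw [e, one_smul] at hw; exact hw.symm))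
  have hwn : w ^ n = 1 := by
    have e := congrArg Units.val (hpow _ (mul_mem (mul_mem (mul_mem hy hx) (inv_mem hy)) (inv_mem hx)))
    rw [Units.val_pow_eq_pow_val, hwc, _root_.smul_pow, one_pow, Units.val_one] at e
    have := congrFun (congrFun e (Classical.arbitrary ι)) (Classical.arbitrary ι)
    simpa using this
  have hw0 : w ≠ 0 := fun e => by rw [e, zero_pow hp.ne_zero] at hwn; exact zero_ne_one hwn
  set u : Fˣ := Units.mk0 w hw0 with hu
  have huo : orderOf u = n :=
    orderOf_eq_prime (Units.ext hwn) fun e => hw1 (congrArg Units.val e)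
  have hsc : ∀ g ∈ N, g ∈ Z → ∃ c : F, c ^ n = 1 ∧ g.val = c • (1 : Matrix ι ι F) := by
    intro g hg hgZ
    obtain ⟨c, hc⟩ := (Cfsg.Geo.mem_scalars_iff g).mp hgZ
    refine ⟨c, ?_, hc⟩
    have hd := det_val_eq_one (hdet hg)
    rwa [hc, det_smul, det_one, mul_one] at hd
  have hroots : ∀ c : F, c ^ n = 1 → ∃ k : ℕ, c = w ^ k := by
    intro c hc
    have : NeZero (orderOf u) := ⟨by rw [huo]; exact hp.ne_zero⟩
    obtain ⟨k, -, hk⟩ := (((IsPrimitiveRoot.orderOf u).map_of_injective (f := Units.coeHom F)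
      Units.val_injective).eq_pow_of_pow_eq_one (ξ := c) (by rwa [huo]))
    exact ⟨k, hk.symm⟩
  let Zn : Subgroup N := Z.subgroupOf N
  have hcardZ : Nat.card Zn = n := by
    have hmem : ⟨_, mul_mem (mul_mem (mul_mem hy hx) (inv_mem hy)) (inv_mem hx)⟩ ∈ Zn :=
      hab x hx y hy
    refine le_antisymm ?_ ?_
    · have : Function.Surjective fun k : Fin n =>
          (⟨_, hmem⟩ : Zn) ^ (k : ℕ) := by
        rintro ⟨⟨g, hg⟩, hgZ⟩
        obtain ⟨c, hc, hgc⟩ := hsc g hg hgZ
        obtain ⟨k, hk⟩ := hroots c hc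
        refine ⟨⟨k % n, Nat.mod_lt _ hp.pos⟩, Subtype.ext (Subtype.ext (Units.ext ?_))⟩
        simp only [SubmonoidClass.coe_pow, Units.val_pow_eq_pow_val, hwc, _root_.smul_pow, one_pow, hgc]
        rw [hk, pow_eq_pow_mod k hwn]
      exact (Nat.card_le_card_of_surjective _ this).trans_eq (Nat.card_fin n)
    · have hne : (⟨_, hmem⟩ : Zn) ≠ 1 := fun e => hxy (by
        have e' : y * x * y⁻¹ * x⁻¹ = 1 := congrArg (fun a : Zn => (a.1 : GL ι F)) e
        calc x * y = (y * x * y⁻¹ * x⁻¹) * (x * y) := by rw [e', one_mul]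
          _ = y * x := by group)
      have hord : orderOf (⟨_, hmem⟩ : Zn) = n := orderOf_eq_prime
        (Subtype.ext (Subtype.ext (hpow _ (mul_mem (mul_mem (mul_mem hy hx) (inv_mem hy)) (inv_mem hx))))) hne
      exact hord.symm.trans_le (Nat.le_of_dvd Nat.card_pos (orderOf_dvd_natCard _))
  have hcenter : Subgroup.center N = Zn := by
    ext g
    constructor
    · intro hg
      exact mem_scalars_of_commute h fun z hz =>
        (congrArg Subtype.val (Subgroup.mem_center_iff.mp hg ⟨z, hz⟩)).symm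
    · intro hg
      exact Subgroup.mem_center_iff.mpr fun z => Subtype.ext (scalars_commute hg z.1).symm
  have hcard : Nat.card N = n ^ 3 := by
    rw [Subgroup.card_eq_card_quotient_mul_card_subgroup Zn, card_quotient_scalars h hab, hcardZ]
    ring
  have hexp : Monoid.exponent N = n := by
    rcases (Nat.dvd_prime hp).mp (Monoid.exponent_dvd_of_forall_pow_eq_one
      fun g : N => Subtype.ext (hpow g.1 g.2)) with e | e
    · exfalso
      have := Monoid.pow_exponent_eq_one (⟨x, hx⟩ : N)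
      rw [e, pow_one] at this
      have hx1 : x = 1 := congrArg Subtype.val this
      exact hxy (by rw [hx1, one_mul, mul_one])
    · exact e
  refine ⟨⟨hp, fun g => ⟨1, Subtype.ext (by simpa [← hn] using hpow g.1 g.2)⟩, fun A hA hAc => ?_, ?_⟩,
    h, hcard, by rw [hcenter]; exact hcardZ,
    (dvd_of_eq huo.symm).trans (orderOf_dvd_natCard u), ?_⟩
  · have hle : A ≤ Zn := fun g hg => hchar A hA hAc ⟨g, hg, rfl⟩
    have hcyc : IsCyclic Zn := isCyclic_of_prime_card hcardZ
    exact isCyclic_of_injective (Subgroup.inclusion hle) (Subgroup.inclusion_injective hle)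
  · rw [hexp, Nat.coprime_comm.mp ((Nat.coprime_primes hp Nat.prime_two).mpr ?_), mul_one]
    intro e
    rw [e] at hodd
    exact absurd hodd (by decide)
  -- the monomial basis
  have hxZ : x ∉ Z := fun hz => hxy (scalars_commute hz y)
  obtain ⟨c, hc, hcp⟩ := charpoly_eq_of_notMem_scalars hp h hab hx hxZ
  have hc1 : c = 1 := by
    have e := congrArg Units.val (hpow x hx)
    rw [Units.val_pow_eq_pow_val, hc, Units.val_one] at e
    have := congrFun (congrFun e (Classical.arbitrary ι)) (Classical.arbitrary ι)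
    simpa using this
  have hdet0 : (x.val - 1).det = 0 := by
    have e := Matrix.eval_charpoly x.val (1 : F)
    rw [hcp, hc1, eval_sub, eval_pow, eval_X, one_pow, eval_C, sub_self, map_one,
      ← neg_sub, Matrix.det_neg] at e
    exact (mul_eq_zero.mp e.symm).resolve_left (pow_ne_zero _ (neg_ne_zero.mpr one_ne_zero))
  obtain ⟨v, hv, hxv⟩ := exists_mulVec_eq_zero_iff.mpr hdet0
  rw [sub_mulVec, one_mulVec, sub_eq_zero] at hxv
  have hyv : ∀ k : ℕ, x.val *ᵥ ((y ^ k).val *ᵥ v) = ((w⁻¹) ^ k) • ((y ^ k).val *ᵥ v) := by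
    intro k
    induction k with
    | zero => simp [hxv]
    | succ k ih =>
      rw [pow_succ' y, Units.val_mul, ← mulVec_mulVec, mulVec_mulVec _ x.val]
      have e : x.val * y.val = w⁻¹ • (y.val * x.val) := by
        rw [hw, smul_smul, inv_mul_cancel₀ hw0, one_smul]
      rw [e, smul_mulVec, ← mulVec_mulVec, ih, mulVec_smul, smul_smul, ← pow_succ']
  have hinv0 : orderOf (w⁻¹) = n := by
    rw [show w⁻¹ = ((u⁻¹ : Fˣ) : F) from (Units.val_inv_eq_inv_val u).symm, orderOf_units,
      orderOf_inv, huo]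
  let e : ι ≃ Fin n := Fintype.equivFin ι
  let v' : ι → ι → F := fun i => (y ^ (e i : ℕ)).val *ᵥ v
  have hli : LinearIndependent F v' := by
    refine Module.End.eigenvectors_linearIndependent' (toLin' x.val)
      (fun i => (w⁻¹) ^ (e i : ℕ)) (fun i j hij => e.injective (Fin.ext ?_)) v' fun i => ?_
    · exact pow_injOn_Iio_orderOf (by rw [hinv0]; exact (e i).2) (by rw [hinv0]; exact (e j).2) hij
    · refine ⟨Module.End.mem_eigenspace_iff.mpr (by simpa [v'] using hyv (e i)), fun h0 => hv ?_⟩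
      exact mulVec_inj (y ^ (e i : ℕ)) (h0.trans (mulVec_zero _).symm)
  let b : Basis ι F (ι → F) := basisOfLinearIndependentOfCardEqFinrank hli (finrank_pi F).symm
  have hb : ∀ i, b i = (y ^ (e i : ℕ)).val *ᵥ v := fun i => by simp [b, v']
  refine ⟨b, ?_⟩
  let S : Submonoid (GL ι F) :=
    { carrier := {g | ∃ (σ : Equiv.Perm ι) (c : ι → F),
        (∀ i, c i ^ n = 1) ∧ ∀ i, g.val *ᵥ b i = c i • b (σ i)}
      one_mem' := ⟨1, 1, fun i => one_pow n, fun i => by simp⟩
      mul_mem' := by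
        rintro g g' ⟨σ, c, hc, hg⟩ ⟨σ', c', hc', hg'⟩
        refine ⟨σ'.trans σ, fun i => c' i * c (σ' i), fun i => by rw [mul_pow, hc', hc, mul_one],
          fun i => ?_⟩
        rw [Units.val_mul, ← mulVec_mulVec, hg', mulVec_smul, hg, smul_smul, Equiv.trans_apply] }
  have hxS : x ∈ S := ⟨1, fun i => (w⁻¹) ^ (e i : ℕ), fun i => by
    rw [← pow_mul, mul_comm, pow_mul, inv_pow, hwn, inv_one, one_pow],
    fun i => by simp only [Equiv.Perm.one_apply, hb]; exact hyv (e i)⟩
  have hyS : y ∈ S := by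
    have : NeZero n := ⟨hp.ne_zero⟩
    refine ⟨e.trans ((Equiv.addRight 1).trans e.symm), 1, fun i => one_pow n, fun i => ?_⟩
    rw [hb, hb, Pi.one_apply, one_smul, mulVec_mulVec, ← Units.val_mul, ← pow_succ']
    congr 2
    simp only [Equiv.trans_apply, Equiv.apply_symm_apply, Equiv.coe_addRight]
    rw [Fin.val_add, Fin.val_one']
    rw [Nat.add_mod_mod]
    exact pow_eq_pow_mod _ (hpow y hy)
  let T : Subgroup N :=
    { carrier := {g | g.1 ∈ S}
      one_mem' := S.one_mem
      mul_mem' := fun h1 h2 => S.mul_mem h1 h2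
      inv_mem' := fun {g} hg => by
        show g.1⁻¹ ∈ S
        have : g.1⁻¹ = g.1 ^ (n - 1) := by
          refine inv_eq_of_mul_eq_one_right ?_
          rw [← pow_succ', Nat.sub_add_cancel hp.one_le, hpow _ g.2]
        rw [this]
        exact pow_mem hg _ }
  have hZT : Zn ≤ T := by
    rintro ⟨g, hg⟩ hgZ
    obtain ⟨c', hc', hgc⟩ := hsc g hg hgZ
    exact ⟨1, fun _ => c', fun _ => hc', fun i => by
      simp [hgc, smul_mulVec]⟩
  let mk := QuotientGroup.mk' Zn
  have hTtop : T = ⊤ := by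
    have h1 : T.map mk = ⊤ := by
      have hdvd := Subgroup.card_subgroup_dvd_card (T.map mk)
      rw [card_quotient_scalars h hab, ← sq] at hdvd
      obtain ⟨k, hk, hcard'⟩ := (Nat.dvd_prime_pow hp).mp hdvd
      rcases Nat.lt_or_ge k 2 with hk2 | hk2
      · exfalso
        have hqx : mk ⟨x, hx⟩ ∈ T.map mk := ⟨_, hxS, rfl⟩
        have hqy : mk ⟨y, hy⟩ ∈ T.map mk := ⟨_, hyS, rfl⟩
        have hqx1 : (⟨mk ⟨x, hx⟩, hqx⟩ : T.map mk) ≠ 1 := fun e => hxZ (by
          have := (QuotientGroup.eq_one_iff _).mp (congrArg Subtype.val e)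
          exact this)
        interval_cases k
        · rw [pow_zero] at hcard'
          have := Subgroup.eq_bot_of_card_eq _ hcard'
          rw [this] at hqx
          exact hqx1 (Subtype.ext (Subgroup.mem_bot.mp hqx))
        · rw [pow_one] at hcard'
          obtain ⟨m, hm⟩ := Subgroup.mem_zpowers_iff.mp
            (mem_zpowers_of_prime_card hcard' hqx1 (g' := ⟨mk ⟨y, hy⟩, hqy⟩))
          have e := congrArg Subtype.val hm
          rw [Subgroup.coe_zpow, ← map_zpow] at e
          have := QuotientGroup.eq.mp e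
          have h2 : Commute ((x ^ m)⁻¹ * y) x := scalars_commute (g := x) (by
            simpa [Zn, Subgroup.mem_subgroupOf] using this)
          have h3 : Commute (x ^ m * ((x ^ m)⁻¹ * y)) x :=
            ((Commute.refl x).zpow_left m).mul_left h2
          rw [mul_inv_cancel_left] at h3
          exact hxy h3.eq.symm
      · apply Subgroup.eq_top_of_card_eq
        rw [hcard', show k = 2 by omega, card_quotient_scalars h hab, sq]
    rw [eq_top_iff]
    intro g _
    obtain ⟨t, ht, htg⟩ := (h1 ▸ Subgroup.mem_top (mk g) : mk g ∈ T.map mk)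
    have := hZT (QuotientGroup.eq.mp htg)
    simpa using mul_mem ht this
  intro g hg
  exact (hTtop ▸ Subgroup.mem_top (⟨g, hg⟩ : N) : (⟨g, hg⟩ : N) ∈ T)

end CfsgLib.Aschbacher
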