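import Cfsg.Agent.Aschbacher.LinearCases
import Cfsg.Agent.Aschbacher.SymplecticType
import Cfsg.Agent.Aschbacher.NormalizerProper

/-!
The abelian configuration of a maximal subgroup of the special linear group, resolved.
-/

set_option autoImplicit false

namespace CfsgLib.Aschbacher

open Matrix Cfsg

variable {ι : Type} [Fintype ι] [DecidableEq ι] {F : Type*} [Field F]

/-- The numbers of class six in the linear case. -/
theorem symplecticTypeData_numbers [Fintype F] (hn : 3 ≤ Fintype.card ι) {R : Subgroup (GL ι F)} {r : ℕ}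
    (hR : Geo.IsLinearSymplecticTypeData r R) :
    ∃ p e : ℕ, p.Prime ∧ Fintype.card F = p ^ e ∧ r ≠ p ∧
      ((Odd r ∧ Odd e ∧ r ∣ p ^ e - 1 ∧ ∀ d, 0 < d → d < e → ¬ r ∣ p ^ d - 1) ∨
        (r = 2 ∧ e = 1 ∧ 4 ∣ p - 1)) := by
  obtain ⟨p, e, hrp, ⟨hp, -, hcard, hdvd, hmin⟩, h⟩ := hR.field
  refine ⟨p, e, hp, hcard, hrp, ?_⟩
  rcases h with ⟨hr, he, hc, -⟩ | ⟨hr, he, hc, -⟩ | ⟨-, -, hc, -⟩
  · rw [hc] at hdvd hmin
    exact Or.inl ⟨hr, he, hdvd, hmin⟩
  · rw [hc, he, pow_one] at hdvd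
    exact Or.inr ⟨hr, he, hdvd⟩
  · omega

/-- The abelian configuration of a maximal subgroup. -/
theorem linear_abelian_maximal [Fintype F] (hn : 3 ≤ Fintype.card ι) {H N : Subgroup (GL ι F)} {r : ℕ}
    (hH : Geo.IsMaximalIn (Geo.specialLinear ι F) H) (hA : AbelianData H N r) :
    (∃ R : Subgroup (GL ι F), Geo.IsLinearSymplecticTypeData r R ∧
      H = Geo.subgroupNormalizer R ⊓ Geo.specialLinear ι F) ∨
    (∃ (F₀ : Subfield F) (r : ℕ) (P : GL ι F), r.Prime ∧ Fintype.card F = Nat.card F₀ ^ r ∧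
      H = Geo.subfieldSubgroup F₀ P ⊓ Geo.specialLinear ι F) ∨
    (Odd (Fintype.card F) ∧ ∃ Q : (ι → F) → F, Geo.IsNondegenerateQuadraticForm Q ∧
      H = Geo.quadSimilarityGroup Q ⊓ Geo.specialLinear ι F) ∨
    (∃ f : (ι → F) → (ι → F) → F, Geo.IsSymplecticForm f ∧
      H = Geo.similarityGroup f ⊓ Geo.specialLinear ι F) ∨
    (∃ (σ : F ≃+* F) (f : (ι → F) → (ι → F) → F), Geo.IsUnitaryForm σ f ∧
      H = Geo.similarityGroup f ⊓ Geo.specialLinear ι F) := by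
  haveI : Nonempty ι := Fintype.card_pos_iff.1 (by omega)
  rcases symplecticType_cases hn hA with ⟨R, hR, hle⟩ |
    (⟨F₀, r, P, hr, hc, hne, hle⟩ | ⟨hodd, Q, hQ, hle⟩ | ⟨f, hf, hle⟩ | ⟨σ, f, hf, hle⟩)
  · exact Or.inl ⟨R, hR, maximalIn_eq_inf hH hle (not_specialLinear_le_symplecticType hn hR)⟩
  · exact Or.inr <| Or.inl ⟨F₀, r, P, hr, hc,
      maximalIn_eq_inf hH hle (not_le_subfieldSubgroup (by omega) hne P)⟩
  · exact Or.inr <| Or.inr <| Or.inl ⟨hodd, Q, hQ, maximalIn_eq_inf hH hle (not_le_quadSimilarityGroup hn hQ)⟩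
  · exact Or.inr <| Or.inr <| Or.inr <| Or.inl ⟨f, hf, maximalIn_eq_inf hH hle
      (not_specialLinear_le_similarityGroup hn hf.bilinear.add_right
        (IsNondegenerateForm.exists_ne (by omega) hf.nondegenerate))⟩
  · exact Or.inr <| Or.inr <| Or.inr <| Or.inr ⟨σ, f, hf, maximalIn_eq_inf hH hle
      (not_specialLinear_le_similarityGroup hn (IsSesquiForm.of_unitary hf).add_right
        (IsNondegenerateForm.exists_ne (by omega) hf.nondegenerate))⟩

end CfsgLib.Aschbacher
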