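import Mathlib
import Cfsg.Agent.Aschbacher.Proper
import Cfsg.Agent.Aschbacher.InvariantForms
import Cfsg.Agent.Aschbacher.SmallField
import Cfsg.Agent.Aschbacher.Reduction

/-!
Maximal subgroups of the special linear group in dimensions that are neither prime powers nor perfect
powers.
-/

set_option autoImplicit false
set_option linter.unusedSectionVars false
set_option linter.style.haveILetI false

namespace CfsgLib.Aschbacher.LinearComposite

open Matrix Cfsg CfsgLib.Aschbacher CfsgLib.Aschbacher.Centre CfsgLib.Aschbacher.Reduction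

variable {ι : Type} [Fintype ι] [DecidableEq ι] {F : Type*} [Field F] [Fintype F]

/-- The possibilities for a maximal subgroup of the special linear group. -/
theorem linear_composite [Nonempty ι] (H : Subgroup (GL ι F)) (hn : 3 ≤ Fintype.card ι)
    (hpp : ∀ r m : ℕ, r.Prime → Fintype.card ι ≠ r ^ m)
    (hpow : ∀ d m : ℕ, 2 ≤ m → Fintype.card ι ≠ d ^ m)
    (hH : Geo.IsMaximalIn (Geo.specialLinear ι F) H) :
    (∃ W : Submodule F (ι → F), W ≠ ⊥ ∧ W ≠ ⊤ ∧
      H = Geo.subspaceStabilizer W ⊓ Geo.specialLinear ι F) ∨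
    (∃ (t m : ℕ) (D : Fin t → Submodule F (ι → F)), t * m = Fintype.card ι ∧ 2 ≤ t ∧
      (m = 1 → 5 ≤ Fintype.card F) ∧ (m = 2 → 3 ≤ Fintype.card F) ∧ Geo.IsMDecomposition m D ∧
      H = Geo.decompositionStabilizer D ⊓ Geo.specialLinear ι F) ∨
    (∃ (r : ℕ) (K : Subalgebra F (Matrix ι ι F)), r.Prime ∧ r ∣ Fintype.card ι ∧
      Geo.IsFieldSubalgebra r K ∧ H = Geo.subalgebraNormalizer K ⊓ Geo.specialLinear ι F) ∨
    (∃ (d k : ℕ) (e : ι ≃ Fin d × Fin k) (P : GL ι F), 2 ≤ d ∧ d < k ∧ (d = 2 → 3 ≤ Fintype.card F) ∧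
      H = Geo.tensorProductSubgroup d k e P ⊓ Geo.specialLinear ι F) ∨
    (∃ (F₀ : Subfield F) (r : ℕ) (P : GL ι F), r.Prime ∧ Fintype.card F = Nat.card F₀ ^ r ∧
      H = Geo.subfieldSubgroup F₀ P ⊓ Geo.specialLinear ι F) ∨
    (Odd (Fintype.card F) ∧ ∃ Q : (ι → F) → F, Geo.IsNondegenerateQuadraticForm Q ∧
      H = Geo.quadSimilarityGroup Q ⊓ Geo.specialLinear ι F) ∨
    (∃ f : (ι → F) → (ι → F) → F, Geo.IsSymplecticForm f ∧
      H = Geo.similarityGroup f ⊓ Geo.specialLinear ι F) ∨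
    (∃ (σ : F ≃+* F) (f : (ι → F) → (ι → F) → F), Geo.IsUnitaryForm σ f ∧
      H = Geo.similarityGroup f ⊓ Geo.specialLinear ι F) ∨
    Geo.InLinearResidualClass H := by
  classical
  have hq2 : 2 ≤ Fintype.card F := Fintype.one_lt_card
  have hsymp : ∀ f : (ι → F) → (ι → F) → F, Geo.IsSymplecticForm f → H ≤ Geo.similarityGroup f →
      H = Geo.similarityGroup f ⊓ Geo.specialLinear ι F := fun f hf hle =>
    eq_inf_of_le hH hle (not_le_similarityGroup hn hf.bilinear.add_left hf.bilinear.smul_left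
      hf.bilinear.add_right hf.nondegenerate)
  have hunit : ∀ (σ : F ≃+* F) (f : (ι → F) → (ι → F) → F), Geo.IsUnitaryForm σ f →
      H ≤ Geo.similarityGroup f → H = Geo.similarityGroup f ⊓ Geo.specialLinear ι F := fun σ f hf hle =>
    eq_inf_of_le hH hle (not_le_similarityGroup hn hf.add_left hf.smul_left
      (IsSesquiForm.of_unitary hf).add_right hf.nondegenerate)
  by_cases hirr : Geo.ActsIrreducibly (Geo.matrixSet H)
  swap
  · simp only [Geo.ActsIrreducibly, not_forall, not_or] at hirr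
    obtain ⟨W, hW, hW0, hW1⟩ := hirr
    refine Or.inl ⟨W, hW0, hW1, eq_inf_of_le hH (fun g hg => mem_subspaceStabilizer_of_mapsTo fun v hv => ?_)
      (not_le_subspaceStabilizer hW0 hW1)⟩
    exact hW _ ⟨g, hg, rfl⟩ ⟨v, hv, Matrix.toLin'_apply _ _⟩
  have hfield : ∀ (r : ℕ) (K : Subalgebra F (Matrix ι ι F)), r.Prime →
      Geo.IsFieldSubalgebra r K → H ≤ Geo.subalgebraNormalizer K →
      H = Geo.subalgebraNormalizer K ⊓ Geo.specialLinear ι F := fun r K hr hK hle =>
    eq_inf_of_le hH hle (not_le_subalgebraNormalizer hn hK hr.two_le)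
  rcases composite_cases (by omega) hpp hpow hirr with ⟨N, -, -, hw⟩ | ⟨P, hP⟩
  · rcases hw with ⟨t, ⟨S⟩⟩ | ⟨r, hr, hrn, -, -, hK, hle⟩ | ⟨d, k, e, P, hd, hk, -, hle⟩
    · obtain ⟨m, hm, htm⟩ := S.isMDecomposition
      have hle := S.le_stabilizer
      by_cases h1 : m = 1 ∧ Fintype.card F < 5
      · obtain ⟨rfl, hlt⟩ := h1
        rcases (by omega : Fintype.card F = 2 ∨ Fintype.card F = 3 ∨ Fintype.card F = 4) with h | h | h
        · obtain ⟨W, hW0, hW1, hW⟩ := SmallField.monomial_two h hm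
          exact Or.inl ⟨W, hW0, hW1,
            eq_inf_of_le hH (hle.trans hW) (not_le_subspaceStabilizer hW0 hW1)⟩
        · obtain ⟨Q, hQ, hQle⟩ := SmallField.monomial_three h hm
          refine Or.inr (Or.inr (Or.inr (Or.inr (Or.inr (Or.inl ⟨by rw [h]; decide, Q, hQ, ?_⟩)))))
          exact eq_inf_of_le hH (hle.trans hQle) (not_le_quadSimilarityGroup hn hQ)
        · obtain ⟨σ, f, hf, hfle⟩ := SmallField.monomial_four h hm
          exact Or.inr (Or.inr (Or.inr (Or.inr (Or.inr (Or.inr (Or.inr (Or.inl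
            ⟨σ, f, hf, hunit σ f hf (hle.trans hfle)⟩)))))))
      by_cases h2 : m = 2 ∧ Fintype.card F < 3
      · obtain ⟨rfl, hlt⟩ := h2
        obtain ⟨f, hf, hfle⟩ := SmallField.planes_two (by omega) hm
        exact Or.inr (Or.inr (Or.inr (Or.inr (Or.inr (Or.inr (Or.inl
          ⟨f, hf, hsymp f hf (hle.trans hfle)⟩))))))
      exact Or.inr (Or.inl ⟨t, m, S.space, htm, S.two_le, fun h => by omega, fun h => by omega, hm,
        eq_inf_of_le hH hle (not_le_decompositionStabilizer hm)⟩)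
    · exact Or.inr (Or.inr (Or.inl ⟨r, _, hr, hrn, hK, hfield r _ hr hK hle⟩))
    · have hcard : Fintype.card ι = d * k := by
        rw [Fintype.card_congr e, Fintype.card_prod, Fintype.card_fin, Fintype.card_fin]
      have main : ∀ (d k : ℕ) (e : ι ≃ Fin d × Fin k) (P : GL ι F), 2 ≤ d → d < k →
          H ≤ Geo.tensorProductSubgroup d k e P →
          (∃ (r : ℕ) (K : Subalgebra F (Matrix ι ι F)), r.Prime ∧ r ∣ Fintype.card ι ∧
            Geo.IsFieldSubalgebra r K ∧ H = Geo.subalgebraNormalizer K ⊓ Geo.specialLinear ι F) ∨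
          (∃ (d k : ℕ) (e : ι ≃ Fin d × Fin k) (P : GL ι F), 2 ≤ d ∧ d < k ∧
            (d = 2 → 3 ≤ Fintype.card F) ∧
            H = Geo.tensorProductSubgroup d k e P ⊓ Geo.specialLinear ι F) := by
        intro d k e P hd hdk hle
        by_cases h : d = 2 ∧ Fintype.card F < 3
        · obtain ⟨rfl, hlt⟩ := h
          haveI : NeZero k := ⟨by omega⟩
          obtain ⟨K, hK, hKle⟩ := SmallField.tensor_two (by omega) e P
          refine Or.inl ⟨2, K, Nat.prime_two, ⟨k, ?_⟩, hK, hfield 2 K Nat.prime_two hK (hle.trans hKle)⟩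
          rw [Fintype.card_congr e, Fintype.card_prod, Fintype.card_fin, Fintype.card_fin]
        · exact Or.inr ⟨d, k, e, P, hd, hdk, fun h' => by omega,
            eq_inf_of_le hH hle (not_le_tensorProductSubgroup hd (by omega) e P)⟩
      have hdk : d ≠ k := fun h => hpow d 2 le_rfl (by rw [hcard, h]; ring)
      rcases lt_or_gt_of_ne hdk with h | h
      · rcases main d k e P hd h hle with h' | h'
        · exact Or.inr (Or.inr (Or.inl h'))
        · exact Or.inr (Or.inr (Or.inr (Or.inl h')))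
      · rcases main k d _ P hk h (hle.trans (tensorProductSubgroup_comm e P)) with h' | h'
        · exact Or.inr (Or.inr (Or.inl h'))
        · exact Or.inr (Or.inr (Or.inr (Or.inl h')))
  · by_cases hreal : ∃ F₀ : Subfield F, F₀ ≠ ⊤ ∧ Geo.RealisableOver F₀ (Geo.matrixSet P)
    · obtain ⟨F₀, h0, B, hB⟩ := hreal
      obtain ⟨F₁, r, h01, hr, hcard, h1⟩ := exists_subfield_prime_index h0
      refine Or.inr (Or.inr (Or.inr (Or.inr (Or.inl ⟨F₁, r, B⁻¹, hr, hcard, ?_⟩))))
      exact eq_inf_of_le hH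
        (le_subfieldSubgroup_of_realisable hP.absIrred hP.normal fun s hs i j => h01 (hB s hs i j))
        (not_le_subfieldSubgroup (by omega) h1 _)
    by_cases hs : ∃ f : (ι → F) → (ι → F) → F, Geo.IsSymplecticForm f ∧ Geo.FixesForm (Geo.matrixSet P) f
    · obtain ⟨f, hf, hfix⟩ := hs
      exact Or.inr (Or.inr (Or.inr (Or.inr (Or.inr (Or.inr (Or.inl ⟨f, hf, hsymp f hf
        (le_similarityGroup_of_normalizes hP.absIrred hP.normal (.of_bilinear hf.bilinear)
          hf.nondegenerate hfix)⟩))))))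
    by_cases hu : ∃ (σ : F ≃+* F) (f : (ι → F) → (ι → F) → F),
        Geo.IsUnitaryForm σ f ∧ Geo.FixesForm (Geo.matrixSet P) f
    · obtain ⟨σ, f, hf, hfix⟩ := hu
      exact Or.inr (Or.inr (Or.inr (Or.inr (Or.inr (Or.inr (Or.inr (Or.inl ⟨σ, f, hf, hunit σ f hf
        (le_similarityGroup_of_normalizes hP.absIrred hP.normal (.of_unitary hf)
          hf.nondegenerate hfix)⟩)))))))
    by_cases hQ : ∃ Q : (ι → F) → F, Geo.IsNondegenerateQuadraticForm Q ∧
        Geo.FixesQuadForm (Geo.matrixSet P) Q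
    · obtain ⟨Q, hQ, hfix⟩ := hQ
      by_cases h2 : (2 : F) = 0
      · refine absurd ⟨QuadraticMap.polar Q, ⟨hQ.polar_bilinear, fun v w => ?_, fun v => ?_,
          hQ.nondegenerate⟩, polar_fixes hfix⟩ hs
        · rw [QuadraticMap.polar_comm]
          linear_combination (QuadraticMap.polar Q w v) * h2
        · rw [polar_self hQ, h2, zero_mul]
      · refine Or.inr (Or.inr (Or.inr (Or.inr (Or.inr (Or.inl ⟨odd_card_of_two_ne_zero h2, Q, hQ, ?_⟩)))))
        exact eq_inf_of_le hH (le_quadSimilarityGroup_of_normalizes h2 hP.absIrred hP.normal hQ hfix)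
          (not_le_quadSimilarityGroup hn hQ)
    exact Or.inr (Or.inr (Or.inr (Or.inr (Or.inr (Or.inr (Or.inr (Or.inr
      ⟨P, hP.isResidualCore (fun F₀ h0 h => hreal ⟨F₀, h0, h⟩), hQ, hs, hu⟩)))))))

end CfsgLib.Aschbacher.LinearComposite
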