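import Mathlib
import Cfsg.Agent.OrthGeo.Eichler
import Cfsg.Agent.Aschbacher.FormsField
import Cfsg.Agent.Aschbacher.CentreCases

/-!
Quadratic forms and the configurations preserved by an irreducible group of isometries.
-/

set_option autoImplicit false
set_option linter.unusedSectionVars false

namespace CfsgLib.Aschbacher.OrthEven

open Matrix Cfsg Module CfsgLib.OrthGeo CfsgLib.Aschbacher.Forms CfsgLib.Aschbacher.Centre

variable {ι : Type} [Fintype ι] [DecidableEq ι] {F : Type*} [Field F] [Fintype F]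
variable {H : Subgroup (GL ι F)}

/-- An additive map into a small group whose kernel is an invariant subspace vanishes. -/
theorem eq_zero_of_invariant_kernel {M : Type*} [AddCommGroup M] [Fintype M]
    (hirr : Geo.ActsIrreducibly (Geo.matrixSet H)) (D : (ι → F) →+ M)
    (hsmul : ∀ (c : F) v, D v = 0 → D (c • v) = 0)
    (hinv : ∀ g ∈ H, ∀ v, D v = 0 → D ((g : Matrix ι ι F) *ᵥ v) = 0)
    (hcard : Fintype.card M < Fintype.card F ^ Fintype.card ι) : ∀ v, D v = 0 := by
  let W : Submodule F (ι → F) :=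
    { carrier := {v | D v = 0}
      add_mem' := fun {u v} hu hv => by show D (u + v) = 0; rw [map_add, hu, hv, add_zero]
      zero_mem' := D.map_zero
      smul_mem' := fun c v hv => hsmul c v hv }
  have hW : W = ⊤ := eq_top_of_invariant hirr (fun hbot => by
    have hinj : Function.Injective D := (injective_iff_map_eq_zero D).2 fun v hv =>
      (Submodule.mem_bot F).1 (hbot ▸ (show v ∈ W from hv))
    have := Fintype.card_le_of_injective D hinj
    rw [Fintype.card_fun] at this
    omega) fun g hg v hv => hinv g hg v hv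
  exact fun v => (hW ▸ Submodule.mem_top : v ∈ W)

variable {Q : (ι → F) → F}

/-- Quadratic forms with the same polar, both preserved by an irreducible group, coincide. -/
theorem quad_eq_of_irred (hn : 2 ≤ Fintype.card ι) (hirr : Geo.ActsIrreducibly (Geo.matrixSet H))
    (hQ : Geo.IsNondegenerateQuadraticForm Q) {Q' : (ι → F) → F}
    (hQ' : Geo.IsNondegenerateQuadraticForm Q')
    (hpol : ∀ u v, QuadraticMap.polar Q' u v = QuadraticMap.polar Q u v)
    (hinv : ∀ g ∈ H, ∀ v, Q' ((g : Matrix ι ι F) *ᵥ v) - Q ((g : Matrix ι ι F) *ᵥ v) = 0 ↔ Q' v - Q v = 0) :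
    ∀ v, Q' v = Q v := by
  let D : (ι → F) →+ F := AddMonoidHom.mk' (fun v => Q' v - Q v) fun u v => by
    have h := hpol u v
    simp only [QuadraticMap.polar] at h
    linear_combination h
  intro v
  refine sub_eq_zero.1 (eq_zero_of_invariant_kernel hirr D (fun c v hv => ?_)
    (fun g hg v hv => (hinv g hg v).2 hv) (lt_self_pow₀ Fintype.one_lt_card hn) v)
  show Q' (c • v) - Q (c • v) = 0
  have hv' : Q' v - Q v = 0 := hv
  rw [hQ'.smul, hQ.smul]
  linear_combination c ^ 2 * hv'

/-- A closed quadratic extension that is not self-adjoint acts by similarities. -/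
theorem field_similarities [Nonempty ι] (hn : 3 ≤ Fintype.card ι)
    (hQ : Geo.IsNondegenerateQuadraticForm Q)
    (hirr : Geo.ActsIrreducibly (Geo.matrixSet H)) (hiso : H ≤ Cfsg.isometryGroup F Q)
    {K : Subalgebra F (Matrix ι ι F)} (hK : Geo.IsFieldSubalgebra 2 K)
    (hKc : Closed (QuadraticMap.polar Q) K) (hnsa : ¬ Geo.IsSelfAdjointFor (QuadraticMap.polar Q) K)
    (hN : H ≤ Geo.subalgebraNormalizer K) :
    ∀ k ∈ K, ∃ c : F, ∀ v, Q (k *ᵥ v) = c * Q v := by
  have hf : RForm (RingHom.id F) 1 (QuadraticMap.polar Q) := rform_of_symmetric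
    ⟨hQ.polar_bilinear, fun u v => QuadraticMap.polar_comm Q u v, hQ.nondegenerate⟩
  obtain ⟨τ, hτ, hττ, hτc⟩ := exists_adjointHom hf hK.comm hKc
  letI := (isField_of_isFieldSubalgebra hK).toField
  obtain ⟨j, hj⟩ : ∃ j : K, τ j ≠ j := by
    by_contra! h
    refine hnsa fun x hx u v => ?_
    have h1 := hτ ⟨x, hx⟩ u v
    rwa [h ⟨x, hx⟩] at h1
  have hspan : ∀ x : K, ∃ a b : F, x = algebraMap F K a + b • j := by
    have hli : LinearIndependent F ![(1 : K), j] := by
      rw [LinearIndependent.pair_iff' one_ne_zero]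
      intro a ha
      apply hj
      rw [← ha, ← Algebra.algebraMap_eq_smul_one, hτc]
      simp
    intro x
    have hb := (basisOfLinearIndependentOfCardEqFinrank hli (by rw [hK.finrank_eq]; simp)).sum_repr x
    rw [coe_basisOfLinearIndependentOfCardEqFinrank, Fin.sum_univ_two] at hb
    exact ⟨_, _, by rw [Algebra.algebraMap_eq_smul_one]; exact hb.symm⟩
  have hτsmul : ∀ (b : F) (x : K), τ (b • x) = b • τ x := fun b x => by
    rw [Algebra.smul_def, map_mul, hτc, Algebra.smul_def]; rfl
  -- what the adjoint fixes is scalar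
  have hfix : ∀ x : K, τ x = x → ∃ c : F, x = algebraMap F K c := by
    intro x hx
    obtain ⟨a, b, rfl⟩ := hspan x
    refine ⟨a, ?_⟩
    rw [map_add, hτc, hτsmul] at hx
    have hb : b • τ j = b • j := by simpa using hx
    rcases eq_or_ne b 0 with rfl | hb0
    · simp
    · exact absurd ((smul_right_inj hb0).1 hb) hj
  obtain ⟨t, ht⟩ := hfix (j + τ j) (by rw [map_add, hττ, add_comm])
  obtain ⟨m, hm⟩ := hfix (τ j * j) (by rw [map_mul, hττ, mul_comm])
  have hval : ∀ (c : F) (v : ι → F), (algebraMap F K c : Matrix ι ι F) *ᵥ v = c • v := fun c v => by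
    rw [show ((algebraMap F K c : K) : Matrix ι ι F) = algebraMap F (Matrix ι ι F) c from rfl,
      Algebra.algebraMap_eq_smul_one, Matrix.smul_mulVec, Matrix.one_mulVec]
  set b := bform hQ
  have hadj : ∀ (x : K) u v, b ((x : Matrix ι ι F) *ᵥ u) v = b u ((τ x : Matrix ι ι F) *ᵥ v) := hτ
  have hjt : ∀ v, (j : Matrix ι ι F) *ᵥ v + (τ j : Matrix ι ι F) *ᵥ v = t • v := fun v => by
    rw [← Matrix.add_mulVec, ← hval t v, ← ht]; rfl
  have hjm : ∀ v, (τ j : Matrix ι ι F) *ᵥ ((j : Matrix ι ι F) *ᵥ v) = m • v := fun v => by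
    rw [Matrix.mulVec_mulVec, ← hval m v, ← hm]; rfl
  have hQsmul := hQ.smul
  have hQadd := q_add hQ
  -- the two obstructions
  let D₁ : (ι → F) → F := fun v => Q ((j : Matrix ι ι F) *ᵥ v) - m * Q v
  let D₂ : (ι → F) → F := fun v => b v ((j : Matrix ι ι F) *ᵥ v) - t * Q v
  let D : (ι → F) →+ F × F := AddMonoidHom.mk' (fun v => (D₁ v, D₂ v)) fun u v => by
    refine Prod.ext ?_ ?_
    · show D₁ (u + v) = D₁ u + D₁ v
      have h : b ((j : Matrix ι ι F) *ᵥ u) ((j : Matrix ι ι F) *ᵥ v) = m * b u v := by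
        rw [hadj, hjm, map_smul, smul_eq_mul]
      simp only [D₁, Matrix.mulVec_add, hQadd]
      linear_combination h
    · show D₂ (u + v) = D₂ u + D₂ v
      have h : b u ((j : Matrix ι ι F) *ᵥ v) + b v ((j : Matrix ι ι F) *ᵥ u) = t * b u v := by
        rw [b_symm hQ v, hadj, ← map_add, hjt, map_smul, smul_eq_mul]
      simp only [D₂, Matrix.mulVec_add, hQadd, map_add, LinearMap.add_apply]
      linear_combination h
  have hexp : ∀ (x y : F) (v : ι → F),
      Q ((x • v) + y • ((j : Matrix ι ι F) *ᵥ v)) =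
        (x ^ 2 + x * y * t + y ^ 2 * m) * Q v + y ^ 2 * D₁ v + x * y * D₂ v := fun x y v => by
    simp only [D₁, D₂, hQadd, hQsmul, map_smul, LinearMap.smul_apply, smul_eq_mul]
    ring
  have hD : ∀ v, D v = 0 := by
    refine eq_zero_of_invariant_kernel hirr D (fun c v hv => ?_) (fun g hg v hv => ?_) ?_
    · have h1 : D₁ v = 0 := congrArg Prod.fst hv
      have h2 : D₂ v = 0 := congrArg Prod.snd hv
      refine Prod.ext ?_ ?_
      · show D₁ (c • v) = 0
        simp only [D₁, Matrix.mulVec_smul, hQsmul] at h1 ⊢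
        linear_combination c ^ 2 * h1
      · show D₂ (c • v) = 0
        simp only [D₂, Matrix.mulVec_smul, hQsmul, map_smul, LinearMap.smul_apply, smul_eq_mul] at h2 ⊢
        linear_combination c ^ 2 * h2
    · have h1 : D₁ v = 0 := congrArg Prod.fst hv
      have h2 : D₂ v = 0 := congrArg Prod.snd hv
      have hgI := hiso hg
      have hgQ := mem_isometryGroup.1 hgI
      have hmem : ((g⁻¹ : GL ι F) : Matrix ι ι F) * (j : Matrix ι ι F) * (g : Matrix ι ι F) ∈ K := by
        have := (hN (H.inv_mem hg) (j : Matrix ι ι F)).1 j.2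
        rwa [inv_inv] at this
      set j' : K := ⟨_, hmem⟩
      obtain ⟨x, y, hxy⟩ := hspan j'
      have hj'v : ∀ w, (j' : Matrix ι ι F) *ᵥ w = x • w + y • ((j : Matrix ι ι F) *ᵥ w) := fun w => by
        rw [hxy, ← hval x w, ← Matrix.smul_mulVec, ← Matrix.add_mulVec]; rfl
      have hgj : ∀ w, (g : Matrix ι ι F) *ᵥ ((j' : Matrix ι ι F) *ᵥ w) =
          (j : Matrix ι ι F) *ᵥ ((g : Matrix ι ι F) *ᵥ w) := fun w => by
        show (g : Matrix ι ι F) *ᵥ ((((g⁻¹ : GL ι F) : Matrix ι ι F) * _ * _) *ᵥ w) = _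
        rw [← Matrix.mulVec_mulVec, ← Matrix.mulVec_mulVec, mulVec_inv_cancel]
      -- trace and norm are invariant under conjugation
      have hτj' : IsAdj (QuadraticMap.polar Q) (j' : Matrix ι ι F)
          (((g⁻¹ : GL ι F) : Matrix ι ι F) * (τ j : Matrix ι ι F) * (g : Matrix ι ι F)) := by
        intro u w
        show b _ w = b u _
        rw [← isometry_b hQ hgI, hgj, hadj, ← isometry_b hQ hgI u, ← Matrix.mulVec_mulVec,
          ← Matrix.mulVec_mulVec, mulVec_inv_cancel]
      have hτeq : ∀ w, (g : Matrix ι ι F) *ᵥ ((τ j' : Matrix ι ι F) *ᵥ w) =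
          (τ j : Matrix ι ι F) *ᵥ ((g : Matrix ι ι F) *ᵥ w) := fun w => by
        rw [IsAdj.unique hf (hτ j') hτj', ← Matrix.mulVec_mulVec, ← Matrix.mulVec_mulVec,
          mulVec_inv_cancel]
      have htr : j' + τ j' = algebraMap F K t := Subtype.ext (Matrix.ext_iff_mulVec.2 fun w =>
        CfsgLib.Aschbacher.mulVec_inj g (by
          show (g : Matrix ι ι F) *ᵥ (((j' : Matrix ι ι F) + (τ j' : Matrix ι ι F)) *ᵥ w) =
            (g : Matrix ι ι F) *ᵥ ((algebraMap F K t : Matrix ι ι F) *ᵥ w)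
          rw [Matrix.add_mulVec, Matrix.mulVec_add, hgj, hτeq, hjt, hval, Matrix.mulVec_smul]))
      have hnm : τ j' * j' = algebraMap F K m := Subtype.ext (Matrix.ext_iff_mulVec.2 fun w =>
        CfsgLib.Aschbacher.mulVec_inj g (by
          show (g : Matrix ι ι F) *ᵥ (((τ j' : Matrix ι ι F) * (j' : Matrix ι ι F)) *ᵥ w) =
            (g : Matrix ι ι F) *ᵥ ((algebraMap F K m : Matrix ι ι F) *ᵥ w)
          rw [← Matrix.mulVec_mulVec, hτeq, hgj, hjm, hval, Matrix.mulVec_smul]))
      have hinj := (algebraMap F K).injective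
      have hjt' : j + τ j = algebraMap F K t := ht
      have hx2 : 2 * x + y * t = t := hinj (by
        have htr' : algebraMap F K x + algebraMap F K y * j + (algebraMap F K x + algebraMap F K y * τ j) =
            algebraMap F K t := by
          rw [← htr, hxy, map_add, hτc, hτsmul, Algebra.smul_def, Algebra.smul_def]; rfl
        rw [map_add, map_mul, map_mul, map_ofNat]
        linear_combination htr' - algebraMap F K y * hjt')
      have hx3 : x ^ 2 + x * y * t + y ^ 2 * m = m := hinj (by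
        have hnm' : (algebraMap F K x + algebraMap F K y * τ j) * (algebraMap F K x + algebraMap F K y * j) =
            algebraMap F K m := by
          rw [← hnm, hxy, map_add, hτc, hτsmul, Algebra.smul_def, Algebra.smul_def]; rfl
        simp only [map_add, map_mul, map_pow]
        linear_combination hnm' - algebraMap F K x * algebraMap F K y * hjt' - algebraMap F K y ^ 2 * hm)
      refine Prod.ext ?_ ?_
      · show D₁ ((g : Matrix ι ι F) *ᵥ v) = 0
        have e : D₁ ((g : Matrix ι ι F) *ᵥ v) = Q ((j' : Matrix ι ι F) *ᵥ v) - m * Q v := by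
          simp only [D₁]
          rw [← hgj, hgQ, hgQ]
        rw [e, hj'v, hexp, h1, h2, hx3]
        ring
      · show D₂ ((g : Matrix ι ι F) *ᵥ v) = 0
        have e : D₂ ((g : Matrix ι ι F) *ᵥ v) = b v ((j' : Matrix ι ι F) *ᵥ v) - t * Q v := by
          simp only [D₂]
          rw [← hgj, isometry_b hQ hgI, hgQ]
        rw [e, hj'v, map_add, map_smul, map_smul, smul_eq_mul, smul_eq_mul, b_self hQ]
        have h2' : b v ((j : Matrix ι ι F) *ᵥ v) - t * Q v = 0 := h2
        linear_combination y * h2' + Q v * hx2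
    · rw [Fintype.card_prod, ← sq]
      exact Nat.pow_lt_pow_right Fintype.one_lt_card hn
  intro k hk
  obtain ⟨x, y, hxy⟩ := hspan ⟨k, hk⟩
  refine ⟨x ^ 2 + x * y * t + y ^ 2 * m, fun v => ?_⟩
  have hkv : k *ᵥ v = x • v + y • ((j : Matrix ι ι F) *ᵥ v) := by
    rw [show k = ((⟨k, hk⟩ : K) : Matrix ι ι F) from rfl, hxy, ← hval x v, ← Matrix.smul_mulVec,
      ← Matrix.add_mulVec]; rfl
  have h1 : D₁ v = 0 := congrArg Prod.fst (hD v)
  have h2 : D₂ v = 0 := congrArg Prod.snd (hD v)
  rw [hkv, hexp, h1, h2]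
  ring

end CfsgLib.Aschbacher.OrthEven
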