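import Mathlib
import Cfsg.Agent.AschPrime.OrthMembers
import Cfsg.Agent.OrthGeo.SingularSpan
import Cfsg.Agent.OrthGeo.Generation
import Cfsg.Agent.Aschbacher.Proper
import Cfsg.Agent.Aschbacher.FormsTensor
import Cfsg.Agent.Classical.Orth.Omega

/-!
No geometric member contains Omega: proofs valid in every characteristic, in dimension at least seven.
-/

set_option autoImplicit false
set_option linter.unusedSectionVars false

namespace CfsgLib.Aschbacher.OrthEven

open Matrix Cfsg Module CfsgLib.OrthGeo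

open scoped Kronecker

variable {ι : Type} [Fintype ι] [DecidableEq ι] {F : Type*} [Field F] [Finite F] {Q : (ι → F) → F}
variable (hQ : Geo.IsNondegenerateQuadraticForm Q)
include hQ

/-- A set stable under Omega contains with a non-zero vector all vectors of the same value. -/
theorem mem_of_invariant (hn : 5 ≤ Fintype.card ι) {S : Set (ι → F)}
    (hS : ∀ g ∈ Geo.omegaGL Q, ∀ x ∈ S, (g : Matrix ι ι F) *ᵥ x ∈ S) {x y : ι → F} (hx : x ∈ S)
    (hx0 : x ≠ 0) (hy0 : y ≠ 0) (h : Q y = Q x) : y ∈ S := by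
  obtain ⟨g, hg, rfl⟩ := exists_map_value hQ hn hx0 hy0 h.symm
  exact hS g (eichlerGroup_le_omega hQ hn hg) x hx

/-- Singular vectors perpendicular to a small subspace avoid any subspace of small dimension. -/
theorem exists_singular_avoid_sub (P T : Submodule F (ι → F)) (h : 2 * finrank F P + 3 ≤ Fintype.card ι)
    (hT : finrank F T + finrank F P < Fintype.card ι) :
    ∃ u, Q u = 0 ∧ (∀ p ∈ P, bform hQ p u = 0) ∧ u ∉ T := by
  by_contra hcon
  push Not at hcon
  have hle : perp hQ P ≤ T := fun w hw => perp_induction hQ P h (· ∈ T)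
    (fun _ _ _ _ hu hv => T.add_mem hu hv) (fun s hs hs0 => hcon s hs0 hs) hw
  have := Submodule.finrank_mono hle
  have := finrank_perp_add hQ P
  omega

omit [Finite F] hQ in
theorem finrank_span_singleton_le' (x : ι → F) : finrank F (Submodule.span F ({x} : Set (ι → F))) ≤ 1 :=
  (finrank_span_le_card _).trans (by simp)

/-- What a proper invariant subspace provides: a totally singular one, a non-degenerate one, or, in
characteristic two, a non-singular point. -/
theorem subspace_trichotomy {G : Subgroup (GL ι F)} (hG : G ≤ Cfsg.isometryGroup F Q)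
    {W : Submodule F (ι → F)} (h1 : W ≠ ⊤) (hW : G ≤ Geo.subspaceStabilizer W) :
    (∃ R : Submodule F (ι → F), R ≠ ⊥ ∧ R ≠ ⊤ ∧ G ≤ Geo.subspaceStabilizer R ∧
      Geo.IsTotallySingularQuad Q R) ∨
    W ⊓ perp hQ W = ⊥ ∨
    ((2 : F) = 0 ∧ ∃ v, Q v ≠ 0 ∧ G ≤ Geo.subspaceStabilizer (Submodule.span F {v})) := by
  by_cases hR : W ⊓ perp hQ W = ⊥
  · exact Or.inr (Or.inl hR)
  set R := W ⊓ perp hQ W with hRdef
  have hRtop : R ≠ ⊤ := fun h => h1 (top_le_iff.1 (h ▸ inf_le_left))
  have hRinv : G ≤ Geo.subspaceStabilizer R := fun g hg v =>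
    and_congr (hW hg v) (AschPrime.stabilizer_perp hQ (hG hg) (hW hg) v)
  have hb : ∀ x ∈ R, ∀ y ∈ R, bform hQ x y = 0 := fun x hx y hy => (mem_perp hQ).1 hy.2 x hx.1
  by_cases h2 : (2 : F) = 0
  swap
  · refine Or.inl ⟨R, hR, hRtop, hRinv, fun x hx => ?_⟩
    have h := hb x hx x hx
    rw [b_self hQ] at h
    exact (mul_eq_zero.1 h).resolve_left h2
  let R₀ : Submodule F (ι → F) :=
    { carrier := {x | x ∈ R ∧ Q x = 0}
      add_mem' := fun {x y} hx hy => ⟨R.add_mem hx.1 hy.1, by
        rw [q_add hQ, hx.2, hy.2, hb x hx.1 y hy.1, add_zero, add_zero]⟩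
      zero_mem' := ⟨R.zero_mem, q_zero hQ⟩
      smul_mem' := fun c x hx => ⟨R.smul_mem c hx.1, by rw [q_smul hQ, hx.2, mul_zero]⟩ }
  by_cases hR₀ : R₀ = ⊥
  swap
  · refine Or.inl ⟨R₀, hR₀, fun h => hRtop (eq_top_iff.2 fun x _ => (h ▸ Submodule.mem_top : x ∈ R₀).1),
      fun g hg v => and_congr (hRinv hg v) ?_, fun x hx => hx.2⟩
    show Q v = 0 ↔ Q ((g : Matrix ι ι F) *ᵥ v) = 0
    rw [mem_isometryGroup.1 (hG hg)]
  obtain ⟨v, hv, hv0⟩ := Submodule.exists_mem_ne_zero_of_ne_bot hR
  have hanis : ∀ x ∈ R, Q x = 0 → x = 0 := fun x hx hx0 =>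
    (Submodule.eq_bot_iff _).1 hR₀ x ⟨hx, hx0⟩
  have hQv : Q v ≠ 0 := fun h => hv0 (hanis v hv h)
  refine Or.inr (Or.inr ⟨h2, v, hQv, ?_⟩)
  suffices Submodule.span F {v} = R by rw [this]; exact hRinv
  refine le_antisymm ((Submodule.span_singleton_le_iff_mem _ _).2 hv) fun x hx => ?_
  obtain ⟨c, hc⟩ := Classical.Orth.isSquare_of_two_eq_zero h2 (Q x / Q v)
  have hx' : x + c • v = 0 := hanis _ (R.add_mem hx (R.smul_mem c hv)) (by
    rw [q_add hQ, q_smul hQ, map_smul, hb x hx v hv, smul_zero, add_zero, sq, ← hc,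
      div_mul_cancel₀ _ hQv, ← two_mul, h2, zero_mul])
  rw [eq_neg_of_add_eq_zero_left hx']
  exact Submodule.neg_mem _ (Submodule.mem_span_singleton.2 ⟨c, rfl⟩)

variable (hn : 7 ≤ Fintype.card ι)
include hn

/-- Omega fixes no non-singular point. -/
theorem not_le_point {v : ι → F} (hv : Q v ≠ 0) :
    ¬ Geo.omegaGL Q ≤ Geo.subspaceStabilizer (Submodule.span F {v}) := by
  intro hle
  have hs : ∀ x : ι → F, finrank F (Submodule.span F ({x} : Set (ι → F))) ≤ 1 :=
    finrank_span_singleton_le'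
  obtain ⟨u, hu, huv, hu0⟩ := exists_singular_avoid_sub hQ (Submodule.span F {v}) ⊥
    (by have := hs v; omega) (by have := hs v; rw [finrank_bot]; omega)
  have hvu : v ∉ Submodule.span F ({u} : Set (ι → F)) := by
    intro h
    obtain ⟨c, rfl⟩ := Submodule.mem_span_singleton.1 h
    exact hv (by rw [q_smul hQ, hu, mul_zero])
  obtain ⟨w, hw, -, hvw⟩ := exists_singular_b_one hQ (Submodule.span F {u}) hvu
    (by have := hs u; omega)
  rw [mem_perp_span_singleton hQ] at hw
  have hm := (hle (eichler_mem_omega hQ (by omega) hu hw) v).1 (Submodule.mem_span_singleton_self v)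
  change (eichler hQ hu hw : Matrix ι ι F) *ᵥ v ∈ _ at hm
  rw [eichler_mulVec hQ, b_symm hQ w v, hvw, one_smul, b_symm hQ u v,
    huv v (Submodule.mem_span_singleton_self v), zero_smul, mul_zero, zero_smul, sub_zero, sub_zero,
    SetLike.mem_coe, Submodule.add_mem_iff_right _ (Submodule.mem_span_singleton_self v)] at hm
  obtain ⟨c, rfl⟩ := Submodule.mem_span_singleton.1 hm
  rw [q_smul hQ, mul_eq_zero, pow_eq_zero_iff two_ne_zero] at hu
  rcases hu with h | h
  · exact hu0 (by rw [h, zero_smul]; exact Submodule.zero_mem _)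
  · exact hv h

/-- Omega acts irreducibly. -/
theorem not_le_subspace {W : Submodule F (ι → F)} (h0 : W ≠ ⊥) (h1 : W ≠ ⊤) :
    ¬ Geo.omegaGL Q ≤ Geo.subspaceStabilizer W := by
  intro hle
  rcases subspace_trichotomy hQ omegaGL_le h1 hle with ⟨R, hR0, hR1, hR, hts⟩ | hnd | ⟨-, v, hv, hR⟩
  · exact AschPrime.omega_not_le_subspaceStabilizer hQ (by omega) hR0 hR1 (Or.inl hts) hR
  · exact AschPrime.omega_not_le_subspaceStabilizer hQ (by omega) h0 h1
      (Or.inr (AschPrime.orth_nondeg_of_inf_eq_bot hQ hnd)) hle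
  · exact not_le_point hQ hn hv hR

/-- Omega preserves no decomposition into subspaces of equal dimension. -/
theorem not_le_decompositionStabilizer {t m : ℕ} {D : Fin t → Submodule F (ι → F)}
    (hD : Geo.IsMDecomposition m D) : ¬ Geo.omegaGL Q ≤ Geo.decompositionStabilizer D := by
  intro hle
  let S : Set (ι → F) := {x | ∃ i, x ∈ D i}
  have hS : ∀ g ∈ Geo.omegaGL Q, ∀ x ∈ S, (g : Matrix ι ι F) *ᵥ x ∈ S := by
    rintro g hg x ⟨i, hi⟩
    obtain ⟨π, hπ⟩ := hle hg
    refine ⟨π i, ?_⟩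
    rw [← hπ i]
    exact ⟨x, hi, Matrix.toLin'_apply _ _⟩
  let i0 : Fin t := ⟨0, by have := hD.two_le; omega⟩
  let i1 : Fin t := ⟨1, by have := hD.two_le; omega⟩
  have hdim : m + m ≤ Fintype.card ι := by
    have h := Submodule.finrank_add_finrank_le_of_disjoint
      (hD.indep.pairwiseDisjoint (show i0 ≠ i1 by simp [i0, i1, Fin.ext_iff]))
    rw [hD.finrank_eq, hD.finrank_eq, finrank_fintype_fun_eq_card] at h
    exact h
  obtain ⟨x, hx, hx0⟩ := (D i0).exists_mem_ne_zero_of_ne_bot fun h => by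
    have := hD.finrank_eq i0
    rw [h, finrank_bot] at this
    exact absurd this.symm hD.pos.ne'
  have hs1 := finrank_span_singleton_le' (F := F) x
  obtain ⟨u, hu, hux, huT⟩ := exists_singular_avoid_sub hQ (Submodule.span F {x}) (D i0)
    (by omega) (by rw [hD.finrank_eq]; omega)
  have hs2 : finrank F ↥(Submodule.span F {x} ⊔ Submodule.span F {u}) ≤ 2 := by
    have h := Submodule.finrank_add_le_finrank_add_finrank (Submodule.span F {x}) (Submodule.span F {u})
    have := finrank_span_singleton_le' (F := F) u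
    omega
  obtain ⟨u', hu', hu'x, hu'T⟩ := exists_singular_avoid_sub hQ
    (Submodule.span F {x} ⊔ Submodule.span F {u}) (D i0 ⊔ Submodule.span F {u}) (by omega) (by
      have h := Submodule.finrank_add_le_finrank_add_finrank (D i0) (Submodule.span F {u})
      have := finrank_span_singleton_le' (F := F) u
      rw [hD.finrank_eq] at h
      omega)
  have hxu : bform hQ x u = 0 := hux x (Submodule.mem_span_singleton_self x)
  have hxu' : bform hQ x u' = 0 :=
    hu'x x (Submodule.mem_sup_left (Submodule.mem_span_singleton_self x))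
  have huu' : bform hQ u u' = 0 :=
    hu'x u (Submodule.mem_sup_right (Submodule.mem_span_singleton_self u))
  have key : ∀ z, Q z = 0 → bform hQ x z = 0 → z ∉ D i0 → ∃ j, j ≠ i0 ∧ x + z ∈ D j := by
    intro z hz hxz hzT
    have hne : x + z ≠ 0 := fun h => hzT (by
      rw [eq_neg_of_add_eq_zero_right h]; exact (D i0).neg_mem hx)
    obtain ⟨j, hj⟩ : x + z ∈ S := mem_of_invariant hQ (by omega) hS ⟨i0, hx⟩ hx0 hne
      (by rw [q_add hQ, hz, hxz, add_zero, add_zero])
    exact ⟨j, fun h => hzT (((D i0).add_mem_iff_right hx).1 (h ▸ hj)), hj⟩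
  have hin : ∀ {j z}, j ≠ i0 → z ∈ D j → z ∈ ⨆ (k : Fin t) (_ : k ≠ i0), D k :=
    fun hj hz => le_iSup₂ (f := fun k (_ : k ≠ i0) => D k) _ hj hz
  obtain ⟨j, hj, h1⟩ := key u hu hxu huT
  obtain ⟨k, hk, h2⟩ := key u' hu' hxu' fun h => hu'T (Submodule.mem_sup_left h)
  obtain ⟨l, hl, h3⟩ := key (u + u') (by rw [q_add hQ, hu, hu', huu', add_zero, add_zero])
    (by rw [map_add, hxu, hxu', add_zero])
    fun h => hu'T (by
      rw [show u' = (u + u') + -u by abel]
      exact Submodule.add_mem_sup h (Submodule.neg_mem _ (Submodule.mem_span_singleton_self u)))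
  refine hx0 (Submodule.disjoint_def.1 (hD.indep i0) x hx ?_)
  rw [show x = (x + u) + (x + u') - (x + (u + u')) by abel]
  exact Submodule.sub_mem _ (Submodule.add_mem _ (hin hj h1) (hin hk h2)) (hin hl h3)

/-- Omega lies in no subfield group of a proper subfield. -/
theorem not_le_subfieldSubgroup {F₀ : Subfield F} (h0 : F₀ ≠ ⊤) (P : GL ι F) :
    ¬ Geo.omegaGL Q ≤ Geo.subfieldSubgroup F₀ P := by
  intro hle
  classical
  let S : Set (ι → F) := {x | ∃ (d : F) (u : ι → F), (∀ i, u i ∈ F₀) ∧ x = d • ((P : Matrix ι ι F) *ᵥ u)}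
  have hS : ∀ g ∈ Geo.omegaGL Q, ∀ x ∈ S, (g : Matrix ι ι F) *ᵥ x ∈ S := by
    rintro g hg _ ⟨d, u, hu, rfl⟩
    obtain ⟨s, k, hs⟩ := CfsgLib.Aschbacher.mem_subfieldSubgroup_iff.1 (hle hg)
    refine ⟨d * (k : F), (fun i => ∑ j, ((s : Matrix ι ι F₀) i j : F) * u j), fun i => ?_, ?_⟩
    · exact sum_mem fun j _ => F₀.mul_mem ((s : Matrix ι ι F₀) i j).2 (hu j)
    · have hg : (g : Matrix ι ι F) * (P : Matrix ι ι F) =
          (P : Matrix ι ι F) * ((k : F) • ((s : Matrix ι ι F₀).map (F₀.subtype : F₀ →+* F))) := by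
        have h' := congrArg (fun g : GL ι F => (P : Matrix ι ι F) * (g : Matrix ι ι F)) hs
        simp only [Units.val_mul, ← mul_assoc, Units.mul_inv, one_mul] at h'
        refine h'.trans ?_
        rw [mul_assoc]
        congr 1
        show ((s : Matrix ι ι F₀).map F₀.subtype) * Matrix.scalar ι (k : F) = _
        ext i j
        simp [Matrix.mul_diagonal, mul_comm]
      rw [Matrix.mulVec_smul, Matrix.mulVec_mulVec, hg, ← Matrix.mulVec_mulVec, Matrix.smul_mulVec,
        Matrix.mulVec_smul, smul_smul]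
      rfl
  obtain ⟨i⟩ : Nonempty ι := Fintype.card_pos_iff.1 (by omega)
  set e : ι → F := Pi.single i 1 with he
  have he0 : e ≠ 0 := fun h => by simpa [he] using congrFun h i
  set x := (P : Matrix ι ι F) *ᵥ e with hxdef
  have hxS : x ∈ S := ⟨1, e, fun j => by
    rcases eq_or_ne j i with rfl | h <;> simp [he, *, F₀.one_mem, F₀.zero_mem], by rw [one_smul]⟩
  have hx0 : x ≠ 0 := fun h => he0 (CfsgLib.Aschbacher.mulVec_inj P (h.trans (Matrix.mulVec_zero _).symm))
  have hs1 := finrank_span_singleton_le' (F := F) x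
  obtain ⟨u, hu, hux, huT⟩ := exists_singular_avoid_sub hQ (Submodule.span F {x}) (Submodule.span F {x})
    (by omega) (by omega)
  set U := ((P⁻¹ : GL ι F) : Matrix ι ι F) *ᵥ u with hUdef
  have hPU : (P : Matrix ι ι F) *ᵥ U = u := CfsgLib.Aschbacher.mulVec_inv_mulVec P u
  obtain ⟨j, hji, hj⟩ : ∃ j, j ≠ i ∧ U j ≠ 0 := by
    by_contra hall
    push Not at hall
    refine huT (Submodule.mem_span_singleton.2 ⟨U i, ?_⟩)
    rw [← hPU, hxdef, ← Matrix.mulVec_smul]
    congr 1
    funext k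
    rcases eq_or_ne k i with rfl | h
    · simp [he]
    · simp [he, hall k h, h]
  have hratio : ∀ a : F, a ≠ 0 → (a + U i) / U j ∈ F₀ := by
    intro a ha
    have hne : x + a⁻¹ • u ≠ 0 := fun h => huT (by
      have : u = -(a • x) := by
        rw [eq_neg_iff_add_eq_zero, add_comm, ← smul_zero a, ← h, smul_add, smul_inv_smul₀ ha]
      rw [this]
      exact Submodule.neg_mem _ (Submodule.smul_mem _ _ (Submodule.mem_span_singleton_self x)))
    obtain ⟨d, v, hv, hd⟩ : x + a⁻¹ • u ∈ S := mem_of_invariant hQ (by omega) hS hxS hx0 hne (by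
      rw [q_add hQ, q_smul hQ, hu, map_smul, hux x (Submodule.mem_span_singleton_self x)]; simp)
    have hd' : (P : Matrix ι ι F) *ᵥ (e + a⁻¹ • U) = (P : Matrix ι ι F) *ᵥ (d • v) := by
      rw [Matrix.mulVec_add, Matrix.mulVec_smul, Matrix.mulVec_smul, hPU, ← hxdef]; exact hd
    have hfun : e + a⁻¹ • U = d • v := CfsgLib.Aschbacher.mulVec_inj P hd'
    have h1 : 1 + a⁻¹ * U i = d * v i := by simpa [he] using congrFun hfun i
    have h2 : a⁻¹ * U j = d * v j := by simpa [he, hji] using congrFun hfun j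
    have h3 : (a + U i) / U j = (1 + a⁻¹ * U i) / (a⁻¹ * U j) := by field_simp
    have hd0 : d ≠ 0 := fun h => by
      rw [h, zero_mul] at h2; exact mul_ne_zero (inv_ne_zero ha) hj h2
    rw [h3, h1, h2, mul_div_mul_left _ _ hd0]
    exact F₀.div_mem (hv i) (hv j)
  refine h0 (eq_top_iff.2 fun z _ => ?_)
  by_contra hz
  have key : ∀ a b : F, a ≠ 0 → b ≠ 0 → (a - b) / U j ∈ F₀ := fun a b ha hb => by
    have := F₀.sub_mem (hratio a ha) (hratio b hb)
    rwa [← sub_div, add_sub_add_right_eq_sub] at this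
  have hUj : U j ∈ F₀ → False := fun hU => hz (by
    have := F₀.mul_mem (key (z + 1) 1 (fun h => hz (by
      rw [eq_neg_of_add_eq_zero_left h]; exact F₀.neg_mem F₀.one_mem)) one_ne_zero) hU
    rwa [add_sub_cancel_right, div_mul_cancel₀ _ hj] at this)
  refine hUj ?_
  have hz0 : z ≠ 0 := fun h => hz (h ▸ F₀.zero_mem)
  have hz1 : z + 1 ≠ 0 := fun h => hz (by
    rw [eq_neg_of_add_eq_zero_left h]; exact F₀.neg_mem F₀.one_mem)
  have h := key (z + 1) z hz1 hz0
  rw [add_sub_cancel_left, one_div] at h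
  have := F₀.inv_mem h
  rwa [inv_inv] at this

/-- Omega normalises no field subalgebra larger than the scalars. -/
theorem not_le_subalgebraNormalizer {r : ℕ} {K : Subalgebra F (Matrix ι ι F)}
    (hK : Geo.IsFieldSubalgebra r K) (hr : 2 ≤ r) :
    ¬ Geo.omegaGL Q ≤ Geo.subalgebraNormalizer K := by
  intro hle
  haveI : Nonempty ι := Fintype.card_pos_iff.1 (by omega)
  obtain ⟨k, hk, hns⟩ : ∃ k ∈ K, k ∉ (⊥ : Subalgebra F (Matrix ι ι F)) := by
    by_contra! hc
    have hfr := hK.finrank_eq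
    rw [le_bot_iff.1 (show K ≤ ⊥ from hc), Subalgebra.finrank_bot] at hfr
    omega
  apply hns
  -- the elements killing a non-zero vector vanish
  have hkill : ∀ y ∈ K, ∀ z : ι → F, z ≠ 0 → y *ᵥ z = 0 → y = 0 := by
    intro y hy z hz hyz
    by_contra h
    obtain ⟨y', hy', hyy⟩ := hK.inv y hy h
    refine hz ?_
    rw [← Matrix.one_mulVec z, ← hyy, hK.comm y hy y' hy', ← Matrix.mulVec_mulVec, hyz, Matrix.mulVec_zero]
  have hcomm : ∀ {u w : ι → F} (hu : Q u = 0) (hw : bform hQ u w = 0) (x : ι → F),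
      (eichler hQ hu hw : Matrix ι ι F) *ᵥ (k *ᵥ x) = k *ᵥ ((eichler hQ hu hw : Matrix ι ι F) *ᵥ x) := by
    intro u w hu hw x
    set E := eichler hQ hu hw
    have hX := (hle (eichler_mem_omega hQ (by omega) hu hw) k).1 hk
    set X := (E : Matrix ι ι F) * k * ((E⁻¹ : GL ι F) : Matrix ι ι F) with hXdef
    obtain ⟨z, hz0, hz1, hz2, hz3, hz4⟩ : ∃ z : ι → F, z ≠ 0 ∧ bform hQ u z = 0 ∧ bform hQ w z = 0 ∧
        bform hQ u (k *ᵥ z) = 0 ∧ bform hQ w (k *ᵥ z) = 0 := by
      let L : (ι → F) →ₗ[F] (F × F) × (F × F) :=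
        ((bform hQ u).prod (bform hQ w)).prod
          (((bform hQ u).comp (Matrix.toLin' k)).prod ((bform hQ w).comp (Matrix.toLin' k)))
      have hker : LinearMap.ker L ≠ ⊥ := fun h => by
        have := LinearMap.finrank_le_finrank_of_injective (LinearMap.ker_eq_bot.1 h)
        simp at this
        omega
      obtain ⟨z, hz, hz0⟩ := Submodule.exists_mem_ne_zero_of_ne_bot hker
      have h' : L z = 0 := hz
      simp [L, Prod.ext_iff] at h'
      exact ⟨z, hz0, h'.1.1, h'.1.2, h'.2.1, h'.2.2⟩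
    have hEz : ∀ y, bform hQ u y = 0 → bform hQ w y = 0 → (E : Matrix ι ι F) *ᵥ y = y := by
      intro y h1 h2
      rw [eichler_mulVec hQ, h1, h2]; simp
    have hXk : X = k := by
      have hinv : ((E⁻¹ : GL ι F) : Matrix ι ι F) *ᵥ z = z :=
        (congrArg (((E⁻¹ : GL ι F) : Matrix ι ι F) *ᵥ ·) (hEz z hz1 hz2)).symm.trans (inv_mulVec_cancel E z)
      refine sub_eq_zero.1 (hkill _ (K.sub_mem hX hk) z hz0 ?_)
      rw [Matrix.sub_mulVec, hXdef, ← Matrix.mulVec_mulVec, ← Matrix.mulVec_mulVec, hinv, hEz _ hz3 hz4,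
        sub_self]
    conv_rhs => rw [← hXk, hXdef, ← Matrix.mulVec_mulVec, inv_mulVec_cancel, ← Matrix.mulVec_mulVec]
  obtain ⟨u, hu, -, hu0⟩ := exists_singular_avoid_sub hQ ⊥ ⊥ (by rw [finrank_bot]; omega)
    (by rw [finrank_bot]; omega)
  have hu0' : u ≠ 0 := fun h => hu0 (h ▸ Submodule.zero_mem _)
  have hmem : ∀ w, bform hQ u w = 0 → w ∉ Submodule.span F ({u} : Set (ι → F)) →
      k *ᵥ u ∈ Submodule.span F {u} ⊔ Submodule.span F {w} := by
    intro w hw hwu
    obtain ⟨x, hx, hwx⟩ : ∃ x, bform hQ u x = 0 ∧ bform hQ w x = 1 := by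
      obtain ⟨x, hx, -, hwx⟩ := exists_singular_b_one hQ (Submodule.span F {u}) hwu
        (by have := finrank_span_singleton_le' (F := F) u; omega)
      exact ⟨x, (mem_perp_span_singleton hQ).1 hx, hwx⟩
    have h := hcomm hu hw x
    rw [eichler_mulVec hQ, eichler_mulVec hQ, hx, hwx] at h
    simp only [one_smul, zero_smul, mul_zero, sub_zero, Matrix.mulVec_add] at h
    have h' : k *ᵥ u = bform hQ w (k *ᵥ x) • u - bform hQ u (k *ᵥ x) • w
        - (Q w * bform hQ u (k *ᵥ x)) • u := by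
      rw [sub_eq_iff_eq_add, sub_eq_iff_eq_add] at h
      rw [eq_sub_iff_add_eq, eq_sub_iff_add_eq]
      linear_combination (norm := abel) -h
    rw [h']
    exact Submodule.sub_mem _ (Submodule.sub_mem _ (Submodule.mem_sup_left (Submodule.smul_mem _ _
      (Submodule.mem_span_singleton_self u))) (Submodule.mem_sup_right (Submodule.smul_mem _ _
      (Submodule.mem_span_singleton_self w)))) (Submodule.mem_sup_left (Submodule.smul_mem _ _
      (Submodule.mem_span_singleton_self u)))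
  have hs1 := finrank_span_singleton_le' (F := F) u
  obtain ⟨w, -, hw, hwu⟩ := exists_singular_avoid_sub hQ (Submodule.span F {u}) (Submodule.span F {u})
    (by omega) (by omega)
  obtain ⟨w', -, hw', hwu'⟩ := exists_singular_avoid_sub hQ (Submodule.span F {u})
    (Submodule.span F {u} ⊔ Submodule.span F {w}) (by omega) (by
      have h := Submodule.finrank_add_le_finrank_add_finrank (Submodule.span F {u}) (Submodule.span F {w})
      have := finrank_span_singleton_le' (F := F) w
      omega)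
  obtain ⟨p, hp, q, hq, hpq⟩ := Submodule.mem_sup.1
    (hmem w (hw u (Submodule.mem_span_singleton_self u)) hwu)
  obtain ⟨p', hp', q', hq', hpq'⟩ := Submodule.mem_sup.1
    (hmem w' (hw' u (Submodule.mem_span_singleton_self u)) fun h => hwu' (Submodule.mem_sup_left h))
  obtain ⟨c', rfl⟩ := Submodule.mem_span_singleton.1 hq'
  have hc' : c' = 0 := by
    by_contra h
    refine hwu' ?_
    rw [← (Submodule.span F {u} ⊔ Submodule.span F {w}).smul_mem_iff h,
      show c' • w' = p + q - p' by rw [hpq, ← hpq']; abel]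
    exact Submodule.sub_mem _ (Submodule.add_mem_sup hp hq) (Submodule.mem_sup_left hp')
  obtain ⟨c, rfl⟩ := Submodule.mem_span_singleton.1 hp'
  rw [hc', zero_smul, add_zero] at hpq'
  refine Algebra.mem_bot.2 ⟨c, (sub_eq_zero.1 (hkill _ (K.sub_mem hk (K.algebraMap_mem c)) u hu0' ?_)).symm⟩
  rw [Matrix.sub_mulVec, ← hpq', Algebra.algebraMap_eq_smul_one, Matrix.smul_mulVec, Matrix.one_mulVec,
    sub_self]

/-- Omega preserves no tensor decomposition with second factor of dimension at least three. -/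
theorem not_le_tensor_aux {a b : ℕ} (ha : 2 ≤ a) (hb : 3 ≤ b) (e : ι ≃ Fin a × Fin b) (P : GL ι F) :
    ¬ Geo.omegaGL Q ≤ Geo.tensorProductSubgroup a b e P := by
  intro hle
  haveI : NeZero a := ⟨by omega⟩
  let em := Forms.emb e P
  have hemadd : ∀ x y, em (x + y) = em x + em y := fun x y => by
    simp [em, Forms.emb, Pi.add_comp, Matrix.mulVec_add]
  have hemsmul : ∀ (c : F) x, em (c • x) = c • em x := fun c x => by
    simp [em, Forms.emb, ← Matrix.mulVec_smul, Pi.smul_comp]
  let v₀ : Fin a → F := Pi.single 0 1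
  let pure : (Fin a → F) → (Fin b → F) →ₗ[F] (ι → F) := fun v =>
    { toFun := fun y => em fun p => v p.1 * y p.2
      map_add' := fun y y' => by
        rw [← hemadd]; congr 1; funext p; simp [mul_add]
      map_smul' := fun c y => by
        rw [RingHom.id_apply, ← hemsmul]; congr 1; funext p; simp [mul_left_comm] }
  set W := LinearMap.range (pure v₀) with hWdef
  have hkron : ∀ (A : Matrix (Fin a) (Fin a) F) (B : Matrix (Fin b) (Fin b) F) (v : Fin a → F)
      (y : Fin b → F), ((A ⊗ₖ B) *ᵥ fun p => v p.1 * y p.2) =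
        fun p => (A *ᵥ v) p.1 * (B *ᵥ y) p.2 := by
    intro A B v y
    funext ⟨i, k⟩
    simp only [Matrix.mulVec, dotProduct, Fintype.sum_prod_type, Matrix.kroneckerMap_apply,
      Finset.sum_mul, Finset.mul_sum]
    exact Finset.sum_comm.trans (Finset.sum_congr rfl fun q _ => Finset.sum_congr rfl fun p _ => by ring)
  refine not_le_subspace hQ hn (W := W) ?_ ?_ ?_
  · intro h
    let z : Fin b → F := Pi.single ⟨0, by omega⟩ 1
    have h1 : pure v₀ z = 0 := (Submodule.eq_bot_iff _).1 h _ ⟨z, rfl⟩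
    have h2 : em (fun p => v₀ p.1 * z p.2) = em 0 := h1.trans (by simp [em, Forms.emb])
    have := congrFun (Forms.emb_injective h2) (0, ⟨0, by omega⟩)
    simp [v₀, z] at this
  · intro h
    have h1 := LinearMap.finrank_range_le (pure v₀)
    rw [← hWdef, h, finrank_top, finrank_fintype_fun_eq_card, finrank_fintype_fun_eq_card,
      Fintype.card_congr e, Fintype.card_prod, Fintype.card_fin, Fintype.card_fin] at h1
    nlinarith
  · rw [omegaGL_eq_eichlerGroup hQ (by omega), eichlerGroup, Subgroup.closure_le]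
    rintro _ ⟨u, w, hu, hw, rfl⟩
    set E := eichler hQ hu hw
    obtain ⟨A, B, hAB⟩ := (CfsgLib.Aschbacher.mem_tensorProductSubgroup_iff e P E).1
      (hle (eichler_mem_omega hQ (by omega) hu hw))
    refine mem_subspaceStabilizer_of_le ?_
    rintro _ ⟨y, rfl⟩
    have hEpure : ∀ v y, (E : Matrix ι ι F) *ᵥ pure v y =
        pure ((A : Matrix _ _ F) *ᵥ v) ((B : Matrix _ _ F) *ᵥ y) := by
      intro v y
      show (E : Matrix ι ι F) *ᵥ em _ = em _
      rw [hAB, Forms.tconj_mulVec_emb, hkron]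
    obtain ⟨c, hc⟩ : ∃ c : F, (A : Matrix (Fin a) (Fin a) F) *ᵥ v₀ = c • v₀ := by
      let L : (Fin b → F) →ₗ[F] F × F :=
        ((bform hQ u).comp (pure v₀)).prod ((bform hQ w).comp (pure v₀))
      have hker : LinearMap.ker L ≠ ⊥ := fun h => by
        have := LinearMap.finrank_le_finrank_of_injective (LinearMap.ker_eq_bot.1 h)
        simp at this
        omega
      obtain ⟨z, hz, hz0⟩ := Submodule.exists_mem_ne_zero_of_ne_bot hker
      have h' : L z = 0 := hz
      simp [L, Prod.ext_iff] at h'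
      have hfix : (E : Matrix ι ι F) *ᵥ pure v₀ z = pure v₀ z := by
        rw [eichler_mulVec hQ, show bform hQ u (pure v₀ z) = 0 from h'.1,
          show bform hQ w (pure v₀ z) = 0 from h'.2]; simp
      rw [hEpure] at hfix
      have hfun := Forms.emb_injective hfix
      obtain ⟨k, hk⟩ := Function.ne_iff.1 hz0
      obtain ⟨l, hl⟩ := Function.ne_iff.1 (show (B : Matrix (Fin b) (Fin b) F) *ᵥ z ≠ 0 from fun h =>
        hz0 (CfsgLib.Aschbacher.mulVec_inj B (h.trans (Matrix.mulVec_zero _).symm)))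
      refine ⟨z l / ((B : Matrix (Fin b) (Fin b) F) *ᵥ z) l, funext fun i => ?_⟩
      have h1 := congrFun hfun (i, l)
      simp only at h1
      rw [Pi.smul_apply, smul_eq_mul, div_mul_eq_mul_div, eq_div_iff hl, h1, mul_comm]
    rw [hEpure, hc]
    refine ⟨c • ((B : Matrix (Fin b) (Fin b) F) *ᵥ y), ?_⟩
    show em _ = em _
    congr 1
    funext p
    simp [mul_assoc, mul_left_comm]

/-- Omega preserves no tensor decomposition. -/
theorem not_le_tensorProductSubgroup {a b : ℕ} (ha : 2 ≤ a) (hb : 2 ≤ b) (e : ι ≃ Fin a × Fin b)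
    (P : GL ι F) : ¬ Geo.omegaGL Q ≤ Geo.tensorProductSubgroup a b e P := by
  by_cases h : 3 ≤ b
  · exact not_le_tensor_aux hQ hn ha h e P
  · intro hle
    have : 3 ≤ a := by
      by_contra
      have := Fintype.card_congr e
      simp only [Fintype.card_prod, Fintype.card_fin] at this
      nlinarith
    exact not_le_tensor_aux hQ hn hb this _ P (hle.trans (tensorProductSubgroup_comm e P))

end CfsgLib.Aschbacher.OrthEven
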