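import Mathlib
import Cfsg.Agent.Aschbacher.OrthEvenMembers
import Cfsg.Agent.Aschbacher.OrthEvenForms
import Cfsg.Agent.Aschbacher.SympComposite
import Cfsg.Agent.OrthGeo.TensorThree
import Cfsg.Agent.OrthGeo.Parity

/-!
Aschbacher's reduction for a maximal subgroup of Omega in even dimension, any characteristic.
-/

set_option autoImplicit false
set_option linter.unusedSectionVars false

namespace CfsgLib.Aschbacher.OrthEven

open Matrix Cfsg Module CfsgLib.OrthGeo CfsgLib.Aschbacher CfsgLib.Aschbacher.Centre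
  CfsgLib.Aschbacher.Forms CfsgLib.Aschbacher.Reduction

open scoped Kronecker

variable {ι : Type} [Fintype ι] [DecidableEq ι] {F : Type*} [Field F] [Fintype F]
variable {Q : (ι → F) → F} {H : Subgroup (GL ι F)}

/-- The possibilities for a maximal subgroup `H` of Omega. -/
def Outcome (Q : (ι → F) → F) (H : Subgroup (GL ι F)) : Prop :=
  (∃ W : Submodule F (ι → F), W ≠ ⊥ ∧ Geo.IsTotallySingularQuad Q W ∧
    H = Geo.subspaceStabilizer W ⊓ Geo.omegaGL Q) ∨
  (∃ W : Submodule F (ι → F), W ≠ ⊥ ∧ W ≠ ⊤ ∧ Geo.IsNondegenerateOn (QuadraticMap.polar Q) W ∧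
    2 * finrank F W ≤ Fintype.card ι ∧ (Odd (finrank F W) → Odd (Fintype.card F)) ∧
    H = Geo.subspaceStabilizer W ⊓ Geo.omegaGL Q) ∨
  (¬ Odd (Fintype.card F) ∧ ∃ v : ι → F, Q v ≠ 0 ∧
    H = Geo.subspaceStabilizer (Submodule.span F {v}) ⊓ Geo.omegaGL Q) ∨
  (∃ (t k : ℕ) (D : Fin t → Submodule F (ι → F)), t * k = Fintype.card ι ∧ 2 ≤ t ∧
    (Odd k → Odd (Fintype.card F)) ∧ Geo.IsOrthogonalMDecomposition Q k D ∧
    H = Geo.decompositionStabilizer D ⊓ Geo.omegaGL Q) ∨
  (∃ (k : ℕ) (D : Fin 2 → Submodule F (ι → F)), Geo.IsMDecomposition k D ∧ 2 * k = Fintype.card ι ∧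
    (∀ i, Geo.IsTotallySingularQuad Q (D i)) ∧ H = Geo.decompositionStabilizer D ⊓ Geo.omegaGL Q) ∨
  (∃ (r : ℕ) (K : Subalgebra F (Matrix ι ι F)), r.Prime ∧ r ∣ Fintype.card ι ∧
    Geo.IsFieldSubalgebra r K ∧ Geo.IsSelfAdjointFor (QuadraticMap.polar Q) K ∧
    H = Geo.subalgebraNormalizer K ⊓ Geo.omegaGL Q) ∨
  (∃ K : Subalgebra F (Matrix ι ι F), Geo.IsFieldSubalgebra 2 K ∧
    Geo.IsAdjointClosedFor (QuadraticMap.polar Q) K ∧ ¬ Geo.IsSelfAdjointFor (QuadraticMap.polar Q) K ∧
    (∀ k ∈ K, ∃ c : F, ∀ v : ι → F, Q (k *ᵥ v) = c * Q v) ∧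
    H = Geo.subalgebraNormalizer K ⊓ Geo.omegaGL Q) ∨
  (∃ (a b : ℕ) (e : ι ≃ Fin a × Fin b) (P : GL ι F) (f₁ : (Fin a → F) → (Fin a → F) → F)
    (f₂ : (Fin b → F) → (Fin b → F) → F), 2 ≤ a ∧ 2 ≤ b ∧ Even a ∧ Even b ∧ a * b = Fintype.card ι ∧
    Geo.IsSymplecticForm f₁ ∧ Geo.IsSymplecticForm f₂ ∧
    Geo.IsTensorFormStructure id (QuadraticMap.polar Q) f₁ f₂ e P ∧
    (∀ (x₁ : Fin a → F) (x₂ : Fin b → F),
      Q ((P : Matrix ι ι F) *ᵥ ((fun p : Fin a × Fin b => x₁ p.1 * x₂ p.2) ∘ e)) = 0) ∧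
    H = Geo.tensorProductSubgroup a b e P ⊓ Geo.omegaGL Q) ∨
  (Odd (Fintype.card F) ∧ ∃ (a b : ℕ) (e : ι ≃ Fin a × Fin b) (P : GL ι F)
    (f₁ : (Fin a → F) → (Fin a → F) → F) (f₂ : (Fin b → F) → (Fin b → F) → F),
    3 ≤ a ∧ 3 ≤ b ∧ a * b = Fintype.card ι ∧ Geo.IsSymmetricForm f₁ ∧ Geo.IsSymmetricForm f₂ ∧
    Geo.IsTensorFormStructure id (QuadraticMap.polar Q) f₁ f₂ e P ∧
    H = Geo.tensorProductSubgroup a b e P ⊓ Geo.omegaGL Q) ∨
  (∃ (F₀ : Subfield F) (r : ℕ) (P : GL ι F) (ζ : F), r.Prime ∧ Fintype.card F = Nat.card F₀ ^ r ∧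
    ζ ≠ 0 ∧ Geo.IsQuadFormRationalStructure (fun v => ζ * Q v) F₀ P ∧
    H = Geo.subfieldSubgroup F₀ P ⊓ Geo.omegaGL Q) ∨
  Geo.InOrthogonalResidualClass H

variable (hQ : Geo.IsNondegenerateQuadraticForm Q)
include hQ

omit [Fintype F] in
theorem rform_polar : RForm (RingHom.id F) 1 (QuadraticMap.polar Q) :=
  rform_of_symmetric ⟨hQ.polar_bilinear, fun u v => QuadraticMap.polar_comm Q u v, hQ.nondegenerate⟩

omit [Fintype F] in
theorem symplectic_polar (h2 : (2 : F) = 0) : Geo.IsSymplecticForm (QuadraticMap.polar Q) where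
  bilinear := hQ.polar_bilinear
  skew v w := by
    rw [QuadraticMap.polar_comm]
    linear_combination QuadraticMap.polar Q w v * h2
  alternating v := by
    rw [show QuadraticMap.polar Q v v = bform hQ v v from rfl, b_self hQ, h2, zero_mul]
  nondegenerate := hQ.nondegenerate

theorem odd_card_of_odd_nondeg [Nonempty ι] {W : Submodule F (ι → F)}
    (hW : Geo.IsNondegenerateOn (QuadraticMap.polar Q) W) (ho : Odd (finrank F W)) :
    Odd (Fintype.card F) := by
  by_contra h
  exact Nat.not_even_iff_odd.2 ho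
    (Symp.even_finrank (symplectic_polar hQ (Symp.two_eq_zero_of_not_odd h)) hW)

omit hQ in
/-- A matrix that is skew with zero diagonal gives an alternating form. -/
theorem symplectic_formOfGram {n : ℕ} {X : Matrix (Fin n) (Fin n) F} (hX : IsUnit X)
    (hXs : ∀ i j, X i j = - X j i) (hXd : ∀ i, X i i = 0) :
    Geo.IsSymplecticForm (Geo.formOfGram (RingHom.id F) X) := by
  have hs := isSesquiForm_formOfGram (RingHom.id F) X
  have hskew : ∀ v w, Geo.formOfGram (RingHom.id F) X v w = - Geo.formOfGram (RingHom.id F) X w v :=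
    fun v w => by
      rw [formOfGram_refl _ (fun _ => rfl) (δ := -1) (fun i j => by simp [← hXs i j]) v w]; simp
  refine ⟨⟨hs.add_left, hs.smul_left, hs.add_right, fun c v x => hs.smul_right c v x⟩, hskew, fun v => ?_,
    nondegenerate_formOfGram _ (fun _ => rfl) (δ := -1) (by simp) (fun i j => by simp [← hXs i j]) hX⟩
  simp only [Geo.formOfGram, RingHom.id_apply]
  rw [← Finset.sum_product', Finset.univ_product_univ]
  refine Finset.sum_involution (fun q _ => (q.2, q.1)) (fun q _ => ?_) (fun q _ hq hqq => hq ?_)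
    (fun q _ => Finset.mem_univ _) (fun q _ => rfl)
  · rw [hXs q.2 q.1]; ring
  · have : q.1 = q.2 := (congrArg Prod.fst hqq).symm
    rw [this, hXd, mul_zero, zero_mul]

omit hQ in
theorem symmetric_formOfGram {n : ℕ} {X : Matrix (Fin n) (Fin n) F} (hX : IsUnit X)
    (hXs : ∀ i j, X i j = X j i) : Geo.IsSymmetricForm (Geo.formOfGram (RingHom.id F) X) := by
  have hs := isSesquiForm_formOfGram (RingHom.id F) X
  exact ⟨⟨hs.add_left, hs.smul_left, hs.add_right, fun c v x => hs.smul_right c v x⟩,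
    fun v w => by
      rw [formOfGram_refl _ (fun _ => rfl) (δ := 1) (fun i j => by simp [← hXs i j]) v w]; simp,
    nondegenerate_formOfGram _ (fun _ => rfl) one_ne_zero (δ := 1) (fun i j => by simp [← hXs i j]) hX⟩

/-- An irreducible group of isometries makes the blocks it permutes isometric. -/
theorem isometric_blocks (hirr : Geo.ActsIrreducibly (Geo.matrixSet H))
    (hiso : H ≤ Cfsg.isometryGroup F Q) {t k : ℕ} {D : Fin t → Submodule F (ι → F)}
    (hD : Geo.IsMDecomposition k D) (hle : H ≤ Geo.decompositionStabilizer D) :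
    ∀ i j, Geo.AreIsometricFor Q (D i) (D j) := by
  intro i j
  have hne : ∀ l, D l ≠ ⊥ := fun l h => by
    have := hD.finrank_eq l
    rw [h, finrank_bot] at this
    exact absurd this.symm hD.pos.ne'
  let W : Submodule F (ι → F) := ⨆ (l : Fin t) (_ : Geo.AreIsometricFor Q (D i) (D l)), D l
  have hii : Geo.AreIsometricFor Q (D i) (D i) := ⟨LinearEquiv.refl F _, fun _ => rfl⟩
  have hW : W = ⊤ := eq_top_of_invariant hirr (fun h => hne i (le_bot_iff.1 (h ▸
      le_iSup₂ (f := fun l (_ : Geo.AreIsometricFor Q (D i) (D l)) => D l) i hii))) fun g hg v hv => by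
    obtain ⟨π, hπ⟩ := hle hg
    have : W.map (Matrix.toLin' (g : Matrix ι ι F)) ≤ W := by
      simp only [W, Submodule.map_iSup]
      refine iSup₂_le fun l hl => ?_
      rw [hπ l]
      refine le_iSup₂ (f := fun l (_ : Geo.AreIsometricFor Q (D i) (D l)) => D l) (π l) ?_
      obtain ⟨e, he⟩ := hl
      refine ⟨e.trans ((Submodule.equivMapOfInjective _ (toLin'_injective g) (D l)).trans
        (LinearEquiv.ofEq _ _ (hπ l))), fun w => ?_⟩
      simp only [LinearEquiv.trans_apply, LinearEquiv.coe_ofEq_apply, Submodule.coe_equivMapOfInjective_apply,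
        Matrix.toLin'_apply]
      rw [mem_isometryGroup.1 (hiso hg), he]
    exact this ⟨v, hv, Matrix.toLin'_apply _ _⟩
  by_contra hij
  refine hne j (eq_bot_iff.2 fun x hx => ?_)
  have hle' : W ≤ ⨆ (l : Fin t) (_ : l ≠ j), D l := iSup₂_le fun l hl =>
    le_iSup₂ (f := fun l (_ : l ≠ j) => D l) l fun h => hij (h ▸ hl)
  exact (Submodule.mem_bot F).2 (Submodule.disjoint_def.1 (hD.indep j) x hx (hle' (hW ▸ Submodule.mem_top)))

/-- A pair of blocks totally singular for the polar form is totally singular for the quadratic form. -/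
theorem singular_pair (hirr : Geo.ActsIrreducibly (Geo.matrixSet H))
    (hiso : H ≤ Cfsg.isometryGroup F Q) {k : ℕ} {D : Fin 2 → Submodule F (ι → F)}
    (hD : Geo.IsMDecomposition k D) (hk : 2 * k = Fintype.card ι) (hk2 : 2 ≤ k)
    (hts : ∀ i, Geo.IsTotallySingularFor (QuadraticMap.polar Q) (D i))
    (hle : H ≤ Geo.decompositionStabilizer D) : ∀ i, Geo.IsTotallySingularQuad Q (D i) := by
  classical
  have hb : ∀ i, ∀ u ∈ D i, ∀ v ∈ D i, bform hQ u v = 0 := hts
  let U : Fin 2 → Submodule F (ι → F) := fun i =>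
    { carrier := {x | x ∈ D i ∧ Q x = 0}
      add_mem' := fun {x y} hx hy => ⟨(D i).add_mem hx.1 hy.1, by
        rw [q_add hQ, hx.2, hy.2, hb i x hx.1 y hy.1, add_zero, add_zero]⟩
      zero_mem' := ⟨(D i).zero_mem, q_zero hQ⟩
      smul_mem' := fun c x hx => ⟨(D i).smul_mem c hx.1, by rw [q_smul hQ, hx.2, mul_zero]⟩ }
  have hUD : ∀ i, U i ≤ D i := fun i x hx => hx.1
  obtain ⟨x, hx, hx0⟩ : ∃ x ∈ U 0, x ≠ 0 := by
    by_contra! h
    let φ : D 0 →+ F := AddMonoidHom.mk' (fun x => Q (x : ι → F)) fun x y => by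
      show Q ((x : ι → F) + y) = _
      rw [q_add hQ, hb 0 x x.2 y y.2, add_zero]
    have hinj : Function.Injective φ := (injective_iff_map_eq_zero φ).2 fun x hx =>
      Subtype.ext (h x ⟨x.2, hx⟩)
    have := Fintype.card_le_of_injective φ hinj
    rw [Module.card_eq_pow_finrank (K := F), hD.finrank_eq] at this
    exact absurd this (not_le.2 (lt_self_pow₀ Fintype.one_lt_card hk2))
  have hW : U 0 ⊔ U 1 = ⊤ := eq_top_of_invariant hirr
    (fun h => hx0 ((Submodule.mem_bot F).1 (h ▸ Submodule.mem_sup_left hx))) fun g hg v hv => by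
      obtain ⟨π, hπ⟩ := hle hg
      have hmove : ∀ i, ∀ y ∈ U i, (g : Matrix ι ι F) *ᵥ y ∈ U (π i) := fun i y hy =>
        ⟨hπ i ▸ ⟨y, hy.1, Matrix.toLin'_apply _ _⟩, by rw [mem_isometryGroup.1 (hiso hg), hy.2]⟩
      have hsup : ∀ i, U i ≤ U 0 ⊔ U 1 :=
        Fin.forall_fin_two.2 ⟨le_sup_left, le_sup_right⟩
      obtain ⟨y, hy, z, hz, rfl⟩ := Submodule.mem_sup.1 hv
      rw [Matrix.mulVec_add]
      exact Submodule.add_mem _ (hsup _ (hmove 0 y hy)) (hsup _ (hmove 1 z hz))
  have h1 := Submodule.finrank_add_le_finrank_add_finrank (U 0) (U 1)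
  rw [hW, finrank_top, finrank_fintype_fun_eq_card] at h1
  have h2 : ∀ i, finrank F (U i) ≤ k := fun i => hD.finrank_eq i ▸ Submodule.finrank_mono (hUD i)
  intro i x hx
  have : U i = D i := Submodule.eq_of_le_of_finrank_le (hUD i) (by
    have h20 := h2 0
    have h21 := h2 1
    rw [hD.finrank_eq]
    revert i
    exact Fin.forall_fin_two.2 ⟨fun _ => by omega, fun _ => by omega⟩)
  exact (this.symm.le hx).2

variable (hn : 7 ≤ Fintype.card ι) (hH : Geo.IsMaximalIn (Geo.omegaGL Q) H)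
include hn hH

/-- Reducible groups. -/
theorem reducible_three (hirr : ¬ Geo.ActsIrreducibly (Geo.matrixSet H)) :
    (∃ W : Submodule F (ι → F), W ≠ ⊥ ∧ Geo.IsTotallySingularQuad Q W ∧
      H = Geo.subspaceStabilizer W ⊓ Geo.omegaGL Q) ∨
    (∃ W : Submodule F (ι → F), W ≠ ⊥ ∧ W ≠ ⊤ ∧ Geo.IsNondegenerateOn (QuadraticMap.polar Q) W ∧
      2 * finrank F W ≤ Fintype.card ι ∧ (Odd (finrank F W) → Odd (Fintype.card F)) ∧
      H = Geo.subspaceStabilizer W ⊓ Geo.omegaGL Q) ∨
    (¬ Odd (Fintype.card F) ∧ ∃ v : ι → F, Q v ≠ 0 ∧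
      H = Geo.subspaceStabilizer (Submodule.span F {v}) ⊓ Geo.omegaGL Q) := by
  haveI : Nonempty ι := Fintype.card_pos_iff.1 (by omega)
  simp only [Geo.ActsIrreducibly, not_forall, not_or] at hirr
  obtain ⟨W, hW, hW0, hW1⟩ := hirr
  have hI : H ≤ Cfsg.isometryGroup F Q := hH.1.le.trans omegaGL_le
  have hinv : H ≤ Geo.subspaceStabilizer W := fun g hg =>
    mem_subspaceStabilizer_of_mapsTo fun v hv => hW _ ⟨g, hg, rfl⟩ ⟨v, hv, Matrix.toLin'_apply _ _⟩
  rcases subspace_trichotomy hQ hI hW1 hinv with ⟨R, hR0, hR1, hR, hts⟩ | hnd | ⟨h2, v, hv, hR⟩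
  · exact Or.inl ⟨R, hR0, hts, eq_inf_of_le hH hR (not_le_subspace hQ hn hR0 hR1)⟩
  · have hWn := AschPrime.orth_nondeg_of_inf_eq_bot hQ hnd
    have hdim := finrank_perp_add hQ W
    have key : ∀ V : Submodule F (ι → F), V ≠ ⊥ → V ≠ ⊤ →
        Geo.IsNondegenerateOn (QuadraticMap.polar Q) V → 2 * finrank F V ≤ Fintype.card ι →
        H ≤ Geo.subspaceStabilizer V → ∃ W : Submodule F (ι → F), W ≠ ⊥ ∧ W ≠ ⊤ ∧
        Geo.IsNondegenerateOn (QuadraticMap.polar Q) W ∧ 2 * finrank F W ≤ Fintype.card ι ∧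
        (Odd (finrank F W) → Odd (Fintype.card F)) ∧ H = Geo.subspaceStabilizer W ⊓ Geo.omegaGL Q :=
      fun V h0 h1 hV hd hle => ⟨V, h0, h1, hV, hd, fun ho => odd_card_of_odd_nondeg hQ hV ho,
        eq_inf_of_le hH hle (not_le_subspace hQ hn h0 h1)⟩
    by_cases hd : 2 * finrank F W ≤ Fintype.card ι
    · exact Or.inr (Or.inl (key W hW0 hW1 hWn hd hinv))
    · refine Or.inr (Or.inl (key (perp hQ W) (fun h => hW1 ?_) (fun h => hW0 ?_) (AschPrime.orth_perp_nondeg hQ hWn)
        (by omega) fun g hg => AschPrime.stabilizer_perp hQ (hI hg) (hinv hg)))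
      · rw [← AschPrime.orth_sup_eq_top hQ hWn, h, sup_bot_eq]
      · rw [← hnd, h, inf_top_eq]
  · refine Or.inr (Or.inr ⟨fun ho => ?_, v, hv, eq_inf_of_le hH hR (not_le_point hQ hn hv)⟩)
    exact two_ne_zero_of_odd_card ho h2

theorem reducible_cases (hirr : ¬ Geo.ActsIrreducibly (Geo.matrixSet H)) : Outcome Q H := by
  rcases reducible_three hQ hn hH hirr with h | h | h
  exacts [Or.inl h, Or.inr (Or.inl h), Or.inr (Or.inr (Or.inl h))]

variable (hirr : Geo.ActsIrreducibly (Geo.matrixSet H))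
include hirr

/-- A closed commutative algebra normalised by `H` and larger than the scalars. -/
theorem comm_cases {Z : Subalgebra F (Matrix ι ι F)} (hc : ∀ x ∈ Z, ∀ y ∈ Z, x * y = y * x)
    (hcl : Closed (QuadraticMap.polar Q) Z) (hN : Normalises H Z) (hbot : Z ≠ ⊥) : Outcome Q H := by
  haveI : Nonempty ι := Fintype.card_pos_iff.1 (by omega)
  have hr := rform_polar hQ
  have hI : H ≤ Cfsg.isometryGroup F Q := hH.1.le.trans omegaGL_le
  have hG : ∀ g ∈ H, ∃ c : F, c ≠ 0 ∧ ∀ u v, QuadraticMap.polar Q ((g : Matrix ι ι F) *ᵥ u)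
      ((g : Matrix ι ι F) *ᵥ v) = c * QuadraticMap.polar Q u v :=
    fun g hg => ⟨1, one_ne_zero, fun u v => by rw [one_mul]; exact isometry_b hQ (hI hg) u v⟩
  rcases fieldLike_or_idemSystem hirr hN hc with hfl | ⟨t, ⟨S⟩⟩
  · obtain ⟨r, hrp, hrn, -, hK, hle⟩ := exists_prime_subfield hN hc hfl hbot
    have hKc := closed_powFixed hr hc hcl r
    have heq := eq_inf_of_le hH hle (not_le_subalgebraNormalizer hQ hn hK hrp.two_le)
    by_cases hsa : Geo.IsSelfAdjointFor (QuadraticMap.polar Q) (powFixed Z hc r)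
    · exact Or.inr (Or.inr (Or.inr (Or.inr (Or.inr (Or.inl ⟨r, _, hrp, hrn, hK, hsa, heq⟩)))))
    · have hr2 : r = 2 := hrp.eq_two_or_odd'.resolve_right fun ho => hsa (selfAdjoint_of_odd hr ho hK hKc)
      subst hr2
      exact Or.inr (Or.inr (Or.inr (Or.inr (Or.inr (Or.inr (Or.inl ⟨_, hK, hKc.isAdjointClosedFor, hsa,
        field_similarities (by omega) hQ hirr hI hK hKc hsa hle, heq⟩))))))
  · rcases frame_form_cases hr hG S.toFrame (idemSystem_adj hr hc hcl S) with
      ⟨s, k, D, hD, hsk, hle⟩ | ⟨k, D, hD, hk, hts, hle⟩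
    · refine Or.inr (Or.inr (Or.inr (Or.inl ⟨s, k, D, hsk, hD.decomp.two_le, fun ho => ?_,
        ⟨hD, isometric_blocks hQ hirr hI hD.decomp hle⟩,
        eq_inf_of_le hH hle (not_le_decompositionStabilizer hQ hn hD.decomp)⟩)))
      exact odd_card_of_odd_nondeg hQ (hD.nondegenerate ⟨0, by have := hD.decomp.two_le; omega⟩)
        (by rwa [hD.decomp.finrank_eq])
    · exact Or.inr (Or.inr (Or.inr (Or.inr (Or.inl ⟨k, D, hD, hk,
        singular_pair hQ hirr hI hD hk (by omega) hts hle,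
        eq_inf_of_le hH hle (not_le_decompositionStabilizer hQ hn hD)⟩))))

/-- A tensor decomposition preserved by `H`. -/
theorem tensor_cases {a b : ℕ} {e : ι ≃ Fin a × Fin b} {P : GL ι F} (ha : 2 ≤ a) (hb : 2 ≤ b)
    {X : Matrix (Fin a) (Fin a) F} {C : Matrix (Fin b) (Fin b) F} (hX : IsUnit X) (hC : IsUnit C)
    (hΓ : pullGram (QuadraticMap.polar Q) e P = X ⊗ₖ C)
    (hle : H ≤ Geo.tensorProductSubgroup a b e P) : Outcome Q H := by
  haveI : Nonempty ι := Fintype.card_pos_iff.1 (by omega)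
  haveI : NeZero a := ⟨by omega⟩
  haveI : NeZero b := ⟨by omega⟩
  have hr := rform_polar hQ
  have hI : H ≤ Cfsg.isometryGroup F Q := hH.1.le.trans omegaGL_le
  have hiso : ∀ g ∈ H, ∀ u v, QuadraticMap.polar Q ((g : Matrix ι ι F) *ᵥ u) ((g : Matrix ι ι F) *ᵥ v) =
      QuadraticMap.polar Q u v := fun g hg u v => isometry_b hQ (hI hg) u v
  obtain ⟨δ₁, δ₂, hδ, hδ₁, hX', hC'⟩ := factor_refl hr hX.ne_zero hC.ne_zero hΓ
  simp only [RingHom.id_apply] at hδ₁ hX' hC'
  have hid : (RingHom.id F : F → F) = id := rfl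
  have hab : a * b = Fintype.card ι := by
    rw [Fintype.card_congr e, Fintype.card_prod, Fintype.card_fin, Fintype.card_fin]
  have hT := hid ▸ isTensorFormStructure_of_pullGram hr.sesq hΓ
  have heq := eq_inf_of_le hH hle (not_le_tensorProductSubgroup hQ hn ha hb e P)
  -- two alternating factors
  have halt : (∀ i j, X i j = - X j i) → (∀ i, X i i = 0) → (∀ k l, C k l = - C l k) →
      (∀ k, C k k = 0) → (∀ (x₁ : Fin a → F) (x₂ : Fin b → F),
        Q ((P : Matrix ι ι F) *ᵥ ((fun p : Fin a × Fin b => x₁ p.1 * x₂ p.2) ∘ e)) = 0) →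
      Outcome Q H := by
    intro hXs hXd hCs hCd hpure
    have hev : ∀ {c : ℕ} {Y : Matrix (Fin c) (Fin c) F}, IsUnit Y → (∀ i j, Y i j = - Y j i) →
        (∀ i, Y i i = 0) → Even c := by
      intro c Y hY hs hd
      rw [← Nat.not_odd_iff_even]
      intro hco
      exact ((Matrix.isUnit_iff_isUnit_det _).1 hY).ne_zero
        (det_eq_zero_of_alternating (by rwa [Fintype.card_fin]) hs hd)
    exact Or.inr (Or.inr (Or.inr (Or.inr (Or.inr (Or.inr (Or.inr (Or.inl
      ⟨a, b, e, P, _, _, ha, hb, hev hX hXs hXd, hev hC hCs hCd, hab,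
        symplectic_formOfGram hX hXs hXd, symplectic_formOfGram hC hCs hCd, hT, hpure, heq⟩)))))))
  by_cases ho : Odd (Fintype.card F)
  · have h2 := two_ne_zero_of_odd_card ho
    rcases mul_self_eq_one_iff.1 hδ₁ with rfl | rfl
    · rw [one_mul] at hδ
      subst hδ
      simp only [one_mul] at hX' hC'
      by_cases hb2 : b = 2
      · subst hb2
        obtain ⟨Z, hZc, hZcl, hZn, hZb⟩ := Symp.comm_of_plane hr h2 hX hC hC' hΓ hle hiso
        exact comm_cases hQ hn hH hirr hZc hZcl hZn hZb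
      by_cases ha2 : a = 2
      · subst ha2
        obtain ⟨Z, hZc, hZcl, hZn, hZb⟩ := Symp.comm_of_plane hr h2 hC hX hX' (Symp.pullGram_swap hΓ)
          (hle.trans (tensorProductSubgroup_comm e P)) hiso
        exact comm_cases hQ hn hH hirr hZc hZcl hZn hZb
      exact Or.inr (Or.inr (Or.inr (Or.inr (Or.inr (Or.inr (Or.inr (Or.inr (Or.inl
        ⟨ho, a, b, e, P, _, _, by omega, by omega, hab, symmetric_formOfGram hX hX',
          symmetric_formOfGram hC hC', hT, heq⟩))))))))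
    · have hδ2 : δ₂ = -1 := by linear_combination -hδ
      have hXs : ∀ i j, X i j = - X j i := fun i j => by simpa using hX' i j
      have hCs : ∀ k l, C k l = - C l k := fun k l => by simpa [hδ2] using hC' k l
      have hd : ∀ {c : ℕ} {Y : Matrix (Fin c) (Fin c) F}, (∀ i j, Y i j = - Y j i) → ∀ i, Y i i = 0 :=
        fun hY i => (mul_eq_zero.1 (show (2 : F) * _ = 0 by linear_combination hY i i)).resolve_left h2
      refine halt hXs (hd hXs) hCs (hd hCs) fun x₁ x₂ => ?_
      obtain ⟨c, -, hc⟩ := hT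
      have h := hc (fun p => x₁ p.1 * x₂ p.2) (fun p => x₁ p.1 * x₂ p.2)
      have hs1 := symplectic_formOfGram hX hXs (hd hXs)
      have hs2 := symplectic_formOfGram hC hCs (hd hCs)
      have hz : Geo.formOfGram id (Geo.gramMatrix (Geo.formOfGram id X) ⊗ₖ
          Geo.gramMatrix (Geo.formOfGram id C)) (pureTen x₁ x₂) (pureTen x₁ x₂) = 0 :=
        (formOfGram_pureTen hs1.bilinear hs2.bilinear _ _ _ _).trans (by rw [hs1.alternating, zero_mul])
      rw [show (fun p : Fin a × Fin b => x₁ p.1 * x₂ p.2) = pureTen x₁ x₂ from rfl] at h ⊢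
      have h' : bform hQ ((P : Matrix ι ι F) *ᵥ (pureTen x₁ x₂ ∘ e))
          ((P : Matrix ι ι F) *ᵥ (pureTen x₁ x₂ ∘ e)) = 0 := h.trans (by rw [hz, mul_zero])
      rw [b_self hQ] at h'
      exact (mul_eq_zero.1 h').resolve_left h2
  · have h2 := Symp.two_eq_zero_of_not_odd ho
    have hs := symplectic_polar hQ h2
    have hδ₁1 : δ₁ = 1 := by
      rcases mul_self_eq_one_iff.1 hδ₁ with h | h
      · exact h
      · rw [h]; linear_combination -h2
    have hδ₂1 : δ₂ = 1 := by rw [hδ₁1, one_mul] at hδ; exact hδ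
    have hXs : ∀ i j, X i j = X j i := fun i j => by simpa [hδ₁1] using hX' i j
    have hCs : ∀ i j, C i j = C j i := fun i j => by simpa [hδ₂1] using hC' i j
    by_cases hCd : ∃ i, C i i ≠ 0
    · obtain ⟨W, hW0, hW1, hW⟩ := exists_invariant_of_symm_factor h2 hb hX hC hr hΓ hCs hCd
      exact absurd (eq_top_of_invariant hirr hW0 fun g hg v hv =>
        hW g (hle hg) ⟨1, one_ne_zero, fun u v => by rw [one_mul]; exact hiso g hg u v⟩ v hv) hW1
    by_cases hXd : ∃ i, X i i ≠ 0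
    · obtain ⟨W, hW0, hW1, hW⟩ := exists_invariant_of_symm_factor h2 ha hC hX hr (Symp.pullGram_swap hΓ) hXs hXd
      exact absurd (eq_top_of_invariant hirr hW0 fun g hg v hv =>
        hW g (tensorProductSubgroup_comm e P (hle hg))
          ⟨1, one_ne_zero, fun u v => by rw [one_mul]; exact hiso g hg u v⟩ v hv) hW1
    push Not at hCd hXd
    obtain ⟨Q', hQ', hpol, hpure, hpres⟩ := exists_quad_of_alt_factors h2 hX hC hs hΓ hXs hXd hCs hCd
    have hQQ : ∀ v, Q' v = Q v := quad_eq_of_irred (by omega) hirr hQ hQ' hpol fun g hg v => by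
      obtain ⟨c, hc⟩ := hpres g (hle hg) ⟨1, one_ne_zero, fun u v => by rw [one_mul]; exact hiso g hg u v⟩
      have hc1 : (c : F) = 1 := by
        obtain ⟨x, y, hxy⟩ := IsNondegenerateForm.exists_ne (by omega) hQ'.nondegenerate
        refine mul_right_cancel₀ hxy ?_
        have h' : QuadraticMap.polar Q' ((g : Matrix ι ι F) *ᵥ x) ((g : Matrix ι ι F) *ᵥ y) =
            (c : F) * QuadraticMap.polar Q' x y := by
          simp only [QuadraticMap.polar, ← Matrix.mulVec_add, hc]; ring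
        rw [hpol, hiso g hg, ← hpol] at h'
        rw [one_mul]; exact h'.symm
      rw [hc v, hc1, one_mul, mem_isometryGroup.1 (hI hg)]
    exact halt (fun i j => by rw [hXs]; linear_combination X j i * h2) hXd
      (fun i j => by rw [hCs]; linear_combination C j i * h2) hCd
      fun x₁ x₂ => by rw [← hQQ]; exact hpure x₁ x₂

/-- An absolutely irreducible normal socle preimage. -/
theorem core_cases {P : Subgroup (GL ι F)} (hP : CfsgLib.Aschbacher.CoreData H P) : Outcome Q H := by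
  haveI : Nonempty ι := Fintype.card_pos_iff.1 (by omega)
  classical
  have hr := rform_polar hQ
  have hI : H ≤ Cfsg.isometryGroup F Q := hH.1.le.trans omegaGL_le
  have hfix : Geo.FixesForm (Geo.matrixSet P) (QuadraticMap.polar Q) := by
    rintro _ ⟨x, hx, rfl⟩ u v
    exact isometry_b hQ (hI (hP.le hx)) u v
  by_cases hreal : ∃ F₀ : Subfield F, F₀ ≠ ⊤ ∧ Geo.RealisableOver F₀ (Geo.matrixSet P)
  · obtain ⟨F₀, h0, B, hB⟩ := hreal
    obtain ⟨F₁, r, h01, hrp, hcardF, h1⟩ := exists_subfield_prime_index h0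
    have hB1 : ∀ s ∈ Geo.matrixSet P, ∀ i j, (B.val * s * (B⁻¹ : GL ι F).val) i j ∈ F₁ :=
      fun s hs i j => h01 (hB s hs i j)
    obtain ⟨i, j, hij⟩ : ∃ i j, QuadraticMap.polar Q ((B⁻¹ : GL ι F).val *ᵥ Pi.single i 1)
        ((B⁻¹ : GL ι F).val *ᵥ Pi.single j 1) ≠ 0 := by
      by_contra! hall
      obtain ⟨v, w, hvw⟩ := IsNondegenerateForm.exists_ne (by omega) hQ.nondegenerate
      apply hvw
      rw [← mulVec_inv_mulVec B⁻¹ v, ← mulVec_inv_mulVec B⁻¹ w, pi_eq_sum_univ' ((B⁻¹)⁻¹.val *ᵥ v),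
        pi_eq_sum_univ' ((B⁻¹)⁻¹.val *ᵥ w), Matrix.mulVec_sum, Matrix.mulVec_sum, hr.sesq.sum_left]
      refine Finset.sum_eq_zero fun a _ => ?_
      rw [hr.sesq.sum_right]
      refine Finset.sum_eq_zero fun b _ => ?_
      rw [Matrix.mulVec_smul, Matrix.mulVec_smul, hr.sesq.smul_left, hr.sesq.smul_right, hall, mul_zero,
        mul_zero]
    set ζ := (QuadraticMap.polar Q ((B⁻¹ : GL ι F).val *ᵥ Pi.single i 1)
      ((B⁻¹ : GL ι F).val *ᵥ Pi.single j 1))⁻¹ with hζ
    set M := (B⁻¹ : GL ι F).val with hM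
    have hb : ∀ u v : ι → F, (∀ a, u a ∈ F₁) → (∀ a, v a ∈ F₁) →
        ζ * QuadraticMap.polar Q (M *ᵥ u) (M *ᵥ v) ∈ F₁ := by
      intro u v hu hv
      rw [pi_eq_sum_univ' u, pi_eq_sum_univ' v, Matrix.mulVec_sum, Matrix.mulVec_sum, hr.sesq.sum_left,
        Finset.mul_sum]
      refine sum_mem fun a _ => ?_
      rw [hr.sesq.sum_right, Finset.mul_sum]
      refine sum_mem fun b _ => ?_
      rw [Matrix.mulVec_smul, Matrix.mulVec_smul, hr.sesq.smul_left, hr.sesq.smul_right, RingHom.id_apply]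
      have := CfsgLib.AschPrime.gram_ratio_mem (σ := RingHom.id F) (fun x hx => hx) hP.absIrred hr.sesq
        hQ.nondegenerate hfix hB1 hij a b
      rw [div_eq_inv_mul] at this
      convert F₁.mul_mem (F₁.mul_mem (hu a) (hv b)) this using 1
      ring
    refine Or.inr (Or.inr (Or.inr (Or.inr (Or.inr (Or.inr (Or.inr (Or.inr (Or.inr (Or.inl
      ⟨F₁, r, B⁻¹, ζ, hrp, hcardF, inv_ne_zero hij, ?_,
        eq_inf_of_le hH (le_subfieldSubgroup_of_realisable hP.absIrred hP.normal hB1)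
          (not_le_subfieldSubgroup hQ hn h1 _)⟩)))))))))
    -- the rational vectors with rational value
    let co : (ι → F₁) → (ι → F) := fun u a => (u a : F)
    let U : Submodule F₁ (ι → F₁) :=
      { carrier := {u | ζ * Q (M *ᵥ co u) ∈ F₁}
        add_mem' := fun {u v} hu hv => by
          show ζ * Q (M *ᵥ co (u + v)) ∈ F₁
          rw [show co (u + v) = co u + co v from rfl, Matrix.mulVec_add, q_add hQ, mul_add, mul_add]
          exact F₁.add_mem (F₁.add_mem hu hv) (hb _ _ (fun a => (u a).2) (fun a => (v a).2))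
        zero_mem' := by
          show ζ * Q (M *ᵥ co 0) ∈ F₁
          rw [show co 0 = 0 from rfl, Matrix.mulVec_zero, q_zero hQ, mul_zero]
          exact F₁.zero_mem
        smul_mem' := fun c u hu => by
          show ζ * Q (M *ᵥ co (c • u)) ∈ F₁
          rw [show co (c • u) = (c : F) • co u from rfl, Matrix.mulVec_smul, q_smul hQ, mul_left_comm]
          exact F₁.mul_mem (pow_mem c.2 2) hu }
    suffices hU : U = ⊤ by
      intro u hu
      exact (hU ▸ Submodule.mem_top : (fun a => (⟨u a, hu a⟩ : F₁)) ∈ U)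
    by_contra hU
    obtain ⟨φ, hφ0, hφ⟩ := Submodule.exists_le_ker_of_lt_top U (lt_top_iff_ne_top.2 hU)
    let c : ι → F := fun a => (φ (Pi.single a 1) : F)
    let W : Submodule F (ι → F) := Submodule.span F ((fun u => M *ᵥ co u) '' U)
    have hWtop : W ≠ ⊤ := by
      intro hW
      obtain ⟨a, ha⟩ : ∃ a, φ (Pi.single a 1) ≠ 0 := by
        by_contra! hall
        refine hφ0 (LinearMap.ext fun u => ?_)
        rw [pi_eq_sum_univ' u, map_sum, LinearMap.zero_apply]
        exact Finset.sum_eq_zero fun a _ => by rw [map_smul, hall, smul_zero]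
      let L : (ι → F) →ₗ[F] F := (∑ b, c b • LinearMap.proj b).comp (Matrix.toLin' B.val)
      have hL : W ≤ LinearMap.ker L := Submodule.span_le.2 (by
        rintro _ ⟨u, hu, rfl⟩
        show L (M *ᵥ co u) = 0
        have h0 : φ u = 0 := hφ hu
        rw [pi_eq_sum_univ' u, map_sum] at h0
        have h0' := congrArg (fun z : F₁ => (z : F)) h0
        simp only [map_smul, smul_eq_mul, AddSubmonoidClass.coe_finsetSum, MulMemClass.coe_mul,
          ZeroMemClass.coe_zero] at h0'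
        have hcancel : B.val *ᵥ (M *ᵥ co u) = co u := CfsgLib.Aschbacher.mulVec_inv_mulVec B (co u)
        simp only [L, LinearMap.comp_apply, Matrix.toLin'_apply, hcancel, LinearMap.sum_apply,
          LinearMap.smul_apply, LinearMap.proj_apply, smul_eq_mul, co, c]
        rw [← h0']
        exact Finset.sum_congr rfl fun b _ => mul_comm _ _)
      have hy : L (M *ᵥ Pi.single a 1) = c a := by
        have hcancel : B.val *ᵥ (M *ᵥ Pi.single a (1 : F)) = Pi.single a 1 :=
          CfsgLib.Aschbacher.mulVec_inv_mulVec B _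
        simp only [L, LinearMap.comp_apply, Matrix.toLin'_apply, hcancel, LinearMap.sum_apply,
          LinearMap.smul_apply, LinearMap.proj_apply, smul_eq_mul]
        rw [Finset.sum_eq_single a (fun b _ hba => by simp [hba]) (by simp)]
        simp
      have : L (M *ᵥ Pi.single a 1) = 0 := hL (hW ▸ Submodule.mem_top)
      exact ha (Subtype.ext (hy.symm.trans this))
    -- the matrices of `P` in the rational basis
    have hS : ∀ g ∈ P, ∀ u : ι → F₁, ∃ v : ι → F₁, (g : Matrix ι ι F) *ᵥ (M *ᵥ co u) = M *ᵥ co v := by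
      intro g hg u
      set S := B.val * g.val * M with hSdef
      refine ⟨fun a => ⟨(S *ᵥ co u) a, sum_mem fun b _ =>
        F₁.mul_mem (hB1 _ ⟨g, hg, rfl⟩ a b) (u b).2⟩, ?_⟩
      show _ = M *ᵥ (S *ᵥ co u)
      rw [hSdef, ← Matrix.mulVec_mulVec, ← Matrix.mulVec_mulVec]
      exact (CfsgLib.Aschbacher.inv_mulVec_mulVec B _).symm
    have hWinv : ∀ g ∈ P, ∀ v ∈ W, (g : Matrix ι ι F) *ᵥ v ∈ W := by
      intro g hg v hv
      refine Submodule.span_induction (fun x hx => ?_) ?_ (fun x y _ _ hx hy => ?_) (fun a x _ hx => ?_) hv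
      · obtain ⟨u, hu, rfl⟩ := hx
        obtain ⟨u', hu'⟩ := hS g hg u
        show (g : Matrix ι ι F) *ᵥ (M *ᵥ co u) ∈ W
        rw [hu']
        refine Submodule.subset_span ⟨u', ?_, rfl⟩
        show ζ * Q (M *ᵥ co u') ∈ F₁
        rw [← hu', mem_isometryGroup.1 (hI (hP.le hg))]
        exact hu
      · rw [Matrix.mulVec_zero]; exact W.zero_mem
      · rw [Matrix.mulVec_add]; exact W.add_mem hx hy
      · rw [Matrix.mulVec_smul]; exact W.smul_mem a hx
    -- some element of `P` moves some rational vector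
    obtain ⟨g, hg, a, hga⟩ : ∃ g ∈ P, ∃ a, (g : Matrix ι ι F) *ᵥ (M *ᵥ Pi.single a 1) ≠ M *ᵥ Pi.single a 1 := by
      by_contra! hall
      haveI : Nontrivial ι := Fintype.one_lt_card_iff_nontrivial.1 (by omega)
      have hone : ∀ g ∈ P, g.val = 1 := fun g hg => by
        have h : g.val * M = M := Matrix.ext_of_mulVec_single fun a => by
          rw [← Matrix.mulVec_mulVec]; exact hall g hg a
        calc g.val = g.val * (M * B.val) := by rw [hM, Units.inv_mul, mul_one]
          _ = M * B.val := by rw [← mul_assoc, h]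
          _ = 1 := by rw [hM, Units.inv_mul]
      obtain ⟨a⟩ := ‹Nonempty ι›
      have htop := eq_top_of_invariant hP.absIrred.1 (W := Submodule.span F {Pi.single a (1 : F)})
        (fun h => by
          have h1 : (Pi.single a (1 : F) : ι → F) = 0 :=
            (Submodule.eq_bot_iff _).1 h _ (Submodule.mem_span_singleton_self _)
          simpa using congrFun h1 a)
        fun g hg v hv => by rwa [hone g hg, Matrix.one_mulVec]
      have := congrArg (fun W : Submodule F (ι → F) => finrank F W) htop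
      simp only [finrank_top, finrank_fintype_fun_eq_card] at this
      have hle := finrank_span_singleton_le' (F := F) (Pi.single a (1 : F) : ι → F)
      omega
    have hW0 : W ≠ ⊥ := by
      intro hbot
      set e₀ : ι → F₁ := Pi.single a 1
      have hco : co e₀ = Pi.single a 1 := by
        funext b
        rcases eq_or_ne b a with rfl | h <;> simp [co, e₀, *]
      obtain ⟨v, hv⟩ := hS g hg e₀
      rw [hco] at hv
      have hmem : v - e₀ ∈ U := by
        show ζ * Q (M *ᵥ co (v - e₀)) ∈ F₁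
        rw [show co (v - e₀) = co v - co e₀ from rfl, hco, Matrix.mulVec_sub, ← hv, q_sub hQ,
          mem_isometryGroup.1 (hI (hP.le hg)), ← two_mul, ← b_self hQ, mul_sub, ← hco]
        refine F₁.sub_mem (hb _ _ (fun b => (e₀ b).2) (fun b => (e₀ b).2)) ?_
        rw [hco, hv, ← hco]
        exact hb _ _ (fun b => (v b).2) (fun b => (e₀ b).2)
      have : M *ᵥ co (v - e₀) = 0 := (Submodule.eq_bot_iff _).1 hbot _
        (Submodule.subset_span ⟨_, hmem, rfl⟩)
      rw [show co (v - e₀) = co v - co e₀ from rfl, hco, Matrix.mulVec_sub, ← hv, sub_eq_zero] at this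
      exact hga this
    exact hWtop (eq_top_of_invariant hP.absIrred.1 hW0 hWinv)
  refine Or.inr (Or.inr (Or.inr (Or.inr (Or.inr (Or.inr (Or.inr (Or.inr (Or.inr (Or.inr
    ⟨P, hP.isResidualCore fun F₀ h0 hh => hreal ⟨F₀, h0, hh⟩, ?_⟩)))))))))
  rintro ⟨σ, h, hh, hfixh⟩
  exact hreal (Symp.realisable_of_bilinear_unitary hQ.polar_bilinear hQ.nondegenerate hP.absIrred hfix hh hfixh)

omit hirr

/-- Aschbacher's reduction in even dimension at least eight, up to the symplectic-type and tensor-induced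
configurations. -/
theorem orth_even_maximal :
    Outcome Q H ∨ (∃ N r, CfsgLib.Aschbacher.AbelianData H N r) ∨
      ∃ d S, CfsgLib.Aschbacher.CommutingData H d S := by
  haveI : Nonempty ι := Fintype.card_pos_iff.1 (by omega)
  by_cases hirr : Geo.ActsIrreducibly (Geo.matrixSet H)
  swap
  · exact Or.inl (reducible_cases hQ hn hH hirr)
  by_cases hall : CfsgLib.Aschbacher.NormalsAbsIrred H
  · rcases CfsgLib.Aschbacher.normal_structure hall (not_le_scalars (by omega) hirr) with hA | hC | ⟨P, hP⟩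
    · exact Or.inr (Or.inl hA)
    · exact Or.inr (Or.inr hC)
    · exact Or.inl (core_cases hQ hn hH hirr hP)
  simp only [CfsgLib.Aschbacher.NormalsAbsIrred, not_forall] at hall
  obtain ⟨N, hNH, hn', hns, hna⟩ := hall
  have hr := rform_polar hQ
  have hI : H ≤ Cfsg.isometryGroup F Q := hH.1.le.trans omegaGL_le
  have hcl : Closed (QuadraticMap.polar Q) (algOf N) :=
    closed_adjoin hr fun g hg u v => isometry_b hQ (hI (hNH hg)) u v
  have hcomm : centreAlg (algOf N) ≠ ⊥ → Outcome Q H := fun hb =>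
    comm_cases hQ hn hH hirr centre_comm (hcl.centre hr) (normalises_algOf hn').centreAlg hb
  rcases ((normal_cases hirr hn').resolve_left hns).resolve_left hna with
    ⟨t, ⟨S⟩⟩ | ⟨r, hrp, -, -, hrd, -, -⟩ | ⟨d, k, e, P, hd, hk, hmem, hle⟩
  · refine Or.inl (hcomm fun hb => ?_)
    have h0 : (0 : ℕ) < t := by have := S.two_le; omega
    obtain ⟨c, hc⟩ := Algebra.mem_bot.1 (hb.le (S.mem ⟨0, h0⟩))
    have hid := S.idem ⟨0, h0⟩
    rw [← hc, ← map_mul] at hid
    rcases eq_or_ne c 0 with rfl | hc0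
    · exact S.ne_zero _ (by rw [← hc, map_zero])
    · have h1 : c = 1 := mul_left_cancel₀ hc0 (((algebraMap F (Matrix ι ι F)).injective hid).trans (mul_one c).symm)
      have := S.ortho ⟨0, h0⟩ ⟨1, S.two_le⟩ (by simp [Fin.ext_iff])
      rw [← hc, h1, map_one, one_mul] at this
      exact S.ne_zero _ this
  · refine Or.inl (hcomm fun hb => ?_)
    rw [hb, Subalgebra.finrank_bot] at hrd
    exact hrp.ne_one (Nat.dvd_one.1 hrd)
  · haveI : NeZero d := ⟨by omega⟩
    haveI : NeZero k := ⟨by omega⟩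
    obtain ⟨X, C, hX, hC, hΓ⟩ := exists_pullGram_eq_kronecker hr (e := e) (P := P) fun M => by
      obtain ⟨Y, hY, hadj⟩ := hcl _ ((hmem _).2 ⟨M, rfl⟩)
      obtain ⟨M', rfl⟩ := (hmem _).1 hY
      exact ⟨M', hadj⟩
    exact Or.inl (tensor_cases hQ hn hH hirr hd hk hX hC hΓ hle)

/-- The same when the dimension is neither a prime power nor a perfect power. -/
theorem orth_even_composite (hpp : ∀ r k : ℕ, r.Prime → Fintype.card ι ≠ r ^ k)
    (hpow : ∀ d k : ℕ, 2 ≤ k → Fintype.card ι ≠ d ^ k) : Outcome Q H := by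
  haveI : Nonempty ι := Fintype.card_pos_iff.1 (by omega)
  rcases orth_even_maximal hQ hn hH with h | ⟨N, r, hN⟩ | ⟨d, S, hS⟩
  · exact h
  · exfalso
    haveI : Fact r.Prime := ⟨hN.prime⟩
    have hp : IsPGroup r (N ⧸ (Geo.scalars ι F).subgroupOf N) := by
      intro q
      induction q using QuotientGroup.induction_on with
      | H x =>
        refine ⟨1, ?_⟩
        rw [pow_one, ← QuotientGroup.mk_pow, QuotientGroup.eq_one_iff, Subgroup.mem_subgroupOf]
        exact hN.pow_mem x x.2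
    obtain ⟨k, hk⟩ := IsPGroup.iff_card.1 hp
    rw [hN.card_eq] at hk
    obtain ⟨j, -, hj⟩ := (Nat.dvd_prime_pow hN.prime).1 (hk ▸ dvd_pow_self _ two_ne_zero)
    exact hpp r j hN.prime hj
  · exact absurd hS.card_eq (hpow d S.card hS.two_le_card)

end CfsgLib.Aschbacher.OrthEven
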