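import Cfsg.Agent.Aschbacher.OrthEvenTypes
import Cfsg.Agent.Aschbacher.OrthEvenCases
import Cfsg.Agent.Aschbacher.LinearCases
import Cfsg.Agent.Aschbacher.BinaryTensorPower
import Mathlib.FieldTheory.Finite.Extension

/-!
Configurations that force plus type in dimension eight: symplectic-type normal subgroups, tensor
cubes, rational structures over a subfield of index two.
-/

set_option autoImplicit false
set_option linter.unusedSectionVars false

namespace CfsgLib.Aschbacher.OrthEight

open Matrix Module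
open scoped Kronecker MatrixGroups
open Cfsg CfsgLib.OrthGeo CfsgLib.Aschbacher.Forms

variable {ι : Type} [Fintype ι] [DecidableEq ι] {F : Type*} [Field F] [Fintype F]
variable {Q : (ι → F) → F} (hQ : Geo.IsNondegenerateQuadraticForm Q)
include hQ

/-- A totally singular subspace of half the dimension gives plus type. -/
theorem plus_of_singular {U : Submodule F (ι → F)} (hU : Geo.IsTotallySingularQuad Q U)
    (hd : 2 * finrank F U = Fintype.card ι) : Geo.IsPlusTypeOn Q ⊤ :=
  ⟨U, le_top, hU, by rw [finrank_top, finrank_fintype_fun_eq_card, hd]⟩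

/-- A pair of isometric blocks of even dimension. -/
theorem plus_of_two {D : Fin 2 → Submodule F (ι → F)} {k : ℕ} (hk : Even k)
    (hcard : 2 * k = Fintype.card ι) (hD : Geo.IsOrthogonalMDecomposition Q k D) :
    Geo.IsPlusTypeOn Q ⊤ := by
  have hmd := hD.decomp.decomp
  obtain ⟨U, -, hU, hd⟩ := OrthEven.pair_singular hQ (hD.decomp.nondegenerate 0)
    (by rw [hmd.finrank_eq]; exact hk) (hD.isometric 0 1)
    (hmd.indep.pairwiseDisjoint (by decide : (0 : Fin 2) ≠ 1))
    (hD.decomp.orthogonal 0 1 (by decide))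
  exact plus_of_singular hQ hU (by rw [hd, hmd.finrank_eq, hcard])

/-- Four isometric planes. -/
theorem plus_of_four {D : Fin 4 → Submodule F (ι → F)} (hcard : Fintype.card ι = 8)
    (hD : Geo.IsOrthogonalMDecomposition Q 2 D) : Geo.IsPlusTypeOn Q ⊤ := by
  have hmd := hD.decomp.decomp
  have hpair : ∀ a b : Fin 4, a ≠ b → ∃ U ≤ D a ⊔ D b, Geo.IsTotallySingularQuad Q U ∧ finrank F U = 2 :=
    fun a b hab => by
      obtain ⟨U, h1, h2, h3⟩ := OrthEven.pair_singular hQ (hD.decomp.nondegenerate a)
        (by rw [hmd.finrank_eq]; exact even_two) (hD.isometric a b) (hmd.indep.pairwiseDisjoint hab)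
        (hD.decomp.orthogonal a b hab)
      exact ⟨U, h1, h2, by rw [h3, hmd.finrank_eq]⟩
  obtain ⟨U, hUle, hU, hUd⟩ := hpair 0 1 (by decide)
  obtain ⟨U', hUle', hU', hUd'⟩ := hpair 2 3 (by decide)
  have hdisj : Disjoint (D 0 ⊔ D 1) (D 2 ⊔ D 3) := by
    have h := hmd.indep.disjoint_biSup_biSup (show Disjoint ({0, 1} : Set (Fin 4)) {2, 3} by
      rw [Set.disjoint_iff]; rintro x ⟨h1, h2⟩
      simp only [Set.mem_insert_iff, Set.mem_singleton_iff] at h1 h2
      omega)
    rwa [iSup_insert, iSup_singleton, iSup_insert, iSup_singleton] at h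
  have hortho : ∀ a ∈ D 0 ⊔ D 1, ∀ b ∈ D 2 ⊔ D 3, bform hQ a b = 0 := by
    intro a ha b hb
    obtain ⟨a0, ha0, a1, ha1, rfl⟩ := Submodule.mem_sup.1 ha
    obtain ⟨b2, hb2, b3, hb3, rfl⟩ := Submodule.mem_sup.1 hb
    simp only [map_add, LinearMap.add_apply,
      show bform hQ a0 b2 = 0 from hD.decomp.orthogonal 0 2 (by decide) _ ha0 _ hb2,
      show bform hQ a0 b3 = 0 from hD.decomp.orthogonal 0 3 (by decide) _ ha0 _ hb3,
      show bform hQ a1 b2 = 0 from hD.decomp.orthogonal 1 2 (by decide) _ ha1 _ hb2,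
      show bform hQ a1 b3 = 0 from hD.decomp.orthogonal 1 3 (by decide) _ ha1 _ hb3, add_zero]
  obtain ⟨h1, -, h3⟩ := OrthEven.singular_sup hQ hdisj hortho hUle hUle' hU hU'
  exact plus_of_singular hQ h1 (by rw [h3, hUd, hUd', hcard])

/-- Eight isometric lines, odd characteristic. -/
theorem plus_of_eight (h2 : (2 : F) ≠ 0) {D : Fin 8 → Submodule F (ι → F)} (hcard : Fintype.card ι = 8)
    (hD : Geo.IsOrthogonalMDecomposition Q 1 D) : Geo.IsPlusTypeOn Q ⊤ := by
  have hmd := hD.decomp.decomp
  let l : Fin 2 → Fin 4 → Fin 8 := fun a i => ⟨4 * (a : ℕ) + i, by omega⟩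
  have hl : ∀ a, Function.Injective (l a) := fun a i j h => by
    simp only [l, Fin.mk.injEq] at h
    exact Fin.ext (by omega)
  obtain ⟨U, hUle, hU, hUd⟩ := OrthEven.four_singular hQ h2 hD (hl 0)
  obtain ⟨U', hUle', hU', hUd'⟩ := OrthEven.four_singular hQ h2 hD (hl 1)
  have hne : ∀ i j, l 0 i ≠ l 1 j := fun i j h => by
    simp [l, Fin.ext_iff] at h
    omega
  have hdisj : Disjoint (⨆ i, D (l 0 i)) (⨆ i, D (l 1 i)) := by
    have h := hmd.indep.disjoint_biSup_biSup (show Disjoint (Set.range (l 0)) (Set.range (l 1)) by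
      rw [Set.disjoint_iff]; rintro x ⟨⟨i, rfl⟩, j, hj⟩; exact hne i j hj.symm)
    rwa [iSup_range, iSup_range] at h
  have hortho : ∀ a ∈ ⨆ i, D (l 0 i), ∀ b ∈ ⨆ i, D (l 1 i), bform hQ a b = 0 := by
    intro a ha b hb
    have hle : (⨆ i, D (l 0 i)) ≤ LinearMap.ker ((bform hQ).flip b) := iSup_le fun i a ha => by
      have hle' : (⨆ i, D (l 1 i)) ≤ LinearMap.ker (bform hQ a) := iSup_le fun j b hb =>
        hD.decomp.orthogonal _ _ (hne i j) _ ha _ hb
      exact hle' hb
    exact hle ha
  obtain ⟨h1, -, h3⟩ := OrthEven.singular_sup hQ hdisj hortho hUle hUle' hU hU'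
  exact plus_of_singular hQ h1 (by rw [h3, hUd, hUd', hcard])

/-- An absolutely irreducible group of isometries with scalar commutators forces plus type. -/
theorem plus_of_scalar_commutators (hn : 4 ∣ Fintype.card ι) (hn8 : 8 ≤ Fintype.card ι)
    {N : Subgroup (GL ι F)} (hNI : N ≤ Cfsg.isometryGroup F Q)
    (habs : Geo.ActsAbsolutelyIrreducibly (Geo.matrixSet N))
    (hcomm : ∀ x ∈ N, ∀ y ∈ N, x * y * x⁻¹ * y⁻¹ ∈ Geo.scalars ι F) : Geo.IsPlusTypeOn Q ⊤ := by
  classical
  have hne : Nonempty ι := Fintype.card_pos_iff.1 (by omega)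
  have hsign : ∀ z ∈ N, z ∈ Geo.scalars ι F → z = 1 ∨ z = -1 := by
    intro z hz hs
    obtain ⟨c, hc⟩ := (Geo.mem_scalars_iff z).1 hs
    obtain ⟨v, w, hvw⟩ := IsNondegenerateForm.exists_ne (by omega) hQ.nondegenerate
    have h1 := isometry_b hQ (hNI hz) v w
    simp only [hc, Matrix.smul_mulVec, Matrix.one_mulVec, map_smul, LinearMap.smul_apply, smul_eq_mul,
      bform_apply, ← mul_assoc] at h1
    rcases mul_self_eq_one_iff.1 (mul_left_eq_self₀.1 h1 |>.resolve_right hvw) with e | e
    · exact Or.inl (Units.ext (by rw [hc, e, one_smul, Units.val_one]))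
    · exact Or.inr (Units.ext (by rw [hc, e, Units.val_neg, Units.val_one, neg_one_smul]))
  have hor : ∀ x ∈ N, ∀ y ∈ N, x * y = y * x ∨ x * y = -(y * x) := fun x hx y hy => by
    have e : x * y = x * y * x⁻¹ * y⁻¹ * (y * x) := by simp [mul_assoc]
    rcases hsign _ (mul_mem (mul_mem (mul_mem hx hy) (inv_mem hx)) (inv_mem hy)) (hcomm x hx y hy) with h1 | h1 <;>
      rw [h1] at e
    · exact Or.inl (by rwa [one_mul] at e)
    · exact Or.inr (by rwa [neg_one_mul] at e)
  have hsc : ∀ x ∈ N, (∀ y ∈ N, x * y = y * x) → x = 1 ∨ x = -1 :=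
    fun x hx h => hsign x hx (mem_scalars_of_commute habs h)
  have hsq : ∀ x ∈ N, x * x = 1 ∨ x * x = -1 := fun x hx => hsc _ (mul_mem hx hx) fun y hy => by
    rcases hor x hx y hy with e | e
    · rw [mul_assoc, e, ← mul_assoc, e, mul_assoc]
    · rw [mul_assoc, e, mul_neg, ← mul_assoc, e, neg_mul, neg_neg, mul_assoc]
  obtain ⟨x, hx, y, hy, hxy⟩ := exists_not_commute (by omega) habs
  have hanti := (hor x hx y hy).resolve_left hxy
  have h2 : (2 : F) ≠ 0 := fun h2 => hxy (by
    rw [hanti]
    refine Units.ext ?_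
    rw [Units.val_neg, ← neg_one_smul F, show (-1 : F) = 1 by linear_combination -h2, one_smul])
  -- a non-central involution
  obtain ⟨a, ha, ha1, b, hb, hab⟩ : ∃ a ∈ N, a * a = 1 ∧ ∃ b ∈ N, a * b = -(b * a) := by
    by_contra! hno
    have hnc : ∀ a ∈ N, a = 1 ∨ a = -1 ∨ a * a = -1 := fun a ha => by
      rcases hsq a ha with h | h
      · rcases hsc a ha (fun b hb => (hor a ha b hb).resolve_right (hno a ha h b hb)) with h' | h'
        exacts [Or.inl h', Or.inr (Or.inl h')]
      · exact Or.inr (Or.inr h)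
    have hx2 : x * x = -1 := by
      rcases hnc x hx with h | h | h
      · exact absurd (by rw [h, one_mul, mul_one]) hxy
      · exact absurd (by rw [h, neg_one_mul, mul_neg_one]) hxy
      · exact h
    have hcomm_x : ∀ z ∈ N, x * z = z * x → z = 1 ∨ z = -1 ∨ z = x ∨ z = -x := fun z hz e => by
      rcases hnc z hz with h | h | h
      · exact Or.inl h
      · exact Or.inr (Or.inl h)
      have hzz : x * z * (x * z) = 1 := by
        rw [mul_assoc, ← mul_assoc z x z, ← e, mul_assoc x z z, h, ← mul_assoc, hx2, neg_mul_neg, one_mul]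
      rcases hnc _ (mul_mem hx hz) with h' | h' | h'
      · refine Or.inr (Or.inr (Or.inr (mul_left_cancel (a := x) ?_)))
        rw [h', mul_neg, hx2, neg_neg]
      · refine Or.inr (Or.inr (Or.inl (mul_left_cancel (a := x) ?_)))
        rw [h', hx2]
      · exfalso
        rw [hzz] at h'
        have := congrArg (fun g : GL ι F => g.val) h'
        obtain ⟨i⟩ := hne
        have h11 := congrFun (congrFun this i) i
        simp at h11
        exact h2 (by linear_combination h11)
    let T : Finset (GL ι F) := [1, -1, x, -x, y, -y, x * y, -(x * y)].toFinset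
    have hsub : ∀ z ∈ N, z ∈ T := by
      intro z hz
      by_cases e : x * z = z * x
      · rcases hcomm_x z hz e with h | h | h | h <;> simp [T, h]
      · have ez := (hor x hx z hz).resolve_left e
        have hy2 : y * y = -1 := by
          rcases hnc y hy with h | h | h
          · exact absurd (by rw [h, one_mul, mul_one]) hxy
          · exact absurd (by rw [h, neg_one_mul, mul_neg_one]) hxy
          · exact h
        have he : x * (z * y) = z * y * x := by
          rw [← mul_assoc, ez, neg_mul, mul_assoc, hanti, mul_neg, neg_neg, mul_assoc]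
        have hzy : z = -((z * y) * y) := by rw [mul_assoc, hy2, mul_neg, mul_one, neg_neg]
        rcases hcomm_x _ (mul_mem hz hy) he with h | h | h | h <;> rw [h] at hzy <;>
          simp [T, hzy]
    have hcard : Nat.card N ≤ 8 := by
      have hle : (Set.Finite.toFinset (Set.toFinite (N : Set (GL ι F)))) ⊆ T := fun z hz =>
        hsub z (by simpa using hz)
      have := Finset.card_le_card hle
      rw [← Nat.card_eq_card_finite_toFinset] at this
      exact this.trans (List.toFinset_card_le _)
    have h1 := Subgroup.card_eq_card_quotient_mul_card_subgroup ((Geo.scalars ι F).subgroupOf N)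
    rw [card_quotient_scalars habs (fun x hx y hy => hcomm y hy x hx)] at h1
    have h3 : 0 < Nat.card ((Geo.scalars ι F).subgroupOf N) := Nat.card_pos
    nlinarith
  -- its eigenspaces
  have hinv : ∀ v, (a : Matrix ι ι F) *ᵥ ((a : Matrix ι ι F) *ᵥ v) = v := fun v => by
    rw [Matrix.mulVec_mulVec, ← Units.val_mul, ha1, Units.val_one, Matrix.one_mulVec]
  let E : F → Submodule F (ι → F) := fun s => LinearMap.ker (Matrix.toLin' (a : Matrix ι ι F) - s • LinearMap.id)
  have hE : ∀ s v, v ∈ E s ↔ (a : Matrix ι ι F) *ᵥ v = s • v := fun s v => by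
    simp [E, sub_eq_zero]
  have hne1 : (1 : F) ≠ -1 := fun h => h2 (by linear_combination h)
  have hdisj : Disjoint (E 1) (E (-1)) := by
    rw [Submodule.disjoint_def]
    intro v hv hv'
    rw [hE, one_smul] at hv
    rw [hE, hv] at hv'
    exact (smul_eq_zero.1 (show (2 : F) • v = 0 by
      rw [two_smul]; nth_rewrite 1 [hv']; rw [neg_one_smul, neg_add_cancel])).resolve_left h2
  have hsup : E 1 ⊔ E (-1) = ⊤ := by
    rw [eq_top_iff]
    intro v _
    refine Submodule.mem_sup.2 ⟨(2 : F)⁻¹ • (v + (a : Matrix ι ι F) *ᵥ v), ?_,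
      (2 : F)⁻¹ • (v - (a : Matrix ι ι F) *ᵥ v), ?_, ?_⟩
    · rw [hE, one_smul, Matrix.mulVec_smul, Matrix.mulVec_add, hinv, add_comm v]
    · rw [hE, Matrix.mulVec_smul, Matrix.mulVec_sub, hinv, neg_one_smul, ← smul_neg, neg_sub]
    · rw [← smul_add, add_add_sub_cancel, ← two_smul F v, smul_smul, inv_mul_cancel₀ h2, one_smul]
  have hortho : ∀ u ∈ E 1, ∀ v ∈ E (-1), bform hQ u v = 0 := fun u hu v hv => by
    have h := isometry_b hQ (hNI ha) u v
    rw [(hE 1 u).1 hu, (hE (-1) v).1 hv, one_smul, map_smul, neg_one_smul] at h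
    exact (mul_eq_zero.1 (show (2 : F) * bform hQ u v = 0 by linear_combination -h)).resolve_left h2
  have hmove : ∀ s, ∀ v ∈ E s, (b : Matrix ι ι F) *ᵥ v ∈ E (-s) := fun s v hv => by
    rw [hE, Matrix.mulVec_mulVec, ← Units.val_mul, hab, Units.val_neg, Units.val_mul, Matrix.neg_mulVec,
      ← Matrix.mulVec_mulVec, (hE s v).1 hv, Matrix.mulVec_smul, neg_smul]
  have hbinj : Function.Injective (Matrix.toLin' (b : Matrix ι ι F)) := toLin'_injective b
  have hle : ∀ s, finrank F (E s) ≤ finrank F (E (-s)) := fun s => by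
    rw [← LinearEquiv.finrank_eq (Submodule.equivMapOfInjective _ hbinj (E s)).symm]
    exact Submodule.finrank_mono (by rintro _ ⟨v, hv, rfl⟩; exact hmove s v hv)
  have hd : finrank F (E 1) + finrank F (E (-1)) = Fintype.card ι := by
    rw [← Submodule.finrank_sup_add_finrank_inf_eq, hsup, hdisj.eq_bot, finrank_bot, finrank_top,
      finrank_fintype_fun_eq_card, add_zero]
  have heq : finrank F (E 1) = finrank F (E (-1)) :=
    le_antisymm (hle 1) (by have h := hle (-1); rwa [neg_neg] at h)
  obtain ⟨m, hm⟩ := hn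
  have hev : Even (finrank F (E 1)) := ⟨m, by omega⟩
  have hnd : Geo.IsNondegenerateOn (QuadraticMap.polar Q) (E 1) := by
    intro w hw hw0
    obtain ⟨-, z, hz⟩ := hQ.nondegenerate w hw0
    obtain ⟨z1, hz1, z2, hz2, rfl⟩ := Submodule.mem_sup.1 (hsup.ge (Submodule.mem_top (x := z)))
    have hz' : bform hQ w z1 ≠ 0 := fun h => hz (by
      change bform hQ w (z1 + z2) = 0
      rw [map_add, h, hortho w hw z2 hz2, add_zero])
    exact ⟨⟨z1, hz1, by change bform hQ z1 w ≠ 0; rwa [b_symm hQ]⟩, z1, hz1, hz'⟩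
  have hmap : (E 1).map (Matrix.toLin' (b : Matrix ι ι F)) = E (-1) :=
    Submodule.eq_of_le_of_finrank_le (by rintro _ ⟨v, hv, rfl⟩; exact hmove 1 v hv)
      (by rw [← LinearEquiv.finrank_eq (Submodule.equivMapOfInjective _ hbinj (E 1)), heq])
  have hiso : Geo.AreIsometricFor Q (E 1) (E (-1)) :=
    ⟨(Submodule.equivMapOfInjective _ hbinj (E 1)).trans (LinearEquiv.ofEq _ _ hmap), fun w => by
      rw [LinearEquiv.trans_apply, LinearEquiv.coe_ofEq_apply, Submodule.coe_equivMapOfInjective_apply,
        Matrix.toLin'_apply]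
      exact mem_isometryGroup.1 (hNI hb) _⟩
  obtain ⟨U, -, hU, hUd⟩ := OrthEven.pair_singular hQ hnd hev hiso hdisj hortho
  exact plus_of_singular hQ hU (by omega)

/-- A tensor decomposition with singular pure tensors forces plus type when one factor is a plane. -/
theorem plus_of_pure {a b : ℕ} (ha : 2 ≤ a) (hb : 2 ≤ b) (hcard : a * b = Fintype.card ι) (h4 : a = 2 ∨ b = 2)
    (e : ι ≃ Fin a × Fin b) (P : GL ι F)
    (hpure : ∀ (x₁ : Fin a → F) (x₂ : Fin b → F),
      Q ((P : Matrix ι ι F) *ᵥ ((fun p : Fin a × Fin b => x₁ p.1 * x₂ p.2) ∘ e)) = 0) :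
    Geo.IsPlusTypeOn Q ⊤ := by
  rcases h4 with rfl | rfl
  · let L : (Fin b → F) →ₗ[F] (ι → F) :=
      { toFun := fun y => emb e P fun p => (Pi.single 0 1 : Fin 2 → F) p.1 * y p.2
        map_add' := fun y y' => by
          simp only [emb, ← Matrix.mulVec_add]; congr 1; funext i; simp [mul_add]
        map_smul' := fun c y => by
          simp only [emb, ← Matrix.mulVec_smul, RingHom.id_apply]; congr 1; funext i; simp [mul_left_comm] }
    have hinj : Function.Injective L := fun y y' h => by
      funext j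
      have := congrFun (emb_injective (e := e) (P := P) h) (0, j)
      simpa using this
    refine plus_of_singular hQ (U := LinearMap.range L) (by rintro _ ⟨y, rfl⟩; exact hpure _ _) ?_
    rw [LinearMap.finrank_range_of_inj hinj, finrank_fin_fun]
    omega
  · let L : (Fin a → F) →ₗ[F] (ι → F) :=
      { toFun := fun y => emb e P fun p => y p.1 * (Pi.single 0 1 : Fin 2 → F) p.2
        map_add' := fun y y' => by
          simp only [emb, ← Matrix.mulVec_add]; congr 1; funext i; simp [add_mul]
        map_smul' := fun c y => by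
          simp only [emb, ← Matrix.mulVec_smul, RingHom.id_apply]; congr 1; funext i; simp [mul_assoc] }
    have hinj : Function.Injective L := fun y y' h => by
      funext j
      have := congrFun (emb_injective (e := e) (P := P) h) (j, 0)
      simpa using this
    refine plus_of_singular hQ (U := LinearMap.range L) (by rintro _ ⟨y, rfl⟩; exact hpure _ _) ?_
    rw [LinearMap.finrank_range_of_inj hinj, finrank_fin_fun]
    omega

omit hQ

/-- A quadratic without root over the subfield of index two has a root. -/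
theorem exists_root_of_index_two {F₀ : Subfield F} (hcard : Fintype.card F = Nat.card F₀ ^ 2) {c : F₀}
    (hc : ∀ t : F₀, t ^ 2 + t + c ≠ 0) : ∃ t : F, t ^ 2 + t + (c : F) = 0 ∧ 2 * t + 1 ≠ 0 := by
  classical
  open Polynomial in
  let p : Polynomial F₀ := X ^ 2 + X + C c
  have hdeg : p.natDegree = 2 := by
    show (Polynomial.X ^ 2 + Polynomial.X + Polynomial.C c).natDegree = 2
    compute_degree!
  have hnr : ∀ t : F₀, ¬ p.IsRoot t := fun t h => hc t (by simpa [p, Polynomial.IsRoot] using h)
  have hp0 : p ≠ 0 := fun h => by simp [h] at hdeg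
  have hirr : Irreducible p := (Polynomial.irreducible_iff_roots_eq_zero_of_degree_le_three
    (by omega) (by omega)).2 (Multiset.eq_zero_iff_forall_notMem.2 fun t ht =>
      hnr t ((Polynomial.mem_roots hp0).1 ht))
  have hdvd := (hirr.natDegree_dvd_iff_dvd_X_pow_card_pow_sub_X (n := 2)).1 (by rw [hdeg])
  have hsplit : ((Polynomial.X ^ Fintype.card F - Polynomial.X : Polynomial F₀).map
      (algebraMap F₀ F)).Splits := (FiniteField.isSplittingField_sub F F₀).splits
  rw [hcard] at hsplit
  have hne : (Polynomial.X ^ (Nat.card F₀ ^ 2) - Polynomial.X : Polynomial F₀).map (algebraMap F₀ F) ≠ 0 := by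
    rw [← hcard, Polynomial.map_sub, Polynomial.map_pow, Polynomial.map_X]
    exact FiniteField.X_pow_card_sub_X_ne_zero F Fintype.one_lt_card
  have hps := hsplit.of_dvd hne (Polynomial.map_dvd _ hdvd)
  obtain ⟨t, ht⟩ := hps.exists_eval_eq_zero (by
    rw [Polynomial.degree_map, Polynomial.degree_eq_natDegree hp0, hdeg]; decide)
  have ht'' : t ^ 2 + t + algebraMap F₀ F c = 0 := by simpa [p, Polynomial.eval_map] using ht
  have ht' : t ^ 2 + t + (c : F) = 0 := ht''
  refine ⟨t, ht', fun h1 => ?_⟩
  have h20 : (2 : F) ≠ 0 := fun h => by rw [h, zero_mul, zero_add] at h1; exact one_ne_zero h1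
  have h20' : (2 : F₀) ≠ 0 := fun h => h20 (by simpa only [map_ofNat, map_zero] using congrArg F₀.subtype h)
  refine hc (-1 / 2) (Subtype.ext ?_)
  have : t = -1 / 2 := by field_simp; linear_combination h1
  rw [this] at ht'
  push_cast
  exact ht'

include hQ

/-- A rational structure over a subfield of index two forces plus type. -/
theorem plus_of_index_two {F₀ : Subfield F} (hcard : Fintype.card F = Nat.card F₀ ^ 2) {P : GL ι F}
    {ζ : F} (hζ : ζ ≠ 0) (hev : Even (Fintype.card ι))
    (hP : Geo.IsQuadFormRationalStructure (fun v => ζ * Q v) F₀ P) : Geo.IsPlusTypeOn Q ⊤ := by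
  classical
  let up : (ι → F₀) → (ι → F) := fun u i => (u i : F)
  let R : (ι → F₀) → F₀ := fun u => ⟨ζ * Q ((P : Matrix ι ι F) *ᵥ up u), hP _ fun i => (u i).2⟩
  have hRpol : ∀ u v, ((QuadraticMap.polar R u v : F₀) : F) =
      ζ * bform hQ ((P : Matrix ι ι F) *ᵥ up u) ((P : Matrix ι ι F) *ᵥ up v) := fun u v => by
    simp only [QuadraticMap.polar, AddSubgroupClass.coe_sub, R]
    rw [show up (u + v) = up u + up v from rfl, Matrix.mulVec_add, q_add hQ]
    ring
  have hsm : ∀ (a : F₀) u, up (a • u) = (a : F) • up u := fun a u => rfl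
  have hR : Geo.IsNondegenerateQuadraticForm R := by
    refine ⟨fun a u => Subtype.ext ?_, ⟨fun x y v => Subtype.ext ?_, fun a x v => Subtype.ext ?_,
      fun v x y => Subtype.ext ?_, fun a v x => Subtype.ext ?_⟩, ?_⟩
    · show ζ * Q _ = ((a : F) ^ 2) * (ζ * Q _)
      rw [hsm, Matrix.mulVec_smul, q_smul hQ]; ring
    · push_cast; rw [hRpol, hRpol, hRpol, show up (x + y) = up x + up y from rfl, Matrix.mulVec_add, map_add,
        LinearMap.add_apply]; ring
    · push_cast; rw [hRpol, hRpol, hsm, Matrix.mulVec_smul, map_smul, LinearMap.smul_apply, smul_eq_mul]; ring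
    · push_cast; rw [hRpol, hRpol, hRpol, show up (x + y) = up x + up y from rfl, Matrix.mulVec_add, map_add]; ring
    · push_cast; rw [hRpol, hRpol, hsm, Matrix.mulVec_smul, map_smul, smul_eq_mul]; ring
    · intro v hv
      obtain ⟨x, hx⟩ : ∃ x, QuadraticMap.polar R v x ≠ 0 := by
        by_contra! hall
        have hPv : (P : Matrix ι ι F) *ᵥ up v ≠ 0 := fun h => hv (funext fun i => Subtype.ext (by
          have := congrFun (mulVec_inj P (h.trans (Matrix.mulVec_zero _).symm)) i
          simpa [up] using this))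
        obtain ⟨-, z, hz⟩ := hQ.nondegenerate _ hPv
        apply hz
        change bform hQ _ z = 0
        rw [← mulVec_inv_mulVec P z, pi_eq_sum_univ' ((P⁻¹ : GL ι F).val *ᵥ z), Matrix.mulVec_sum, map_sum]
        refine Finset.sum_eq_zero fun i _ => ?_
        rw [Matrix.mulVec_smul, map_smul]
        have := congrArg Subtype.val (hall (Pi.single i 1))
        rw [hRpol, ZeroMemClass.coe_zero, mul_eq_zero] at this
        have e : up (Pi.single i 1) = Pi.single i (1 : F) := by
          funext j; simp only [up, Pi.single_apply]; split <;> simp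
        rw [e] at this
        rw [this.resolve_left hζ, smul_zero]
      exact ⟨⟨x, by rwa [QuadraticMap.polar_comm]⟩, x, hx⟩
  have htop : Geo.IsNondegenerateOn (QuadraticMap.polar R) ⊤ := fun w _ hw0 => by
    obtain ⟨⟨x, hx⟩, y, hy⟩ := hR.nondegenerate w hw0
    exact ⟨⟨x, trivial, hx⟩, y, trivial, hy⟩
  obtain ⟨r, e, f, W₀, hd, -, htype⟩ := OrthEven.exists_type_decomp hR htop
    (by rw [finrank_top, finrank_fintype_fun_eq_card]; exact hev)
  have hdim := hd.dim
  rw [finrank_top, finrank_fintype_fun_eq_card] at hdim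
  let im : (ι → F₀) → (ι → F) := fun u => (P : Matrix ι ι F) *ᵥ up u
  have hq : ∀ u, ζ * Q (im u) = (R u : F) := fun u => rfl
  have hb : ∀ u v, ζ * bform hQ (im u) (im v) = ((QuadraticMap.polar R u v : F₀) : F) := fun u v => (hRpol u v).symm
  have hq0 : ∀ u, R u = 0 → Q (im u) = 0 := fun u h =>
    (mul_eq_zero.1 ((hq u).trans (by rw [h]; rfl))).resolve_left hζ
  have hb0 : ∀ u v, QuadraticMap.polar R u v = 0 → bform hQ (im u) (im v) = 0 := fun u v h =>
    (mul_eq_zero.1 ((hb u v).trans (by rw [h]; rfl))).resolve_left hζ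
  have hef : ∀ i j, ζ * bform hQ (im (e i)) (im (f j)) = if i = j then 1 else 0 := fun i j => by
    rw [hb, show QuadraticMap.polar R (e i) (f j) = _ from hd.ef i j]
    split <;> rfl
  suffices key : ∀ {n : ℕ} (s : Fin n → ι → F) (_ : ∀ k, Q (s k) = 0) (_ : ∀ k l, bform hQ (s k) (s l) = 0)
      (_ : LinearIndependent F s), 2 * n = Fintype.card ι → Geo.IsPlusTypeOn Q ⊤ by
    rcases htype with ⟨h0, -⟩ | ⟨h2, -⟩
    · refine key (fun i => im (e i)) (fun i => hq0 _ (hd.qe i)) (fun i j => hb0 _ _ (hd.ee i j)) ?_ (by omega)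
      rw [Fintype.linearIndependent_iff]
      intro g hg i
      have h := congrArg (fun z => ζ * bform hQ z (im (f i))) hg
      simp only [map_sum, map_smul, LinearMap.sum_apply, LinearMap.smul_apply, map_zero, LinearMap.zero_apply,
        mul_zero, smul_eq_mul, Finset.mul_sum, mul_left_comm ζ, hef, mul_ite, mul_one] at h
      simpa using h
    · obtain ⟨v, w, hv, hw, -, -, hqv, hvw, hirr⟩ :=
        LinAlg.Witt.aniso_plane (OrthEven.qf hR) W₀ h2 hd.aniso hd.nondeg
      obtain ⟨t, ht, ht1⟩ := exists_root_of_index_two hcard hirr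
      have hvv : ζ * Q (im v) = 1 := by rw [hq, show R v = 1 from hqv]; rfl
      have hvw' : ζ * bform hQ (im v) (im w) = 1 := by rw [hb, show QuadraticMap.polar R v w = 1 from hvw]; rfl
      let x := t • im v + im w
      have hQx : Q x = 0 := by
        refine (mul_eq_zero.1 (?_ : ζ * Q x = 0)).resolve_left hζ
        rw [q_add hQ, q_smul hQ, map_smul, LinearMap.smul_apply, smul_eq_mul]
        have hc : ζ * Q (im w) = ((OrthEven.qf hR w : F₀) : F) := hq w
        linear_combination t ^ 2 * hvv + hc + t * hvw' + ht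
      have hxe : ∀ i, bform hQ (im (e i)) x = 0 := fun i => by
        simp only [x, map_add, map_smul, hb0 _ _ (hd.ew i v hv), hb0 _ _ (hd.ew i w hw), smul_zero, add_zero]
      have hxf : ∀ i, bform hQ x (im (f i)) = 0 := fun i => by
        rw [b_symm hQ]
        simp only [x, map_add, map_smul, hb0 _ _ (hd.fw i v hv), hb0 _ _ (hd.fw i w hw), smul_zero, add_zero]
      refine key (Fin.cons x fun i => im (e i)) ?_ ?_ ?_ (by omega)
      · intro k
        cases k using Fin.cases with
        | zero => simpa using hQx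
        | succ i => simpa using hq0 _ (hd.qe i)
      · intro k l
        cases k using Fin.cases with
        | zero =>
          cases l using Fin.cases with
          | zero => simp [b_self_eq_zero hQ hQx]
          | succ j => simp [b_symm hQ x, hxe]
        | succ i =>
          cases l using Fin.cases with
          | zero => simp [hxe]
          | succ j => simpa using hb0 _ _ (hd.ee i j)
      · rw [Fintype.linearIndependent_iff]
        intro g hg
        rw [Fin.sum_univ_succ] at hg
        simp only [Fin.cons_zero, Fin.cons_succ] at hg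
        have he : ∀ i : Fin r, g i.succ = 0 := fun i => by
          have h := congrArg (fun z => ζ * bform hQ z (im (f i))) hg
          simp only [map_add, map_sum, map_smul, LinearMap.add_apply, LinearMap.sum_apply,
            LinearMap.smul_apply, map_zero, LinearMap.zero_apply, mul_zero, smul_eq_mul, hxf, zero_add,
            Finset.mul_sum, mul_left_comm ζ, hef, mul_ite, mul_one] at h
          simpa using h
        have h0 : g 0 = 0 := by
          have h := congrArg (fun z => ζ * bform hQ z (im v)) hg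
          simp only [he, zero_smul, Finset.sum_const_zero, add_zero, map_smul, LinearMap.smul_apply, map_zero,
            LinearMap.zero_apply, mul_zero, smul_eq_mul, x, map_add, LinearMap.add_apply, b_self hQ] at h
          refine (mul_eq_zero.1 (show g 0 * (2 * t + 1) = 0 from ?_)).resolve_right ht1
          rw [b_symm hQ (im w)] at h
          linear_combination h - (g 0 * t * 2) * hvv - g 0 * hvw'
        intro k
        cases k using Fin.cases with
        | zero => exact h0
        | succ i => exact he i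
  intro n s hqs hbs hli hn
  exact plus_of_singular hQ (OrthEven.totallySingular_span hQ (S := Set.range s) (by rintro _ ⟨k, rfl⟩; exact hqs k)
    (by rintro _ ⟨k, rfl⟩ _ ⟨l, rfl⟩; exact hbs k l))
    (by rw [finrank_span_eq_card hli, Fintype.card_fin, hn])

/-- A group inside a binary tensor cube stabiliser, absolutely irreducible on commutators, forces plus
type. -/
theorem plus_of_cube {H : Subgroup (GL ι F)} (hI : H ≤ Cfsg.isometryGroup F Q)
    (hirr : Geo.ActsIrreducibly (Geo.matrixSet H))
    (hD : Geo.ActsAbsolutelyIrreducibly (Geo.matrixSet (⁅H, H⁆ : Subgroup (GL ι F))))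
    {e : ι ≃ (Fin 3 → Fin 2)} {P : GL ι F} (hle : H ≤ Geo.tensorWreathSubgroup 2 3 e P) :
    Geo.IsPlusTypeOn Q ⊤ := by
  classical
  have hne : Nonempty ι := ⟨e.symm fun _ => 0⟩
  have hcard : Fintype.card ι = 8 := by
    rw [Fintype.card_congr e, Fintype.card_fun, Fintype.card_fin, Fintype.card_fin]; norm_num
  by_cases h2 : (2 : F) = 0
  · have hs := OrthEven.symplectic_polar hQ h2
    obtain ⟨c, -, hΓ⟩ := Symp.powGram_eq_det hs hle (fun g hg u v => isometry_b hQ (hI hg) u v) hD
    obtain ⟨Q', hQ', hpol, hpure, hpres⟩ := Symp.binary_quad_pure hs (by norm_num) h2 hΓ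
    have hQQ : ∀ v, Q' v = Q v := OrthEven.quad_eq_of_irred (by omega) hirr hQ hQ' hpol fun g hg v => by
      obtain ⟨k, hk⟩ := hpres g (hle hg) fun u v => isometry_b hQ (hI hg) u v
      have hk1 : (k : F) = 1 := by
        obtain ⟨x, y, hxy⟩ := IsNondegenerateForm.exists_ne (by omega) hQ.nondegenerate
        refine mul_right_cancel₀ hxy ?_
        have h' : QuadraticMap.polar Q' (g.val *ᵥ x) (g.val *ᵥ y) = (k : F) * QuadraticMap.polar Q' x y := by
          simp only [QuadraticMap.polar, ← Matrix.mulVec_add, hk]; ring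
        rw [hpol, hpol, show QuadraticMap.polar Q (g.val *ᵥ x) (g.val *ᵥ y) = QuadraticMap.polar Q x y from
          isometry_b hQ (hI hg) x y] at h'
        rw [one_mul]; exact h'.symm
      rw [hk v, hk1, one_mul, mem_isometryGroup.1 (hI hg)]
    -- the vectors with first coordinate zero
    let S : (Fin 2 × Fin 2) → ι → F := fun p => powEmb e P (Pi.single ![0, p.1, p.2] 1)
    have hqS : ∀ p q : Fin 3 → Fin 2, p 0 = 0 → q 0 = 0 →
        bform hQ (powEmb e P (Pi.single p 1)) (powEmb e P (Pi.single q 1)) = 0 := fun p q hp hq => by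
      have := congrFun (congrFun hΓ p) q
      change bform hQ _ _ = _ at this
      rw [this, Matrix.smul_apply, kroneckerPow, Matrix.of_apply, Finset.prod_eq_zero (Finset.mem_univ 0)
        (by rw [hp, hq]; simp [detForm]), smul_zero]
    have hS0 : ∀ p : Fin 3 → Fin 2, Q (powEmb e P (Pi.single p 1)) = 0 := fun p => by
      have hsing : (Pi.single p (1 : F) : (Fin 3 → Fin 2) → F) =
          Symp.pureVec fun i => Pi.single (p i) 1 := by
        funext r
        rw [Symp.pureVec]
        by_cases hr : r = p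
        · subst hr; simp
        · obtain ⟨i, hi⟩ := Function.ne_iff.1 hr
          rw [Pi.single_eq_of_ne hr, Finset.prod_eq_zero (Finset.mem_univ i) (Pi.single_eq_of_ne hi _)]
      rw [hsing, ← hQQ]
      exact hpure _
    have hli : LinearIndependent F S := by
      rw [Fintype.linearIndependent_iff]
      intro g hg q
      have h := congrFun (congrArg (Symp.coords e P) hg) ![0, q.1, q.2]
      rw [show Symp.coords e P (0 : ι → F) = 0 by funext r; simp [Symp.coords],
        show Symp.coords e P (∑ p, g p • S p) = ∑ p, g p • Symp.coords e P (S p) by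
          funext r; simp [Symp.coords, Matrix.mulVec_sum, Matrix.mulVec_smul]] at h
      simp only [S, Symp.coords_powEmb, Finset.sum_apply, Pi.smul_apply, smul_eq_mul, Pi.zero_apply] at h
      rw [Finset.sum_eq_single q (fun p _ hp => by
        rw [Pi.single_eq_of_ne, mul_zero]
        intro h'
        exact hp (Prod.ext (congrFun h'.symm 1) (congrFun h'.symm 2))) (by simp), Pi.single_eq_same, mul_one] at h
      exact h
    exact plus_of_singular hQ (OrthEven.totallySingular_span hQ (S := Set.range S) (by rintro _ ⟨p, rfl⟩; exact hS0 _)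
      (by rintro _ ⟨p, rfl⟩ _ ⟨q, rfl⟩; exact hqS _ _ rfl rfl))
      (by rw [finrank_span_eq_card hli, Fintype.card_prod, Fintype.card_fin, hcard])
  · exfalso
    set G := tensorDetForm e P
    let fG : (ι → F) → (ι → F) → F := fun u v => u ⬝ᵥ (G *ᵥ v)
    have hbil : Geo.IsBilinearForm fG :=
      ⟨fun x y v => add_dotProduct x y _, fun c x v => smul_dotProduct c x _,
        fun v x y => by simp [fG, mulVec_add, dotProduct_add],
        fun c v x => by simp [fG, mulVec_smul, dotProduct_smul]⟩
    have hsim : H ≤ Geo.similarityGroup fG := fun g hg => by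
      obtain ⟨c, hc⟩ := tensorWreath_similitude (hle hg)
      refine ⟨c, fun u v => ?_⟩
      calc (g.val *ᵥ u) ⬝ᵥ G *ᵥ (g.val *ᵥ v) = u ⬝ᵥ (g.valᵀ * G * g.val) *ᵥ v := by
            rw [← mulVec_mulVec, ← mulVec_mulVec, dotProduct_mulVec u g.valᵀ, vecMul_transpose]
        _ = (c : F) * (u ⬝ᵥ G *ᵥ v) := by rw [hc, smul_mulVec, dotProduct_smul, smul_eq_mul]
    obtain ⟨k, hk⟩ := exists_eq_mul_of_fixes hD (IsSesquiForm.of_bilinear hQ.polar_bilinear)
      (IsSesquiForm.of_bilinear hbil) hQ.nondegenerate
      (Symp.commutator_fixes (H := H) fun g hg => ⟨1, fun u v => by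
        rw [Units.val_one, one_mul]; exact isometry_b hQ (hI hg) u v⟩)
      (Symp.commutator_fixes hsim)
    let p : Fin 3 → Fin 2 := fun _ => 0
    let q : Fin 3 → Fin 2 := fun _ => 1
    have hpq : fG (powEmb e P (Pi.single p 1)) (powEmb e P (Pi.single q 1)) = 1 ∧
        fG (powEmb e P (Pi.single q 1)) (powEmb e P (Pi.single p 1)) = -1 := by
      constructor <;>
      · show _ ⬝ᵥ (G *ᵥ _) = _
        rw [Symp.detForm_powEmb, single_dotProduct, one_mul, Matrix.mulVec_single_one]
        simp [kroneckerPow, detForm, p, q, Fin.prod_univ_three]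
    rw [hk, hk, QuadraticMap.polar_comm] at hpq
    exact h2 (by linear_combination hpq.2 - hpq.1)

end CfsgLib.Aschbacher.OrthEight
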