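import Mathlib
import Cfsg.Agent.AschPrime.OrthMembers
import Cfsg.Agent.OrthGeo.Parity
import Cfsg.Agent.LinAlg.Witt.Mat
import Cfsg.Agent.LinAlg.Witt.Decomp
import Cfsg.Agent.Classical.Orth.Omega

/-!
Types of non-degenerate subspaces of even dimension: isometry, sums and totally singular halves.
-/

set_option autoImplicit false
set_option linter.unusedSectionVars false

namespace CfsgLib.Aschbacher.OrthEven

open Matrix Cfsg Module CfsgLib.OrthGeo

section Field

variable {F : Type*} [Field F] [Finite F]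

omit [Finite F] in
theorem sq_add_self_hom (h2 : (2 : F) = 0) (x y : F) : (x + y) ^ 2 + (x + y) = (x ^ 2 + x) + (y ^ 2 + y) := by
  linear_combination x * y * h2

/-- Two Artin-Schreier non-values have a value as sum. -/
theorem exists_sq_add_self (h2 : (2 : F) = 0) {a b : F} (ha : ∀ t : F, t ^ 2 + t + a ≠ 0)
    (hb : ∀ t : F, t ^ 2 + t + b ≠ 0) : ∃ s : F, s ^ 2 + s = a + b := by
  classical
  let φ : F →+ F := AddMonoidHom.mk' (fun t => t ^ 2 + t) (sq_add_self_hom h2)
  have hker : Nat.card φ.ker = 2 := by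
    rw [Nat.card_eq_two_iff]
    refine ⟨0, ⟨1, by show (1 : F) ^ 2 + 1 = 0; linear_combination h2⟩,
      fun h => zero_ne_one (congrArg Subtype.val h), ?_⟩
    refine Set.eq_univ_of_forall fun ⟨x, hx⟩ => ?_
    have hx' : x ^ 2 + x = 0 := hx
    rcases mul_eq_zero.1 (show x * (x + 1) = 0 by linear_combination hx') with h | h
    · exact Or.inl (Subtype.ext h)
    · exact Or.inr (Subtype.ext (by linear_combination h - h2))
  have hidx : φ.range.index = 2 := by
    have h1 := AddSubgroup.index_mul_card φ.range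
    have h2' := AddSubgroup.index_mul_card φ.ker
    rw [hker, AddSubgroup.index_ker] at h2'
    rw [← h2', mul_comm (Nat.card φ.range) 2] at h1
    exact Nat.eq_of_mul_eq_mul_right Nat.card_pos h1
  have hnot : ∀ c : F, (∀ t : F, t ^ 2 + t + c ≠ 0) → c ∉ φ.range := by
    rintro c hc ⟨t, ht⟩
    have ht' : t ^ 2 + t = c := ht
    exact hc t (by linear_combination ht' + c * h2)
  obtain ⟨s, hs⟩ : a + b ∈ φ.range :=
    (AddSubgroup.add_mem_iff_of_index_two hidx).2 (iff_of_false (hnot a ha) (hnot b hb))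
  exact ⟨s, hs⟩

variable {V : Type*} [AddCommGroup V] [Module F V] [FiniteDimensional F V]

/-- Any two anisotropic non-degenerate planes, for any two forms, are isometric. -/
theorem plane_match (q q' : QuadraticForm F V) {W W' : Submodule F V} (hW : finrank F W = 2)
    (hW' : finrank F W' = 2) (han : ∀ w ∈ W, q w = 0 → w = 0) (han' : ∀ w ∈ W', q' w = 0 → w = 0)
    (hnd : ∀ w ∈ W, (∀ w' ∈ W, QuadraticMap.polar q w w' = 0) → w = 0)
    (hnd' : ∀ w ∈ W', (∀ w' ∈ W', QuadraticMap.polar q' w w' = 0) → w = 0) :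
    ∃ v w v' w' : V, (v ∈ W ∧ w ∈ W ∧ LinearIndependent F ![v, w] ∧ W ≤ Submodule.span F {v, w}) ∧
      (v' ∈ W' ∧ w' ∈ W' ∧ LinearIndependent F ![v', w'] ∧ W' ≤ Submodule.span F {v', w'}) ∧
      q v = q' v' ∧ q w = q' w' ∧ QuadraticMap.polar q v w = QuadraticMap.polar q' v' w' := by
  classical
  letI := Fintype.ofFinite F
  obtain ⟨v, w, hv, hw, hli, hspan, hqv, hvw, hirr⟩ := LinAlg.Witt.aniso_plane q W hW han hnd
  obtain ⟨v', w₀, hv', hw₀, hli', hspan', hqv', hvw', hirr'⟩ := LinAlg.Witt.aniso_plane q' W' hW' han' hnd'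
  obtain ⟨α, β, hα, h1, hval⟩ : ∃ α β : F, α ≠ 0 ∧ α + 2 * β = 1 ∧
      α ^ 2 * q' w₀ + α * β + β ^ 2 = q w := by
    by_cases h2 : (2 : F) = 0
    · obtain ⟨s, hs⟩ := exists_sq_add_self h2 hirr hirr'
      exact ⟨1, s, one_ne_zero, by rw [h2, zero_mul, add_zero],
        by linear_combination hs + q' w₀ * h2⟩
    · have hns : ∀ c : F, (∀ t : F, t ^ 2 + t + c ≠ 0) → ¬ IsSquare (1 - 4 * c) := by
        rintro c hc ⟨s, hs⟩
        refine hc ((s - 1) / 2) ?_
        field_simp
        linear_combination -hs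
      have h4 : (1 - 4 * q' w₀) ≠ 0 := fun h => hns _ hirr' (h ▸ IsSquare.zero)
      obtain ⟨s, hs⟩ := Classical.Orth.isSquare_mul_of_not (hns _ hirr) (hns _ hirr')
      set α := s / (1 - 4 * q' w₀) with hα
      have hα2 : α ^ 2 * (1 - 4 * q' w₀) = 1 - 4 * q w := by
        rw [hα]; field_simp; linear_combination -hs
      refine ⟨α, (1 - α) / 2, fun h => ?_, by field_simp; ring, ?_⟩
      · rw [h, zero_pow two_ne_zero, zero_mul] at hα2
        exact hns _ hirr (hα2 ▸ IsSquare.zero)
      · field_simp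
        linear_combination -hα2
  refine ⟨v, w, v', α • w₀ + β • v', ⟨hv, hw, hli, hspan⟩,
    ⟨hv', W'.add_mem (W'.smul_mem _ hw₀) (W'.smul_mem _ hv'), ?_, fun x hx => ?_⟩, by rw [hqv, hqv'], ?_, ?_⟩
  · rw [LinearIndependent.pair_iff] at hli' ⊢
    intro s t hst
    have h := hli' (s + t * β) (t * α) (by rw [← hst]; module)
    have ht : t = 0 := (mul_eq_zero.1 h.2).resolve_right hα
    exact ⟨by rw [ht, zero_mul, add_zero] at h; exact h.1, ht⟩
  · obtain ⟨a, b, rfl⟩ := Submodule.mem_span_pair.1 (hspan' hx)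
    refine Submodule.mem_span_pair.2 ⟨a - b * α⁻¹ * β, b * α⁻¹, ?_⟩
    rw [smul_add, smul_smul, smul_smul, mul_assoc b α⁻¹ α, inv_mul_cancel₀ hα, mul_one, sub_smul]
    abel
  · rw [QuadraticMap.map_add (f := ⇑q'), QuadraticMap.map_smul, QuadraticMap.map_smul,
      QuadraticMap.polar_smul_left, QuadraticMap.polar_smul_right, QuadraticMap.polar_comm _ w₀ v', hvw', hqv']
    simp only [smul_eq_mul]
    linear_combination -hval
  · rw [hvw, QuadraticMap.polar_add_right, QuadraticMap.polar_smul_right, QuadraticMap.polar_smul_right, hvw',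
      QuadraticMap.polar_self, hqv']
    simp only [smul_eq_mul, mul_one]
    linear_combination -h1

end Field

variable {ι : Type} [Fintype ι] [DecidableEq ι] {F : Type*} [Field F] [Finite F] {Q : (ι → F) → F}
variable (hQ : Geo.IsNondegenerateQuadraticForm Q)

/-- The quadratic form as a bundled map. -/
noncomputable abbrev qf : QuadraticForm F (ι → F) := LinAlg.Witt.quadOfFun Q hQ.smul hQ.polar_bilinear

include hQ

/-- A span of mutually orthogonal singular vectors is totally singular. -/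
theorem totallySingular_span {S : Set (ι → F)} (hq : ∀ x ∈ S, Q x = 0)
    (hb : ∀ x ∈ S, ∀ y ∈ S, bform hQ x y = 0) : Geo.IsTotallySingularQuad Q (Submodule.span F S) := by
  have hle : Submodule.span F S ≤ perp hQ (Submodule.span F S) := by
    refine Submodule.span_le.2 fun y hy => ?_
    show y ∈ perp hQ (Submodule.span F S)
    rw [mem_perp hQ]
    intro w hw
    have : Submodule.span F S ≤ LinearMap.ker ((bform hQ).flip y) :=
      Submodule.span_le.2 fun x hx => hb x hx y hy
    exact this hw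
  intro w hw
  induction hw using Submodule.span_induction with
  | mem x hx => exact hq x hx
  | zero => exact q_zero hQ
  | add x y hx hy hx' hy' => rw [q_add hQ, hx', hy', (mem_perp hQ).1 (hle hy) x hx, add_zero, add_zero]
  | smul c x _ hx' => rw [q_smul hQ, hx', mul_zero]

/-- Two orthogonal totally singular subspaces of disjoint spaces add up. -/
theorem singular_sup {A B U U' : Submodule F (ι → F)} (hd : Disjoint A B)
    (ho : ∀ a ∈ A, ∀ b ∈ B, bform hQ a b = 0) (hUA : U ≤ A) (hUB : U' ≤ B)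
    (hU : Geo.IsTotallySingularQuad Q U) (hU' : Geo.IsTotallySingularQuad Q U') :
    Geo.IsTotallySingularQuad Q (U ⊔ U') ∧ U ⊔ U' ≤ A ⊔ B ∧
      finrank F ↥(U ⊔ U') = finrank F U + finrank F U' := by
  refine ⟨fun x hx => ?_, sup_le_sup hUA hUB, ?_⟩
  · obtain ⟨a, ha, b, hb, rfl⟩ := Submodule.mem_sup.1 hx
    rw [q_add hQ, hU a ha, hU' b hb, ho a (hUA ha) b (hUB hb), add_zero, add_zero]
  · rw [← Submodule.finrank_sup_add_finrank_inf_eq, (hd.mono hUA hUB).eq_bot, finrank_bot, add_zero]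

omit [Finite F] in
theorem nondeg_iff_polar {W : Submodule F (ι → F)} (hW : Geo.IsNondegenerateOn (QuadraticMap.polar Q) W) :
    ∀ w ∈ W, (∀ w' ∈ W, QuadraticMap.polar (qf hQ) w w' = 0) → w = 0 := fun w hw h => by
  by_contra h0
  obtain ⟨-, x, hx, hwx⟩ := hW w hw h0
  exact hwx (h x hx)

/-- Hyperbolic pairs and an anisotropic core of dimension zero or two; the subspace is of plus type exactly
when the core is trivial. -/
theorem exists_type_decomp {W : Submodule F (ι → F)} (hW : Geo.IsNondegenerateOn (QuadraticMap.polar Q) W)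
    (hev : Even (finrank F W)) :
    ∃ (r : ℕ) (e f : Fin r → ι → F) (W₀ : Submodule F (ι → F)), LinAlg.Witt.IsWittDecomp (qf hQ) W e f W₀ ∧
      LinearIndependent F e ∧
      ((finrank F W₀ = 0 ∧ Geo.IsPlusTypeOn Q W) ∨ (finrank F W₀ = 2 ∧ ¬ Geo.IsPlusTypeOn Q W)) := by
  obtain ⟨r, e, f, W₀, hd⟩ := LinAlg.Witt.exists_wittDecomp (qf hQ) _ W le_rfl (nondeg_iff_polar hQ hW)
  have hli : LinearIndependent F e := Fintype.linearIndependent_iff.2 fun g hg i => by
    have := congrArg (fun x => bform hQ x (f i)) hg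
    simp only [map_sum, map_smul, LinearMap.sum_apply, LinearMap.smul_apply, map_zero, LinearMap.zero_apply,
      smul_eq_mul] at this
    rw [Finset.sum_eq_single i (fun j _ hj => by
      rw [show bform hQ (e j) (f i) = 0 from (hd.ef j i).trans (if_neg hj), mul_zero]) (by simp),
      show bform hQ (e i) (f i) = 1 from (hd.ef i i).trans (if_pos rfl), mul_one] at this
    exact this
  set E := Submodule.span F (Set.range e)
  have hE : Geo.IsTotallySingularQuad Q E := totallySingular_span hQ (by rintro _ ⟨i, rfl⟩; exact hd.qe i)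
    (by rintro _ ⟨i, rfl⟩ _ ⟨j, rfl⟩; exact hd.ee i j)
  have hEd : finrank F E = r := (finrank_span_eq_card hli).trans (Fintype.card_fin r)
  have h2 := LinAlg.Witt.finrank_le_two_of_aniso (qf hQ) W₀ hd.aniso
  have hdim := hd.dim
  obtain ⟨j, hj⟩ := hev
  obtain h0 | h0 : finrank F W₀ = 0 ∨ finrank F W₀ = 2 := by omega
  · exact ⟨r, e, f, W₀, hd, hli, Or.inl ⟨h0, E, Submodule.span_le.2 (by rintro _ ⟨i, rfl⟩; exact hd.e_mem i),
      hE, by omega⟩⟩
  refine ⟨r, e, f, W₀, hd, hli, Or.inr ⟨h0, ?_⟩⟩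
  rintro ⟨U, hUW, hU, hUd⟩
  -- what is orthogonal to the singular part and singular lies in it
  have hkey : U ⊓ perp hQ E ≤ U ⊓ E := by
    rintro u ⟨huU, huE⟩
    refine ⟨huU, ?_⟩
    obtain ⟨p, hp, w, hw, rfl⟩ := Submodule.mem_sup.1 (hd.span (hUW huU))
    rw [Submodule.span_union, Submodule.mem_sup] at hp
    obtain ⟨a, ha, b, hb, rfl⟩ := hp
    obtain ⟨c, hc⟩ := (Submodule.mem_span_range_iff_exists_fun F).1 hb
    have hb0 : b = 0 := by
      rw [← hc]
      refine Finset.sum_eq_zero fun i _ => ?_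
      have h := (mem_perp hQ).1 huE (e i) (Submodule.subset_span ⟨i, rfl⟩)
      rw [map_add, map_add, ← hc, map_sum, Finset.sum_eq_single i (fun k _ hk => by
        rw [map_smul, show bform hQ (e i) (f k) = 0 from (hd.ef i k).trans (if_neg (Ne.symm hk)), smul_zero])
        (by simp), show bform hQ (e i) a = 0 from le_perp_self hQ hE ha (e i) (Submodule.subset_span ⟨i, rfl⟩),
        map_smul, show bform hQ (e i) (f i) = 1 from (hd.ef i i).trans (if_pos rfl),
        show bform hQ (e i) w = 0 from hd.ew i w hw, smul_eq_mul, zero_add, add_zero, mul_one] at h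
      rw [h, zero_smul]
    have haw : bform hQ a w = 0 := by
      have : E ≤ LinearMap.ker ((bform hQ).flip w) :=
        Submodule.span_le.2 (by rintro _ ⟨i, rfl⟩; exact hd.ew i w hw)
      exact this ha
    have hQw := hU _ huU
    rw [hb0, add_zero, q_add hQ, hE a ha, haw, zero_add, add_zero] at hQw
    rw [hb0, add_zero, hd.aniso w hw hQw, add_zero]
    exact ha
  have h1 := Submodule.finrank_sup_add_finrank_inf_eq U (perp hQ E)
  have h2 := Submodule.finrank_mono hkey
  have h3 : finrank F ↥(U ⊔ perp hQ E) ≤ finrank F ↥(perp hQ (U ⊓ E)) :=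
    Submodule.finrank_mono (sup_le ((le_perp_self hQ hU).trans (perp_anti hQ inf_le_left))
      (perp_anti hQ inf_le_right))
  have h4 := finrank_perp_add hQ (U ⊓ E)
  have h5 := finrank_perp_add hQ E
  omega

/-- Subspaces of the same even dimension and type are isometric. -/
theorem isometric_of_type {W W' : Submodule F (ι → F)} (hW : Geo.IsNondegenerateOn (QuadraticMap.polar Q) W)
    (hW' : Geo.IsNondegenerateOn (QuadraticMap.polar Q) W') (hev : Even (finrank F W))
    (hd : finrank F W' = finrank F W) (ht : Geo.IsPlusTypeOn Q W ↔ Geo.IsPlusTypeOn Q W') :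
    Geo.AreIsometricFor Q W W' := by
  obtain ⟨r, e, f, W₀, hD, -, htype⟩ := exists_type_decomp hQ hW hev
  obtain ⟨r', e', f', W₀', hD', -, htype'⟩ := exists_type_decomp hQ hW' (hd ▸ hev)
  have hdim := hD.dim
  have hdim' := hD'.dim
  -- matched bases of the cores
  obtain ⟨c, z, z', hc, hz, hz', hspan, hspan', hzq, hzb⟩ : ∃ (c : ℕ) (z z' : Fin c → ι → F),
      finrank F W₀ = c ∧ (∀ i, z i ∈ W₀) ∧ (∀ i, z' i ∈ W₀') ∧ W₀ ≤ Submodule.span F (Set.range z) ∧
      W₀' ≤ Submodule.span F (Set.range z') ∧ (∀ i, Q (z i) = Q (z' i)) ∧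
      ∀ i j, bform hQ (z i) (z j) = bform hQ (z' i) (z' j) := by
    rcases htype with ⟨h0, hp⟩ | ⟨h2, hp⟩ <;> rcases htype' with ⟨h0', hp'⟩ | ⟨h2', hp'⟩
    · exact ⟨0, Fin.elim0, Fin.elim0, h0, fun i => i.elim0, fun i => i.elim0,
        (Submodule.finrank_eq_zero.1 h0).le.trans bot_le, (Submodule.finrank_eq_zero.1 h0').le.trans bot_le,
        fun i => i.elim0, fun i => i.elim0⟩
    · exact absurd (ht.1 hp) hp'
    · exact absurd (ht.2 hp') hp
    · obtain ⟨v, w, v', w', ⟨hv, hw, -, hs⟩, ⟨hv', hw', -, hs'⟩, e1, e2, e3⟩ :=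
        plane_match (qf hQ) (qf hQ) h2 h2' hD.aniso hD'.aniso hD.nondeg hD'.nondeg
      have hb : bform hQ v w = bform hQ v' w' := e3
      refine ⟨2, ![v, w], ![v', w'], h2, Fin.forall_fin_two.2 ⟨hv, hw⟩, Fin.forall_fin_two.2 ⟨hv', hw'⟩,
        by rwa [Matrix.range_cons_cons_empty], by rwa [Matrix.range_cons_cons_empty],
        Fin.forall_fin_two.2 ⟨e1, e2⟩, ?_⟩
      have hvv : bform hQ v v = bform hQ v' v' := by rw [b_self hQ, b_self hQ, show Q v = Q v' from e1]
      have hww : bform hQ w w = bform hQ w' w' := by rw [b_self hQ, b_self hQ, show Q w = Q w' from e2]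
      have hb' : bform hQ w v = bform hQ w' v' := by rw [b_symm hQ w v, b_symm hQ w' v', hb]
      exact Fin.forall_fin_two.2 ⟨Fin.forall_fin_two.2 ⟨hvv, hb⟩, Fin.forall_fin_two.2 ⟨hb', hww⟩⟩
  have hrr : r' = r := by
    rcases htype with ⟨h0, hp⟩ | ⟨h0, hp⟩ <;> rcases htype' with ⟨h0', hp'⟩ | ⟨h0', hp'⟩
    · omega
    · exact absurd (ht.1 hp) hp'
    · exact absurd (ht.2 hp') hp
    · omega
  subst hrr
  let a := Sum.elim (Sum.elim e f) z
  let a' := Sum.elim (Sum.elim e' f') z'
  have hspan2 : ∀ {U U₀ : Submodule F (ι → F)} {x y : Fin r' → ι → F} {s : Fin c → ι → F},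
      LinAlg.Witt.IsWittDecomp (qf hQ) U x y U₀ → (∀ i, s i ∈ U₀) → U₀ ≤ Submodule.span F (Set.range s) →
      Submodule.span F (Set.range (Sum.elim (Sum.elim x y) s)) = U := by
    intro U U₀ x y s hU hs hs'
    refine le_antisymm (Submodule.span_le.2 ?_) (hU.span.trans ?_)
    · rintro _ ⟨((i | i) | i), rfl⟩
      exacts [hU.e_mem i, hU.f_mem i, hU.le (hs i)]
    · rw [Set.Sum.elim_range, Set.Sum.elim_range, Submodule.span_union _ (Set.range s)]
      exact sup_le_sup le_rfl hs'
  have hA := hspan2 hD hz hspan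
  have hA' := hspan2 hD' hz' hspan'
  have hli : LinearIndependent F a := linearIndependent_iff_card_eq_finrank_span.2 (by
    rw [Set.finrank, hA, Fintype.card_sum, Fintype.card_sum, Fintype.card_fin, Fintype.card_fin, ← hdim, hc]
    ring)
  have hli' : LinearIndependent F a' := linearIndependent_iff_card_eq_finrank_span.2 (by
    rw [Set.finrank, hA', Fintype.card_sum, Fintype.card_sum, Fintype.card_fin, Fintype.card_fin, hd, ← hdim, hc]
    ring)
  obtain ⟨g, hg, hga⟩ := LinAlg.Witt.exists_quadFun_family hQ (a := a) (b := a') hli hli'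
    (by
      rintro ((i | i) | i)
      exacts [(hD.qe i).trans (hD'.qe i).symm, (hD.qf i).trans (hD'.qf i).symm, hzq i])
    (by
      show ∀ s t, bform hQ (a s) (a t) = bform hQ (a' s) (a' t)
      rintro ((i | i) | i) ((j | j) | j)
      · exact (hD.ee i j).trans (hD'.ee i j).symm
      · exact (hD.ef i j).trans (hD'.ef i j).symm
      · exact (hD.ew i _ (hz j)).trans (hD'.ew i _ (hz' j)).symm
      · show bform hQ (f i) (e j) = bform hQ (f' i) (e' j)
        rw [b_symm hQ (f i), b_symm hQ (f' i)]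
        exact (hD.ef j i).trans (hD'.ef j i).symm
      · exact (hD.ff i j).trans (hD'.ff i j).symm
      · exact (hD.fw i _ (hz j)).trans (hD'.fw i _ (hz' j)).symm
      · show bform hQ (z i) (e j) = bform hQ (z' i) (e' j)
        rw [b_symm hQ (z i), b_symm hQ (z' i)]
        exact (hD.ew j _ (hz i)).trans (hD'.ew j _ (hz' i)).symm
      · show bform hQ (z i) (f j) = bform hQ (z' i) (f' j)
        rw [b_symm hQ (z i), b_symm hQ (z' i)]
        exact (hD.fw j _ (hz i)).trans (hD'.fw j _ (hz' i)).symm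
      · exact hzb i j)
  have hmap : W.map (Matrix.toLin' (g : Matrix ι ι F)) = W' := by
    rw [← hA, Submodule.map_span, ← hA', ← Set.range_comp]
    exact congrArg (fun h => Submodule.span F (Set.range h)) (funext fun x => (Matrix.toLin'_apply _ _).trans (hga x))
  refine ⟨(Submodule.equivMapOfInjective _ (toLin'_injective g) W).trans (LinearEquiv.ofEq _ _ hmap), fun x => ?_⟩
  simp only [LinearEquiv.trans_apply, LinearEquiv.coe_ofEq_apply, Submodule.coe_equivMapOfInjective_apply,
    Matrix.toLin'_apply]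
  exact mem_isometryGroup.1 hg _

/-- In plus type every totally singular subspace lies in a maximal one. -/
theorem exists_maxTS_ge (hplus : Geo.IsPlusTypeOn Q ⊤) {X : Submodule F (ι → F)}
    (hX : Geo.IsTotallySingularQuad Q X) : ∃ U, IsMaxTS Q U ∧ X ≤ U := by
  obtain ⟨U₀, -, hU₀, hd⟩ := hplus
  rw [finrank_top, finrank_fintype_fun_eq_card] at hd
  have hle : finrank F X ≤ finrank F U₀ := by have := two_mul_finrank_le hQ hX; omega
  let φ : X →ₗ[F] (ι → F) :=
    U₀.subtype.comp ((finBasis F X).constr F fun i => finBasis F U₀ (Fin.castLE hle i))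
  have hφ : Function.Injective φ := by
    have hinj : Function.Injective ((finBasis F X).constr F fun i => finBasis F U₀ (Fin.castLE hle i)) := by
      have hli := (finBasis F U₀).linearIndependent.comp (Fin.castLE hle) (Fin.castLE_injective hle)
      rw [← LinearMap.ker_eq_bot, LinearMap.ker_eq_bot']
      intro x hx
      rw [← (finBasis F X).sum_repr x, map_sum] at hx
      simp only [map_smul, Basis.constr_basis] at hx
      rw [← (finBasis F X).sum_repr x]
      exact Finset.sum_eq_zero fun i _ => by rw [Fintype.linearIndependent_iff.1 hli _ hx i, zero_smul]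
    exact fun x y h => hinj (U₀.injective_subtype h)
  obtain ⟨g, hg, hgx⟩ := LinAlg.Witt.witt_quadFun hQ X φ hφ fun x => by
    rw [hX x x.2]; exact hU₀ _ (Submodule.coe_mem _)
  refine ⟨imgSub g⁻¹ U₀, IsMaxTS.imgSub ((Cfsg.isometryGroup F Q).inv_mem hg) ⟨hU₀, hd⟩, fun x hx => ?_⟩
  refine mem_imgSub.2 ⟨φ ⟨x, hx⟩, Submodule.coe_mem _, ?_⟩
  rw [← hgx ⟨x, hx⟩, inv_mulVec_cancel]

/-- Complements of plus type subspaces in plus type. -/
theorem plus_perp (hplus : Geo.IsPlusTypeOn Q ⊤) {W : Submodule F (ι → F)}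
    (hW : Geo.IsNondegenerateOn (QuadraticMap.polar Q) W) (hWp : Geo.IsPlusTypeOn Q W) :
    Geo.IsPlusTypeOn Q (perp hQ W) := by
  obtain ⟨U₃, hle, hU₃, hd⟩ := hWp
  obtain ⟨U, hU, hsub⟩ := exists_maxTS_ge hQ hplus hU₃
  refine ⟨U ⊓ perp hQ W, inf_le_right, fun x hx => hU.singular x hx.1, ?_⟩
  -- the part of the orthogonal complement of `U₃` inside `W` is `U₃`
  have hinf : W ⊓ perp hQ U₃ = U₃ := by
    refine (Submodule.eq_of_le_of_finrank_le (le_inf hle (le_perp_self hQ hU₃)) ?_).symm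
    have h1 := Submodule.finrank_sup_add_finrank_inf_eq W (perp hQ U₃)
    have h2 := finrank_perp_add hQ U₃
    have h3 : W ⊔ perp hQ U₃ = ⊤ := by
      rw [eq_top_iff, ← AschPrime.orth_sup_eq_top hQ hW]
      exact sup_le_sup le_rfl (perp_anti hQ hle)
    rw [h3, finrank_top, finrank_fintype_fun_eq_card] at h1
    omega
  have hsup : U ≤ U₃ ⊔ (U ⊓ perp hQ W) := by
    intro u hu
    have hu' : u ∈ perp hQ U₃ := perp_anti hQ hsub (le_perp_self hQ hU.singular hu)
    obtain ⟨a, ha, b, hb, rfl⟩ :=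
      Submodule.mem_sup.1 ((AschPrime.orth_sup_eq_top hQ hW).ge (Submodule.mem_top (x := u)))
    have hb' : b ∈ perp hQ U₃ := perp_anti hQ hle hb
    have ha3 : a ∈ U₃ := hinf.le ⟨ha, by simpa using Submodule.sub_mem _ hu' hb'⟩
    exact Submodule.add_mem_sup ha3 ⟨by simpa using U.sub_mem hu (hsub ha3), hb⟩
  have h1 := Submodule.finrank_mono hsup
  have h2 := Submodule.finrank_add_le_finrank_add_finrank U₃ (U ⊓ perp hQ W)
  have h3 := finrank_perp_add hQ W
  have h4 := hU.two_mul
  have h5 : U₃ ⊓ (U ⊓ perp hQ W) = ⊥ := le_bot_iff.1 (by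
    rw [← AschPrime.orth_inf_eq_bot_of_nondeg hQ hW]
    exact inf_le_inf hle inf_le_right)
  have h6 := Submodule.finrank_sup_add_finrank_inf_eq U₃ (U ⊓ perp hQ W)
  have h7 : U₃ ⊔ (U ⊓ perp hQ W) ≤ U := sup_le hsub inf_le_left
  have h8 := Submodule.finrank_mono h7
  rw [h5, finrank_bot] at h6
  omega

/-- A half-dimensional non-degenerate subspace of plus type space is isometric to its complement. -/
theorem isometric_perp (hplus : Geo.IsPlusTypeOn Q ⊤) {W : Submodule F (ι → F)}
    (hW : Geo.IsNondegenerateOn (QuadraticMap.polar Q) W) (hev : Even (finrank F W))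
    (hd : 2 * finrank F W = Fintype.card ι) : Geo.AreIsometricFor Q W (perp hQ W) := by
  refine isometric_of_type hQ hW (AschPrime.orth_perp_nondeg hQ hW) hev
    (by have := finrank_perp_add hQ W; omega) ⟨plus_perp hQ hplus hW, fun h => ?_⟩
  have := plus_perp hQ hplus (AschPrime.orth_perp_nondeg hQ hW) h
  rwa [perp_perp hQ] at this

/-- Omega fixes a maximal singular subspace with each of its singular hyperplanes. -/
theorem exists_maxTS_stable (hplus : Geo.IsPlusTypeOn Q ⊤) {W : Submodule F (ι → F)}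
    (hW : Geo.IsTotallySingularQuad Q W) (hd : 2 * (finrank F W + 1) = Fintype.card ι) :
    ∃ U, IsMaxTS Q U ∧ Geo.subspaceStabilizer W ⊓ Geo.omegaGL Q ≤ Geo.subspaceStabilizer U := by
  obtain ⟨U, hU, hsub⟩ := exists_maxTS_ge hQ hplus hW
  refine ⟨U, hU, fun g ⟨hgW, hgΩ⟩ => ?_⟩
  have hgU : W ≤ imgSub g U := fun x hx => mem_imgSub.2 ⟨((g⁻¹ : GL ι F) : Matrix ι ι F) *ᵥ x,
    hsub (((Geo.subspaceStabilizer W).inv_mem hgW x).1 hx), mulVec_inv_cancel g x⟩
  have hpar := omega_preserves_class hQ hU hgΩ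
  have h1 := Submodule.finrank_mono (le_inf hsub hgU)
  have h2 := Submodule.finrank_mono (inf_le_left (a := U) (b := imgSub g U))
  have h3 := hU.two_mul
  have h4 : finrank F U ≤ finrank F ↥(U ⊓ imgSub g U) := by
    obtain ⟨k, hk⟩ := hpar
    omega
  have heq : U = imgSub g U := by
    refine Submodule.eq_of_le_of_finrank_eq ?_ (finrank_imgSub g U).symm
    exact inf_eq_left.1 (Submodule.eq_of_le_of_finrank_le inf_le_left h4)
  intro v
  constructor
  · intro hv
    show (g : Matrix ι ι F) *ᵥ v ∈ U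
    rw [heq]
    exact mem_imgSub.2 ⟨v, hv, rfl⟩
  · intro hv
    obtain ⟨y, hy, hyv⟩ := mem_imgSub.1 (heq.le (show (g : Matrix ι ι F) *ᵥ v ∈ U from hv))
    exact CfsgLib.OrthGeo.toLin'_injective g (by simpa [Matrix.toLin'_apply] using hyv) ▸ hy

/-- Two orthogonal isometric subspaces of even dimension contain a totally singular half. -/
theorem pair_singular {A B : Submodule F (ι → F)} (hA : Geo.IsNondegenerateOn (QuadraticMap.polar Q) A)
    (hev : Even (finrank F A)) (hiso : Geo.AreIsometricFor Q A B) (hd : Disjoint A B)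
    (ho : ∀ a ∈ A, ∀ b ∈ B, bform hQ a b = 0) :
    ∃ U ≤ A ⊔ B, Geo.IsTotallySingularQuad Q U ∧ finrank F U = finrank F A := by
  obtain ⟨r, e, f, W₀, hD, hli, htype⟩ := exists_type_decomp hQ hA hev
  obtain ⟨φ, hφ⟩ := hiso
  have hdim := hD.dim
  have hφb : ∀ x y : A, bform hQ (φ x : ι → F) (φ y : ι → F) = bform hQ (x : ι → F) (y : ι → F) :=
    fun x y => by
      show QuadraticMap.polar Q _ _ = QuadraticMap.polar Q _ _
      simp only [QuadraticMap.polar, ← Submodule.coe_add, ← map_add, hφ]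
  rcases htype with ⟨-, hp⟩ | ⟨h2, -⟩
  · obtain ⟨U, hUA, hU, hUd⟩ := hp
    let U' : Submodule F (ι → F) := Submodule.map (B.subtype.comp (φ : A →ₗ[F] B)) (U.comap A.subtype)
    have hU' : Geo.IsTotallySingularQuad Q U' := by
      rintro _ ⟨x, hx, rfl⟩
      exact (hφ x).trans (hU x hx)
    have hU'B : U' ≤ B := by rintro _ ⟨x, -, rfl⟩; exact Submodule.coe_mem _
    have hU'd : finrank F U' = finrank F U := by
      rw [(Submodule.equivMapOfInjective _ (fun x y h => φ.injective (B.injective_subtype h)) _).finrank_eq.symm]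
      exact (Submodule.comapSubtypeEquivOfLe hUA).finrank_eq
    obtain ⟨h1, h2, h3⟩ := singular_sup hQ hd ho hUA hU'B hU hU'
    exact ⟨_, h2, h1, by omega⟩
  -- a twisted copy of the core in the other subspace
  let ψ : A →ₗ[F] (ι → F) := B.subtype.comp (φ : A →ₗ[F] B)
  have hψi : Function.Injective ψ := fun x y h => φ.injective (B.injective_subtype h)
  let C' : Submodule F (ι → F) := (W₀.comap A.subtype).map ψ
  have hC'd : finrank F C' = 2 := by
    rw [(Submodule.equivMapOfInjective _ hψi _).finrank_eq.symm,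
      (Submodule.comapSubtypeEquivOfLe hD.le).finrank_eq, h2]
  have hneg : ∀ x y, QuadraticMap.polar (-qf hQ) x y = - bform hQ x y := fun x y => by
    rw [bform_apply]
    simp only [QuadraticMap.polar, _root_.neg_apply, LinAlg.Witt.quadOfFun_apply]
    ring
  obtain ⟨v, w, v', w', ⟨hv, hw, hvw, -⟩, ⟨hv', hw', -, -⟩, e1, e2, e3⟩ :=
    plane_match (-qf hQ) (qf hQ) (W := W₀) (W' := C') h2 hC'd
      (fun x hx h => hD.aniso x hx (by simpa using h))
      (by
        rintro _ ⟨x, hx, rfl⟩ h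
        have h0 := hD.aniso x hx ((hφ x).symm.trans h)
        rw [show x = 0 from Subtype.ext h0, map_zero])
      (fun x hx h => hD.nondeg x hx fun y hy => by
        have := h y hy
        rw [hneg, neg_eq_zero] at this
        exact this)
      (by
        rintro _ ⟨x, hx, rfl⟩ h
        have h0 := hD.nondeg x hx fun y hy => by
          have := h (ψ ⟨y, hD.le hy⟩) ⟨⟨y, hD.le hy⟩, hy, rfl⟩
          rwa [show QuadraticMap.polar (qf hQ) (ψ x) (ψ ⟨y, hD.le hy⟩) =
            bform hQ (x : ι → F) y from hφb x ⟨y, hD.le hy⟩] at this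
        rw [show x = 0 from Subtype.ext h0, map_zero])
  have e1' : Q v + Q v' = 0 := by
    have : -Q v = Q v' := e1
    rw [← this]; ring
  have e2' : Q w + Q w' = 0 := by
    have : -Q w = Q w' := e2
    rw [← this]; ring
  have e3' : bform hQ v w + bform hQ v' w' = 0 := by
    have : - bform hQ v w = bform hQ v' w' := (hneg v w).symm.trans e3
    rw [← this]; ring
  have hC'B : C' ≤ B := by rintro _ ⟨x, -, rfl⟩; exact Submodule.coe_mem _
  let ea : Fin r → A := fun i => ⟨e i, hD.e_mem i⟩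
  let s := Sum.elim (Sum.elim e fun i => ψ (ea i)) ![v + v', w + w']
  have hψB : ∀ x, ψ x ∈ B := fun x => Submodule.coe_mem _
  have hAz : ∀ i, e i ∈ A := hD.e_mem
  have hvA := hD.le hv
  have hwA := hD.le hw
  have hv'B := hC'B hv'
  have hw'B := hC'B hw'
  -- pairing an element of the image of the singular part with the twisted core
  have hCe : ∀ i, ∀ x ∈ C', bform hQ (ψ (ea i)) x = 0 := by
    rintro i _ ⟨x, hx, rfl⟩
    exact (hφb (ea i) x).trans (hD.ew i x hx)
  have hcross : ∀ a ∈ A, ∀ b ∈ B, bform hQ a b = 0 ∧ bform hQ b a = 0 :=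
    fun a ha b hb => ⟨ho a ha b hb, by rw [b_symm hQ]; exact ho a ha b hb⟩
  have hT : Geo.IsTotallySingularQuad Q (Submodule.span F (Set.range s)) := by
    have hself : ∀ x y : ι → F, x ∈ A → y ∈ B → Q x + Q y = 0 → Q (x + y) = 0 := fun x y hx hy h => by
      rw [q_add hQ, ho x hx y hy, add_zero, h]
    have hsq : ∀ t, Q (s t) = 0 := by
      rintro ((i | i) | i)
      · exact hD.qe i
      · exact (hφ (ea i)).trans (hD.qe i)
      · revert i
        exact Fin.forall_fin_two.2 ⟨hself v v' hvA hv'B e1', hself w w' hwA hw'B e2'⟩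
    have hx2 : ∀ x y x' y' : ι → F, x ∈ A → y ∈ B → x' ∈ A → y' ∈ B →
        bform hQ (x + y) (x' + y') = bform hQ x x' + bform hQ y y' := fun x y x' y' hx hy hx' hy' => by
      simp only [map_add, LinearMap.add_apply, (hcross x hx y' hy').1, (hcross x' hx' y hy).2, add_zero, zero_add]
    have hmid : ∀ t : Fin 2, ∃ x y, s (Sum.inr t) = x + y ∧ x ∈ W₀ ∧ y ∈ C' :=
      Fin.forall_fin_two.2 ⟨⟨v, v', rfl, hv, hv'⟩, ⟨w, w', rfl, hw, hw'⟩⟩
    have he_mid : ∀ i (t : Fin 2), bform hQ (e i) (s (Sum.inr t)) = 0 := fun i t => by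
      obtain ⟨x, y, hxy, hx, hy⟩ := hmid t
      rw [hxy, map_add, show bform hQ (e i) x = 0 from hD.ew i x hx, ho _ (hAz i) y (hC'B hy), add_zero]
    have hψ_mid : ∀ i (t : Fin 2), bform hQ (ψ (ea i)) (s (Sum.inr t)) = 0 := fun i t => by
      obtain ⟨x, y, hxy, hx, hy⟩ := hmid t
      rw [hxy, map_add, hCe i y hy, (hcross x (hD.le hx) _ (hψB _)).2, add_zero]
    have hmm : ∀ t u : Fin 2, bform hQ (s (Sum.inr t)) (s (Sum.inr u)) = 0 := by
      have hd : ∀ t : Fin 2, bform hQ (s (Sum.inr t)) (s (Sum.inr t)) = 0 := fun t => by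
        rw [b_self hQ, hsq, mul_zero]
      have h01 : bform hQ (v + v') (w + w') = 0 := by rw [hx2 v v' w w' hvA hv'B hwA hw'B, e3']
      exact Fin.forall_fin_two.2 ⟨Fin.forall_fin_two.2 ⟨hd 0, h01⟩,
        Fin.forall_fin_two.2 ⟨(b_symm hQ _ _).trans h01, hd 1⟩⟩
    refine totallySingular_span hQ (by rintro _ ⟨t, rfl⟩; exact hsq t) ?_
    rintro _ ⟨t, rfl⟩ _ ⟨u, rfl⟩
    rcases t with (i | i) | i <;> rcases u with (j | j) | j
    · exact hD.ee i j
    · exact ho _ (hAz i) _ (hψB _)
    · exact he_mid i j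
    · exact (hcross _ (hAz j) _ (hψB _)).2
    · exact (hφb (ea i) (ea j)).trans (hD.ee i j)
    · exact hψ_mid i j
    · exact (b_symm hQ _ _).trans (he_mid j i)
    · exact (b_symm hQ _ _).trans (hψ_mid j i)
    · exact hmm i j
  have hsle : Submodule.span F (Set.range s) ≤ A ⊔ B := Submodule.span_le.2 (by
    rintro _ ⟨((i | i) | i), rfl⟩
    · exact Submodule.mem_sup_left (hAz i)
    · exact Submodule.mem_sup_right (hψB _)
    · revert i
      exact Fin.forall_fin_two.2 ⟨Submodule.add_mem_sup hvA hv'B, Submodule.add_mem_sup hwA hw'B⟩)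
  refine ⟨_, hsle, hT, ?_⟩
  have hsli : LinearIndependent F s := Fintype.linearIndependent_iff.2 fun g hg => by
    simp only [Fintype.sum_sum_type, Fin.sum_univ_two, s, Sum.elim_inl, Sum.elim_inr, Matrix.cons_val_zero,
      Matrix.cons_val_one] at hg
    set a₁ := ∑ i, g (Sum.inl (Sum.inl i)) • e i + (g (Sum.inr 0) • v + g (Sum.inr 1) • w) with ha₁
    set b₁ := ∑ i, g (Sum.inl (Sum.inr i)) • ψ (ea i) + (g (Sum.inr 0) • v' + g (Sum.inr 1) • w') with hb₁
    have hab : a₁ + b₁ = 0 := by rw [ha₁, hb₁, ← hg, smul_add, smul_add]; abel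
    have haA : a₁ ∈ A := A.add_mem (A.sum_mem fun i _ => A.smul_mem _ (hAz i))
      (A.add_mem (A.smul_mem _ hvA) (A.smul_mem _ hwA))
    have hbB : b₁ ∈ B := B.add_mem (B.sum_mem fun i _ => B.smul_mem _ (hψB _))
      (B.add_mem (B.smul_mem _ hv'B) (B.smul_mem _ hw'B))
    have ha0 : a₁ = 0 := Submodule.disjoint_def.1 hd _ haA
      (by rw [eq_neg_of_add_eq_zero_left hab]; exact B.neg_mem hbB)
    have hb0 : b₁ = 0 := by rwa [ha0, zero_add] at hab
    have hE : ∀ i, g (Sum.inl (Sum.inl i)) = 0 := by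
      intro i
      have := congrArg (fun x => bform hQ x (f i)) (ha₁.symm.trans ha0)
      simp only [map_add, map_sum, map_smul, LinearMap.add_apply, LinearMap.sum_apply, LinearMap.smul_apply,
        map_zero, LinearMap.zero_apply, smul_eq_mul] at this
      rw [Finset.sum_eq_single i (fun j _ hj => by
        rw [show bform hQ (e j) (f i) = 0 from (hD.ef j i).trans (if_neg hj), mul_zero]) (by simp),
        show bform hQ (e i) (f i) = 1 from (hD.ef i i).trans (if_pos rfl),
        b_symm hQ v, show bform hQ (f i) v = 0 from hD.fw i v hv,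
        b_symm hQ w, show bform hQ (f i) w = 0 from hD.fw i w hw] at this
      simpa using this
    have hrest : g (Sum.inr 0) = 0 ∧ g (Sum.inr 1) = 0 := by
      refine LinearIndependent.pair_iff.1 hvw _ _ ?_
      simpa [ha₁, hE] using ha0
    have hF : ∀ i, g (Sum.inl (Sum.inr i)) = 0 := by
      have hli' : LinearIndependent F fun i => ψ (ea i) :=
        (LinearIndependent.of_comp A.subtype (v := ea) hli).map' ψ (LinearMap.ker_eq_bot.2 hψi)
      refine Fintype.linearIndependent_iff.1 hli' _ ?_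
      simpa [hb₁, hrest.1, hrest.2] using hb0
    rintro ((i | i) | i)
    · exact hE i
    · exact hF i
    · revert i
      exact Fin.forall_fin_two.2 hrest
  rw [finrank_span_eq_card hsli, Fintype.card_sum, Fintype.card_sum, Fintype.card_fin, Fintype.card_fin]
  omega

/-- Four orthogonal isometric subspaces contain a totally singular half, in odd characteristic. -/
theorem four_singular (h2 : (2 : F) ≠ 0) {t k : ℕ} {D : Fin t → Submodule F (ι → F)}
    (hD : Geo.IsOrthogonalMDecomposition Q k D) {l : Fin 4 → Fin t} (hl : Function.Injective l) :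
    ∃ U ≤ ⨆ i, D (l i), Geo.IsTotallySingularQuad Q U ∧ finrank F U = 2 * k := by
  choose φ hφ using fun i => hD.isometric (l 0) (l i)
  let T : Fin 4 → (D (l 0) →ₗ[F] (ι → F)) := fun i => (D (l i)).subtype.comp (φ i : D (l 0) →ₗ[F] D (l i))
  have hTm : ∀ i x, T i x ∈ D (l i) := fun i x => Submodule.coe_mem _
  have hTq : ∀ i (x : D (l 0)), Q (T i x) = Q (x : ι → F) := fun i x => hφ i x
  have hTb : ∀ i (x y : D (l 0)), bform hQ (T i x) (T i y) = bform hQ (x : ι → F) (y : ι → F) := fun i x y => by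
    show QuadraticMap.polar Q _ _ = QuadraticMap.polar Q _ _
    simp only [QuadraticMap.polar, ← map_add, hTq]
    rfl
  have hTo : ∀ i j, i ≠ j → ∀ x y, bform hQ (T i x) (T j y) = 0 := fun i j hij x y =>
    hD.decomp.orthogonal _ _ (fun h => hij (hl h)) _ (hTm i x) _ (hTm j y)
  letI := Fintype.ofFinite F
  obtain ⟨a, b, hab⟩ := LinAlg.Witt.exists_sum_two_sq h2 (one_ne_zero (α := F)) (one_ne_zero (α := F)) (-1)
  let G : D (l 0) × D (l 0) →ₗ[F] (ι → F) :=
    (T 0 + a • T 1 + b • T 2).coprod ((-b) • T 1 + a • T 2 + T 3)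
  have hGm : ∀ z, G z ∈ ⨆ i, D (l i) := fun z => by
    have hle : ∀ i x, T i x ∈ ⨆ i, D (l i) := fun i x => Submodule.mem_iSup_of_mem i (hTm i x)
    show T 0 z.1 + a • T 1 z.1 + b • T 2 z.1 + ((-b) • T 1 z.2 + a • T 2 z.2 + T 3 z.2) ∈ _
    exact add_mem (add_mem (add_mem (hle _ _) (Submodule.smul_mem _ _ (hle _ _)))
      (Submodule.smul_mem _ _ (hle _ _))) (add_mem (add_mem (Submodule.smul_mem _ _ (hle _ _))
      (Submodule.smul_mem _ _ (hle _ _))) (hle _ _))
  have hb' : ∀ i j x y, bform hQ (T i x) (T j y) = if i = j then bform hQ (x : ι → F) (y : ι → F) else 0 := by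
    intro i j x y
    split_ifs with h
    · subst h; exact hTb i x y
    · exact hTo i j h x y
  have hGq : ∀ z, Q (G z) = 0 := by
    rintro ⟨x, y⟩
    show Q (T 0 x + a • T 1 x + b • T 2 x + ((-b) • T 1 y + a • T 2 y + T 3 y)) = 0
    simp only [q_add hQ, q_smul hQ, hTq, map_add, map_smul, LinearMap.add_apply, LinearMap.smul_apply,
      smul_eq_mul, hb', Fin.reduceEq, if_false, if_true, mul_zero, add_zero, zero_add]
    linear_combination (Q (x : ι → F) + Q (y : ι → F)) * hab
  have hGi : Function.Injective G := by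
    rw [← LinearMap.ker_eq_bot, LinearMap.ker_eq_bot']
    rintro ⟨x, y⟩ h
    have h' : T 0 x + a • T 1 x + b • T 2 x + ((-b) • T 1 y + a • T 2 y + T 3 y) = 0 := h
    have key : ∀ i z, bform hQ (T i z) (T 0 x + a • T 1 x + b • T 2 x +
        ((-b) • T 1 y + a • T 2 y + T 3 y)) = 0 := fun i z => by rw [h', map_zero]
    have hzero : ∀ x : D (l 0), (∀ z : D (l 0), bform hQ (z : ι → F) (x : ι → F) = 0) → x = 0 := by
      intro x hx
      by_contra h0
      obtain ⟨⟨z, hz, hzx⟩, -⟩ := hD.decomp.nondegenerate (l 0) x x.2 fun h => h0 (Subtype.ext h)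
      exact hzx (hx ⟨z, hz⟩)
    refine Prod.ext (hzero x fun z => ?_) (hzero y fun z => ?_)
    · have := key 0 z
      simpa only [map_add, map_smul, smul_eq_mul, hb', Fin.reduceEq, if_false, if_true, mul_zero, add_zero,
        zero_add] using this
    · have := key 3 z
      simpa only [map_add, map_smul, smul_eq_mul, hb', Fin.reduceEq, if_false, if_true, mul_zero, add_zero,
        zero_add] using this
  refine ⟨LinearMap.range G, by rintro _ ⟨z, rfl⟩; exact hGm z, by rintro _ ⟨z, rfl⟩; exact hGq z, ?_⟩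
  rw [LinearMap.finrank_range_of_inj hGi, Module.finrank_prod, hD.decomp.decomp.finrank_eq]
  ring

end CfsgLib.Aschbacher.OrthEven
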