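import Mathlib
import Cfsg.Agent.Aschbacher.OrthEvenTypes
import Cfsg.Agent.AschPrime.OrthSubfield
import Cfsg.Agent.OrthGeo.TensorThree

/-!
Configurations forcing plus type: sums of blocks, tensor products, rational structures of index two.
-/

set_option autoImplicit false
set_option linter.unusedSectionVars false

namespace CfsgLib.Aschbacher.OrthEven

open Matrix Cfsg Module CfsgLib.OrthGeo

variable {ι : Type} [Fintype ι] [DecidableEq ι] {F : Type*} [Field F] [Fintype F] {Q : (ι → F) → F}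

/-- The blocks with indices in `J` contain a totally singular subspace of dimension `d`. -/
def PieceTS (Q : (ι → F) → F) {t : ℕ} (D : Fin t → Submodule F (ι → F)) (J : Finset (Fin t)) (d : ℕ) : Prop :=
  ∃ U : Submodule F (ι → F), U ≤ J.sup D ∧ Geo.IsTotallySingularQuad Q U ∧ finrank F U = d

variable (hQ : Geo.IsNondegenerateQuadraticForm Q)
include hQ

variable {t k : ℕ} {D : Fin t → Submodule F (ι → F)}

theorem pieceTS_union (hD : Geo.IsOrthogonalMDecomposition Q k D) {J K : Finset (Fin t)} (hJK : Disjoint J K)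
    {a b : ℕ} (ha : PieceTS Q D J a) (hb : PieceTS Q D K b) : PieceTS Q D (J ∪ K) (a + b) := by
  classical
  obtain ⟨U, hU, hts, hd⟩ := ha
  obtain ⟨U', hU', hts', hd'⟩ := hb
  have hdis : Disjoint (J.sup D) (K.sup D) := by
    rw [Finset.sup_eq_iSup, Finset.sup_eq_iSup]
    exact hD.decomp.decomp.indep.disjoint_biSup_biSup (s := (J : Set (Fin t))) (t := (K : Set (Fin t)))
      (Finset.disjoint_coe.2 hJK)
  have ho : ∀ x ∈ J.sup D, ∀ y ∈ K.sup D, bform hQ x y = 0 := by
    intro x hx y hy
    have h1 : J.sup D ≤ LinearMap.ker ((bform hQ).flip y) := Finset.sup_le fun i hi u hu => by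
      have h2 : K.sup D ≤ LinearMap.ker (bform hQ u) := Finset.sup_le fun j hj v hv =>
        hD.decomp.orthogonal i j (fun h => Finset.disjoint_left.1 hJK hi (h ▸ hj)) u hu v hv
      exact h2 hy
    exact h1 hx
  obtain ⟨h1, h2, h3⟩ := singular_sup hQ hdis ho hU hU' hts hts'
  exact ⟨_, by rwa [Finset.sup_union], h1, by omega⟩

theorem pieceTS_single {i : Fin t} (hD : Geo.IsOrthogonalMDecomposition Q k D) (hp : Geo.IsPlusTypeOn Q (D i))
    {d : ℕ} (hk : k = 2 * d) : PieceTS Q D {i} d := by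
  obtain ⟨U, hU, hts, hd⟩ := hp
  rw [hD.decomp.decomp.finrank_eq] at hd
  exact ⟨U, by simpa using hU, hts, by omega⟩

theorem pieceTS_pair (hD : Geo.IsOrthogonalMDecomposition Q k D) (hk : Even k) {i j : Fin t} (hij : i ≠ j) :
    PieceTS Q D {i, j} k := by
  classical
  obtain ⟨U, hU, hts, hd⟩ := pair_singular hQ (hD.decomp.nondegenerate i)
    (by rw [hD.decomp.decomp.finrank_eq]; exact hk) (hD.isometric i j) (hD.decomp.decomp.indep.pairwiseDisjoint hij)
    (hD.decomp.orthogonal i j hij)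
  exact ⟨U, by simpa using hU, hts, hd.trans (hD.decomp.decomp.finrank_eq i)⟩

theorem pieceTS_four (hD : Geo.IsOrthogonalMDecomposition Q k D) (h2 : (2 : F) ≠ 0) {l : Fin 4 → Fin t}
    (hl : Function.Injective l) : PieceTS Q D (Finset.univ.image l) (2 * k) := by
  obtain ⟨U, hU, hts, hd⟩ := four_singular hQ h2 hD hl
  refine ⟨U, hU.trans ?_, hts, hd⟩
  rw [Finset.sup_image, ← Finset.sup_univ_eq_iSup]
  exact le_rfl

omit hQ in
/-- A totally singular subspace of half the dimension gives plus type. -/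
theorem plus_of_half {U : Submodule F (ι → F)} (hU : Geo.IsTotallySingularQuad Q U)
    (hd : 2 * finrank F U = Fintype.card ι) : Geo.IsPlusTypeOn Q ⊤ :=
  ⟨U, le_top, hU, by rw [finrank_top, finrank_fintype_fun_eq_card]; exact hd⟩

omit hQ in
theorem plus_of_pieceTS {J : Finset (Fin t)} {d : ℕ} (h : PieceTS Q D J d) (hd : 2 * d = Fintype.card ι) :
    Geo.IsPlusTypeOn Q ⊤ := by
  obtain ⟨U, -, hts, hU⟩ := h
  exact plus_of_half hts (hU.symm ▸ hd)

omit hQ in
/-- Plus type is invariant under isometry. -/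
theorem plus_of_isometric {A B : Submodule F (ι → F)} (h : Geo.AreIsometricFor Q A B)
    (hp : Geo.IsPlusTypeOn Q A) : Geo.IsPlusTypeOn Q B := by
  obtain ⟨φ, hφ⟩ := h
  obtain ⟨U, hUA, hU, hUd⟩ := hp
  refine ⟨(U.comap A.subtype).map (B.subtype.comp (φ : A →ₗ[F] B)), ?_, ?_, ?_⟩
  · rintro _ ⟨x, -, rfl⟩; exact Submodule.coe_mem _
  · rintro _ ⟨x, hx, rfl⟩
    exact (hφ x).trans (hU x hx)
  · rw [(Submodule.equivMapOfInjective _ (fun x y h => φ.injective (B.injective_subtype h)) _).finrank_eq.symm,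
      (Submodule.comapSubtypeEquivOfLe hUA).finrank_eq, hUd, φ.finrank_eq]

/-- Two alternating factors, one of them of dimension two: the space has plus type. -/
theorem plus_of_pure_zero {a b : ℕ} (ha : a = 2) {e : ι ≃ Fin a × Fin b} {P : GL ι F}
    (hpure : ∀ (x₁ : Fin a → F) (x₂ : Fin b → F),
      Q ((P : Matrix ι ι F) *ᵥ ((fun p : Fin a × Fin b => x₁ p.1 * x₂ p.2) ∘ e)) = 0) :
    Geo.IsPlusTypeOn Q ⊤ := by
  subst ha
  let G : (Fin b → F) →ₗ[F] (ι → F) :=
    { toFun := fun y => (P : Matrix ι ι F) *ᵥ ((fun p : Fin 2 × Fin b => (Pi.single 0 1 : Fin 2 → F) p.1 * y p.2) ∘ e)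
      map_add' := fun y y' => by
        rw [← Matrix.mulVec_add]; congr 1; funext i; simp [mul_add]
      map_smul' := fun c y => by
        rw [RingHom.id_apply, ← Matrix.mulVec_smul]; congr 1; funext i; simp [mul_left_comm] }
  have hG : Function.Injective G := fun y y' h => funext fun k => by
    have := congrFun (CfsgLib.Aschbacher.mulVec_inj P h) (e.symm (0, k))
    simpa using this
  refine plus_of_half (U := LinearMap.range G) (by rintro _ ⟨y, rfl⟩; exact hpure _ y) ?_
  rw [LinearMap.finrank_range_of_inj hG, finrank_fintype_fun_eq_card, Fintype.card_fin, Fintype.card_congr e,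
    Fintype.card_prod, Fintype.card_fin, Fintype.card_fin]

/-- Symmetric tensor factors: plus type of the second gives plus type. -/
theorem plus_of_factor (h2 : (2 : F) ≠ 0) {a b : ℕ} {e : ι ≃ Fin a × Fin b} {P : GL ι F}
    {f₁ : (Fin a → F) → (Fin a → F) → F} {f₂ : (Fin b → F) → (Fin b → F) → F} (hf₁ : Geo.IsSymmetricForm f₁)
    (hf₂ : Geo.IsSymmetricForm f₂) (hT : Geo.IsTensorFormStructure id (QuadraticMap.polar Q) f₁ f₂ e P)
    (hp : Geo.IsPlusTypeOn (fun v : Fin b → F => f₂ v v) ⊤) : Geo.IsPlusTypeOn Q ⊤ := by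
  classical
  obtain ⟨c, -, hc⟩ := hT
  obtain ⟨U, -, hU, hUd⟩ := hp
  rw [finrank_top, finrank_fintype_fun_eq_card, Fintype.card_fin] at hUd
  have hU0 : ∀ u ∈ U, ∀ w ∈ U, f₂ u w = 0 := by
    intro u hu w hw
    have h1 : f₂ (u + w) (u + w) = 0 := hU _ (U.add_mem hu hw)
    have hu0 : f₂ u u = 0 := hU u hu
    have hw0 : f₂ w w = 0 := hU w hw
    rw [hf₂.bilinear.add_left, hf₂.bilinear.add_right, hf₂.bilinear.add_right, hu0, hw0, hf₂.symm w u] at h1
    exact (mul_eq_zero.1 (show (2 : F) * f₂ u w = 0 by linear_combination h1)).resolve_left h2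
  let ten : (Fin a → F) → (Fin b → F) → (ι → F) := fun x y => (P : Matrix ι ι F) *ᵥ (pureTen x y ∘ e)
  have hten : ∀ x y x' y', bform hQ (ten x y) (ten x' y') = c * (f₁ x x' * f₂ y y') := fun x y x' y' => by
    rw [bform_apply]
    exact (hc _ _).trans (by rw [formOfGram_pureTen hf₁.bilinear hf₂.bilinear])
  let S : Set (ι → F) := {z | ∃ x, ∃ u ∈ U, z = ten x u}
  have hts : Geo.IsTotallySingularQuad Q (Submodule.span F S) := by
    refine totallySingular_span hQ ?_ ?_
    · rintro _ ⟨x, u, hu, rfl⟩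
      have := hten x u x u
      rw [b_self hQ, hU0 u hu u hu, mul_zero, mul_zero] at this
      exact (mul_eq_zero.1 this).resolve_left h2
    · rintro _ ⟨x, u, hu, rfl⟩ _ ⟨x', u', hu', rfl⟩
      rw [hten, hU0 u hu u' hu', mul_zero, mul_zero]
  let G : (Fin a → U) →ₗ[F] (ι → F) :=
    { toFun := fun z => (P : Matrix ι ι F) *ᵥ ((fun p : Fin a × Fin b => (z p.1 : Fin b → F) p.2) ∘ e)
      map_add' := fun z z' => by
        rw [← Matrix.mulVec_add]; congr 1
      map_smul' := fun c z => by
        rw [RingHom.id_apply, ← Matrix.mulVec_smul]; congr 1 }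
  have hG : Function.Injective G := fun z z' h => funext fun i => Subtype.ext (funext fun k => by
    have := congrFun (CfsgLib.Aschbacher.mulVec_inj P h) (e.symm (i, k))
    simpa using this)
  have hGS : LinearMap.range G ≤ Submodule.span F S := by
    rintro _ ⟨z, rfl⟩
    have hz : G z = ∑ i, ten (Pi.single i 1) (z i) := by
      show (P : Matrix ι ι F) *ᵥ _ = _
      simp only [ten]
      rw [← Matrix.mulVec_sum]
      congr 1
      funext j
      simp [pureTen, Finset.sum_apply, Pi.single_apply]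
    rw [hz]
    exact Submodule.sum_mem _ fun i _ => Submodule.subset_span ⟨_, _, (z i).2, rfl⟩
  refine plus_of_half (U := LinearMap.range G) (fun x hx => hts x (hGS hx)) ?_
  rw [LinearMap.finrank_range_of_inj hG, Module.finrank_pi_fintype, Finset.sum_const, Finset.card_univ,
    Fintype.card_fin, Fintype.card_congr e, Fintype.card_prod, Fintype.card_fin, Fintype.card_fin, smul_eq_mul]
  calc 2 * (a * finrank F U) = a * (2 * finrank F U) := mul_left_comm _ _ _
    _ = _ := by rw [hUd]

omit hQ in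
/-- Quadratic equations over a subfield of index two have roots. -/
theorem exists_root_of_index_two {F₀ : Subfield F} (hcard : Fintype.card F = Nat.card F₀ ^ 2) {c : F}
    (hc : c ∈ F₀) : ∃ θ : F, θ ^ 2 + θ + c = 0 := by
  classical
  by_cases h2 : (2 : F) = 0
  swap
  · obtain ⟨s, hs⟩ := AschPrime.isSquare_of_mem h2 hcard (show 1 - 4 * c ∈ F₀ from
      F₀.sub_mem F₀.one_mem (F₀.mul_mem (by
        rw [show (4 : F) = 1 + 1 + (1 + 1) by norm_num]
        exact F₀.add_mem (F₀.add_mem F₀.one_mem F₀.one_mem) (F₀.add_mem F₀.one_mem F₀.one_mem)) hc))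
    exact ⟨(s - 1) / 2, by field_simp; linear_combination -hs⟩
  by_cases hroot : ∃ s ∈ F₀, s ^ 2 + s + c = 0
  · obtain ⟨s, -, hs⟩ := hroot; exact ⟨s, hs⟩
  letI : Fintype F₀ := Fintype.ofFinite _
  set q := Nat.card F₀ with hq
  have hpow : ∀ x ∈ F₀, x ^ q = x := fun x hx => by
    rw [hq, Nat.card_eq_fintype_card]
    exact congrArg Subtype.val (FiniteField.pow_card (⟨x, hx⟩ : F₀))
  have hq1 : 1 < q := by rw [hq, Nat.card_eq_fintype_card]; exact Fintype.one_lt_card
  have hfix : ∀ x : F, x ^ q = x → x ∈ F₀ := by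
    intro x hx
    let p : Polynomial F := Polynomial.X ^ q - Polynomial.X
    have hp0 : p ≠ 0 := FiniteField.X_pow_card_sub_X_ne_zero F hq1
    have hsub : (Finset.univ : Finset F₀).image (Subtype.val) ⊆ p.roots.toFinset := by
      intro y hy
      obtain ⟨z, -, rfl⟩ := Finset.mem_image.1 hy
      rw [Multiset.mem_toFinset, Polynomial.mem_roots hp0]
      simp [p, hpow _ z.2]
    have hle : p.roots.toFinset.card ≤ ((Finset.univ : Finset F₀).image (Subtype.val)).card := by
      rw [Finset.card_image_of_injective _ Subtype.val_injective, Finset.card_univ, ← Nat.card_eq_fintype_card]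
      exact (Multiset.toFinset_card_le _).trans ((Polynomial.card_roots' p).trans
        (FiniteField.X_pow_card_sub_X_natDegree_eq F hq1).le)
    have hx' : x ∈ p.roots.toFinset := by
      rw [Multiset.mem_toFinset, Polynomial.mem_roots hp0]
      simp [p, hx]
    rw [← Finset.eq_of_subset_of_card_le hsub hle] at hx'
    obtain ⟨z, -, rfl⟩ := Finset.mem_image.1 hx'
    exact z.2
  obtain ⟨φ, hφ⟩ : ∃ φ : F →+* F, ∀ x, φ x = x ^ q := by
    haveI : CharP F₀ (ringChar F₀) := ringChar.charP F₀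
    obtain ⟨e, hpr, he⟩ := FiniteField.card F₀ (ringChar F₀)
    haveI : CharP F (ringChar F₀) :=
      charP_of_injective_ringHom (f := F₀.subtype) F₀.subtype.injective (ringChar F₀)
    haveI := Fact.mk hpr
    exact ⟨iterateFrobenius F (ringChar F₀) e, fun x => by
      rw [iterateFrobenius_def, hq, Nat.card_eq_fintype_card, he]⟩
  obtain ⟨θ, hθ⟩ : ∃ θ : F, θ ∉ F₀ := by
    by_contra! hall
    have := Nat.card_le_card_of_injective (fun x : F => (⟨x, hall x⟩ : F₀)) fun x y h => congrArg Subtype.val h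
    rw [Nat.card_eq_fintype_card, hcard] at this
    exact absurd this (not_le.2 (lt_self_pow₀ hq1 (by norm_num)))
  have hinv : ∀ x : F, (x ^ q) ^ q = x := fun x => by rw [← pow_mul, ← sq, ← hcard, FiniteField.pow_card]
  set T := θ + θ ^ q with hT
  have hT0 : T ≠ 0 := fun h => hθ (hfix θ (by rw [hT] at h; linear_combination h - θ * h2))
  have hTF : T ^ q = T := by rw [hT, ← hφ, map_add, hφ, hφ, hinv, add_comm]
  set η := θ / T with hη
  have hηq : η ^ q = η + 1 := by
    rw [hη, div_pow, hTF, div_add_one hT0, div_eq_div_iff hT0 hT0, hT]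
    linear_combination (-(θ + θ ^ q)) * θ * h2
  have he : η ^ 2 + η ∈ F₀ := hfix _ (by
    rw [← hφ, map_add, map_pow, hφ, hηq]
    linear_combination (η + 1) * h2)
  have h20 : (2 : F₀) = 0 := Subtype.ext h2
  obtain ⟨s, hs⟩ := exists_sq_add_self (F := F₀) h20 (a := ⟨η ^ 2 + η, he⟩) (b := ⟨c, hc⟩)
    (fun u hu => by
      have hu' : (u : F) ^ 2 + (u : F) + (η ^ 2 + η) = 0 := congrArg Subtype.val hu
      rcases mul_eq_zero.1 (show (η + (u : F)) * (η + (u : F) + 1) = 0 by
        linear_combination hu' + η * (u : F) * h2) with h | h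
      · refine hθ ?_
        have hηF : η ∈ F₀ := by rw [eq_neg_of_add_eq_zero_left h]; exact F₀.neg_mem u.2
        have := hpow η hηF
        rw [hηq] at this
        exact absurd (add_eq_left.1 this) one_ne_zero
      · have hηF : η ∈ F₀ := by
          rw [show η = -((u : F) + 1) by linear_combination h]
          exact F₀.neg_mem (F₀.add_mem u.2 F₀.one_mem)
        have := hpow η hηF
        rw [hηq] at this
        exact absurd (add_eq_left.1 this) one_ne_zero)
    (fun u hu => hroot ⟨u, u.2, congrArg Subtype.val hu⟩)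
  have hs' : (s : F) ^ 2 + (s : F) = η ^ 2 + η + c := congrArg Subtype.val hs
  exact ⟨η + s, by linear_combination hs' + (η ^ 2 + η + c + η * (s : F)) * h2⟩

/-- A rational structure of index two forces plus type. -/
theorem plus_of_rational {m : ℕ} (hn : Fintype.card ι = 2 * m) {F₀ : Subfield F}
    (hcard : Fintype.card F = Nat.card F₀ ^ 2) {P : GL ι F} {ζ : F} (hζ : ζ ≠ 0)
    (hrat : Geo.IsQuadFormRationalStructure (fun v => ζ * Q v) F₀ P) : Geo.IsPlusTypeOn Q ⊤ := by
  classical
  let co : (ι → F₀) → (ι → F) := fun u i => (u i : F)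
  let M : (ι → F₀) → (ι → F) := fun u => (P : Matrix ι ι F) *ᵥ co u
  have hMadd : ∀ u v, M (u + v) = M u + M v := fun u v => by
    show _ *ᵥ _ = _; rw [show co (u + v) = co u + co v from rfl, Matrix.mulVec_add]
  have hMsmul : ∀ (c : F₀) u, M (c • u) = (c : F) • M u := fun c u => by
    show _ *ᵥ _ = _; rw [show co (c • u) = (c : F) • co u from rfl, Matrix.mulVec_smul]
  let q₀ : (ι → F₀) → F₀ := fun u => ⟨ζ * Q (M u), hrat (co u) fun i => (u i).2⟩
  have hpol : ∀ u v, ((QuadraticMap.polar q₀ u v : F₀) : F) = ζ * bform hQ (M u) (M v) := fun u v => by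
    rw [bform_apply]
    simp only [QuadraticMap.polar, q₀, AddSubgroupClass.coe_sub, hMadd]
    ring
  have hq₀ : Geo.IsNondegenerateQuadraticForm q₀ := by
    refine ⟨fun c u => Subtype.ext ?_, ⟨?_, ?_, ?_, ?_⟩, fun u hu => ?_⟩
    · show ζ * Q (M (c • u)) = (c : F) ^ 2 * (ζ * Q (M u))
      rw [hMsmul, q_smul hQ]; ring
    · intro x y v; apply Subtype.ext; rw [AddMemClass.coe_add, hpol, hpol, hpol, hMadd, map_add, LinearMap.add_apply, mul_add]
    · intro c x v; apply Subtype.ext; rw [MulMemClass.coe_mul, hpol, hpol, hMsmul, map_smul, LinearMap.smul_apply, smul_eq_mul]; ring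
    · intro v x y; apply Subtype.ext; rw [AddMemClass.coe_add, hpol, hpol, hpol, hMadd, map_add, mul_add]
    · intro c v x; apply Subtype.ext; rw [MulMemClass.coe_mul, hpol, hpol, hMsmul, map_smul, smul_eq_mul]; ring
    · have hMu : M u ≠ 0 := fun h => hu (funext fun i => Subtype.ext (by
        have := congrFun (CfsgLib.Aschbacher.mulVec_inj P (h.trans (Matrix.mulVec_zero _).symm)) i
        simpa [co] using this))
      obtain ⟨i, hi⟩ : ∃ i, bform hQ (M u) ((P : Matrix ι ι F) *ᵥ Pi.single i 1) ≠ 0 := by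
        by_contra! hall
        obtain ⟨-, x, hx⟩ := hQ.nondegenerate (M u) hMu
        refine hx ?_
        show bform hQ (M u) x = 0
        rw [← CfsgLib.Aschbacher.mulVec_inv_mulVec P x, pi_eq_sum_univ' ((P⁻¹ : GL ι F).val *ᵥ x),
          Matrix.mulVec_sum, map_sum]
        exact Finset.sum_eq_zero fun i _ => by rw [Matrix.mulVec_smul, map_smul, hall, smul_zero]
      have hne : QuadraticMap.polar q₀ u (Pi.single i 1) ≠ 0 := fun h => by
        have h' := hpol u (Pi.single i 1)
        rw [h, show M (Pi.single i 1) = (P : Matrix ι ι F) *ᵥ Pi.single i 1 from by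
          show (P : Matrix ι ι F) *ᵥ co _ = _
          congr 1; funext j; rcases eq_or_ne j i with rfl | h <;> simp [co, *]] at h'
        exact mul_ne_zero hζ hi h'.symm
      exact ⟨⟨_, fun h => hne (by rw [QuadraticMap.polar_comm]; exact h)⟩, _, hne⟩
  obtain ⟨r, e, f, W₀, hd, hli, hcase⟩ := exists_type_decomp hq₀ (W := ⊤)
    (fun w _ hw => ⟨(hq₀.nondegenerate w hw).1.imp fun x hx => ⟨trivial, hx⟩,
      (hq₀.nondegenerate w hw).2.imp fun x hx => ⟨trivial, hx⟩⟩)
    (by rw [finrank_top, finrank_fintype_fun_eq_card, hn]; exact even_two_mul m)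
  have hdim := hd.dim
  rw [finrank_top, finrank_fintype_fun_eq_card, hn] at hdim
  have hQ0 : ∀ u, q₀ u = 0 → Q (M u) = 0 := fun u h =>
    (mul_eq_zero.1 (congrArg Subtype.val h)).resolve_left hζ
  have hb0 : ∀ u v, QuadraticMap.polar q₀ u v = 0 → bform hQ (M u) (M v) = 0 := fun u v h =>
    (mul_eq_zero.1 ((hpol u v).symm.trans (congrArg Subtype.val h))).resolve_left hζ
  have hef : ∀ i j, ζ * bform hQ (M (e i)) (M (f j)) = if i = j then 1 else 0 := fun i j => by
    rw [← hpol, show QuadraticMap.polar q₀ (e i) (f j) = _ from hd.ef i j]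
    split_ifs <;> rfl
  have hgen : ∀ (g : Fin r → F) (z : ι → F), (∀ i, bform hQ z (M (f i)) = 0) →
      ∑ i, g i • M (e i) + z = 0 → ∀ i, g i = 0 := by
    intro g z hz h i
    have h1 := congrArg (fun x => ζ * bform hQ x (M (f i))) h
    simp only [map_add, map_sum, map_smul, LinearMap.add_apply, LinearMap.sum_apply, LinearMap.smul_apply,
      smul_eq_mul, hz, add_zero, map_zero, LinearMap.zero_apply, mul_zero] at h1
    rw [Finset.mul_sum, Finset.sum_eq_single i (fun j _ hj => by rw [mul_left_comm, hef, if_neg hj, mul_zero])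
      (by simp), mul_left_comm, hef, if_pos rfl, mul_one] at h1
    exact h1
  set S := Set.range fun i => M (e i)
  have hSq : ∀ x ∈ S, Q x = 0 := by rintro _ ⟨i, rfl⟩; exact hQ0 _ (hd.qe i)
  have hSb : ∀ x ∈ S, ∀ y ∈ S, bform hQ x y = 0 := by
    rintro _ ⟨i, rfl⟩ _ ⟨j, rfl⟩; exact hb0 _ _ (hd.ee i j)
  rcases hcase with ⟨h0, -⟩ | ⟨h2', -⟩
  · refine plus_of_half (totallySingular_span hQ hSq hSb) ?_
    have hli' : LinearIndependent F fun i => M (e i) :=
      Fintype.linearIndependent_iff.2 fun g hg => hgen g 0 (by simp) (by rwa [add_zero])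
    rw [finrank_span_eq_card hli', Fintype.card_fin]
    omega
  obtain ⟨v, w, hv, hw, hvwli, -, hqv, hvw, -⟩ := LinAlg.Witt.aniso_plane (qf hq₀) W₀ h2' hd.aniso hd.nondeg
  obtain ⟨θ, hθ⟩ := exists_root_of_index_two hcard (c := (q₀ w : F)) (q₀ w).2
  set z := θ • M v + M w
  have hzq : Q z = 0 := by
    have h1 : ζ * Q (M v) = 1 := congrArg Subtype.val hqv
    have h2 : ζ * bform hQ (M v) (M w) = 1 := (hpol v w).symm.trans (congrArg Subtype.val hvw)
    refine (mul_eq_zero.1 (show ζ * Q z = 0 from ?_)).resolve_left hζ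
    rw [q_add hQ, q_smul hQ, map_smul, LinearMap.smul_apply, smul_eq_mul]
    have hθ' : θ ^ 2 + θ + ζ * Q (M w) = 0 := hθ
    linear_combination hθ' + θ ^ 2 * h1 + θ * h2
  have hzb : ∀ i, bform hQ (M (e i)) z = 0 := fun i => by
    rw [map_add, map_smul, hb0 _ _ (hd.ew i v hv), hb0 _ _ (hd.ew i w hw), smul_zero, add_zero]
  have hzf : ∀ i, bform hQ z (M (f i)) = 0 := fun i => by
    rw [b_symm hQ, map_add, map_smul, hb0 _ _ (hd.fw i v hv), hb0 _ _ (hd.fw i w hw), smul_zero, add_zero]
  refine plus_of_half (totallySingular_span hQ (S := Set.range (Sum.elim (fun i => M (e i)) fun _ : Unit => z))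
    (by rintro _ ⟨i | i, rfl⟩; exacts [hSq _ ⟨i, rfl⟩, hzq]) ?_) ?_
  · rintro _ ⟨i | i, rfl⟩ _ ⟨j | j, rfl⟩
    · exact hSb _ ⟨i, rfl⟩ _ ⟨j, rfl⟩
    · exact hzb i
    · exact (b_symm hQ _ _).trans (hzb j)
    · show bform hQ z z = 0
      rw [b_self hQ, hzq, mul_zero]
  have hli' : LinearIndependent F (Sum.elim (fun i => M (e i)) fun _ : Unit => z) := by
    refine Fintype.linearIndependent_iff.2 fun g hg => ?_
    simp only [Fintype.sum_sum_type, Sum.elim_inl, Sum.elim_inr, Finset.univ_unique, Finset.sum_singleton] at hg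
    have hg0 := hgen (fun i => g (Sum.inl i)) (g (Sum.inr default) • z)
      (fun i => by rw [map_smul, LinearMap.smul_apply, hzf, smul_zero]) hg
    rw [Finset.sum_eq_zero fun i _ => by rw [show g (Sum.inl i) = 0 from hg0 i, zero_smul], zero_add] at hg
    have hz0 : z ≠ 0 := by
      intro hz
      have hv0 : v ≠ 0 := fun h => by rw [h, QuadraticMap.map_zero] at hqv; exact zero_ne_one hqv
      -- pairing with `v` sees the coefficient of `w`
      have e1 : ζ * bform hQ z (M v) = 2 * θ + 1 := by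
        have h1 : ζ * Q (M v) = 1 := congrArg Subtype.val hqv
        have h2 : ζ * bform hQ (M v) (M w) = 1 := (hpol v w).symm.trans (congrArg Subtype.val hvw)
        rw [map_add, map_smul, LinearMap.add_apply, LinearMap.smul_apply, b_self hQ, b_symm hQ (M w), smul_eq_mul]
        linear_combination 2 * θ * h1 + h2
      rw [hz, map_zero, LinearMap.zero_apply, mul_zero] at e1
      by_cases h2F : (2 : F) = 0
      · rw [h2F, zero_mul, zero_add] at e1; exact zero_ne_one e1
      have hθ0 : θ = -2⁻¹ := by field_simp; linear_combination -e1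
      have hθF : θ ∈ F₀ := by
        rw [hθ0]
        refine F₀.neg_mem (F₀.inv_mem ?_)
        rw [← one_add_one_eq_two]; exact F₀.add_mem F₀.one_mem F₀.one_mem
      have hzz : M ((⟨θ, hθF⟩ : F₀) • v + w) = 0 := by rw [hMadd, hMsmul]; exact hz
      have hzero : (⟨θ, hθF⟩ : F₀) • v + w = 0 := funext fun i => Subtype.ext (by
        have := congrFun (CfsgLib.Aschbacher.mulVec_inj P (hzz.trans (Matrix.mulVec_zero _).symm)) i
        simpa [co] using this)
      have := LinearIndependent.pair_iff.1 hvwli ⟨θ, hθF⟩ 1 (by rw [one_smul]; exact hzero)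
      exact one_ne_zero this.2
    rintro (i | i)
    · exact hg0 i
    · exact (smul_eq_zero.1 hg).resolve_right hz0
  rw [finrank_span_eq_card hli', Fintype.card_sum, Fintype.card_fin, Fintype.card_unit]
  omega

end CfsgLib.Aschbacher.OrthEven
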