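import Mathlib
import Cfsg.Agent.Aschbacher.OrthEvenMembers
import Cfsg.Agent.Aschbacher.OrthEvenTypes
import Cfsg.Agent.Aschbacher.CentreCases
import Cfsg.Agent.OrthGeo.TensorThree

/-!
Decompositions over very small fields that do not give maximal subgroups of Omega.
-/

set_option autoImplicit false
set_option linter.unusedSectionVars false

namespace CfsgLib.Aschbacher.OrthEven

open Matrix Cfsg Module CfsgLib.OrthGeo CfsgLib.Aschbacher.Centre

variable {ι : Type} [Fintype ι] [DecidableEq ι] {F : Type*} [Field F] [Fintype F]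
variable {Q : (ι → F) → F} {H : Subgroup (GL ι F)}

/-- The subfield alternative. -/
def SubfieldClause (Q : (ι → F) → F) (H : Subgroup (GL ι F)) : Prop :=
  ∃ (F₀ : Subfield F) (r : ℕ) (P : GL ι F) (ζ : F), r.Prime ∧ Fintype.card F = Nat.card F₀ ^ r ∧
    ζ ≠ 0 ∧ Geo.IsQuadFormRationalStructure (fun v => ζ * Q v) F₀ P ∧
    H = Geo.subfieldSubgroup F₀ P ⊓ Geo.omegaGL Q

/-- The frame alternative. -/
def FrameClause (n : ℕ) (Q : (ι → F) → F) (H : Subgroup (GL ι F)) : Prop :=
  (∃ p : ℕ, p.Prime ∧ Odd p ∧ Fintype.card F = p) ∧ ∃ D : Fin n → Submodule F (ι → F),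
    Geo.IsOrthogonalMDecomposition Q 1 D ∧ H = Geo.decompositionStabilizer D ⊓ Geo.omegaGL Q

omit [Fintype F] in
/-- No subgroup lies strictly between a maximal subgroup and the whole. -/
theorem not_strictly_between {K : Subgroup (GL ι F)} (hH : Geo.IsMaximalIn (Geo.omegaGL Q) H)
    {M : Subgroup (GL ι F)} (heq : H = M) (h1 : M < K) (h2 : K < Geo.omegaGL Q) : False := by
  subst heq
  rcases hH.2 K h1.le h2.le with h | h
  · exact h1.ne h.symm
  · exact h2.ne h

variable (hQ : Geo.IsNondegenerateQuadraticForm Q)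
include hQ

/-- Orthogonal non-degenerate subspaces are independent. -/
theorem indep_of_orth {κ : Type*} {D : κ → Submodule F (ι → F)}
    (hnd : ∀ i, Geo.IsNondegenerateOn (QuadraticMap.polar Q) (D i))
    (ho : ∀ i j, i ≠ j → ∀ u ∈ D i, ∀ v ∈ D j, bform hQ u v = 0) : iSupIndep D := by
  intro i
  rw [Submodule.disjoint_def]
  intro x hx hx'
  by_contra h0
  obtain ⟨⟨y, hy, hyx⟩, -⟩ := hnd i x hx h0
  have hle : (⨆ (j : κ) (_ : j ≠ i), D j) ≤ LinearMap.ker (bform hQ y) :=
    iSup₂_le fun j hj v hv => ho i j (Ne.symm hj) y hy v hv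
  exact hyx (hle hx')

/-- Rational combinations of vectors with rational values and products have rational values. -/
theorem rational_sum {κ : Type*} (F₀ : Subfield F) {ζ : F} (c : κ → ι → F) (u : κ → F)
    (hu : ∀ i, u i ∈ F₀) (hq : ∀ i, ζ * Q (c i) ∈ F₀) (hb : ∀ i j, ζ * bform hQ (c i) (c j) ∈ F₀)
    (S : Finset κ) : ζ * Q (∑ i ∈ S, u i • c i) ∈ F₀ := by
  classical
  induction S using Finset.induction with
  | empty => simp [q_zero hQ, F₀.zero_mem]
  | insert a S ha ih =>
    rw [Finset.sum_insert ha, q_add hQ, mul_add, mul_add, q_smul hQ, mul_left_comm, map_smul,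
      LinearMap.smul_apply, map_sum, smul_eq_mul, Finset.mul_sum, Finset.mul_sum]
    refine F₀.add_mem (F₀.add_mem (F₀.mul_mem (pow_mem (hu a) 2) (hq a)) ih) (sum_mem fun i _ => ?_)
    rw [map_smul, smul_eq_mul]
    have := F₀.mul_mem (F₀.mul_mem (hu a) (hu i)) (hb a i)
    convert this using 1
    ring

variable (hn : 7 ≤ Fintype.card ι) (hH : Geo.IsMaximalIn (Geo.omegaGL Q) H)
include hn hH

/-- A basis whose rational span is invariant gives a subfield member. -/
theorem subfield_of_basis {F₀ : Subfield F} {r : ℕ} (hr : r.Prime) (hcard : Fintype.card F = Nat.card F₀ ^ r)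
    (c : Basis ι F (ι → F)) {ζ : F} (hζ : ζ ≠ 0) (hq : ∀ i, ζ * Q (c i) ∈ F₀)
    (hb : ∀ i j, ζ * bform hQ (c i) (c j) ∈ F₀)
    (hmap : ∀ h ∈ H, ∀ i, ∃ u : ι → F, (∀ j, u j ∈ F₀) ∧ (h : Matrix ι ι F) *ᵥ c i = ∑ j, u j • c j) :
    SubfieldClause Q H := by
  classical
  haveI : Nonempty ι := Fintype.card_pos_iff.1 (by omega)
  have htop : F₀ ≠ ⊤ := by
    rintro rfl
    rw [Nat.card_congr (Subfield.topEquiv (K := F)).toEquiv, Nat.card_eq_fintype_card] at hcard
    exact (lt_self_pow₀ Fintype.one_lt_card hr.one_lt).ne hcard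
  let X : Matrix ι ι F := (Pi.basisFun F ι).toMatrix c
  have hXdet : X.det ≠ 0 := fun h0 => by
    have := congrArg Matrix.det ((Pi.basisFun F ι).toMatrix_mul_toMatrix_flip c)
    rw [Matrix.det_mul, show (Basis.toMatrix (Pi.basisFun F ι) ⇑c).det = 0 from h0, zero_mul, Matrix.det_one] at this
    exact zero_ne_one this
  let P : GL ι F := Matrix.GeneralLinearGroup.mkOfDetNeZero X hXdet
  have hPu : ∀ u : ι → F, (P : Matrix ι ι F) *ᵥ u = ∑ i, u i • c i := fun u => by
    funext k
    show (X *ᵥ u) k = _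
    simp [X, Matrix.mulVec, dotProduct, Basis.toMatrix_apply, mul_comm]
  refine ⟨F₀, r, P, ζ, hr, hcard, hζ, fun u hu => ?_,
    eq_inf_of_le hH (fun h hh => ?_) (not_le_subfieldSubgroup hQ hn htop P)⟩
  · show ζ * Q ((P : Matrix ι ι F) *ᵥ u) ∈ F₀
    rw [hPu]
    exact rational_sum hQ F₀ c u hu hq hb _
  · choose u hu hu' using hmap h hh
    let S₀ : Matrix ι ι F₀ := fun k i => ⟨u i k, hu i k⟩
    have hval : (P⁻¹ * h * P : GL ι F).val = S₀.map F₀.subtype := by
      refine Matrix.ext_of_mulVec_single fun i => CfsgLib.Aschbacher.mulVec_inj P ?_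
      show (P : Matrix ι ι F) *ᵥ _ = (P : Matrix ι ι F) *ᵥ _
      rw [Units.val_mul, Units.val_mul, ← Matrix.mulVec_mulVec, ← Matrix.mulVec_mulVec,
        CfsgLib.Aschbacher.mulVec_inv_mulVec, hPu, hPu]
      simp only [Pi.single_apply, ite_smul, one_smul, zero_smul, Finset.sum_ite_eq', Finset.mem_univ, if_true]
      rw [hu' i]
      refine Finset.sum_congr rfl fun k _ => ?_
      rw [Matrix.mulVec_single_one]
      rfl
    have hdet : S₀.det ≠ 0 := fun h0 => by
      have h1 := RingHom.map_det F₀.subtype S₀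
      rw [h0, map_zero, RingHom.mapMatrix_apply, ← hval] at h1
      exact ((Matrix.isUnit_iff_isUnit_det _).1 (Units.isUnit _)).ne_zero h1.symm
    refine CfsgLib.Aschbacher.mem_subfieldSubgroup_iff.2 ⟨Matrix.GeneralLinearGroup.mkOfDetNeZero S₀ hdet, 1, ?_⟩
    rw [map_one, mul_one]
    exact Units.ext hval

/-- An orthogonal basis of equal values permuted up to scalars by `H`. -/
theorem frame_cases (h2 : (2 : F) ≠ 0) {n : ℕ} (hcard : Fintype.card ι = n) (e : Fin n → ι → F) {c : F}
    (hc : c ≠ 0) (hQe : ∀ i, Q (e i) = c) (ho : ∀ i j, i ≠ j → bform hQ (e i) (e j) = 0)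
    (hperm : ∀ h ∈ H, ∀ i, ∃ (j : Fin n) (a : F), (h : Matrix ι ι F) *ᵥ e i = a • e j) :
    FrameClause n Q H ∨ SubfieldClause Q H := by
  classical
  haveI : Nonempty ι := Fintype.card_pos_iff.1 (by omega)
  haveI : Nonempty (Fin n) := ⟨⟨0, by omega⟩⟩
  have hI : H ≤ Cfsg.isometryGroup F Q := hH.1.le.trans omegaGL_le
  have hself : ∀ i, bform hQ (e i) (e i) ≠ 0 := fun i => by rw [b_self hQ, hQe]; exact mul_ne_zero h2 hc
  have hne : ∀ i, e i ≠ 0 := fun i h => hc (by rw [← hQe i, h, q_zero hQ])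
  have hli : LinearIndependent F e := Fintype.linearIndependent_iff.2 fun g hg i => by
    have := congrArg (bform hQ (e i)) hg
    simp only [map_sum, map_smul, map_zero, smul_eq_mul] at this
    rw [Finset.sum_eq_single i (fun j _ hj => by rw [ho i j (Ne.symm hj), mul_zero]) (by simp)] at this
    exact (mul_eq_zero.1 this).resolve_right (hself i)
  choose σ a ha using hperm
  have ha2 : ∀ h hh i, a h hh i * a h hh i = 1 := fun h hh i => by
    have h1 := mem_isometryGroup.1 (hI hh) (e i)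
    rw [ha h hh i, q_smul hQ, hQe, hQe] at h1
    exact mul_right_cancel₀ hc (by linear_combination h1)
  have hσ : ∀ h hh, Function.Injective (σ h hh) := fun h hh i j hij => by
    by_contra hne'
    have h1 := isometry_b hQ (hI hh) (e i) (e j)
    rw [ho i j hne', ha h hh i, ha h hh j, ← hij, map_smul, map_smul, LinearMap.smul_apply, smul_eq_mul, smul_eq_mul] at h1
    rcases mul_eq_zero.1 h1 with h' | h'
    · have := ha2 h hh j; simp [h'] at this
    · rcases mul_eq_zero.1 h' with h'' | h''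
      · have := ha2 h hh i; simp [h''] at this
      · exact hself _ h''
  by_cases hp : (Fintype.card F).Prime
  · left
    refine ⟨⟨_, hp, odd_card_of_two_ne_zero h2, rfl⟩, ?_⟩
    set D : Fin n → Submodule F (ι → F) := fun i => Submodule.span F {e i} with hDdef
    have hnd : ∀ i, Geo.IsNondegenerateOn (QuadraticMap.polar Q) (D i) := by
      intro i w hw hw0
      obtain ⟨s, rfl⟩ := Submodule.mem_span_singleton.1 hw
      have hs0 : s ≠ 0 := fun h => hw0 (by simp [h])
      refine ⟨⟨e i, Submodule.mem_span_singleton_self _, ?_⟩, e i, Submodule.mem_span_singleton_self _, ?_⟩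
      · change bform hQ (e i) (s • e i) ≠ 0
        rw [map_smul, smul_eq_mul]; exact mul_ne_zero hs0 (hself i)
      · change bform hQ (s • e i) (e i) ≠ 0
        rw [map_smul, LinearMap.smul_apply, smul_eq_mul]; exact mul_ne_zero hs0 (hself i)
    have horth : ∀ i j, i ≠ j → ∀ u ∈ D i, ∀ w ∈ D j, bform hQ u w = 0 := by
      intro i j hij u hu w hw
      obtain ⟨p, rfl⟩ := Submodule.mem_span_singleton.1 hu
      obtain ⟨q, rfl⟩ := Submodule.mem_span_singleton.1 hw
      rw [map_smul, map_smul, LinearMap.smul_apply, ho i j hij, smul_zero, smul_zero]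
    have hD : Geo.IsMDecomposition 1 D := by
      refine ⟨by omega, one_pos, fun i => finrank_span_singleton (hne i), indep_of_orth hQ hnd horth, ?_⟩
      rw [hDdef, ← Submodule.span_range_eq_iSup]
      refine hli.span_eq_top_of_card_eq_finrank ?_
      rw [finrank_fintype_fun_eq_card, Fintype.card_fin, hcard]
    refine ⟨D, ⟨⟨hD, hnd, horth⟩, fun i j => ?_⟩, eq_inf_of_le hH (fun h hh => ?_)
      (not_le_decompositionStabilizer hQ hn hD)⟩
    · refine ⟨(LinearEquiv.toSpanNonzeroSingleton F _ (e i) (hne i)).symm.trans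
        (LinearEquiv.toSpanNonzeroSingleton F _ (e j) (hne j)), fun w => ?_⟩
      obtain ⟨s, rfl⟩ := (LinearEquiv.toSpanNonzeroSingleton F _ (e i) (hne i)).surjective w
      rw [LinearEquiv.trans_apply, LinearEquiv.symm_apply_apply]
      show Q (s • e j) = Q (s • e i)
      rw [q_smul hQ, q_smul hQ, hQe, hQe]
    · refine ⟨Equiv.ofBijective _ (Finite.injective_iff_bijective.1 (hσ h hh)), fun i => ?_⟩
      simp only [hDdef, Submodule.map_span, Set.image_singleton, Matrix.toLin'_apply, ha h hh i,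
        Equiv.ofBijective_apply]
      exact Submodule.span_singleton_smul_eq (left_ne_zero_of_mul_eq_one (ha2 h hh i)).isUnit _
  · right
    have hbot : (⊥ : Subfield F) ≠ ⊤ := by
      intro htop
      obtain ⟨k, hpp, hcardF⟩ := FiniteField.card F (ringChar F)
      haveI := Fact.mk hpp
      refine hp ?_
      have hb : Nat.card (⊥ : Subfield F) = ringChar F := Subfield.card_bot F (ringChar F)
      rw [htop, Nat.card_congr (Subfield.topEquiv (K := F)).toEquiv, Nat.card_eq_fintype_card] at hb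
      rw [hb]; exact hpp
    obtain ⟨F₁, r, -, hr, hcardF, -⟩ := exists_subfield_prime_index hbot
    let num : Fin n ≃ ι := (Fintype.equivFinOfCardEq hcard).symm
    let B : Basis ι F (ι → F) := (basisOfLinearIndependentOfCardEqFinrank hli
      (by rw [finrank_fintype_fun_eq_card, Fintype.card_fin, hcard])).reindex num
    have hB : ∀ i, B i = e (num.symm i) := fun i => by simp [B]
    have h2F : (2 : F) ∈ F₁ := by rw [← one_add_one_eq_two]; exact F₁.add_mem F₁.one_mem F₁.one_mem
    refine subfield_of_basis hQ hn hH hr hcardF B (inv_ne_zero hc) (fun i => ?_) (fun i j => ?_) fun h hh i => ?_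
    · rw [hB, hQe, inv_mul_cancel₀ hc]; exact F₁.one_mem
    · rw [hB, hB]
      rcases eq_or_ne i j with rfl | hij
      · rw [b_self hQ, hQe, mul_left_comm, inv_mul_cancel₀ hc, mul_one]; exact h2F
      · rw [ho _ _ (fun h' => hij (num.symm.injective h')), mul_zero]; exact F₁.zero_mem
    · refine ⟨Pi.single (num (σ h hh (num.symm i))) (a h hh (num.symm i)), fun j => ?_, ?_⟩
      · rcases eq_or_ne j (num (σ h hh (num.symm i))) with rfl | hne'
        · rw [Pi.single_eq_same]
          rcases mul_self_eq_one_iff.1 (ha2 h hh (num.symm i)) with h' | h' <;> rw [h']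
          exacts [F₁.one_mem, F₁.neg_mem F₁.one_mem]
        · rw [Pi.single_eq_of_ne hne']; exact F₁.zero_mem
      · rw [hB, ha h hh, Finset.sum_eq_single (num (σ h hh (num.symm i)))
          (fun j _ hj => by rw [Pi.single_eq_of_ne hj, zero_smul]) (by simp), Pi.single_eq_same, hB,
          Equiv.symm_apply_apply]

omit hn hH in
/-- Transport of vectors of the first block to all blocks. -/
theorem block_transport {t k : ℕ} {D : Fin t → Submodule F (ι → F)} (hD : Geo.IsOrthogonalMDecomposition Q k D)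
    (hle : H ≤ Geo.decompositionStabilizer D) (hI : H ≤ Cfsg.isometryGroup F Q) (i₀ : Fin t) :
    ∃ T : Fin t → (D i₀ →ₗ[F] (ι → F)), (∀ i x, T i x ∈ D i) ∧ (∀ i, Function.Injective (T i)) ∧
      (∀ i x, Q (T i x) = Q (x : ι → F)) ∧
      (∀ i x y, bform hQ (T i x) (T i y) = bform hQ (x : ι → F) (y : ι → F)) ∧
      (∀ h ∈ H, ∀ i x, ∃ (j : Fin t) (y : D i₀), (h : Matrix ι ι F) *ᵥ T i x = T j y ∧
        Q (y : ι → F) = Q (x : ι → F)) := by
  choose φ hφ using fun i => hD.isometric i₀ i
  refine ⟨fun i => (D i).subtype.comp (φ i : D i₀ →ₗ[F] D i), fun i x => Submodule.coe_mem _,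
    fun i x y h => (φ i).injective ((D i).injective_subtype h), fun i x => hφ i x, fun i x y => ?_,
    fun h hh i x => ?_⟩
  · show QuadraticMap.polar Q ((φ i x : D i) : ι → F) ((φ i y : D i) : ι → F) = _
    simp only [QuadraticMap.polar, ← Submodule.coe_add, ← map_add, hφ]
    rfl
  · obtain ⟨π, hπ⟩ := hle hh
    have hm : (h : Matrix ι ι F) *ᵥ ((φ i x : D i) : ι → F) ∈ D (π i) := by
      rw [← hπ i]; exact ⟨_, Submodule.coe_mem _, Matrix.toLin'_apply _ _⟩
    refine ⟨π i, (φ (π i)).symm ⟨_, hm⟩, ?_, ?_⟩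
    · show _ = ((φ (π i) ((φ (π i)).symm ⟨_, hm⟩) : D (π i)) : ι → F)
      rw [LinearEquiv.apply_symm_apply]
      rfl
    · rw [← hφ (π i), LinearEquiv.apply_symm_apply]
      show Q ((h : Matrix ι ι F) *ᵥ _) = _
      rw [mem_isometryGroup.1 (hI hh), hφ]

variable {t k : ℕ} {D : Fin t → Submodule F (ι → F)} (hD : Geo.IsOrthogonalMDecomposition Q k D)
variable (hle : H ≤ Geo.decompositionStabilizer D) (htk : t * k = Fintype.card ι)
include hD hle htk

/-- Blocks in which the vectors of one value form a frame. -/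
theorem blocks_frame (h2 : (2 : F) ≠ 0) (i₀ : Fin t) (x : Fin k → ι → F) (hx : ∀ s, x s ∈ D i₀) {c : F}
    (hc : c ≠ 0) (hQx : ∀ s, Q (x s) = c) (hox : ∀ s s', s ≠ s' → bform hQ (x s) (x s') = 0)
    (huniq : ∀ z ∈ D i₀, Q z = c → ∃ (s : Fin k) (a : F), z = a • x s) {n : ℕ}
    (hcard : Fintype.card ι = n) : FrameClause n Q H ∨ SubfieldClause Q H := by
  have hI : H ≤ Cfsg.isometryGroup F Q := hH.1.le.trans omegaGL_le
  obtain ⟨T, hTm, -, hTq, hTb, hTh⟩ := block_transport hQ hD hle hI i₀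
  obtain rfl : n = t * k := by omega
  refine frame_cases hQ hn hH h2 hcard
    (fun m => T (finProdFinEquiv.symm m).1 ⟨x (finProdFinEquiv.symm m).2, hx _⟩) hc (fun m => ?_)
    (fun m m' hmm => ?_) fun h hh m => ?_
  · rw [hTq]; exact hQx _
  · have hp : finProdFinEquiv.symm m ≠ finProdFinEquiv.symm m' := fun h => hmm (finProdFinEquiv.symm.injective h)
    by_cases h1 : (finProdFinEquiv.symm m).1 = (finProdFinEquiv.symm m').1
    · rw [h1, hTb]
      exact hox _ _ fun h => hp (Prod.ext h1 h)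
    · exact hD.decomp.orthogonal _ _ h1 _ (hTm _ _) _ (hTm _ _)
  · obtain ⟨j, y, hy, hyQ⟩ := hTh h hh (finProdFinEquiv.symm m).1 ⟨x (finProdFinEquiv.symm m).2, hx _⟩
    obtain ⟨s, a, hsa⟩ := huniq y y.2 (hyQ.trans (hQx _))
    refine ⟨finProdFinEquiv (j, s), a, ?_⟩
    simp only [Equiv.symm_apply_apply]
    rw [hy, ← map_smul]
    exact congrArg _ (Subtype.ext hsa)

variable (hirr : Geo.ActsIrreducibly (Geo.matrixSet H))

/-- Blocks with only one line of some value: the group is reducible. -/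
theorem blocks_line_false (hirr : Geo.ActsIrreducibly (Geo.matrixSet H)) (hk : 2 ≤ k) (i₀ : Fin t)
    {x : ι → F} (hx : x ∈ D i₀) (hx0 : x ≠ 0)
    (huniq : ∀ z ∈ D i₀, Q z = Q x → ∃ a : F, z = a • x) : False := by
  have hI : H ≤ Cfsg.isometryGroup F Q := hH.1.le.trans omegaGL_le
  obtain ⟨T, hTm, hTi, hTq, -, hTh⟩ := block_transport hQ hD hle hI i₀
  set W : Submodule F (ι → F) := Submodule.span F (Set.range fun i => T i ⟨x, hx⟩)
  have hW := eq_top_of_invariant hirr (W := W)
    (fun h => hx0 (congrArg Subtype.val (hTi i₀ (((Submodule.eq_bot_iff _).1 h _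
      (Submodule.subset_span ⟨i₀, rfl⟩)).trans (map_zero _).symm))))
    fun g hg v hv => by
      induction hv using Submodule.span_induction with
      | mem v hv =>
        obtain ⟨i, rfl⟩ := hv
        obtain ⟨j, y, hy, hyQ⟩ := hTh g hg i ⟨x, hx⟩
        obtain ⟨a, hya⟩ := huniq y y.2 hyQ
        show (g : Matrix ι ι F) *ᵥ T i ⟨x, hx⟩ ∈ W
        rw [hy, show y = a • (⟨x, hx⟩ : D i₀) from Subtype.ext hya, map_smul]
        exact W.smul_mem a (Submodule.subset_span ⟨j, rfl⟩)
      | zero => rw [Matrix.mulVec_zero]; exact W.zero_mem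
      | add u v _ _ hu hv => rw [Matrix.mulVec_add]; exact W.add_mem hu hv
      | smul a u _ hu => rw [Matrix.mulVec_smul]; exact W.smul_mem a hu
  have h1 := finrank_range_le_card (R := F) fun i => T i ⟨x, hx⟩
  rw [Set.finrank, show Submodule.span F (Set.range fun i => T i ⟨x, hx⟩) = ⊤ from hW, finrank_top,
    finrank_fintype_fun_eq_card, Fintype.card_fin, ← htk] at h1
  have := i₀.pos
  nlinarith

omit hn hH hle htk in
/-- A hyperbolic basis of a plus plane. -/
theorem plus_plane_basis {W : Submodule F (ι → F)} (hW : Geo.IsNondegenerateOn (QuadraticMap.polar Q) W)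
    (hd : finrank F W = 2) (hp : Geo.IsPlusTypeOn Q W) :
    ∃ e f : ι → F, e ∈ W ∧ f ∈ W ∧ Q e = 0 ∧ Q f = 0 ∧ bform hQ e f = 1 ∧
      ∀ z ∈ W, ∃ a b : F, z = a • e + b • f ∧ Q z = a * b := by
  obtain ⟨r, e, f, W₀, hdec, -, h | h⟩ := exists_type_decomp hQ hW (hd ▸ even_two)
  swap
  · exact absurd hp h.2
  have hr : r = 1 := by have := hdec.dim; omega
  subst hr
  refine ⟨e 0, f 0, hdec.e_mem 0, hdec.f_mem 0, hdec.qe 0, hdec.qf 0, (hdec.ef 0 0).trans (if_pos rfl),
    fun z hz => ?_⟩
  have hz' := hdec.span hz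
  rw [Submodule.finrank_eq_zero.1 h.1, sup_bot_eq, Set.range_unique, Set.range_unique,
    Set.singleton_union, Submodule.mem_span_pair] at hz'
  obtain ⟨a, b, rfl⟩ := hz'
  have hef : bform hQ (e 0) (f 0) = 1 := (hdec.ef 0 0).trans (if_pos rfl)
  refine ⟨a, b, rfl, ?_⟩
  show Q (a • e 0 + b • f 0) = a * b
  rw [q_add hQ, q_smul hQ, q_smul hQ, show Q (e 0) = 0 from hdec.qe 0, show Q (f 0) = 0 from hdec.qf 0,
    map_smul, map_smul, LinearMap.smul_apply, hef]
  simp only [smul_eq_mul]
  ring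

/-- Plus planes over at most three elements: the group is reducible. -/
theorem plus_planes_false (hirr : Geo.ActsIrreducibly (Geo.matrixSet H)) (hk : k = 2)
    (hq : Fintype.card F ≤ 3) (hp : ∀ i, Geo.IsPlusTypeOn Q (D i)) : False := by
  subst hk
  let i₀ : Fin t := ⟨0, by have := hD.decomp.decomp.two_le; omega⟩
  obtain ⟨e, f, he, hf, hQe, hQf, hef, hcoord⟩ :=
    plus_plane_basis hQ hD (hD.decomp.nondegenerate i₀) (hD.decomp.decomp.finrank_eq i₀) (hp i₀)
  have hQx : Q (e + f) = 1 := by rw [q_add hQ, hQe, hQf, hef, zero_add, zero_add]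
  refine blocks_line_false hQ hn hH hD hle htk hirr le_rfl i₀ (Submodule.add_mem _ he hf)
    (fun h => by rw [h, q_zero hQ] at hQx; exact zero_ne_one hQx) fun z hz hzQ => ?_
  obtain ⟨a, b, rfl, hab⟩ := hcoord z hz
  rw [hQx] at hzQ
  have hab' : a * b = 1 := hab.symm.trans hzQ
  refine ⟨a, ?_⟩
  suffices b = a by rw [this, smul_add]
  have ha : a ≠ 0 := left_ne_zero_of_mul_eq_one hab'
  have hsq : a * a = 1 := by
    have hpw := FiniteField.pow_card_sub_one_eq_one a ha
    have h2' : 1 < Fintype.card F := Fintype.one_lt_card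
    obtain h | h : Fintype.card F = 2 ∨ Fintype.card F = 3 := by omega
    · rw [h] at hpw; norm_num at hpw; rw [hpw, mul_one]
    · rw [h, show (3 : ℕ) - 1 = 2 from rfl, sq] at hpw; exact hpw
  exact mul_left_cancel₀ ha (hab'.trans hsq.symm)

/-- Plus planes over five elements lie in a frame. -/
theorem plus_planes_five (hk : k = 2) (hq : Fintype.card F = 5) (hp : ∀ i, Geo.IsPlusTypeOn Q (D i))
    {n : ℕ} (hcard : Fintype.card ι = n) : FrameClause n Q H ∨ SubfieldClause Q H := by
  subst hk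
  have h2 : (2 : F) ≠ 0 := two_ne_zero_of_odd_card (by rw [hq]; decide)
  have h5 : (5 : F) = 0 := by
    have h := Nat.cast_card_eq_zero F
    rw [hq] at h
    simpa using h
  let i₀ : Fin t := ⟨0, by have := hD.decomp.decomp.two_le; omega⟩
  obtain ⟨e, f, he, hf, hQe, hQf, hef, hcoord⟩ :=
    plus_plane_basis hQ hD (hD.decomp.nondegenerate i₀) (hD.decomp.decomp.finrank_eq i₀) (hp i₀)
  have hfe : bform hQ f e = 1 := by rw [b_symm hQ, hef]
  refine blocks_frame hQ hn hH hD hle htk h2 i₀ ![e + f, (2 : F) • (e - f)]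
    (Fin.forall_fin_two.2 ⟨Submodule.add_mem _ he hf, Submodule.smul_mem _ _ (Submodule.sub_mem _ he hf)⟩)
    one_ne_zero (Fin.forall_fin_two.2 ⟨?_, ?_⟩) ?_ (fun z hz hzQ => ?_) hcard
  · show Q (e + f) = 1
    rw [q_add hQ, hQe, hQf, hef, zero_add, zero_add]
  · show Q ((2 : F) • (e - f)) = 1
    rw [q_smul hQ, q_sub hQ, hQe, hQf, hef]; linear_combination -h5
  · have h01 : bform hQ (e + f) ((2 : F) • (e - f)) = 0 := by
      simp only [map_smul, map_add, map_sub, LinearMap.add_apply, b_self hQ, hQe, hQf, hef, hfe, mul_zero,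
        smul_eq_mul]
      ring
    refine Fin.forall_fin_two.2 ⟨Fin.forall_fin_two.2 ⟨fun h => absurd rfl h, fun _ => h01⟩,
      Fin.forall_fin_two.2 ⟨fun _ => (b_symm hQ _ _).trans h01, fun h => absurd rfl h⟩⟩
  · obtain ⟨a, b, rfl, hab⟩ := hcoord z hz
    have hab' : a * b = 1 := hab.symm.trans hzQ
    have ha : a ≠ 0 := left_ne_zero_of_mul_eq_one hab'
    have hpw := FiniteField.pow_card_sub_one_eq_one a ha
    rw [hq, show (5 : ℕ) - 1 = 4 from rfl] at hpw
    rcases mul_eq_zero.1 (show (a * a - 1) * (a * a + 1) = 0 by linear_combination hpw) with h | h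
    · have hb : b = a := mul_left_cancel₀ ha (by linear_combination hab' - h)
      exact ⟨0, a, by rw [hb]; simp [smul_add]⟩
    · have hb : b = -a := mul_left_cancel₀ ha (by linear_combination hab' + h - 0 * h5)
      refine ⟨1, a / 2, ?_⟩
      simp only [Matrix.cons_val_one, Matrix.cons_val_fin_one, smul_smul, div_mul_cancel₀ _ h2]
      rw [hb, neg_smul, smul_sub, sub_eq_add_neg]

omit hn hH hle htk in
theorem three_elements (hq : Fintype.card F = 3) (z : F) : z = 0 ∨ z = 1 ∨ z = -1 := by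
  by_cases hz : z = 0
  · exact Or.inl hz
  · exact Or.inr (sq_eq_one_iff.1 (sq_eq_one_of_three hq hz))

/-- Minus planes over three elements lie in a frame. -/
theorem minus_planes_three (hk : k = 2) (hq : Fintype.card F = 3) (hp : ∀ i, ¬ Geo.IsPlusTypeOn Q (D i))
    {n : ℕ} (hcard : Fintype.card ι = n) : FrameClause n Q H ∨ SubfieldClause Q H := by
  subst hk
  have h2 : (2 : F) ≠ 0 := two_ne_zero_of_odd_card (by rw [hq]; decide)
  have h3 := three_eq_zero hq
  let i₀ : Fin t := ⟨0, by have := hD.decomp.decomp.two_le; omega⟩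
  obtain ⟨r, e, f, W₀, hdec, -, h | h⟩ :=
    exists_type_decomp hQ (hD.decomp.nondegenerate i₀) (by rw [hD.decomp.decomp.finrank_eq]; exact even_two)
  · exact absurd h.2 (hp i₀)
  have hW : W₀ = D i₀ := Submodule.eq_of_le_of_finrank_le hdec.le (by rw [hD.decomp.decomp.finrank_eq, h.1])
  obtain ⟨v, w, hv, hw, -, hspan, hQv, hvw, hirr'⟩ :=
    LinAlg.Witt.aniso_plane (qf hQ) W₀ h.1 hdec.aniso hdec.nondeg
  rw [hW] at hv hw hspan
  have hQv' : Q v = 1 := hQv
  have hvw' : bform hQ v w = 1 := hvw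
  have hc : Q w = -1 := by
    have h0 : Q w ≠ 0 := by
      have h0 := hirr' 0
      simpa using h0
    have h1 : Q w ≠ 1 := by
      intro h1
      refine hirr' 1 ?_
      show (1 : F) ^ 2 + 1 + Q w = 0
      rw [h1]; linear_combination h3
    exact ((three_elements hQ hD hq (Q w)).resolve_left h0).resolve_left h1
  have hval : ∀ a b : F, Q (a • v + b • w) = a * a + a * b - b * b := fun a b => by
    rw [q_add hQ, q_smul hQ, q_smul hQ, hQv', hc, map_smul, map_smul, LinearMap.smul_apply, hvw']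
    simp only [smul_eq_mul]
    ring
  refine blocks_frame hQ hn hH hD hle htk h2 i₀ ![v, v + w]
    (Fin.forall_fin_two.2 ⟨hv, Submodule.add_mem _ hv hw⟩) one_ne_zero
    (Fin.forall_fin_two.2 ⟨hQv', by
      show Q (v + w) = 1
      rw [q_add hQ, hQv', hc, hvw']; ring⟩) ?_ (fun z hz hzQ => ?_) hcard
  · have h01 : bform hQ v (v + w) = 0 := by rw [map_add, b_self hQ, hQv', hvw']; linear_combination h3
    exact Fin.forall_fin_two.2 ⟨Fin.forall_fin_two.2 ⟨fun h => absurd rfl h, fun _ => h01⟩,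
      Fin.forall_fin_two.2 ⟨fun _ => (b_symm hQ _ _).trans h01, fun h => absurd rfl h⟩⟩
  · obtain ⟨a, b, rfl⟩ := Submodule.mem_span_pair.1 (hspan hz)
    rw [hval] at hzQ
    by_cases hb : b = 0
    · exact ⟨0, a, by simp [hb]⟩
    have hb2 : b * b = 1 := by rw [← sq]; exact sq_eq_one_of_three hq hb
    by_cases ha : a = 0
    · rw [ha, hb2] at hzQ
      exact absurd (by linear_combination -hzQ : (2 : F) = 0) h2
    have ha2 : a * a = 1 := by rw [← sq]; exact sq_eq_one_of_three hq ha
    have hab : a * b = 1 := by linear_combination hzQ - ha2 + hb2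
    refine ⟨1, a, ?_⟩
    rw [show b = a from mul_left_cancel₀ ha (hab.trans ha2.symm)]
    simp [smul_add]

/-- Three-spaces over three elements lie in a frame. -/
theorem three_spaces_three (hk : k = 3) (hq : Fintype.card F = 3) {n : ℕ} (hcard : Fintype.card ι = n) :
    FrameClause n Q H ∨ SubfieldClause Q H := by
  subst hk
  have h2 : (2 : F) ≠ 0 := two_ne_zero_of_odd_card (by rw [hq]; decide)
  have h3 := three_eq_zero hq
  let i₀ : Fin t := ⟨0, by have := hD.decomp.decomp.two_le; omega⟩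
  let ψ : (Fin 3 → F) ≃ₗ[F] D i₀ := (finBasisOfFinrankEq F _ (hD.decomp.decomp.finrank_eq i₀)).equivFun.symm
  let g : (Fin 3 → F) → (Fin 3 → F) → F := fun x y => bform hQ (ψ x : ι → F) (ψ y : ι → F)
  have hg : Geo.IsSymmetricForm g := by
    refine ⟨⟨fun x y v => by simp [g, -bform_apply], fun c x v => by simp [g, -bform_apply],
      fun v x y => by simp [g, -bform_apply], fun c v x => by simp [g, -bform_apply]⟩, fun x y => b_symm hQ _ _, fun x hx => ?_⟩
    have hne : (ψ x : ι → F) ≠ 0 := fun h => hx (ψ.map_eq_zero_iff.1 (Subtype.ext h))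
    obtain ⟨⟨y, hy, h1⟩, ⟨y', hy', h2'⟩⟩ := hD.decomp.nondegenerate i₀ _ (ψ x).2 hne
    refine ⟨⟨ψ.symm ⟨y, hy⟩, ?_⟩, ψ.symm ⟨y', hy'⟩, ?_⟩
    · simpa [g] using h1
    · simpa [g] using h2'
  obtain ⟨ε, v, hε, hv⟩ := exists_equal_orthogonal hq hg
  let x : Fin 3 → ι → F := fun s => (ψ (v s) : ι → F)
  have hxb : ∀ s s', bform hQ (x s) (x s') = if s = s' then ε else 0 := hv
  have hQx : ∀ s, Q (x s) = ε / 2 := fun s => by
    rw [eq_div_iff h2, mul_comm, ← b_self hQ, hxb, if_pos rfl]
  refine blocks_frame hQ hn hH hD hle htk h2 i₀ x (fun s => (ψ (v s)).2) (div_ne_zero hε h2) hQx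
    (fun s s' h => by rw [hxb, if_neg h]) (fun z hz hzQ => ?_) hcard
  obtain ⟨a0, a1, a2, hz0⟩ : ∃ a0 a1 a2 : F, z = a0 • x 0 + a1 • x 1 + a2 • x 2 := by
    refine ⟨v.repr (ψ.symm ⟨z, hz⟩) 0, v.repr (ψ.symm ⟨z, hz⟩) 1, v.repr (ψ.symm ⟨z, hz⟩) 2, ?_⟩
    have h := congrArg (fun y => (ψ y : ι → F)) (v.sum_repr (ψ.symm ⟨z, hz⟩))
    simp only [LinearEquiv.apply_symm_apply, map_sum, map_smul, Fin.sum_univ_three, map_add, Submodule.coe_add,
      Submodule.coe_smul] at h
    exact h.symm
  rw [hz0, q_add hQ, q_add hQ, q_smul hQ, q_smul hQ, q_smul hQ, hQx, hQx, hQx] at hzQ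
  simp only [map_add, map_smul, LinearMap.add_apply, LinearMap.smul_apply, hxb, Fin.reduceEq, if_false,
    smul_zero, add_zero] at hzQ
  have hsum : a0 ^ 2 + a1 ^ 2 + a2 ^ 2 = 1 := by
    refine mul_right_cancel₀ (div_ne_zero hε h2) ?_
    linear_combination hzQ
  have hsq : ∀ y : F, y = 0 ∨ y ^ 2 = 1 := fun y =>
    (eq_or_ne y 0).imp id fun h => sq_eq_one_of_three hq h
  rcases hsq a0 with h0 | h0 <;> rcases hsq a1 with h1 | h1 <;> rcases hsq a2 with h2' | h2'
  · exact absurd (by rw [h0, h1, h2'] at hsum; simpa using hsum) (zero_ne_one (α := F))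
  · exact ⟨2, a2, by rw [hz0, h0, h1]; simp⟩
  · exact ⟨1, a1, by rw [hz0, h0, h2']; simp⟩
  · exact absurd (by rw [h0, h1, h2'] at hsum; linear_combination hsum : (1 : F) = 0) one_ne_zero
  · exact ⟨0, a0, by rw [hz0, h1, h2']; simp⟩
  · exact absurd (by rw [h0, h1, h2'] at hsum; linear_combination hsum : (1 : F) = 0) one_ne_zero
  · exact absurd (by rw [h0, h1, h2'] at hsum; linear_combination hsum : (1 : F) = 0) one_ne_zero
  · exact absurd (by rw [h0, h1, h2'] at hsum; linear_combination h3 - hsum : (1 : F) = 0) one_ne_zero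

/-- One-dimensional blocks. -/
theorem lines_frame (hk : k = 1) (h2 : (2 : F) ≠ 0) {n : ℕ} (hcard : Fintype.card ι = n) :
    FrameClause n Q H ∨ SubfieldClause Q H := by
  subst hk
  let i₀ : Fin t := ⟨0, by have := hD.decomp.decomp.two_le; omega⟩
  obtain ⟨x, hx, hxQ⟩ := AschPrime.orth_anisotropic hQ (hD.decomp.nondegenerate i₀) fun h => by
    have := hD.decomp.decomp.finrank_eq i₀
    rw [h, finrank_bot] at this
    exact zero_ne_one this
  refine blocks_frame hQ hn hH hD hle htk h2 i₀ (fun _ => x) (fun _ => hx) hxQ (fun _ => rfl)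
    (fun s s' h => absurd (Subsingleton.elim s s') h) (fun z hz _ => ?_) hcard
  obtain ⟨a, ha⟩ := exists_smul_eq_of_finrank_eq_one (hD.decomp.decomp.finrank_eq i₀)
    (x := (⟨x, hx⟩ : D i₀)) (fun h => hxQ (by rw [show x = 0 from congrArg Subtype.val h, q_zero hQ])) ⟨z, hz⟩
  exact ⟨0, a, (congrArg Subtype.val ha).symm⟩

/-- Plus planes over four elements are defined over the prime field. -/
theorem plus_planes_four (hk : k = 2) (hq : Fintype.card F = 4) (hp : ∀ i, Geo.IsPlusTypeOn Q (D i)) :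
    SubfieldClause Q H := by
  subst hk
  classical
  haveI : Nonempty ι := Fintype.card_pos_iff.1 (by omega)
  have hI : H ≤ Cfsg.isometryGroup F Q := hH.1.le.trans omegaGL_le
  have h2 : (2 : F) = 0 := by
    have h := Nat.cast_card_eq_zero F
    rw [hq] at h
    exact pow_eq_zero_iff two_ne_zero |>.1 (show (2 : F) ^ 2 = 0 by
      rw [show (2 : F) ^ 2 = ((4 : ℕ) : F) by norm_num]; exact h)
  obtain ⟨ω, hω0, hω1⟩ : ∃ ω : F, ω ≠ 0 ∧ ω ≠ 1 := by
    by_contra! hall
    have := Fintype.card_le_of_surjective (fun b : Bool => if b then (1 : F) else 0) fun x => by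
      by_cases hx : x = 0
      · exact ⟨false, by simp [hx]⟩
      · exact ⟨true, by simp [hall x hx]⟩
    simp [hq] at this
  have hcube : ∀ μ : F, μ ≠ 0 → μ ^ 3 = 1 := fun μ hμ => by
    have := FiniteField.pow_card_sub_one_eq_one μ hμ
    rwa [hq] at this
  have hω : ω ^ 2 + ω + 1 = 0 := by
    refine (mul_eq_zero.1 (show (ω - 1) * (ω ^ 2 + ω + 1) = 0 by linear_combination hcube ω hω0)).resolve_left ?_
    exact sub_ne_zero.2 hω1
  -- every element is a combination of one and `ω` over the two element field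
  have hfour : ∀ μ : F, μ = 0 ∨ μ = 1 ∨ μ = ω ∨ μ = ω + 1 := by
    intro μ
    by_contra! hμ
    have hne : ω + 1 ≠ 0 := fun h => hω1 (by linear_combination h - h2)
    have hne' : ω + 1 ≠ 1 := fun h => hω0 (by linear_combination h)
    have hne'' : ω + 1 ≠ ω := fun h => one_ne_zero (α := F) (by linear_combination h)
    have h := Finset.card_le_univ ({μ, 0, 1, ω, ω + 1} : Finset F)
    rw [Finset.card_insert_of_notMem (by simp [hμ.1, hμ.2.1, hμ.2.2.1, hμ.2.2.2]),
      Finset.card_insert_of_notMem (by simp [hω0.symm, hne.symm]),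
      Finset.card_insert_of_notMem (by simp [hω1.symm, hne'.symm]),
      Finset.card_insert_of_notMem (by simp [hne''.symm]), Finset.card_singleton, hq] at h
    omega
  have hcardbot : Fintype.card F = Nat.card (⊥ : Subfield F) ^ 2 := by
    have hchar : ringChar F = 2 := CharP.ringChar_of_prime_eq_zero Nat.prime_two (by simpa using h2)
    haveI : Fact (ringChar F).Prime := ⟨by rw [hchar]; exact Nat.prime_two⟩
    rw [Subfield.card_bot F (ringChar F), hq, hchar]; norm_num
  let i₀ : Fin t := ⟨0, by have := hD.decomp.decomp.two_le; omega⟩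
  obtain ⟨e, f, he, hf, hQe, hQf, hef, hcoord⟩ :=
    plus_plane_basis hQ hD (hD.decomp.nondegenerate i₀) (hD.decomp.decomp.finrank_eq i₀) (hp i₀)
  have hfe : bform hQ f e = 1 := by rw [b_symm hQ, hef]
  let x : Fin 2 → D i₀ := ![⟨e + f, Submodule.add_mem _ he hf⟩,
    ⟨ω • e + (ω + 1) • f, Submodule.add_mem _ (Submodule.smul_mem _ _ he) (Submodule.smul_mem _ _ hf)⟩]
  have hQx : ∀ s, Q (x s : ι → F) = 1 := by
    refine Fin.forall_fin_two.2 ⟨?_, ?_⟩
    · show Q (e + f) = 1
      rw [q_add hQ, hQe, hQf, hef, zero_add, zero_add]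
    · show Q (ω • e + (ω + 1) • f) = 1
      rw [q_add hQ, q_smul hQ, q_smul hQ, hQe, hQf, map_smul, map_smul, LinearMap.smul_apply, hef]
      simp only [smul_eq_mul]
      linear_combination hω - h2
  have hxb : bform hQ (x 0 : ι → F) (x 1 : ι → F) = 1 := by
    show bform hQ (e + f) (ω • e + (ω + 1) • f) = 1
    simp only [map_add, map_smul, LinearMap.add_apply, b_self hQ, hQe, hQf, hef, hfe, mul_zero, smul_eq_mul]
    linear_combination ω * h2
  have hlat : ∀ z : D i₀, Q (z : ι → F) = 1 → ∃ u : Fin 2 → F, (∀ s, u s ∈ (⊥ : Subfield F)) ∧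
      z = u 0 • x 0 + u 1 • x 1 := by
    intro z hz
    obtain ⟨a, b, hzab, hab⟩ := hcoord z z.2
    have hab' : a * b = 1 := hab.symm.trans hz
    have ha : a ≠ 0 := left_ne_zero_of_mul_eq_one hab'
    have hb : b = a ^ 2 := mul_left_cancel₀ ha (by linear_combination hab' - hcube a ha)
    have h0 : (0 : F) ∈ (⊥ : Subfield F) := zero_mem _
    have h1 : (1 : F) ∈ (⊥ : Subfield F) := one_mem _
    rcases hfour a with rfl | rfl | rfl | rfl
    · exact absurd rfl ha
    · refine ⟨![1, 0], Fin.forall_fin_two.2 ⟨h1, h0⟩, Subtype.ext ?_⟩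
      rw [hzab, hb]; simp [x]
    · refine ⟨![0, 1], Fin.forall_fin_two.2 ⟨h0, h1⟩, Subtype.ext ?_⟩
      rw [hzab, hb, show a ^ 2 = a + 1 by linear_combination hω - (a + 1) * h2]; simp [x]
    · refine ⟨![1, 1], Fin.forall_fin_two.2 ⟨h1, h1⟩, Subtype.ext ?_⟩
      rw [hzab, hb, show (ω + 1) ^ 2 = 1 + (ω + 1) by linear_combination hω - h2]
      simp [x, add_smul]
      abel
  obtain ⟨T, hTm, -, hTq, hTb, hTh⟩ := block_transport hQ hD hle hI i₀
  let c : Fin t × Fin 2 → ι → F := fun p => T p.1 (x p.2)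
  have hspan : Submodule.span F (Set.range c) = ⊤ := by
    rw [eq_top_iff, ← hD.decomp.decomp.iSup_eq_top]
    refine iSup_le fun i => ?_
    have hli : LinearIndependent F fun s => T i (x s) := by
      refine Fintype.linearIndependent_iff.2 fun g hg => ?_
      have h := fun y => congrArg (bform hQ (T i y)) hg
      simp only [Fin.sum_univ_two, map_add, map_smul, map_zero, hTb, smul_eq_mul] at h
      have e0 := h (x 0)
      have e1 := h (x 1)
      rw [b_self hQ, hQx, h2, hxb] at e0
      rw [b_self hQ, hQx, h2, b_symm hQ, hxb] at e1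
      exact Fin.forall_fin_two.2 ⟨by linear_combination e1, by linear_combination e0⟩
    have heq : Submodule.span F (Set.range fun s => T i (x s)) = D i := by
      refine Submodule.eq_of_le_of_finrank_le (Submodule.span_le.2 (by rintro _ ⟨s, rfl⟩; exact hTm _ _)) ?_
      rw [finrank_span_eq_card hli, hD.decomp.decomp.finrank_eq, Fintype.card_fin]
    rw [← heq]
    exact Submodule.span_mono (by rintro _ ⟨s, rfl⟩; exact ⟨(i, s), rfl⟩)
  have hcl : LinearIndependent F c := linearIndependent_iff_card_eq_finrank_span.2 (by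
    rw [Set.finrank, hspan, finrank_top, finrank_fintype_fun_eq_card, Fintype.card_prod, Fintype.card_fin,
      Fintype.card_fin, htk])
  let num : Fin t × Fin 2 ≃ ι := Fintype.equivOfCardEq (by simp [htk])
  let B : Basis ι F (ι → F) := (Basis.mk hcl hspan.ge).reindex num
  have hB : ∀ i, B i = c (num.symm i) := fun i => by simp [B]
  refine subfield_of_basis hQ hn hH Nat.prime_two hcardbot B one_ne_zero (fun i => ?_) (fun i j => ?_)
    fun h hh i => ?_
  · rw [hB, one_mul, hTq, hQx]; exact one_mem _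
  · rw [hB, hB, one_mul]
    rcases num.symm i with ⟨p, s⟩
    rcases num.symm j with ⟨p', s'⟩
    show bform hQ (T p (x s)) (T p' (x s')) ∈ _
    rcases eq_or_ne p p' with rfl | hpp
    · rw [hTb]
      revert s s'
      refine Fin.forall_fin_two.2 ⟨Fin.forall_fin_two.2 ⟨?_, ?_⟩, Fin.forall_fin_two.2 ⟨?_, ?_⟩⟩
      · rw [b_self hQ, h2, zero_mul]; exact zero_mem _
      · rw [hxb]; exact one_mem _
      · rw [b_symm hQ, hxb]; exact one_mem _
      · rw [b_self hQ, h2, zero_mul]; exact zero_mem _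
    · rw [show bform hQ (T p (x s)) (T p' (x s')) = 0 from hD.decomp.orthogonal _ _ hpp _ (hTm _ _) _ (hTm _ _)]
      exact zero_mem _
  · obtain ⟨j, y, hy, hyQ⟩ := hTh h hh (num.symm i).1 (x (num.symm i).2)
    obtain ⟨u, hu, hyu⟩ := hlat y (hyQ.trans (hQx _))
    refine ⟨fun m => if (num.symm m).1 = j then u (num.symm m).2 else 0, fun m => ?_, ?_⟩
    · show (if (num.symm m).1 = j then u (num.symm m).2 else 0) ∈ _
      split_ifs
      exacts [hu _, zero_mem _]
    · rw [hB, show c (num.symm i) = T (num.symm i).1 (x (num.symm i).2) from rfl, hy, hyu, map_add, map_smul,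
        map_smul, ← Equiv.sum_comp num]
      simp only [hB, Equiv.symm_apply_apply, Fintype.sum_prod_type, ite_smul, zero_smul, Fin.sum_univ_two]
      rw [Finset.sum_eq_single j (fun b _ hb => by simp [hb]) (by simp)]
      simp [c]

/-- Plus type four-spaces over two elements: the group preserves a decomposition into minus planes. -/
theorem four_spaces_two (hk : k = 4) (hirr : Geo.ActsIrreducibly (Geo.matrixSet H))
    (hq : Fintype.card F = 2) (hp : ∀ i, Geo.IsPlusTypeOn Q (D i)) :
    ∃ D' : Fin (t * 2) → Submodule F (ι → F), Geo.IsOrthogonalMDecomposition Q 2 D' ∧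
      (∀ i, ¬ Geo.IsPlusTypeOn Q (D' i)) ∧ H = Geo.decompositionStabilizer D' ⊓ Geo.omegaGL Q := by
  subst hk
  classical
  have hI : H ≤ Cfsg.isometryGroup F Q := hH.1.le.trans omegaGL_le
  have h01 : ∀ z : F, z = 0 ∨ z = 1 := fun z => by
    by_contra! h
    have := Finset.card_le_univ ({z, 0, 1} : Finset F)
    rw [Finset.card_insert_of_notMem (by simp [h.1, h.2]), Finset.card_insert_of_notMem (by simp),
      Finset.card_singleton, hq] at this
    omega
  have h2 : (2 : F) = 0 := by
    have h := Nat.cast_card_eq_zero F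
    rw [hq] at h
    simpa using h
  let i₀ : Fin t := ⟨0, by have := hD.decomp.decomp.two_le; omega⟩
  obtain ⟨r, e, f, W₀, hdec, -, h | h⟩ :=
    exists_type_decomp hQ (hD.decomp.nondegenerate i₀) (by rw [hD.decomp.decomp.finrank_eq]; decide)
  swap
  · exact absurd (hp i₀) h.2
  have hdim := hdec.dim
  rw [h.1, hD.decomp.decomp.finrank_eq] at hdim
  obtain rfl : r = 2 := by omega
  have hee : ∀ i j, bform hQ (e i) (e j) = 0 := hdec.ee
  have hff : ∀ i j, bform hQ (f i) (f j) = 0 := hdec.ff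
  have hef : ∀ i j, bform hQ (e i) (f j) = if i = j then 1 else 0 := hdec.ef
  have hfe : ∀ i j, bform hQ (f i) (e j) = if j = i then 1 else 0 := fun i j => by rw [b_symm hQ, hef]
  have hqe : ∀ i, Q (e i) = 0 := hdec.qe
  have hqf : ∀ i, Q (f i) = 0 := hdec.qf
  -- the two planes
  let p : Fin 2 → Fin 2 → D i₀ := fun s =>
    ![⟨e s + f s, Submodule.add_mem _ (hdec.e_mem s) (hdec.f_mem s)⟩,
      ⟨e s + e (1 - s) + f (1 - s), Submodule.add_mem _ (Submodule.add_mem _ (hdec.e_mem s)
        (hdec.e_mem _)) (hdec.f_mem _)⟩]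
  have hne : ∀ s : Fin 2, (1 - s ≠ s) ∧ (s ≠ 1 - s) := Fin.forall_fin_two.2 (by decide)
  have hpq : ∀ s a, Q (p s a : ι → F) = 1 := fun s => Fin.forall_fin_two.2 ⟨by
      show Q (e s + f s) = 1
      rw [q_add hQ, hqe, hqf, hef, if_pos rfl]; ring, by
      show Q (e s + e (1 - s) + f (1 - s)) = 1
      rw [q_add hQ, q_add hQ, hqe, hqe, hqf, hee, map_add, LinearMap.add_apply, hef, hef,
        if_neg (hne s).2, if_pos rfl]; ring⟩
  have hpb : ∀ s, bform hQ (p s 0 : ι → F) (p s 1 : ι → F) = 1 := fun s => by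
    show bform hQ (e s + f s) (e s + e (1 - s) + f (1 - s)) = 1
    simp [map_add, LinearMap.add_apply, hee, hff, hef, hfe, (hne s).1, (hne s).2]
  have hpo : ∀ s s', s ≠ s' → ∀ a b, bform hQ (p s a : ι → F) (p s' b : ι → F) = 0 := by
    intro s s' hss
    have hs' : s' = 1 - s := by
      revert s s'
      exact Fin.forall_fin_two.2 ⟨Fin.forall_fin_two.2 (by decide), Fin.forall_fin_two.2 (by decide)⟩
    subst hs'
    have hneg : 1 - (1 - s) = s := by revert s; exact Fin.forall_fin_two.2 (by decide)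
    refine Fin.forall_fin_two.2 ⟨Fin.forall_fin_two.2 ⟨?_, ?_⟩, Fin.forall_fin_two.2 ⟨?_, ?_⟩⟩
    · show bform hQ (e s + f s) (e (1 - s) + f (1 - s)) = 0
      simp [map_add, LinearMap.add_apply, hee, hff, hef, hfe, (hne s).1, (hne s).2]
    · show bform hQ (e s + f s) (e (1 - s) + e (1 - (1 - s)) + f (1 - (1 - s))) = 0
      rw [hneg]
      simp [map_add, LinearMap.add_apply, hee, hff, hef, hfe, (hne s).1, (hne s).2]
      linear_combination h2
    · show bform hQ (e s + e (1 - s) + f (1 - s)) (e (1 - s) + f (1 - s)) = 0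
      simp [map_add, LinearMap.add_apply, hee, hff, hef, hfe, (hne s).1, (hne s).2]
      linear_combination h2
    · show bform hQ (e s + e (1 - s) + f (1 - s)) (e (1 - s) + e (1 - (1 - s)) + f (1 - (1 - s))) = 0
      rw [hneg]
      simp [map_add, LinearMap.add_apply, hee, hff, hef, hfe, (hne s).1, (hne s).2]
      linear_combination h2
  have hclass : ∀ z : D i₀, Q (z : ι → F) = 1 → ∃ (s : Fin 2) (a b : F), z = a • p s 0 + b • p s 1 := by
    intro z hz
    have hz' := hdec.span z.2
    rw [Submodule.finrank_eq_zero.1 h.1, sup_bot_eq, Submodule.span_union, Submodule.mem_sup] at hz'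
    obtain ⟨u, hu, w, hw, huw⟩ := hz'
    obtain ⟨c, rfl⟩ := (Submodule.mem_span_range_iff_exists_fun F).1 hu
    obtain ⟨d, rfl⟩ := (Submodule.mem_span_range_iff_exists_fun F).1 hw
    rw [Fin.sum_univ_two, Fin.sum_univ_two] at huw
    have hQz : c 0 * d 0 + c 1 * d 1 = 1 := by
      rw [← hz, ← huw]
      simp only [q_add hQ, q_smul hQ, hqe, hqf, map_add, map_smul, LinearMap.add_apply, LinearMap.smul_apply,
        hee, hef, hff, smul_eq_mul]
      simp
      ring
    have key : ∀ (s : Fin 2) (a b : F), (a + b) • e s + a • f s + b • e (1 - s) + b • f (1 - s) = (z : ι → F) →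
        ∃ (s : Fin 2) (a b : F), z = a • p s 0 + b • p s 1 := fun s a b hab => ⟨s, a, b, Subtype.ext (by
      rw [← hab]
      show _ = a • (e s + f s) + b • (e s + e (1 - s) + f (1 - s))
      module)⟩
    have h10 : (1 : Fin 2) - 0 = 1 := rfl
    have h11 : (1 : Fin 2) - 1 = 0 := rfl
    have hone : (1 : F) + 1 = 0 := by linear_combination h2
    rcases h01 (c 0) with hc0 | hc0 <;> rcases h01 (c 1) with hc1 | hc1 <;>
      rcases h01 (d 0) with hd0 | hd0 <;> rcases h01 (d 1) with hd1 | hd1 <;>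
      simp only [hc0, hc1, hd0, hd1, zero_smul, one_smul, add_zero, zero_add, mul_zero, mul_one] at huw hQz <;>
      first
        | exact absurd hQz zero_ne_one
        | exact absurd (by linear_combination h2 - hQz : (1 : F) = 0) one_ne_zero
        | (refine key 0 1 0 ?_; rw [← huw]; simp only [h11, h10, zero_smul, one_smul, zero_add, add_zero]; done)
        | (refine key 1 1 0 ?_; rw [← huw]; simp only [h11, h10, zero_smul, one_smul, zero_add, add_zero]; done)
        | (refine key 0 0 1 ?_; rw [← huw]; simp only [h11, h10, zero_smul, one_smul, zero_add, add_zero] <;> abel1)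
        | (refine key 1 0 1 ?_; rw [← huw]; simp only [h11, h10, zero_smul, one_smul, zero_add, add_zero] <;> abel1)
        | (refine key 0 1 1 ?_; rw [← huw, hone]; simp only [h11, h10, zero_smul, one_smul, zero_add, add_zero] <;> abel1)
        | (refine key 1 1 1 ?_; rw [← huw, hone]; simp only [h11, h10, zero_smul, one_smul, zero_add, add_zero] <;> abel1)
  obtain ⟨T, hTm, -, hTq, hTb, hTh⟩ := block_transport hQ hD hle hI i₀
  let P : Fin t × Fin 2 → Submodule F (ι → F) := fun q =>
    Submodule.span F {T q.1 (p q.2 0), T q.1 (p q.2 1)}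
  let D' : Fin (t * 2) → Submodule F (ι → F) := fun m => P (finProdFinEquiv.symm m)
  have hmemP : ∀ q x, x ∈ P q ↔ ∃ a b : F, x = T q.1 (a • p q.2 0 + b • p q.2 1) := fun q x => by
    simp only [P, Submodule.mem_span_pair, map_add, map_smul, eq_comm]
  have hbP : ∀ (q : Fin t × Fin 2) (a b : F), bform hQ (T q.1 (p q.2 0)) (T q.1 (a • p q.2 0 + b • p q.2 1)) = b ∧
      bform hQ (T q.1 (p q.2 1)) (T q.1 (a • p q.2 0 + b • p q.2 1)) = a := fun q a b => by
    rw [hTb, hTb]
    have hpb' : bform hQ (p q.2 1 : ι → F) (p q.2 0 : ι → F) = 1 := by rw [b_symm hQ, hpb]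
    simp only [Submodule.coe_add, Submodule.coe_smul, map_add, map_smul, b_self hQ, h2, zero_mul, hpb, hpb',
      smul_eq_mul, mul_zero, mul_one, zero_add, add_zero, and_self]
  have hnd : ∀ q, Geo.IsNondegenerateOn (QuadraticMap.polar Q) (P q) := by
    intro q w hw hw0
    obtain ⟨a, b, rfl⟩ := (hmemP q w).1 hw
    have hex : ∃ y ∈ P q, bform hQ y (T q.1 (a • p q.2 0 + b • p q.2 1)) ≠ 0 := by
      by_contra! hall
      have hb0 := (hbP q a b).1.symm.trans (hall _ (Submodule.subset_span (Set.mem_insert _ _)))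
      have ha0 := (hbP q a b).2.symm.trans (hall _ (Submodule.subset_span (Set.mem_insert_of_mem _ rfl)))
      exact hw0 (by rw [ha0, hb0, zero_smul, zero_smul, add_zero, map_zero])
    obtain ⟨y, hy, hyw⟩ := hex
    exact ⟨⟨y, hy, hyw⟩, y, hy, fun h => hyw ((b_symm hQ _ _).trans h)⟩
  have ho : ∀ q q', q ≠ q' → ∀ u ∈ P q, ∀ v ∈ P q', bform hQ u v = 0 := by
    intro q q' hqq u hu v hv
    obtain ⟨a, b, rfl⟩ := (hmemP q u).1 hu
    obtain ⟨a', b', rfl⟩ := (hmemP q' v).1 hv
    by_cases h1 : q.1 = q'.1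
    · rw [← h1, hTb]
      have hs : q.2 ≠ q'.2 := fun h => hqq (Prod.ext h1 h)
      simp [map_add, LinearMap.add_apply, hpo _ _ hs]
    · exact hD.decomp.orthogonal _ _ h1 _ (hTm _ _) _ (hTm _ _)
  have hrank : ∀ q, finrank F (P q) = 2 := by
    intro q
    have hli : LinearIndependent F ![T q.1 (p q.2 0), T q.1 (p q.2 1)] := by
      rw [LinearIndependent.pair_iff]
      intro a b hab
      have h' : T q.1 (a • p q.2 0 + b • p q.2 1) = 0 := by rw [map_add, map_smul, map_smul, hab]
      have h1 := hbP q a b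
      rw [h', map_zero, map_zero] at h1
      exact ⟨h1.2.symm, h1.1.symm⟩
    have := finrank_span_eq_card hli
    rwa [Matrix.range_cons_cons_empty, Fintype.card_fin] at this
  have hDec : Geo.IsMDecomposition 2 D' := by
    refine ⟨by have := hD.decomp.decomp.two_le; omega, two_pos, fun m => hrank _,
      indep_of_orth hQ (fun m => hnd _) (fun m m' hmm => ho _ _ fun h => hmm (finProdFinEquiv.symm.injective h)), ?_⟩
    rw [eq_top_iff, ← hD.decomp.decomp.iSup_eq_top]
    refine iSup_le fun i => ?_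
    have hP : ∀ q, P q ≤ ⨆ m, D' m := fun q => by
      have := le_iSup D' (finProdFinEquiv q)
      simpa only [D', Equiv.symm_apply_apply] using this
    have hsub : ∀ s, P (i, s) ≤ D i := fun s x hx => by
      obtain ⟨a, b, rfl⟩ := (hmemP (i, s) x).1 hx
      exact hTm i _
    have hdisj : P (i, 0) ⊓ P (i, 1) = ⊥ := by
      rw [Submodule.eq_bot_iff]
      intro x hx
      by_contra h0
      obtain ⟨⟨y, hy, hyx⟩, -⟩ := hnd (i, 0) x hx.1 h0
      exact hyx (ho (i, 0) (i, 1) (by simp) y hy x hx.2)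
    have h4 := Submodule.finrank_sup_add_finrank_inf_eq (P (i, 0)) (P (i, 1))
    rw [hdisj, finrank_bot, hrank, hrank] at h4
    rw [← Submodule.eq_of_le_of_finrank_le (sup_le (hsub 0) (hsub 1)) (by rw [hD.decomp.decomp.finrank_eq]; omega)]
    exact sup_le (hP _) (hP _)
  have hmap : ∀ g ∈ H, ∀ q, ∃ q', (P q).map (Matrix.toLin' (g : Matrix ι ι F)) = P q' := by
    intro g hg q
    obtain ⟨j, y, hy, hyQ⟩ := hTh g hg q.1 (p q.2 0)
    obtain ⟨j', y', hy', hyQ'⟩ := hTh g hg q.1 (p q.2 1)
    obtain ⟨s, a, b, hyab⟩ := hclass y (hyQ.trans (hpq _ _))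
    obtain ⟨s', a', b', hyab'⟩ := hclass y' (hyQ'.trans (hpq _ _))
    have hbb : bform hQ (T j y) (T j' y') = 1 := by
      rw [← hy, ← hy', isometry_b hQ (hI hg), hTb, hpb]
    have hyP : T j y ∈ P (j, s) := (hmemP (j, s) _).2 ⟨a, b, by rw [hyab]⟩
    have hyP' : T j' y' ∈ P (j', s') := (hmemP (j', s') _).2 ⟨a', b', by rw [hyab']⟩
    have hjj : (j, s) = (j', s') := by
      by_contra hne'
      rw [ho _ _ hne' _ hyP _ hyP'] at hbb
      exact zero_ne_one hbb
    refine ⟨(j, s), Submodule.eq_of_le_of_finrank_eq ?_ ?_⟩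
    · rw [Submodule.map_span, Submodule.span_le]
      rintro _ ⟨z, hz | hz, rfl⟩ <;> rw [Matrix.toLin'_apply]
      · rw [hz, hy]; exact hyP
      · rw [Set.mem_singleton_iff.1 hz, hy', hjj]; exact hyP'
    · rw [(Submodule.equivMapOfInjective _ (toLin'_injective g) _).finrank_eq.symm, hrank, hrank]
  have hlestab : H ≤ Geo.decompositionStabilizer D' := by
    intro g hg
    choose q' hq' using hmap g hg
    let σ : Fin (t * 2) → Fin (t * 2) := fun m => finProdFinEquiv (q' (finProdFinEquiv.symm m))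
    have hσ : ∀ m, (D' m).map (Matrix.toLin' (g : Matrix ι ι F)) = D' (σ m) := fun m => by
      simp only [D', σ, Equiv.symm_apply_apply, hq']
    have hinj : Function.Injective σ := fun m m' hmm => by
      by_contra hne'
      have h1 := Submodule.map_injective_of_injective (toLin'_injective g) ((hσ m).trans ((congrArg D' hmm).trans (hσ m').symm))
      have hd := hDec.indep.pairwiseDisjoint hne'
      rw [Function.onFun, h1, disjoint_self] at hd
      have := hrank (finProdFinEquiv.symm m')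
      rw [show P (finProdFinEquiv.symm m') = ⊥ from hd, finrank_bot] at this
      omega
    exact ⟨Equiv.ofBijective σ (Finite.injective_iff_bijective.1 hinj), hσ⟩
  have hmin : ∀ q, ¬ Geo.IsPlusTypeOn Q (P q) := by
    rintro q ⟨U, hU, hts, hUd⟩
    rw [hrank] at hUd
    obtain ⟨z, hz, hz0⟩ := U.exists_mem_ne_zero_of_ne_bot fun h => by rw [h, finrank_bot] at hUd; omega
    obtain ⟨a, b, rfl⟩ := (hmemP q z).1 (hU hz)
    have hQz := hts _ hz
    rw [hTq, Submodule.coe_add, Submodule.coe_smul, Submodule.coe_smul, q_add hQ, q_smul hQ, q_smul hQ, hpq,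
      hpq, map_smul, map_smul, LinearMap.smul_apply, hpb] at hQz
    simp only [smul_eq_mul, mul_one] at hQz
    apply hz0
    rcases h01 a with rfl | rfl <;> rcases h01 b with rfl | rfl
    · simp
    · simp at hQz
    · simp at hQz
    · exact absurd (by linear_combination hQz - h2 : (1 : F) = 0) one_ne_zero
  refine ⟨D', ⟨⟨hDec, fun m => hnd _, fun m m' hmm => ho _ _ fun h => hmm (finProdFinEquiv.symm.injective h)⟩, ?_⟩,
    fun m => hmin _, eq_inf_of_le hH hlestab (not_le_decompositionStabilizer hQ hn hDec)⟩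
  intro m m'
  exact isometric_of_type hQ (hnd _) (hnd _) (by rw [hrank]; exact even_two) (by rw [hrank, hrank])
    (iff_of_false (hmin _) (hmin _))

end CfsgLib.Aschbacher.OrthEven
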