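import Cfsg.Agent.Aschbacher.OrthEvenCases
import Cfsg.Agent.Aschbacher.TensorSquare
import Cfsg.Agent.Aschbacher.FormsTensorPower
import Cfsg.Agent.Aschbacher.TensorInduced
import Cfsg.Agent.AschPrime.OrthFrameMembers
import Cfsg.Agent.OrthGeo.Simple

/-!
Ingredients for the maximal subgroups of Omega in dimension nine, odd characteristic: tensor squares
of ternary symmetric forms, frames of isometric blocks, subfield forms.
-/

set_option autoImplicit false
set_option linter.unusedSectionVars false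

namespace CfsgLib.Aschbacher.OrthNine

open Matrix Module
open scoped Kronecker MatrixGroups commutatorElement
open Cfsg CfsgLib.OrthGeo CfsgLib.Aschbacher.Forms

section ternary

variable {F : Type*} [Field F] [Fintype F]

/-- Every value is taken by a binary diagonal form. -/
theorem exists_binary (h2 : (2 : F) ≠ 0) {a b : F} (ha : a ≠ 0) (hb : b ≠ 0) (d : F) :
    ∃ x y : F, a * x * x + b * y * y = d := by
  have hodd : Fintype.card F % 2 = 1 :=
    FiniteField.odd_card_of_char_ne_two fun h => h2 (by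
      have : CharP F 2 := h ▸ ringChar.charP F
      exact CharTwo.two_eq_zero)
  obtain ⟨x, y, h⟩ := FiniteField.exists_root_sum_quadratic
    (f := Polynomial.C a * Polynomial.X ^ 2) (g := Polynomial.C b * Polynomial.X ^ 2 - Polynomial.C d)
    (Polynomial.degree_C_mul_X_pow 2 ha)
    (by
      rw [Polynomial.degree_sub_eq_left_of_degree_lt] <;> rw [Polynomial.degree_C_mul_X_pow 2 hb]
      · rfl
      · exact lt_of_le_of_lt Polynomial.degree_C_le (by norm_num)) hodd
  refine ⟨x, y, ?_⟩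
  simp only [Polynomial.eval_mul, Polynomial.eval_C, Polynomial.eval_pow, Polynomial.eval_X,
    Polynomial.eval_sub] at h
  linear_combination h

/-- A ternary symmetric matrix is congruent to a scalar one. -/
theorem ternary_congr (h2 : (2 : F) ≠ 0) {X : Matrix (Fin 3) (Fin 3) F} (hX : IsUnit X)
    (hs : ∀ i j, X i j = X j i) :
    ∃ (A : GL (Fin 3) F) (μ : F), μ ≠ 0 ∧ A.valᵀ * X * A.val = μ • 1 := by
  classical
  have hsf := OrthEven.symmetric_formOfGram hX hs
  have : Invertible (2 : F) := invertibleOfNonzero h2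
  set B := bilinOf hsf.bilinear with hB
  have hsymm : LinearMap.IsSymm B := ⟨fun x y => by
    simp only [hB, bilinOf_apply, RingHom.id_apply]; exact hsf.symm x y⟩
  obtain ⟨v₀, hv₀⟩ := LinearMap.BilinForm.exists_orthogonal_basis hsymm
  let v : Basis (Fin 3) F (Fin 3 → F) := v₀.reindex (finCongr (Module.finrank_fin_fun F))
  let M : Matrix (Fin 3) (Fin 3) F := Matrix.of fun i j => v j i
  have hMu : IsUnit M := by
    rw [← Matrix.linearIndependent_cols_iff_isUnit]
    exact v.linearIndependent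
  let d : Fin 3 → F := fun i => (Mᵀ * X * M) i i
  have hentry : ∀ i j, (Mᵀ * X * M) i j = Geo.formOfGram id X (v i) (v j) := fun i j => by
    rw [formOfGram_eq, Matrix.mul_assoc]
    simp [Matrix.mul_apply, dotProduct, Matrix.mulVec, M]
  have hdiag : Mᵀ * X * M = Matrix.diagonal d := by
    ext i j
    by_cases hij : i = j
    · subst hij; rw [Matrix.diagonal_apply_eq]
    · rw [Matrix.diagonal_apply_ne _ hij, hentry]
      simp only [v, Basis.reindex_apply]
      rw [show Geo.formOfGram id X = Geo.formOfGram (RingHom.id F) X from rfl, ← bilinOf_apply hsf.bilinear]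
      exact hv₀ (fun h => hij (by simpa using h))
  have hd : ∀ i, d i ≠ 0 := by
    have hu : IsUnit (Mᵀ * X * M) :=
      ((Matrix.isUnit_iff_isUnit_det _).2 (by rw [Matrix.det_transpose]
                                              exact (Matrix.isUnit_iff_isUnit_det _).1 hMu) |>.mul hX).mul hMu
    rw [hdiag, Matrix.isUnit_iff_isUnit_det, Matrix.det_diagonal, isUnit_iff_ne_zero,
      Finset.prod_ne_zero_iff] at hu
    exact fun i => hu i (Finset.mem_univ i)
  set μ := d 0 * d 1 * d 2 with hμ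
  have hμ0 : μ ≠ 0 := mul_ne_zero (mul_ne_zero (hd 0) (hd 1)) (hd 2)
  obtain ⟨x, y, hxy⟩ := exists_binary h2 (hd 0) (hd 1) μ
  obtain ⟨x', y', hxy'⟩ := exists_binary h2 (hd 2) (hd 2) μ
  let C1 : Matrix (Fin 3) (Fin 3) F := !![x, -y / d 0, 0; y, x / d 1, 0; 0, 0, 1]
  let C2 : Matrix (Fin 3) (Fin 3) F := !![1, 0, 0; 0, x', -y'; 0, y', x']
  have e1 : C1ᵀ * Matrix.diagonal d * C1 = Matrix.diagonal ![μ, d 2, d 2] := by
    have h0 := hd 0
    have h1 := hd 1
    ext i j
    fin_cases i <;> fin_cases j <;>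
      simp [C1, Matrix.mul_apply, Fin.sum_univ_three, Matrix.diagonal] <;> field_simp <;>
      first
        | ring1
        | linear_combination hxy
        | linear_combination hxy + hμ
        | linear_combination d 0 * d 1 * d 2 * 0 + hxy - hμ
  have e2 : C2ᵀ * Matrix.diagonal ![μ, d 2, d 2] * C2 = μ • 1 := by
    ext i j
    fin_cases i <;> fin_cases j <;>
      simp [C2, Matrix.mul_apply, Fin.sum_univ_three, Matrix.diagonal] <;>
      first | ring1 | linear_combination hxy'
  have hA : (M * C1 * C2)ᵀ * X * (M * C1 * C2) = μ • 1 := by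
    rw [← e2, ← e1, ← hdiag]
    simp only [Matrix.transpose_mul, Matrix.mul_assoc]
  have hAu : IsUnit (M * C1 * C2) := by
    rw [Matrix.isUnit_iff_isUnit_det, isUnit_iff_ne_zero]
    intro h0
    have := congrArg Matrix.det hA
    rw [Matrix.det_mul, h0, mul_zero, Matrix.det_smul, Matrix.det_one, mul_one] at this
    exact pow_ne_zero _ hμ0 this.symm
  exact ⟨hAu.unit, μ, hμ0, hA⟩

/-- Over the field with three elements a similitude of the sum of three squares is monomial. -/
theorem column_monomial (hq : Fintype.card F = 3) {G : Matrix (Fin 3) (Fin 3) F} {z : F} (hz : z ≠ 0)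
    (h : Gᵀ * G = z • 1) (a : Fin 3) :
    ∃ (b : Fin 3) (s : F), G *ᵥ Pi.single a 1 = s • Pi.single b (1 : F) := by
  have hs := isSesquiForm_formOfGram (RingHom.id F) (1 : Matrix (Fin 3) (Fin 3) F)
  have hb : Geo.IsBilinearForm (Geo.formOfGram id (1 : Matrix (Fin 3) (Fin 3) F)) :=
    ⟨hs.add_left, hs.smul_left, hs.add_right, fun c v x => hs.smul_right c v x⟩
  obtain ⟨σ, hσ⟩ := similarity_monomial hq hb one_ne_zero (Pi.basisFun F (Fin 3))
    (fun i j => by
      simp only [Pi.basisFun_apply]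
      exact (formOfGram_single (RingHom.id F) 1 i j).trans (Matrix.one_apply))
    hz (fun i => G *ᵥ Pi.single i 1)
    (fun i j => by
      simp only [Pi.basisFun_apply]
      rw [show Geo.formOfGram id (1 : Matrix (Fin 3) (Fin 3) F) (Pi.single i 1) (Pi.single j 1) =
        (1 : Matrix (Fin 3) (Fin 3) F) i j from formOfGram_single (RingHom.id F) 1 i j, formOfGram_eq]
      have hij := congrFun (congrFun h i) j
      rw [Matrix.mul_apply, Matrix.smul_apply, smul_eq_mul] at hij
      rw [← hij]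
      simp [dotProduct, Matrix.mulVec_single_one])
  obtain ⟨s, -, hsa⟩ := hσ a
  exact ⟨σ a, s, by rw [hsa, Pi.basisFun_apply]⟩

end ternary

variable {ι : Type} [Fintype ι] [DecidableEq ι] {F : Type*} [Field F] [Fintype F]
variable {Q : (ι → F) → F} (hQ : Geo.IsNondegenerateQuadraticForm Q) (h2 : (2 : F) ≠ 0)
include hQ h2

/-- A scaled rational structure of the form can be unscaled in odd dimension. -/
theorem rational_unscale (hodd : Odd (Fintype.card ι))
    (hdef : ∀ (F₀ : Subfield F) (a b : ι), Geo.gramMatrix (QuadraticMap.polar Q) a b ∈ F₀)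
    {F₀ : Subfield F} {r : ℕ} (hr : r.Prime) (hcard : Fintype.card F = Nat.card F₀ ^ r) {P : GL ι F}
    {ζ : F} (hζ : ζ ≠ 0) (hP : Geo.IsQuadFormRationalStructure (fun v => ζ * Q v) F₀ P) :
    ∃ P' : GL ι F, Geo.IsQuadFormRationalStructure Q F₀ P' ∧
      Geo.subfieldSubgroup F₀ P' = Geo.subfieldSubgroup F₀ P := by
  classical
  obtain ⟨l, hl0, hl⟩ := AschPrime.exists_scale h2 hr hcard (inv_ne_zero hζ) fun hr2 => by
    subst hr2
    set M := (P : Matrix ι ι F)
    set G : Matrix ι ι F := Mᵀ * Geo.gramMatrix (QuadraticMap.polar Q) * M with hG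
    have hs := IsSesquiForm.of_bilinear hQ.polar_bilinear
    have hmem : ∀ i j, ζ * G i j ∈ F₀ := fun i j => by
      have hu : ∀ a b : ι, (Pi.single a (1 : F) : ι → F) b ∈ F₀ := fun a b => by
        rcases eq_or_ne b a with rfl | h <;> simp [*, F₀.one_mem, F₀.zero_mem]
      have he : G i j = QuadraticMap.polar Q (M *ᵥ Pi.single i 1) (M *ᵥ Pi.single j 1) := by
        rw [hs.eq_dot, Matrix.mulVec_single_one, Matrix.mulVec_single_one, hG, Matrix.mul_assoc]
        rfl
      rw [he, QuadraticMap.polar, ← Matrix.mulVec_add, mul_sub, mul_sub]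
      exact F₀.sub_mem (F₀.sub_mem (hP _ fun k => F₀.add_mem (hu i k) (hu j k)) (hP _ (hu i))) (hP _ (hu j))
    set X : Matrix ι ι F := ζ • G with hX
    have hXd : X.det ∈ F₀ := by
      rw [show X = (Matrix.of fun a b => (⟨_, hmem a b⟩ : F₀)).map F₀.subtype from rfl,
        ← RingHom.mapMatrix_apply, ← RingHom.map_det]
      exact SetLike.coe_mem _
    have hD : (Geo.gramMatrix (QuadraticMap.polar Q)).det ∈ F₀ := by
      rw [show Geo.gramMatrix (QuadraticMap.polar Q) =
        (Matrix.of fun a b => (⟨_, hdef F₀ a b⟩ : F₀)).map F₀.subtype from rfl, ← RingHom.mapMatrix_apply,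
        ← RingHom.map_det]
      exact SetLike.coe_mem _
    have hdQ := det_gramMatrix_ne_zero hs hQ.nondegenerate
    have hdM : M.det ≠ 0 := ((Matrix.isUnit_iff_isUnit_det _).1 P.isUnit).ne_zero
    obtain ⟨w, hw⟩ := AschPrime.isSquare_of_mem h2 hcard (F₀.div_mem hXd hD)
    obtain ⟨k, hk⟩ := hodd
    rw [div_eq_iff hdQ, hX, Matrix.det_smul, hG, Matrix.det_mul, Matrix.det_mul, Matrix.det_transpose, hk] at hw
    have hw' : ζ ^ (2 * k + 1) * (M.det * M.det) = w * w :=
      mul_right_cancel₀ hdQ (by linear_combination hw)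
    have hw0 : w ≠ 0 := fun h0 => by
      rw [h0, zero_mul] at hw'
      exact mul_ne_zero (pow_ne_zero _ hζ) (mul_ne_zero hdM hdM) hw'
    refine ⟨ζ ^ k * M.det / w, ?_⟩
    field_simp
    linear_combination -hw'
  let z : GL ι F := Units.map (Matrix.scalar ι : F →+* Matrix ι ι F).toMonoidHom (Units.mk0 l hl0)
  refine ⟨P * z, fun u hu => ?_, AschPrime.subfieldSubgroup_mul_scalar F₀ _ ⟨_, rfl⟩⟩
  have hz : (P * z : GL ι F).val *ᵥ u = l • ((P : Matrix ι ι F) *ᵥ u) := by
    rw [Units.val_mul, ← Matrix.mulVec_mulVec, ← Matrix.mulVec_smul]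
    congr 1
    ext k
    simp [z, Matrix.mulVec_diagonal]
  rw [hz, q_smul hQ]
  have := F₀.mul_mem hl (hP u hu)
  convert this using 1
  field_simp

variable (hn : Odd (Fintype.card ι)) (hn5 : 5 ≤ Fintype.card ι)
variable (hdef : ∀ (F₀ : Subfield F) (a b : ι), Geo.gramMatrix (QuadraticMap.polar Q) a b ∈ F₀)
variable {n : ℕ} (num : ι ≃ Fin n) {H : Subgroup (GL ι F)}
variable (hH : Geo.IsMaximalIn (Geo.omegaGL Q) H)
include hn hn5 hdef num hH

/-- The frame and subfield members, as the reduction produces them. -/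
theorem frame_members' {κ : Type} [Fintype κ] [DecidableEq κ] (idx : κ ≃ ι) (e : κ → ι → F)
    {v : F} (hv : v ≠ 0) (hev : ∀ i, Q (e i) = v)
    (horth : ∀ i j, i ≠ j → bform hQ (e i) (e j) = 0)
    (hmap : ∀ h ∈ H, ∀ i, ∃ (j : κ) (c : F), h.val *ᵥ e i = c • e j) :
    ((Fintype.card F).Prime ∧ ∃ D : Fin n → Submodule F (ι → F), Geo.IsOrthogonalMDecomposition Q 1 D ∧
      H = Geo.decompositionStabilizer D ⊓ Geo.omegaGL Q) ∨
    (∃ (F₀ : Subfield F) (r : ℕ) (P : GL ι F), r.Prime ∧ Fintype.card F = Nat.card F₀ ^ r ∧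
      Geo.IsQuadFormRationalStructure Q F₀ P ∧ H = Geo.subfieldSubgroup F₀ P ⊓ Geo.omegaGL Q) := by
  classical
  have hli : LinearIndependent F fun i => e (idx.symm i) := by
    rw [Fintype.linearIndependent_iff]
    intro g hg i
    have h := congrArg (bform hQ (e (idx.symm i))) hg
    rw [map_sum, map_zero, Finset.sum_eq_single i (fun j _ hj => by
        rw [map_smul, horth _ _ (fun h' => hj (idx.symm.injective h').symm), smul_zero]) (by simp),
      map_smul, smul_eq_mul, b_self hQ, hev] at h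
    exact (mul_eq_zero.1 h).resolve_right (mul_ne_zero h2 hv)
  have : Nonempty ι := Fintype.card_pos_iff.1 (by omega)
  let b := basisOfLinearIndependentOfCardEqFinrank hli (by rw [finrank_fintype_fun_eq_card])
  have hb : ∀ i, b i = e (idx.symm i) := fun i => by
    simp only [b, coe_basisOfLinearIndependentOfCardEqFinrank]
  refine AschPrime.frame_members hQ h2 hn hn5 hdef num hH b hv (fun i => by rw [hb]; exact hev _)
    (fun i j hij => by rw [hb, hb]; exact horth _ _ fun h => hij (idx.symm.injective h)) fun h hh i => ?_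
  obtain ⟨j, c, hjc⟩ := hmap h hh (idx.symm i)
  exact ⟨idx j, c, by rw [hb, hb, Equiv.symm_apply_apply]; exact hjc⟩

/-- A decomposition into isometric lines. -/
theorem line_blocks {t : ℕ} {D : Fin t → Submodule F (ι → F)} (hcard : t = Fintype.card ι)
    (hD : Geo.IsOrthogonalMDecomposition Q 1 D) (hle : H ≤ Geo.decompositionStabilizer D) :
    ((Fintype.card F).Prime ∧ ∃ D : Fin n → Submodule F (ι → F), Geo.IsOrthogonalMDecomposition Q 1 D ∧
      H = Geo.decompositionStabilizer D ⊓ Geo.omegaGL Q) ∨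
    (∃ (F₀ : Subfield F) (r : ℕ) (P : GL ι F), r.Prime ∧ Fintype.card F = Nat.card F₀ ^ r ∧
      Geo.IsQuadFormRationalStructure Q F₀ P ∧ H = Geo.subfieldSubgroup F₀ P ⊓ Geo.omegaGL Q) := by
  classical
  haveI : NeZero t := ⟨by omega⟩
  have hmd := hD.1.decomp
  obtain ⟨w, hw, hw0⟩ := (D 0).exists_mem_ne_zero_of_ne_bot fun h => by
    have := hmd.finrank_eq 0
    rw [h, finrank_bot] at this
    omega
  choose eq' heq' using fun i => hD.2 0 i
  let e : Fin t → ι → F := fun i => (eq' i ⟨w, hw⟩ : ι → F)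
  have he0 : ∀ i, e i ≠ 0 := fun i h => hw0 (by
    have h' : eq' i ⟨w, hw⟩ = 0 := Subtype.ext h
    simpa using congrArg Subtype.val ((eq' i).map_eq_zero_iff.1 h'))
  have hspan : ∀ i, ∀ x ∈ D i, ∃ c : F, x = c • e i := fun i x hx => by
    obtain ⟨c, hc⟩ := (finrank_eq_one_iff_of_nonzero' (eq' i ⟨w, hw⟩) (fun h => he0 i (by
      show (eq' i ⟨w, hw⟩ : ι → F) = 0
      rw [h]; rfl))).1 (hmd.finrank_eq i) ⟨x, hx⟩
    exact ⟨c, (congrArg Subtype.val hc).symm⟩
  have hQw : Q w ≠ 0 := fun h0 => by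
    obtain ⟨⟨x, hxD, hx⟩, -⟩ := hD.1.nondegenerate 0 w hw hw0
    obtain ⟨c, rfl⟩ := hspan 0 x hxD
    apply hx
    have h00 : Q (e 0) = 0 := (heq' 0 ⟨w, hw⟩).trans h0
    obtain ⟨c', hc'⟩ := hspan 0 w hw
    conv_lhs => rw [hc']
    change bform hQ (c • e 0) (c' • e 0) = 0
    rw [map_smul, map_smul, LinearMap.smul_apply, b_self_eq_zero hQ h00, smul_zero, smul_zero]
  refine frame_members' hQ h2 hn hn5 hdef num hH (Fintype.equivOfCardEq (by simp [hcard])) e hQw
    (fun i => heq' i ⟨w, hw⟩) (fun i j hij => hD.1.orthogonal i j hij _ (eq' i _).2 _ (eq' j _).2) fun h hh i => ?_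
  obtain ⟨π, hπ⟩ := hle hh
  obtain ⟨c, hc⟩ := hspan (π i) (h.val *ᵥ e i)
    (by rw [← hπ i]; exact ⟨e i, (eq' i _).2, Matrix.toLin'_apply _ _⟩)
  exact ⟨π i, c, hc⟩

/-- A decomposition into isometric non-degenerate three-spaces over the field with three elements. -/
theorem three_blocks (hq : Fintype.card F = 3) {D : Fin 3 → Submodule F (ι → F)}
    (hcard : Fintype.card ι = 9) (hD : Geo.IsOrthogonalMDecomposition Q 3 D)
    (hle : H ≤ Geo.decompositionStabilizer D) :
    ((Fintype.card F).Prime ∧ ∃ D : Fin n → Submodule F (ι → F), Geo.IsOrthogonalMDecomposition Q 1 D ∧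
      H = Geo.decompositionStabilizer D ⊓ Geo.omegaGL Q) ∨
    (∃ (F₀ : Subfield F) (r : ℕ) (P : GL ι F), r.Prime ∧ Fintype.card F = Nat.card F₀ ^ r ∧
      Geo.IsQuadFormRationalStructure Q F₀ P ∧ H = Geo.subfieldSubgroup F₀ P ⊓ Geo.omegaGL Q) := by
  classical
  choose iso hiso using fun i => hD.2 0 i
  have hmd := hD.1.decomp
  let b := Module.finBasisOfFinrankEq F (D 0) (hmd.finrank_eq 0)
  let T : Fin 3 → (Fin 3 → F) →ₗ[F] (ι → F) := fun i =>
    (D i).subtype ∘ₗ (iso i).toLinearMap ∘ₗ b.equivFun.symm.toLinearMap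
  have hTmem : ∀ i x, T i x ∈ D i := fun i x => (iso i _).2
  have hTsurj : ∀ i, ∀ y ∈ D i, ∃ x, T i x = y := fun i y hy =>
    ⟨b.equivFun ((iso i).symm ⟨y, hy⟩), by simp [T]⟩
  have hTQ : ∀ i x, Q (T i x) = Q (T 0 x) := fun i x => by
    simp only [T, LinearMap.comp_apply, Submodule.coe_subtype, LinearEquiv.coe_coe]
    rw [hiso i, hiso 0]
  let X : Matrix (Fin 3) (Fin 3) F := fun a c => bform hQ (T 0 (Pi.single a 1)) (T 0 (Pi.single c 1))
  have hTb : ∀ i x y, bform hQ (T i x) (T i y) = x ⬝ᵥ (X *ᵥ y) := fun i x y => by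
    have h1 : bform hQ (T i x) (T i y) = bform hQ (T 0 x) (T 0 y) := by
      have e1 := q_add hQ (T i x) (T i y)
      have e0 := q_add hQ (T 0 x) (T 0 y)
      rw [← map_add, hTQ, hTQ i x, hTQ i y] at e1
      rw [← map_add] at e0
      linear_combination e0 - e1
    rw [h1]
    conv_lhs => rw [pi_eq_sum_univ' x, pi_eq_sum_univ' y]
    simp only [map_sum, map_smul, LinearMap.sum_apply, LinearMap.smul_apply, smul_eq_mul, dotProduct,
      Matrix.mulVec, Finset.mul_sum, X]
    rw [Finset.sum_comm]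
    exact Finset.sum_congr rfl fun a _ => Finset.sum_congr rfl fun c _ => by ring
  have hXu : IsUnit X := by
    rw [← Matrix.mulVec_injective_iff_isUnit]
    intro x y hxy
    by_contra hne
    have hxy0 : T 0 (x - y) ≠ 0 := fun h => hne (sub_eq_zero.1 (by
      have h' : iso 0 (b.equivFun.symm (x - y)) = 0 := Subtype.ext h
      exact b.equivFun.symm.map_eq_zero_iff.1 ((iso 0).map_eq_zero_iff.1 h')))
    obtain ⟨⟨u, huD, hu⟩, -⟩ := hD.1.nondegenerate 0 _ (hTmem 0 _) hxy0
    obtain ⟨u', rfl⟩ := hTsurj 0 u huD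
    apply hu
    change bform hQ (T 0 u') (T 0 (x - y)) = 0
    rw [hTb, Matrix.mulVec_sub, sub_eq_zero.2 hxy, dotProduct_zero]
  obtain ⟨A, μ, hμ, hA⟩ := ternary_congr h2 hXu fun a c => b_symm hQ _ _
  let S : Fin 3 → (Fin 3 → F) → (ι → F) := fun i x => T i ((A : Matrix (Fin 3) (Fin 3) F) *ᵥ x)
  have hSb : ∀ i x y, bform hQ (S i x) (S i y) = μ * (x ⬝ᵥ y) := fun i x y => by
    rw [hTb, ← Matrix.vecMul_transpose, ← Matrix.dotProduct_mulVec, Matrix.mulVec_mulVec,
      Matrix.mulVec_mulVec, hA, Matrix.smul_mulVec, Matrix.one_mulVec, dotProduct_smul, smul_eq_mul]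
  let e : Fin 3 × Fin 3 → ι → F := fun p => S p.1 (Pi.single p.2 1)
  refine frame_members' hQ h2 hn hn5 hdef num hH (Fintype.equivOfCardEq (by simp [hcard])) e
    (v := μ / 2) (div_ne_zero hμ h2) (fun p => ?_) (fun p q hpq => ?_) fun h hh p => ?_
  · have := hSb p.1 (Pi.single p.2 1) (Pi.single p.2 1)
    rw [b_self hQ, single_dotProduct, one_mul, Pi.single_eq_same, mul_one] at this
    rw [eq_div_iff h2]; linear_combination this
  · by_cases h1 : p.1 = q.1
    · have h2' : p.2 ≠ q.2 := fun e => hpq (Prod.ext h1 e)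
      show bform hQ (S p.1 _) (S q.1 _) = 0
      rw [← h1, hSb, single_dotProduct, one_mul, Pi.single_eq_of_ne h2', mul_zero]
    · exact hD.1.orthogonal _ _ h1 _ (hTmem _ _) _ (hTmem _ _)
  · obtain ⟨π, hπ⟩ := hle hh
    have hI := hH.1.le.trans omegaGL_le hh
    have hget : ∀ a, ∃ c, h.val *ᵥ S p.1 (Pi.single a 1) = S (π p.1) c := fun a => by
      obtain ⟨x, hx⟩ := hTsurj (π p.1) (h.val *ᵥ S p.1 (Pi.single a 1))
        (by rw [← hπ p.1]; exact ⟨_, hTmem p.1 _, Matrix.toLin'_apply _ _⟩)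
      exact ⟨((A⁻¹ : GL (Fin 3) F) : Matrix (Fin 3) (Fin 3) F) *ᵥ x, by
        show _ = T _ _
        rw [mulVec_inv_mulVec, hx]⟩
    choose col hcol using hget
    let G : Matrix (Fin 3) (Fin 3) F := Matrix.of fun r a => col a r
    have hG : Gᵀ * G = (1 : F) • 1 := by
      ext a c
      rw [one_smul]
      apply mul_left_cancel₀ hμ
      calc μ * (Gᵀ * G) a c = bform hQ (S (π p.1) (col a)) (S (π p.1) (col c)) := by
            rw [hSb]; rfl
        _ = bform hQ (S p.1 (Pi.single a 1)) (S p.1 (Pi.single c 1)) := by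
            rw [← hcol, ← hcol, isometry_b hQ hI]
        _ = _ := by rw [hSb, single_dotProduct, one_mul, Matrix.one_apply, Pi.single_apply]
    obtain ⟨r, s, hs⟩ := column_monomial hq one_ne_zero hG p.2
    refine ⟨(π p.1, r), s, ?_⟩
    show h.val *ᵥ S p.1 _ = s • S (π p.1) _
    rw [hcol]
    have : col p.2 = s • Pi.single r 1 := by
      rw [← hs, Matrix.mulVec_single_one]; rfl
    simp only [this, S, Matrix.mulVec_smul, map_smul]

omit hn num

/-- Omega stabilises no tensor square decomposition. -/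
theorem not_le_squareWreath (hn7 : 7 ≤ Fintype.card ι) (e : ι ≃ (Fin 2 → Fin 3)) (P : GL ι F) :
    ¬ Geo.omegaGL Q ≤ Geo.tensorWreathSubgroup 3 2 e P := by
  obtain ⟨e₀, rfl⟩ := TensorSquare.exists_sqEquiv_eq e
  intro hle
  set K := Geo.tensorProductSubgroup 3 3 e₀ P
  obtain ⟨s, hsW, hs⟩ := TensorSquare.exists_swap e₀ P
  have hss : s * s = 1 := Units.ext (by
    rw [Units.val_mul, hs, ← map_mul, TensorSquare.swapMat_mul_self, map_one, Units.val_one])
  have hnorm : ∀ k ∈ K, s * k * s ∈ K := fun k hk => by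
    obtain ⟨a, b, hab⟩ := (mem_tensorProductSubgroup_iff e₀ P k).1 hk
    refine (mem_tensorProductSubgroup_iff e₀ P _).2 ⟨b, a, ?_⟩
    rw [Units.val_mul, Units.val_mul, hs, hab, ← map_mul, ← map_mul, TensorSquare.swapMat_kron,
      mul_assoc, TensorSquare.swapMat_mul_self, mul_one]
  have hdich : ∀ g ∈ Geo.tensorWreathSubgroup 3 2 (TensorSquare.sqEquiv e₀) P,
      g ∈ K ∨ ∃ k ∈ K, g = k * s := fun g hg => by
    obtain ⟨a, b, h | h⟩ := TensorSquare.exists_of_mem_wreath e₀ P hg
    · exact Or.inl ((mem_tensorProductSubgroup_iff e₀ P g).2 ⟨a, b, h⟩)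
    · refine Or.inr ⟨g * s, (mem_tensorProductSubgroup_iff e₀ P _).2 ⟨a, b, ?_⟩,
        by rw [mul_assoc, hss, mul_one]⟩
      rw [Units.val_mul, h, hs, ← map_mul, mul_assoc, TensorSquare.swapMat_mul_self, mul_one]
  have hsinv : s⁻¹ = s := inv_eq_of_mul_eq_one_right hss
  have hcomm : ⁅Geo.tensorWreathSubgroup 3 2 (TensorSquare.sqEquiv e₀) P,
      Geo.tensorWreathSubgroup 3 2 (TensorSquare.sqEquiv e₀) P⁆ ≤ K := by
    refine Subgroup.commutator_le.2 fun g hg h hh => ?_
    rcases hdich g hg with hg | ⟨a, ha, rfl⟩ <;> rcases hdich h hh with hh | ⟨c, hc, rfl⟩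
    · exact mul_mem (mul_mem (mul_mem hg hh) (inv_mem hg)) (inv_mem hh)
    · rw [show ⁅g, c * s⁆ = g * c * (s * g⁻¹ * s) * c⁻¹ by
        rw [commutatorElement_def, _root_.mul_inv_rev, hsinv]; group]
      exact mul_mem (mul_mem (mul_mem hg hc) (hnorm _ (inv_mem hg))) (inv_mem hc)
    · rw [show ⁅a * s, h⁆ = a * (s * h * s) * a⁻¹ * h⁻¹ by
        rw [commutatorElement_def, _root_.mul_inv_rev, hsinv]; group]
      exact mul_mem (mul_mem (mul_mem ha (hnorm _ hh)) (inv_mem ha)) (inv_mem hh)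
    · rw [show ⁅a * s, c * s⁆ = a * (s * (c * a⁻¹) * s) * c⁻¹ by
        rw [commutatorElement_def, _root_.mul_inv_rev, _root_.mul_inv_rev, hsinv]
        simp only [mul_assoc]
        rw [← mul_assoc s s (a⁻¹ * _), hss, one_mul]]
      exact mul_mem (mul_mem ha (hnorm _ (mul_mem hc (inv_mem ha)))) (inv_mem hc)
  refine OrthEven.not_le_tensorProductSubgroup hQ hn7 (by norm_num) (by norm_num) e₀ P ?_
  rw [← omegaGL_perfect hQ (by omega)]
  exact (Subgroup.commutator_mono hle hle).trans hcomm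

include hn num

/-- A maximal group inside a tensor square stabiliser of symmetric forms. -/
theorem square_cases (hcard : Fintype.card ι = 9) {e : ι ≃ (Fin 2 → Fin 3)} {P : GL ι F}
    (hle : H ≤ Geo.tensorWreathSubgroup 3 2 e P) {c : F} (hc : c ≠ 0)
    {X : Fin 2 → Matrix (Fin 3) (Fin 3) F} (hXu : ∀ i, IsUnit (X i))
    (hXs : ∀ i a b, X i a b = X i b a)
    (hΓ : powGram (QuadraticMap.polar Q) e P = c • kroneckerPow X) :
    (5 ≤ Fintype.card F ∧ ∃ (e : ι ≃ (Fin 2 → Fin 3)) (P : GL ι F) (f₁ : (Fin 3 → F) → (Fin 3 → F) → F),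
      Geo.IsSymmetricForm f₁ ∧ Geo.IsTensorPowerFormStructure id (QuadraticMap.polar Q) f₁ e P ∧
      H = Geo.tensorWreathSubgroup 3 2 e P ⊓ Geo.omegaGL Q) ∨
    ((Fintype.card F).Prime ∧ ∃ D : Fin n → Submodule F (ι → F), Geo.IsOrthogonalMDecomposition Q 1 D ∧
      H = Geo.decompositionStabilizer D ⊓ Geo.omegaGL Q) ∨
    (∃ (F₀ : Subfield F) (r : ℕ) (P : GL ι F), r.Prime ∧ Fintype.card F = Nat.card F₀ ^ r ∧
      Geo.IsQuadFormRationalStructure Q F₀ P ∧ H = Geo.subfieldSubgroup F₀ P ⊓ Geo.omegaGL Q) := by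
  classical
  choose A μ hμ hA using fun i => ternary_congr h2 (hXu i) (hXs i)
  have hr := OrthEven.rform_polar hQ
  obtain ⟨P', hW, hΓ'⟩ := powGram_change hr.sesq hΓ A
  have hc' : c * (μ 0 * μ 1) ≠ 0 := mul_ne_zero hc (mul_ne_zero (hμ 0) (hμ 1))
  have hΓ1 : powGram (QuadraticMap.polar Q) e P' =
      (c * (μ 0 * μ 1)) • kroneckerPow fun _ => (1 : Matrix (Fin 3) (Fin 3) F) := by
    rw [hΓ', ← Fin.prod_univ_two μ, mul_smul, ← kroneckerPow_smul]
    congr 2
    funext i
    rw [RingHom.coe_id, Matrix.map_id, hA i]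
  by_cases h5 : 5 ≤ Fintype.card F
  · exact Or.inl ⟨h5, e, P', _, OrthEven.symmetric_formOfGram isUnit_one (fun i j => by
      simp only [Matrix.one_apply, eq_comm]),
      isTensorPowerFormStructure_of_powGram hr.sesq hc' hΓ1,
      eq_inf_of_le hH (hle.trans hW) (not_le_squareWreath hQ h2 hn5 hdef hH (by omega) e P')⟩
  have hq : Fintype.card F = 3 := by
    have := Fintype.one_lt_card (α := F)
    obtain ⟨j, hj⟩ := odd_card_of_two_ne_zero h2
    omega
  have hbb : ∀ p q, bform hQ (powEmb e P' (Pi.single p 1)) (powEmb e P' (Pi.single q 1)) =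
      if p = q then c * (μ 0 * μ 1) else 0 := fun p q => by
    have := congrFun (congrFun hΓ1 p) q
    rw [kroneckerPow_one, Matrix.smul_apply, Matrix.one_apply, smul_eq_mul, mul_ite, mul_one, mul_zero] at this
    exact this
  refine Or.inr (frame_members' hQ h2 hn hn5 hdef num hH (Fintype.equivOfCardEq (by simp [hcard]))
    (fun p => powEmb e P' (Pi.single p 1)) (v := c * (μ 0 * μ 1) / 2) (div_ne_zero hc' h2) (fun p => ?_)
    (fun p q hpq => by rw [hbb, if_neg hpq]) fun h hh p => ?_)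
  · rw [eq_div_iff h2, mul_comm, ← b_self hQ, hbb, if_pos rfl]
  · obtain ⟨gs, π, hgs⟩ := mem_tensorWreath_iff.1 ((hle.trans hW) hh)
    have hz := powFactor_similar hr.sesq hc' (X := fun _ => (1 : Matrix (Fin 3) (Fin 3) F))
      (fun _ => one_ne_zero) hΓ1 one_ne_zero
      (fun u v => by rw [one_mul]; exact isometry_b hQ (hH.1.le.trans omegaGL_le hh) u v) hgs
    have hcolm : ∀ i, ∃ (r : Fin 3) (s : F),
        (gs i : Matrix (Fin 3) (Fin 3) F) *ᵥ Pi.single (p (π.symm i)) 1 = s • Pi.single r (1 : F) := fun i => by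
      obtain ⟨z, hz0, hz1⟩ := hz i
      rw [RingHom.coe_id, Matrix.map_id, mul_one] at hz1
      exact column_monomial hq hz0 hz1 _
    choose r s hrs using hcolm
    refine ⟨r, ∏ i, s i, ?_⟩
    have hker : (kroneckerPow (fun i => (gs i : Matrix (Fin 3) (Fin 3) F)) * permPow π) *ᵥ
        Pi.single p (1 : F) = (∏ i, s i) • Pi.single r (1 : F) := by
      have hperm : (permPow π : Matrix (Fin 2 → Fin 3) (Fin 2 → Fin 3) F) *ᵥ Pi.single p (1 : F) =
          Pi.single (p ∘ π.symm) (1 : F) := by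
        funext x
        rw [Matrix.mulVec_single_one]
        simp only [Matrix.col_apply, permPow, Matrix.of_apply, Pi.single_apply]
        refine if_congr ⟨fun h => ?_, fun h => ?_⟩ rfl rfl
        · rw [h, Function.comp_assoc, π.self_comp_symm, Function.comp_id]
        · rw [h, Function.comp_assoc, π.symm_comp_self, Function.comp_id]
      rw [← Matrix.mulVec_mulVec, hperm, Matrix.mulVec_single_one]
      funext y
      have hcol : ∀ i, (gs i : Matrix (Fin 3) (Fin 3) F) (y i) (p (π.symm i)) =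
          s i * (Pi.single (r i) (1 : F) : Fin 3 → F) (y i) := fun i => by
        have := congrFun (hrs i) (y i)
        simpa [Matrix.mulVec_single_one] using this
      simp only [Matrix.col_apply, kroneckerPow, Matrix.of_apply, Function.comp_apply, hcol,
        Finset.prod_mul_distrib, Pi.smul_apply, smul_eq_mul]
      congr 1
      by_cases hy : y = r
      · subst hy; simp
      · obtain ⟨i, hi⟩ := Function.ne_iff.1 hy
        rw [Pi.single_eq_of_ne hy, Finset.prod_eq_zero (Finset.mem_univ i) (Pi.single_eq_of_ne hi _)]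
    rw [hgs, tconj_mulVec_powEmb, hker]
    simp [powEmb, ← Matrix.mulVec_smul]
    rfl

end CfsgLib.Aschbacher.OrthNine
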