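import Cfsg.Agent.AschPrime.OrthFrame
import Cfsg.Agent.AschPrime.OrthCases
import Cfsg.Agent.AutPSL.SymForms
import Cfsg.Agent.Aschbacher.Density
import Cfsg.Agent.Aschbacher.FormsTensorPower
import Cfsg.Agent.Aschbacher.OrthEvenCases
import Cfsg.Agent.Aschbacher.NormalCases
import Cfsg.Agent.Aschbacher.LinearCases
import Cfsg.Agent.Aschbacher.SimpleAlgebra

/-!
Pieces of Aschbacher's theorem for the orthogonal groups in odd dimension: frames of lines, the
extension field of full degree, the class two configuration, and tensor powers of symmetric forms.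
-/

set_option autoImplicit false
set_option linter.unusedSectionVars false

namespace CfsgLib.Aschbacher.OrthOdd

open Matrix Cfsg Cfsg.Geo Module CfsgLib.OrthGeo CfsgLib.Aschbacher CfsgLib.Aschbacher.Centre
  CfsgLib.Aschbacher.Forms

open scoped MatrixGroups

variable {ι : Type} [Fintype ι] [DecidableEq ι] {F : Type*} [Field F] [Fintype F] {Q : (ι → F) → F}
variable (hQ : IsNondegenerateQuadraticForm Q) (h2 : (2 : F) ≠ 0)
include hQ h2

/-- A basis of pairwise orthogonal vectors of equal value permuted up to scalars by a group of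
isometries gives a line decomposition over a prime field and a subfield structure otherwise. -/
theorem frame_case (hn : Odd (Fintype.card ι)) (hn2 : 2 ≤ Fintype.card ι)
    (hdef : ∀ (F₀ : Subfield F) (a b : ι), gramMatrix (QuadraticMap.polar Q) a b ∈ F₀)
    {n : ℕ} (num : ι ≃ Fin n) {H : Subgroup (GL ι F)} (hHI : H ≤ Cfsg.isometryGroup F Q)
    (e : Basis ι F (ι → F)) {v : F} (hv : v ≠ 0) (hev : ∀ i, Q (e i) = v)
    (horth : ∀ i j, i ≠ j → bform hQ (e i) (e j) = 0)
    (hperm' : ∀ h ∈ H, ∃ (σ : Equiv.Perm ι) (c : ι → F), ∀ i, h.val *ᵥ e i = c i • e (σ i)) :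
    ((Fintype.card F).Prime ∧ ∃ D : Fin n → Submodule F (ι → F), IsOrthogonalMDecomposition Q 1 D ∧
      H ≤ decompositionStabilizer D) ∨
    (∃ (F₀ : Subfield F) (r : ℕ) (P : GL ι F), r.Prime ∧ Fintype.card F = Nat.card F₀ ^ r ∧
      IsQuadFormRationalStructure Q F₀ P ∧ H ≤ subfieldSubgroup F₀ P) := by
  classical
  have hperm : ∀ h ∈ H, ∃ (σ : Equiv.Perm ι) (c : ι → F),
      ∀ i, c i * c i = 1 ∧ h.val *ᵥ e i = c i • e (σ i) := by
    intro h hh
    obtain ⟨σ, c, hc⟩ := hperm' h hh
    refine ⟨σ, c, fun i => ⟨?_, hc i⟩⟩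
    have h1 := mem_isometryGroup.1 (hHI hh) (e i)
    rw [hc i, q_smul hQ, hev, hev] at h1
    exact mul_right_cancel₀ hv (by rw [one_mul]; linear_combination h1)
  have hn' : 2 ≤ n := by
    have := Fintype.card_congr num
    rw [Fintype.card_fin] at this
    omega
  by_cases hp : (Fintype.card F).Prime
  · left
    refine ⟨hp, fun k => Submodule.span F {e (num.symm k)}, ?_⟩
    set D : Fin n → Submodule F (ι → F) := fun k => Submodule.span F {e (num.symm k)} with hDdef
    have hD : IsOrthogonalMDecomposition Q 1 D := by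
      refine ⟨⟨⟨hn', one_pos, fun i => finrank_span_singleton (e.ne_zero _), ?_, ?_⟩, ?_, ?_⟩, ?_⟩
      · exact (e.linearIndependent.comp num.symm num.symm.injective).iSupIndep_span_singleton
      · rw [eq_top_iff, ← e.span_eq, Submodule.span_le]
        rintro _ ⟨i, rfl⟩
        exact Submodule.mem_iSup_of_mem (num i) (Submodule.subset_span (by simp))
      · intro i w hw hw0
        obtain ⟨s, rfl⟩ := Submodule.mem_span_singleton.1 hw
        have hs0 : s ≠ 0 := fun h => hw0 (by simp [h])
        have hne : bform hQ (e (num.symm i)) (e (num.symm i)) ≠ 0 := by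
          rw [b_self hQ, hev]; exact mul_ne_zero h2 hv
        refine ⟨⟨e (num.symm i), Submodule.mem_span_singleton_self _, ?_⟩,
          e (num.symm i), Submodule.mem_span_singleton_self _, ?_⟩
        · change bform hQ (e (num.symm i)) (s • e (num.symm i)) ≠ 0
          rw [map_smul, smul_eq_mul]; exact mul_ne_zero hs0 hne
        · change bform hQ (s • e (num.symm i)) (e (num.symm i)) ≠ 0
          rw [map_smul, LinearMap.smul_apply, smul_eq_mul]; exact mul_ne_zero hs0 hne
      · intro i j hij u hu w hw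
        obtain ⟨a, rfl⟩ := Submodule.mem_span_singleton.1 hu
        obtain ⟨c, rfl⟩ := Submodule.mem_span_singleton.1 hw
        change bform hQ (a • e (num.symm i)) (c • e (num.symm j)) = 0
        rw [map_smul, map_smul, LinearMap.smul_apply, horth _ _ fun h => hij (num.symm.injective h), smul_zero,
          smul_zero]
      · intro i j
        refine ⟨(LinearEquiv.toSpanNonzeroSingleton F _ (e (num.symm i)) (e.ne_zero _)).symm.trans
          (LinearEquiv.toSpanNonzeroSingleton F _ (e (num.symm j)) (e.ne_zero _)), fun w => ?_⟩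
        obtain ⟨s, rfl⟩ := (LinearEquiv.toSpanNonzeroSingleton F _ (e (num.symm i)) (e.ne_zero _)).surjective w
        rw [LinearEquiv.trans_apply, LinearEquiv.symm_apply_apply]
        show Q (s • e (num.symm j)) = Q (s • e (num.symm i))
        rw [q_smul hQ, q_smul hQ, hev, hev]
    refine ⟨hD, fun h hh => ?_⟩
    obtain ⟨σ, c, hc⟩ := hperm h hh
    refine ⟨(num.symm.trans σ).trans num, fun k => ?_⟩
    have hc0 : c (num.symm k) ≠ 0 := left_ne_zero_of_mul_eq_one (hc _).1
    simp only [Submodule.map_span, Set.image_singleton, Matrix.toLin'_apply, (hc _).2, hDdef, Equiv.trans_apply,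
      Equiv.symm_apply_apply]
    exact Submodule.span_singleton_smul_eq hc0.isUnit _
  · right
    have : Nonempty ι := Fintype.card_pos_iff.1 hn.pos
    have hbot : (⊥ : Subfield F) ≠ ⊤ := by
      intro htop
      obtain ⟨k, hpp, hcard⟩ := FiniteField.card F (ringChar F)
      have := Fact.mk hpp
      refine hp ?_
      have hb : Nat.card (⊥ : Subfield F) = ringChar F := Subfield.card_bot F (ringChar F)
      rw [htop] at hb
      have hct : Nat.card (⊤ : Subfield F) = Nat.card F := Nat.card_congr Subfield.topEquiv.toEquiv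
      rw [hct, Nat.card_eq_fintype_card] at hb
      rw [hb]; exact hpp
    obtain ⟨F₁, r, -, hr, hcard, htop⟩ := Aschbacher.exists_subfield_prime_index hbot
    let X : Matrix ι ι F := (Pi.basisFun F ι).toMatrix e
    have hXcol : ∀ i, X *ᵥ Pi.single i 1 = e i := fun i => by
      rw [Matrix.mulVec_single_one]; funext k; simp [X, Basis.toMatrix_apply]
    have hXdet : X.det ≠ 0 := fun h0 => by
      have := congrArg Matrix.det ((Pi.basisFun F ι).toMatrix_mul_toMatrix_flip e)
      rw [Matrix.det_mul, show (Basis.toMatrix (Pi.basisFun F ι) ⇑e).det = 0 from h0, zero_mul, Matrix.det_one] at this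
      exact zero_ne_one this
    obtain ⟨l, hl0, hl⟩ := AschPrime.exists_scale h2 hr hcard hv fun hr2 => by
      subst hr2
      have hsq : Fintype.card F = Nat.card F₁ ^ 2 := hcard
      have hD : (gramMatrix (QuadraticMap.polar Q)).det ∈ F₁ := by
        rw [show gramMatrix (QuadraticMap.polar Q) =
          (Matrix.of fun a b => (⟨_, hdef F₁ a b⟩ : F₁)).map F₁.subtype from rfl, ← RingHom.mapMatrix_apply,
          ← RingHom.map_det]
        exact SetLike.coe_mem _
      have hsesq := Aschbacher.IsSesquiForm.of_bilinear hQ.polar_bilinear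
      have hdiag : Xᵀ * gramMatrix (QuadraticMap.polar Q) * X = Matrix.diagonal fun _ => 2 * v := by
        ext i j
        have h1 : (Xᵀ * gramMatrix (QuadraticMap.polar Q) * X) i j =
            QuadraticMap.polar Q (X *ᵥ Pi.single i 1) (X *ᵥ Pi.single j 1) := by
          rw [hsesq.eq_dot, Matrix.mulVec_single_one, Matrix.mulVec_single_one, Matrix.mul_assoc]
          rfl
        rw [h1, hXcol, hXcol, Matrix.diagonal_apply]
        split_ifs with h
        · subst h; change bform hQ (e i) (e i) = _; rw [b_self hQ, hev]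
        · exact horth i j h
      have hdet := congrArg Matrix.det hdiag
      rw [Matrix.det_mul, Matrix.det_mul, Matrix.det_transpose, Matrix.det_diagonal, Finset.prod_const,
        Finset.card_univ] at hdet
      obtain ⟨s, hs⟩ := AschPrime.isSquare_of_mem h2 hsq hD
      have h2F : (2 : F) ∈ F₁ := by rw [← one_add_one_eq_two]; exact F₁.add_mem F₁.one_mem F₁.one_mem
      obtain ⟨w, hw⟩ := AschPrime.isSquare_of_mem h2 hsq h2F
      obtain ⟨k, hk⟩ := hn
      rw [hk, hs] at hdet
      have hw0 : w ≠ 0 := fun h => h2 (by rw [hw, h, mul_zero])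
      refine ⟨X.det * s / ((2 * v) ^ k * w), ?_⟩
      field_simp
      linear_combination -hdet + (v * (2 * v) ^ (2 * k)) * (hw.symm)
    let z : GL ι F := Units.map (Matrix.scalar ι : F →+* Matrix ι ι F).toMonoidHom (Units.mk0 l hl0)
    let X' : GL ι F := Matrix.GeneralLinearGroup.mkOfDetNeZero X hXdet
    have hX'col : ∀ i, (X' * z : GL ι F).val *ᵥ Pi.single i 1 = l • e i := fun i => by
      rw [Units.val_mul, ← Matrix.mulVec_mulVec, show (X'.val : Matrix ι ι F) = X from rfl]
      rw [show z.val *ᵥ Pi.single i 1 = l • (Pi.single i 1 : ι → F) from by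
        ext k; simp [z, Matrix.mulVec_diagonal], Matrix.mulVec_smul, hXcol]
    refine ⟨F₁, r, X' * z, hr, hcard, fun u hu => ?_, fun h hh => ?_⟩
    · have hu' : (X' * z : GL ι F).val *ᵥ u = ∑ i, (u i * l) • e i := by
        conv_lhs => rw [pi_eq_sum_univ' u]
        rw [Matrix.mulVec_sum]
        exact Finset.sum_congr rfl fun i _ => by rw [Matrix.mulVec_smul, hX'col, smul_smul]
      rw [hu']
      have key : ∀ S : Finset ι, Q (∑ i ∈ S, (u i * l) • e i) = ∑ i ∈ S, u i ^ 2 * (l ^ 2 * v) := by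
        intro S
        induction S using Finset.induction with
        | empty => simp [q_zero hQ]
        | insert a S ha ih =>
          rw [Finset.sum_insert ha, Finset.sum_insert ha, q_add hQ, ih, q_smul hQ, hev]
          have : bform hQ ((u a * l) • e a) (∑ i ∈ S, (u i * l) • e i) = 0 := by
            rw [map_sum]
            refine Finset.sum_eq_zero fun i hi => ?_
            rw [map_smul, map_smul, LinearMap.smul_apply, horth a i (fun h => ha (by rwa [h])), smul_zero, smul_zero]
          rw [this]; ring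
      rw [key]
      exact sum_mem fun i _ => mul_mem (pow_mem (hu i) 2) hl
    · obtain ⟨σ, c, hc⟩ := hperm h hh
      refine Aschbacher.mem_subfieldSubgroup_iff.2 ?_
      let S₀ : Matrix ι ι F₁ := fun k i => if k = σ i then (⟨c i, by
        rcases mul_self_eq_one_iff.1 (hc i).1 with h | h <;> rw [h]
        exacts [F₁.one_mem, F₁.neg_mem F₁.one_mem]⟩) else 0
      have hval : ((X' * z)⁻¹ * h * (X' * z) : GL ι F).val = S₀.map F₁.subtype := by
        refine Matrix.ext_of_mulVec_single fun i => ?_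
        rw [Units.val_mul, Units.val_mul, ← Matrix.mulVec_mulVec, ← Matrix.mulVec_mulVec, hX'col, Matrix.mulVec_smul,
          (hc i).2, smul_comm, ← hX'col, Matrix.mulVec_smul, Matrix.mulVec_mulVec, ← Units.val_mul, inv_mul_cancel,
          Units.val_one, Matrix.one_mulVec, Matrix.mulVec_single_one]
        funext k
        show _ = F₁.subtype (S₀ k i)
        by_cases hk : k = σ i <;> simp [S₀, hk]
      have hdet : S₀.det ≠ 0 := fun h0 => by
        have h1 := RingHom.map_det F₁.subtype S₀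
        rw [h0, map_zero, RingHom.mapMatrix_apply, ← hval] at h1
        exact ((Matrix.isUnit_iff_isUnit_det _).1 (Units.isUnit _)).ne_zero h1.symm
      refine ⟨Matrix.GeneralLinearGroup.mkOfDetNeZero S₀ hdet, 1, ?_⟩
      rw [map_one, mul_one]
      exact Units.ext hval

/-- The same from a decomposition into isometric lines. -/
theorem lines_case (hn : Odd (Fintype.card ι)) (hn2 : 2 ≤ Fintype.card ι)
    (hdef : ∀ (F₀ : Subfield F) (a b : ι), gramMatrix (QuadraticMap.polar Q) a b ∈ F₀)
    {H : Subgroup (GL ι F)} (hHI : H ≤ Cfsg.isometryGroup F Q) {t : ℕ}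
    {D : Fin t → Submodule F (ι → F)} (hD : IsOrthogonalMDecomposition Q 1 D)
    (hle : H ≤ decompositionStabilizer D) :
    ((Fintype.card F).Prime ∧ ∃ (t : ℕ) (D : Fin t → Submodule F (ι → F)),
      IsOrthogonalMDecomposition Q 1 D ∧ H ≤ decompositionStabilizer D) ∨
    (∃ (F₀ : Subfield F) (r : ℕ) (P : GL ι F), r.Prime ∧ Fintype.card F = Nat.card F₀ ^ r ∧
      IsQuadFormRationalStructure Q F₀ P ∧ H ≤ subfieldSubgroup F₀ P) := by
  classical
  by_cases hp : (Fintype.card F).Prime
  · exact Or.inl ⟨hp, t, D, hD, hle⟩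
  have hdc := hD.decomp.decomp
  let i₀ : Fin t := ⟨0, by have := hdc.two_le; omega⟩
  obtain ⟨u, hu, hu0⟩ := (D i₀).exists_mem_ne_zero_of_ne_bot fun h => by
    have := hdc.finrank_eq i₀; rw [h, finrank_bot] at this; omega
  choose φ hφ using fun i => hD.isometric i₀ i
  let w : Fin t → (ι → F) := fun i => (φ i ⟨u, hu⟩ : D i)
  have hw : ∀ i, w i ∈ D i := fun i => (φ i ⟨u, hu⟩).2
  have hw0 : ∀ i, w i ≠ 0 := fun i h => hu0 (by
    simpa using congrArg Subtype.val ((φ i).map_eq_zero_iff.1 (Subtype.ext h)))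
  have hspan : ∀ i, D i = Submodule.span F {w i} := fun i =>
    (Submodule.eq_of_le_of_finrank_eq (Submodule.span_le.2 (by simpa using hw i))
      (by rw [finrank_span_singleton (hw0 i), hdc.finrank_eq])).symm
  have hli : LinearIndependent F w := hdc.indep.linearIndependent D hw hw0
  let b : Basis (Fin t) F (ι → F) := Basis.mk hli (by
    rw [← hdc.iSup_eq_top]
    exact iSup_le fun i => (hspan i).le.trans (Submodule.span_mono (by simp)))
  have hb : ∀ i, b i = w i := fun i => Basis.mk_apply _ _ _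
  have ht : Fintype.card ι = t := by
    rw [← finrank_fintype_fun_eq_card (R := F), Module.finrank_eq_card_basis b, Fintype.card_fin]
  let num : ι ≃ Fin t := Fintype.equivFinOfCardEq ht
  have hv : Q u ≠ 0 := fun h => by
    obtain ⟨⟨x, hx, hxu⟩, -⟩ := hD.decomp.nondegenerate i₀ u hu hu0
    refine hxu ?_
    change bform hQ x u = 0
    rw [hspan i₀] at hx hu
    obtain ⟨s₁, hs₁⟩ := Submodule.mem_span_singleton.1 hu
    obtain ⟨s₂, hs₂⟩ := Submodule.mem_span_singleton.1 hx
    have hw' : Q (w i₀) = 0 := by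
      rw [← hs₁, q_smul hQ] at h
      exact (mul_eq_zero.1 h).resolve_left (pow_ne_zero 2 fun hc => hu0 (by rw [← hs₁, hc, zero_smul]))
    rw [← hs₁, ← hs₂, map_smul, map_smul, LinearMap.smul_apply, b_self hQ, hw']
    simp
  have hev : ∀ i, Q (b.reindex num.symm i) = Q u := fun i => by
    rw [Basis.reindex_apply, Equiv.symm_symm, hb]
    exact hφ _ ⟨u, hu⟩
  have horth : ∀ i j, i ≠ j → bform hQ (b.reindex num.symm i) (b.reindex num.symm j) = 0 := fun i j hij => by
    rw [Basis.reindex_apply, Basis.reindex_apply, Equiv.symm_symm, hb, hb]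
    exact hD.decomp.orthogonal _ _ (fun h => hij (num.injective h)) _ (hw _) _ (hw _)
  have hperm : ∀ h ∈ H, ∃ (σ : Equiv.Perm ι) (c : ι → F),
      ∀ i, h.val *ᵥ b.reindex num.symm i = c i • b.reindex num.symm (σ i) := fun h hh => by
    obtain ⟨σ, hσ⟩ := hle hh
    have hmem : ∀ i, h.val *ᵥ w i ∈ Submodule.span F {w (σ i)} := fun i => by
      rw [← hspan, ← hσ i]
      exact ⟨w i, hw i, Matrix.toLin'_apply _ _⟩
    choose c hc using fun i => Submodule.mem_span_singleton.1 (hmem i)
    refine ⟨(num.trans σ).trans num.symm, fun i => c (num i), fun i => ?_⟩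
    simp [hb, hc]
  rcases frame_case hQ h2 hn hn2 hdef num hHI _ hv hev horth hperm with ⟨hp', -⟩ | h
  · exact absurd hp' hp
  · exact Or.inr h

/-- An irreducible abelian group of isometries does not exist in odd dimension at least two. -/
theorem abelian_false [Nonempty ι] (hn : Odd (Fintype.card ι)) (hn2 : 2 ≤ Fintype.card ι)
    {H : Subgroup (GL ι F)} (hHI : H ≤ Cfsg.isometryGroup F Q)
    (hirr : ActsIrreducibly (matrixSet H)) (hab : ∀ g ∈ H, ∀ h ∈ H, g * h = h * g) : False := by
  classical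
  have hr := OrthEven.rform_polar hQ
  have hcl : Closed (QuadraticMap.polar Q) (envAlg H) :=
    closed_adjoin hr fun g hg u v => isometry_b hQ (hHI hg) u v
  have hgen : ∀ g ∈ H, (g : Matrix ι ι F) ∈ envAlg H := fun g hg => Algebra.subset_adjoin ⟨g, hg, rfl⟩
  have hcom : ∀ x ∈ envAlg H, ∀ g ∈ H, x * (g : Matrix ι ι F) = g * x := by
    intro x hx g hg
    have hle : envAlg H ≤ Subalgebra.centralizer F {(g : Matrix ι ι F)} := Algebra.adjoin_le (by
      rintro _ ⟨a, ha, rfl⟩
      rw [SetLike.mem_coe, Subalgebra.mem_centralizer_iff]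
      rintro _ rfl
      rw [← Units.val_mul, ← Units.val_mul, hab g hg a ha])
    exact ((Subalgebra.mem_centralizer_iff F).1 (hle hx) _ rfl).symm
  have hcomm : ∀ x ∈ envAlg H, ∀ y ∈ envAlg H, x * y = y * x := fun x hx y hy => by
    have hle : envAlg H ≤ Subalgebra.centralizer F {x} := Algebra.adjoin_le (by
      rintro _ ⟨a, ha, rfl⟩
      rw [SetLike.mem_coe, Subalgebra.mem_centralizer_iff]
      rintro _ rfl
      exact hcom _ hx a ha)
    exact (Subalgebra.mem_centralizer_iff F).1 (hle hy) x rfl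
  have hker : ∀ x ∈ envAlg H, x ≠ 0 → Function.Injective (Matrix.toLin' x) := by
    intro x hx hx0
    rw [← LinearMap.ker_eq_bot]
    by_contra hne
    refine hx0 (Matrix.ext_of_mulVec_single fun i => ?_)
    have htop := eq_top_of_invariant hirr hne fun g hg v hv => by
      rw [LinearMap.mem_ker, Matrix.toLin'_apply] at hv ⊢
      rw [Matrix.mulVec_mulVec, hcom x hx g hg, ← Matrix.mulVec_mulVec, hv, Matrix.mulVec_zero]
    have h0 : Matrix.toLin' x (Pi.single i 1) = 0 := LinearMap.mem_ker.1 (htop ▸ Submodule.mem_top)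
    rwa [Matrix.toLin'_apply, ← Matrix.zero_mulVec (Pi.single i (1 : F))] at h0
  obtain ⟨i₁⟩ := ‹Nonempty ι›
  let v0 : ι → F := Pi.single i₁ 1
  have hv0 : v0 ≠ 0 := by simp [v0]
  let ev : envAlg H →ₗ[F] (ι → F) :=
    { toFun := fun x => (x : Matrix ι ι F) *ᵥ v0
      map_add' := fun x y => Matrix.add_mulVec _ _ _
      map_smul' := fun c x => Matrix.smul_mulVec c _ _ }
  have hinj : Function.Injective ev := (injective_iff_map_eq_zero ev).2 fun x hx => by
    by_contra h0
    exact hv0 (hker x.1 x.2 (fun h => h0 (Subtype.ext h))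
      (((Matrix.toLin'_apply x.1 v0).trans hx).trans (map_zero _).symm))
  have hsurj : LinearMap.range ev = ⊤ := by
    refine eq_top_of_invariant hirr (fun hb => hv0 ?_) fun g hg v hv => ?_
    · have h1 : ev 1 ∈ (⊥ : Submodule F (ι → F)) := hb ▸ LinearMap.mem_range_self ev 1
      simpa [ev] using h1
    · obtain ⟨x, rfl⟩ := hv
      exact ⟨⟨_, hgen g hg⟩ * x, by simp [ev, Matrix.mulVec_mulVec]⟩
  have hK : IsFieldSubalgebra (Fintype.card ι) (envAlg H) := by
    refine ⟨hcomm, fun x hx hx0 => ?_, ?_⟩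
    · let L : envAlg H →ₗ[F] envAlg H :=
        { toFun := fun y => ⟨x, hx⟩ * y
          map_add' := fun a b => mul_add _ a b
          map_smul' := fun c a => mul_smul_comm c _ a }
      have hL : Function.Injective L := fun a b hab' => hinj (hker x hx hx0 (by
        have := congrArg (fun y : envAlg H => (y : Matrix ι ι F) *ᵥ v0) hab'
        simpa [L, ev, Matrix.mulVec_mulVec] using this))
      obtain ⟨y, hy⟩ := LinearMap.surjective_of_injective hL 1
      exact ⟨y.1, y.2, congrArg Subtype.val hy⟩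
    · rw [LinearEquiv.finrank_eq (LinearEquiv.ofBijective ev ⟨hinj, LinearMap.range_eq_top.1 hsurj⟩),
        finrank_fintype_fun_eq_card]
  have hsa := selfAdjoint_of_odd hr hn hK hcl
  refine CfsgLib.Aschbacher.not_le_scalars_of_irreducible hirr hn2 fun g hg => ?_
  have hgg : (g : Matrix ι ι F) * g = 1 := by
    refine Matrix.ext_of_mulVec_single fun i => hr.ext_right fun y => ?_
    rw [← Matrix.mulVec_mulVec, ← hsa _ (hgen g hg), Matrix.one_mulVec]
    exact isometry_b hQ (hHI hg) _ _
  rw [mem_scalars_iff]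
  by_cases h1 : (g : Matrix ι ι F) - 1 = 0
  · exact ⟨1, by rw [sub_eq_zero.1 h1]; simp⟩
  · refine ⟨-1, ?_⟩
    obtain ⟨y, -, hy⟩ := hK.inv _ (sub_mem (hgen g hg) (one_mem _)) h1
    have h : (g : Matrix ι ι F) + 1 = 0 := by
      have e0 : ((g : Matrix ι ι F) - 1) * (g + 1) = 0 := by
        rw [sub_mul, mul_add, mul_one, one_mul, hgg]; abel
      simpa [← mul_assoc, mul_eq_one_comm.1 hy] using congrArg (y * ·) e0
    rw [eq_neg_of_add_eq_zero_left h]
    simp

/-- No irreducible group of determinant one isometries normalises an extension field of full degree. -/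
theorem field_full_false [Nonempty ι] (hn : Odd (Fintype.card ι)) (hn2 : 2 ≤ Fintype.card ι)
    {H : Subgroup (GL ι F)} (hHI : H ≤ Cfsg.isometryGroup F Q) (hSL : H ≤ specialLinear ι F)
    (hirr : ActsIrreducibly (matrixSet H)) {K : Subalgebra F (Matrix ι ι F)}
    (hK : IsFieldSubalgebra (Fintype.card ι) K) (hsa : IsSelfAdjointFor (QuadraticMap.polar Q) K)
    (hle : H ≤ subalgebraNormalizer K) : False := by
  classical
  have hr := OrthEven.rform_polar hQ
  refine abelian_false hQ h2 hn hn2 hHI hirr fun g hg h hh => ?_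
  obtain ⟨i₁⟩ := ‹Nonempty ι›
  let v0 : ι → F := Pi.single i₁ 1
  have hv0 : v0 ≠ 0 := by simp [v0]
  let ev : K →ₗ[F] (ι → F) :=
    { toFun := fun x => (x : Matrix ι ι F) *ᵥ v0
      map_add' := fun x y => Matrix.add_mulVec _ _ _
      map_smul' := fun c x => Matrix.smul_mulVec c _ _ }
  have hinj : Function.Injective ev := (injective_iff_map_eq_zero ev).2 fun x hx => by
    by_contra h0
    obtain ⟨y, -, hy⟩ := hK.inv x.1 x.2 fun h => h0 (Subtype.ext h)
    apply hv0
    rw [← Matrix.one_mulVec v0, ← mul_eq_one_comm.1 hy, ← Matrix.mulVec_mulVec]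
    exact (congrArg (y *ᵥ ·) hx).trans (Matrix.mulVec_zero _)
  have hsurj : Function.Surjective ev :=
    (LinearMap.injective_iff_surjective_of_finrank_eq_finrank
      (by rw [hK.finrank_eq, finrank_fintype_fun_eq_card])).1 hinj
  have hcent : ∀ M : Matrix ι ι F, (∀ k ∈ K, M * k = k * M) → M ∈ K := by
    intro M hM
    obtain ⟨k, hk⟩ := hsurj (M *ᵥ v0)
    suffices M = k.1 from this ▸ k.2
    refine Matrix.ext_of_mulVec_single fun i => ?_
    obtain ⟨k', hk'⟩ := hsurj (Pi.single i 1)
    rw [← hk']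
    show M *ᵥ ((k' : Matrix ι ι F) *ᵥ v0) = (k : Matrix ι ι F) *ᵥ ((k' : Matrix ι ι F) *ᵥ v0)
    rw [Matrix.mulVec_mulVec, hM _ k'.2, ← Matrix.mulVec_mulVec, ← hk,
      Matrix.mulVec_mulVec, hK.comm _ k.2 _ k'.2, ← Matrix.mulVec_mulVec]
    rfl
  let _ := (isField_of_isFieldSubalgebra hK).toField
  have : Finite K := Finite.of_injective (fun x : K => (x : Matrix ι ι F)) Subtype.val_injective
  obtain ⟨ω, hω⟩ := IsCyclic.exists_generator (α := Kˣ)
  have hω' : ∀ k ∈ K, k ≠ 0 → ∃ i : ℕ, k = ((ω : K) : Matrix ι ι F) ^ i := by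
    intro k hk hk0
    obtain ⟨i, hi⟩ := (mem_powers_iff_mem_zpowers (x := ω)
      (y := Units.mk0 (⟨k, hk⟩ : K) fun h0 => hk0 (congrArg Subtype.val h0))).2 (hω _)
    refine ⟨i, ?_⟩
    have := congrArg (fun u : Kˣ => ((u : K) : Matrix ι ι F)) hi
    simpa using this.symm
  set Ω := ((ω : K) : Matrix ι ι F)
  have hΩ : Ω ∈ K := (ω : K).2
  have hΩ0 : Ω ≠ 0 := fun h0 => ω.ne_zero (Subtype.ext h0)
  have hcj : ∀ x ∈ H, ∃ a : ℕ, conjAlg x Ω = Ω ^ a := fun x hx =>
    hω' _ ((hle hx Ω).1 hΩ) ((map_ne_zero_iff _ (conjAlg x).injective).2 hΩ0)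
  obtain ⟨a, ha⟩ := hcj g hg
  obtain ⟨b, hb⟩ := hcj h hh
  have heqΩ : conjAlg (g * h) Ω = conjAlg (h * g) Ω := by
    rw [conjAlg_mul, conjAlg_mul, hb, ha, map_pow, map_pow, ha, hb, ← pow_mul, ← pow_mul, mul_comm]
  have heq : ∀ k ∈ K, conjAlg (g * h) k = conjAlg (h * g) k := fun k hk => by
    rcases eq_or_ne k 0 with rfl | hk0
    · rw [map_zero, map_zero]
    · obtain ⟨i, rfl⟩ := hω' k hk hk0
      rw [map_pow, map_pow, heqΩ]
  set c := (g * h) * (h * g)⁻¹ with hc
  have hcH : c ∈ H := H.mul_mem (H.mul_mem hg hh) (H.inv_mem (H.mul_mem hh hg))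
  have hcK : (c : Matrix ι ι F) ∈ K := hcent _ fun k hk => by
    have hk' : conjAlg (h * g)⁻¹ k ∈ K := (hle (H.inv_mem (H.mul_mem hh hg)) k).1 hk
    have h1 : conjAlg c k = k := by
      rw [hc, conjAlg_mul, heq _ hk', conjAlg_apply_inv]
    rw [conjAlg_apply] at h1
    conv_rhs => rw [← h1, mul_assoc, Units.inv_mul, mul_one]
  have hcc : (c : Matrix ι ι F) * c = 1 := by
    refine Matrix.ext_of_mulVec_single fun i => hr.ext_right fun y => ?_
    rw [← Matrix.mulVec_mulVec, ← hsa _ hcK, Matrix.one_mulVec]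
    exact isometry_b hQ (hHI hcH) _ _
  have hc1 : c = 1 := by
    by_cases h1 : (c : Matrix ι ι F) - 1 = 0
    · exact Units.ext (by rw [sub_eq_zero.1 h1, Units.val_one])
    exfalso
    obtain ⟨y, -, hy⟩ := hK.inv _ (sub_mem hcK (one_mem _)) h1
    have h3 : (c : Matrix ι ι F) + 1 = 0 := by
      have e0 : ((c : Matrix ι ι F) - 1) * (c + 1) = 0 := by
        rw [sub_mul, mul_add, mul_one, one_mul, hcc]; abel
      simpa [← mul_assoc, mul_eq_one_comm.1 hy] using congrArg (y * ·) e0
    have hdet : (c : Matrix ι ι F).det = 1 := by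
      have := MonoidHom.mem_ker.1 (hSL hcH)
      simpa using congrArg Units.val this
    rw [eq_neg_of_add_eq_zero_left h3, Matrix.det_neg, Matrix.det_one, mul_one, hn.neg_one_pow] at hdet
    exact h2 (by linear_combination -hdet)
  rw [hc, mul_inv_eq_one] at hc1
  exact hc1

/-- The class two configuration does not occur. -/
theorem abelianData_false [Nonempty ι] (hn : Odd (Fintype.card ι)) (hn2 : 2 ≤ Fintype.card ι)
    {H N : Subgroup (GL ι F)} (hHI : H ≤ Cfsg.isometryGroup F Q) {r : ℕ} (hA : AbelianData H N r) :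
    False := by
  obtain ⟨j, hj, hnj⟩ := abelianData_isPrimePow hn2 hA
  have hrodd : Odd r := by
    rw [hnj] at hn
    exact (Nat.odd_pow_iff hj.ne').1 hn
  obtain ⟨x, hx, y, hy, hxy⟩ := exists_not_commute hn2 hA.absIrred
  obtain ⟨c, hc⟩ := (mem_scalars_iff _).1 (hA.comm x hx y hy)
  obtain ⟨v, w, hvw⟩ := IsNondegenerateForm.exists_ne (by omega) hQ.nondegenerate
  have hzI := hHI (hA.le (mul_mem (mul_mem (mul_mem hx hy) (inv_mem hx)) (inv_mem hy)))
  have hcc : (c : F) * c = 1 := by
    have h1 : bform hQ ((x * y * x⁻¹ * y⁻¹ : GL ι F).val *ᵥ v) ((x * y * x⁻¹ * y⁻¹ : GL ι F).val *ᵥ w) =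
        bform hQ v w := isometry_b hQ hzI v w
    rw [hc] at h1
    simp only [Matrix.smul_mulVec, Matrix.one_mulVec, map_smul, LinearMap.smul_apply, smul_eq_mul] at h1
    exact mul_right_cancel₀ (show bform hQ v w ≠ 0 from hvw) (by linear_combination h1)
  have hconj : (x : Matrix ι ι F) * y * ((x⁻¹ : GL ι F) : Matrix ι ι F) = (c : F) • (y : Matrix ι ι F) := by
    rw [← Units.val_mul, ← Units.val_mul,
      show x * y * x⁻¹ = (x * y * x⁻¹ * y⁻¹) * y by rw [inv_mul_cancel_right], Units.val_mul, hc,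
      Matrix.smul_mul, Matrix.one_mul]
  have hpow : ∀ k : ℕ, conjAlg (x ^ k) (y : Matrix ι ι F) = (c : F) ^ k • (y : Matrix ι ι F) := by
    intro k
    induction k with
    | zero => simp [conjAlg_one]
    | succ k ih => rw [pow_succ', conjAlg_mul, ih, map_smul, conjAlg_apply, hconj, smul_smul, ← pow_succ]
  have hfix : conjAlg (x ^ r) (y : Matrix ι ι F) = y := by
    obtain ⟨s, hs⟩ := (mem_scalars_iff _).1 (hA.pow_mem x hx)
    rw [conjAlg_apply, hs, Matrix.smul_mul, Matrix.one_mul]
    calc (s : F) • (y : Matrix ι ι F) * (((x ^ r)⁻¹ : GL ι F) : Matrix ι ι F) =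
        (y : Matrix ι ι F) * (((x ^ r : GL ι F) : Matrix ι ι F) *
          (((x ^ r)⁻¹ : GL ι F) : Matrix ι ι F)) := by
          rw [hs, Matrix.smul_mul, Matrix.smul_mul, Matrix.one_mul, Matrix.mul_smul]
      _ = y := by rw [Units.mul_inv, Matrix.mul_one]
  rw [hpow] at hfix
  have hcr : (c : F) ^ r = 1 :=
    smul_left_injective F y.ne_zero ((show (c : F) ^ r • (y : Matrix ι ι F) = (1 : F) • (y : Matrix ι ι F) by
      rw [hfix, one_smul]))
  have hc1 : (c : F) = 1 := by
    obtain ⟨k, hk⟩ := hrodd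
    rwa [hk, pow_succ, pow_mul, sq, hcc, one_pow, one_mul] at hcr
  apply hxy
  rw [hc1, one_smul] at hconj
  refine Units.ext ?_
  rw [Units.val_mul, Units.val_mul]
  conv_rhs => rw [← hconj, mul_assoc, Units.inv_mul, mul_one]

omit hQ in
/-- Symmetric invertible matrices of odd size are congruent to scalars. -/
theorem exists_congr_one {d : ℕ} (hd : Odd d) {X : Matrix (Fin d) (Fin d) F} (hX : IsUnit X)
    (hs : ∀ i j, X i j = X j i) :
    ∃ (A : GL (Fin d) F) (z : F), z ≠ 0 ∧
      (A : Matrix (Fin d) (Fin d) F)ᵀ * X * (A : Matrix (Fin d) (Fin d) F) = z • 1 := by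
  have hz : X.det ≠ 0 := ((Matrix.isUnit_iff_isUnit_det _).1 hX).ne_zero
  let Z : GL (Fin d) F := Units.map (algebraMap F (Matrix (Fin d) (Fin d) F) : F →* _) (Units.mk0 X.det hz)
  have hZ : (Z : Matrix (Fin d) (Fin d) F) = X.det • 1 := by
    simp [Z, Algebra.algebraMap_eq_smul_one]
  obtain ⟨g, hg⟩ := AutPSL.congr_of_isSquare_det h2 hX.unit Z
    (by rw [IsUnit.unit_spec]; exact Matrix.ext fun i j => (hs i j).symm)
    (by rw [hZ, Matrix.transpose_smul, Matrix.transpose_one]) (by
      rw [IsUnit.unit_spec, hZ, Matrix.det_smul, Matrix.det_one, mul_one, Fintype.card_fin, ← pow_succ']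
      exact (Odd.add_one hd).isSquare_pow _)
  rw [IsUnit.unit_spec, hZ] at hg
  exact ⟨⟨g.1ᵀ, (g⁻¹).1ᵀ, by rw [← Matrix.transpose_mul, Units.inv_mul, Matrix.transpose_one],
    by rw [← Matrix.transpose_mul, Units.mul_inv, Matrix.transpose_one]⟩, X.det, hz, by simpa using hg⟩

end CfsgLib.Aschbacher.OrthOdd
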