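import Cfsg.Agent.Aschbacher.FormsTensorPower
import Cfsg.Agent.Aschbacher.NormalStructure

/-!
Tensor-induced groups fixing an alternating form: the transitive action makes the forms on the factors
congruent, so the form is the power of one alternating form, or in even characteristic polarises from a
quadratic form fixed by the group.
-/

set_option autoImplicit false
set_option linter.unusedSectionVars false

namespace CfsgLib.Aschbacher.Symp

open Matrix Module Cfsg CfsgLib.Aschbacher CfsgLib.Aschbacher.Forms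
open scoped MatrixGroups Kronecker

variable {ι : Type} [Fintype ι] [DecidableEq ι] {F : Type*} [Field F]
variable {f : (ι → F) → (ι → F) → F} {d t : ℕ} {e : ι ≃ (Fin t → Fin d)} {P : GL ι F}

local notation "Md" => Matrix (Fin d) (Fin d) F

/-- Some element of the group maps one factor onto another. -/
theorem exists_move_factor [Nonempty ι] {H : Subgroup (GL ι F)}
    {S : Finset (Subalgebra F (Matrix ι ι F))} (h : CommutingData H d S)
    {e : ι ≃ (Fin S.card → Fin d)}
    (hle : H ≤ Geo.tensorWreathSubgroup d S.card e P)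
    (hfac : ∀ i, ∃ A ∈ S, ∀ X, X ∈ A ↔
      ∃ M, X = tconj e P (kroneckerPow (Pi.mulSingle i M))) (i j : Fin S.card) :
    ∃ g ∈ H, ∃ (gs : Fin S.card → GL (Fin d) F) (π : Equiv.Perm (Fin S.card)),
      (g : Matrix ι ι F) = tconj e P (kroneckerPow (fun k => (gs k : Md)) * permPow π) ∧ π i = j := by
  classical
  obtain ⟨A, hA, hAm⟩ := hfac i
  obtain ⟨B, hB, hBm⟩ := hfac j
  obtain ⟨g, hg, hgAB⟩ := h.transitive A hA B hB
  obtain ⟨gs, π, hgs⟩ := mem_tensorWreath_iff.1 (hle hg)
  refine ⟨g, hg, gs, π, hgs, ?_⟩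
  by_contra hne
  have hd := h.two_le
  let a₀ : Fin d := ⟨0, by omega⟩
  let a₁ : Fin d := ⟨1, by omega⟩
  have ha : a₀ ≠ a₁ := by simp [a₀, a₁, Fin.ext_iff]
  let M : Md := 1 + Matrix.single a₀ a₁ 1
  obtain ⟨M', hM'⟩ := (hBm _).1 ((hgAB _).1 ((hAm _).2 ⟨M, rfl⟩))
  have h1 : tconj e P (kroneckerPow (fun k => (gs k : Md)) * permPow π) *
      tconj e P (kroneckerPow (Pi.mulSingle i M)) =
      tconj e P (kroneckerPow (Pi.mulSingle j M')) *
        tconj e P (kroneckerPow (fun k => (gs k : Md)) * permPow π) := by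
    rw [← hgs, ← hM', conjAlg_apply]
    simp [mul_assoc]
  rw [← map_mul, ← map_mul] at h1
  have h2 := congrArg (fun Z => Z * permPow π⁻¹) ((tconj e P).injective h1)
  simp only [mul_assoc] at h2
  rw [← mul_assoc (permPow π), permPow_mul_kroneckerPow, mul_assoc, permPow_mul_permPow, mul_inv_cancel,
    permPow_one, mul_one, mul_one, kroneckerPow_mul, kroneckerPow_mul] at h2
  have hV : ∀ k, ((gs k : Md) * (Pi.mulSingle i M : Fin S.card → Md) (π.symm k)) ≠ 0 := by
    intro k h0
    have h0' : (Pi.mulSingle i M : Fin S.card → Md) (π.symm k) = 0 := by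
      simpa using congrArg (fun Z => ((gs k)⁻¹ : GL (Fin d) F).val * Z) h0
    by_cases hk : π.symm k = i
    · rw [hk, Pi.mulSingle_eq_same] at h0'
      simpa [M, Matrix.single_apply, ha, ha.symm] using congrFun (congrFun h0' a₀) a₀
    · rw [Pi.mulSingle_eq_of_ne hk] at h0'
      simpa using congrFun (congrFun h0' a₀) a₀
  obtain ⟨z, -, hz⟩ := kroneckerPow_eq_smul one_ne_zero hV (h2.symm.trans (one_smul _ _).symm) (π i)
  simp only [Pi.mulSingle_eq_of_ne hne, one_mul, 
    Equiv.symm_apply_apply, Pi.mulSingle_eq_same] at hz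
  have h3 : (1 : Md) = z • M := by
    have := congrArg (fun Z => ((gs (π i))⁻¹ : GL (Fin d) F).val * Z) hz
    simpa [Matrix.mul_smul] using this
  have h00 := congrFun (congrFun h3 a₀) a₀
  have h01 := congrFun (congrFun h3 a₀) a₁
  simp [M, Matrix.single_apply, ha, ha.symm] at h00 h01
  exact one_ne_zero (h00.trans h01.symm)

/-- The forms on the factors are congruent up to scalars. -/
theorem exists_factor_congr [Nonempty ι] (hf : Geo.IsSymplecticForm f) {H : Subgroup (GL ι F)}
    (hiso : ∀ g ∈ H, ∀ u v, f ((g : Matrix ι ι F) *ᵥ u) ((g : Matrix ι ι F) *ᵥ v) = f u v)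
    {S : Finset (Subalgebra F (Matrix ι ι F))} (h : CommutingData H d S)
    {e : ι ≃ (Fin S.card → Fin d)}
    (hle : H ≤ Geo.tensorWreathSubgroup d S.card e P)
    (hfac : ∀ i, ∃ A ∈ S, ∀ X, X ∈ A ↔
      ∃ M, X = tconj e P (kroneckerPow (Pi.mulSingle i M)))
    {c : F} (hc : c ≠ 0) {X : Fin S.card → Md} (hX : ∀ i, X i ≠ 0)
    (hΓ : powGram f e P = c • kroneckerPow X) (i j : Fin S.card) :
    ∃ (A : GL (Fin d) F) (z : F), z ≠ 0 ∧ (A : Md)ᵀ * X j * (A : Md) = z • X i := by
  obtain ⟨g, hg, gs, π, hgs, hπ⟩ := exists_move_factor h hle hfac i j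
  obtain ⟨z, hz, hzj⟩ := powFactor_similar (σ := RingHom.id F) (IsSesquiForm.of_bilinear hf.bilinear) hc hX hΓ
    one_ne_zero (fun u v => by rw [one_mul]; exact hiso g hg u v) hgs j
  refine ⟨gs j, z, hz, ?_⟩
  simpa [← hπ] using hzj

/-- The upper half of a symmetric matrix. -/
def upperHalf (X : Md) : Md := fun a b => if a < b then X a b else 0

theorem upperHalf_add {X : Md} (hs : ∀ a b, X a b = X b a) (hd : ∀ a, X a a = 0) (a b : Fin d) :
    upperHalf X a b + upperHalf X b a = X a b := by
  rcases lt_trichotomy a b with h | rfl | h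
  · simp [upperHalf, h, h.not_gt]
  · simp [upperHalf, hd]
  · simp [upperHalf, h, h.not_gt, hs a b]

theorem dot_self_eq_zero (h2 : (2 : F) = 0) {X : Md} (hs : ∀ a b, X a b = X b a) (hd : ∀ a, X a a = 0)
    (v : Fin d → F) : v ⬝ᵥ (X *ᵥ v) = 0 := by
  have hX : X = upperHalf X + (upperHalf X)ᵀ := Matrix.ext fun a b => (upperHalf_add hs hd a b).symm
  rw [hX, Matrix.add_mulVec, dotProduct_add, Matrix.mulVec_transpose, dotProduct_comm v (v ᵥ* _),
    ← Matrix.dotProduct_mulVec, ← two_mul, h2, zero_mul]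

/-- The coordinates of a vector in a tensor power. -/
def powCoords (e : ι ≃ (Fin t → Fin d)) (P : GL ι F) (v : ι → F) : (Fin t → Fin d) → F :=
  (((P⁻¹ : GL ι F) : Matrix ι ι F) *ᵥ v) ∘ e.symm

theorem powCoords_powEmb (x : (Fin t → Fin d) → F) : powCoords e P (powEmb e P x) = x := by
  simp [powCoords, powEmb, Matrix.mulVec_mulVec, Function.comp_assoc]

theorem powEmb_powCoords (v : ι → F) : powEmb e P (powCoords e P v) = v := by
  simp [powCoords, powEmb, Matrix.mulVec_mulVec, Function.comp_assoc]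

theorem powCoords_add (u v : ι → F) : powCoords e P (u + v) = powCoords e P u + powCoords e P v := by
  funext p; simp [powCoords, Matrix.mulVec_add]

theorem powCoords_smul (c : F) (v : ι → F) : powCoords e P (c • v) = c • powCoords e P v := by
  funext p; simp [powCoords, Matrix.mulVec_smul]

/-- A pure tensor. -/
def pureTensor (u : Fin t → Fin d → F) (p : Fin t → Fin d) : F := ∏ i, u i (p i)

theorem pureTensor_eval (Y : Fin t → Md) (u : Fin t → Fin d → F) :
    pureTensor u ⬝ᵥ (kroneckerPow Y *ᵥ pureTensor u) = ∏ i, u i ⬝ᵥ (Y i *ᵥ u i) := by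
  simp only [dotProduct, Matrix.mulVec, kroneckerPow, Matrix.of_apply, pureTensor, Finset.mul_sum,
    Fintype.prod_sum]
  refine Finset.sum_congr rfl fun p _ => Finset.sum_congr rfl fun q _ => ?_
  rw [← Finset.prod_mul_distrib, ← Finset.prod_mul_distrib]

theorem kroneckerPow_perm_single (gs : Fin t → Md) (π : Equiv.Perm (Fin t)) (q : Fin t → Fin d) :
    (kroneckerPow gs * permPow π) *ᵥ Pi.single q 1 =
      pureTensor fun i => fun a => gs i a (q (π.symm i)) := by
  funext p
  rw [Matrix.mulVec_single_one, Matrix.col_apply, Matrix.mul_apply,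
    Finset.sum_eq_single (q ∘ π.symm)]
  · simp [permPow, kroneckerPow, pureTensor, Function.comp_assoc]
  · intro b _ hb
    rw [permPow, Matrix.of_apply, if_neg fun h => hb ?_, mul_zero]
    rw [h, Function.comp_assoc, π.self_comp_symm, Function.comp_id]
  · simp

/-- In even characteristic a power of alternating forms polarises from a quadratic form fixed by the
isometries in the wreath group. -/
theorem pow_alt_quad (hf : Geo.IsSymplecticForm f) (ht : 2 ≤ t) (h2 : (2 : F) = 0) {c : F}
    {X : Fin t → Md} (hs : ∀ i a b, X i a b = X i b a) (hd : ∀ i a, X i a a = 0)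
    (hΓ : powGram f e P = c • kroneckerPow X) :
    ∃ Q : (ι → F) → F, Geo.IsNondegenerateQuadraticForm Q ∧
      (∀ u v, QuadraticMap.polar Q u v = f u v) ∧
      ∀ g ∈ Geo.tensorWreathSubgroup d t e P,
        (∀ u v, f ((g : Matrix ι ι F) *ᵥ u) ((g : Matrix ι ι F) *ᵥ v) = f u v) →
        g ∈ Geo.quadSimilarityGroup Q := by
  have : NeZero t := ⟨by omega⟩
  set Y : Fin t → Md := Function.update X 0 (upperHalf (X 0)) with hY
  set M := kroneckerPow Y
  set J := kroneckerPow X
  have hMJ : ∀ p q, M p q + M q p = J p q := fun p q => by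
    simp only [M, J, kroneckerPow, Matrix.of_apply,
      ← Finset.mul_prod_erase Finset.univ _ (Finset.mem_univ (0 : Fin t))]
    have hrest : ∀ a b : Fin t → Fin d, (∏ i ∈ Finset.univ.erase 0, Y i (a i) (b i)) =
        ∏ i ∈ Finset.univ.erase 0, X i (a i) (b i) := fun a b =>
      Finset.prod_congr rfl fun i hi => by rw [hY, Function.update_of_ne (Finset.mem_erase.1 hi).1]
    rw [hrest, hrest, Finset.prod_congr rfl fun i _ => hs i (q i) (p i), ← add_mul, hY, Function.update_self,
      upperHalf_add (hs 0) (hd 0)]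
  let Q : (ι → F) → F := fun v => c * (powCoords e P v ⬝ᵥ (M *ᵥ powCoords e P v))
  have hform : ∀ u v, f u v = c * (powCoords e P u ⬝ᵥ (J *ᵥ powCoords e P v)) := fun u v => by
    conv_lhs => rw [← powEmb_powCoords (e := e) (P := P) u, ← powEmb_powCoords (e := e) (P := P) v]
    rw [form_powEmb (σ := RingHom.id F) (IsSesquiForm.of_bilinear hf.bilinear), hΓ, Geo.formOfGram]
    simp only [dotProduct, Matrix.mulVec, Finset.mul_sum, RingHom.id_apply, Matrix.smul_apply, smul_eq_mul]
    exact Finset.sum_congr rfl fun a _ => Finset.sum_congr rfl fun b _ => by ring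
  have hpol : ∀ u v, QuadraticMap.polar Q u v = f u v := fun u v => by
    rw [hform]
    simp only [QuadraticMap.polar, Q, powCoords_add]
    generalize powCoords e P u = x, powCoords e P v = y
    have hsum : y ⬝ᵥ (M *ᵥ x) + x ⬝ᵥ (M *ᵥ y) = x ⬝ᵥ (J *ᵥ y) := by
      simp only [dotProduct, Matrix.mulVec, Finset.mul_sum]
      rw [Finset.sum_comm, ← Finset.sum_add_distrib]
      refine Finset.sum_congr rfl fun a _ => ?_
      rw [← Finset.sum_add_distrib]
      refine Finset.sum_congr rfl fun b _ => ?_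
      rw [← hMJ a b]; ring
    rw [Matrix.mulVec_add, dotProduct_add, add_dotProduct, add_dotProduct]
    linear_combination c * hsum
  have hfun : QuadraticMap.polar Q = f := funext₂ hpol
  have hQ : Geo.IsNondegenerateQuadraticForm Q :=
    ⟨fun a v => by simp only [Q, powCoords_smul, Matrix.mulVec_smul, dotProduct_smul, smul_dotProduct,
        smul_eq_mul]; ring,
      hfun.symm ▸ hf.bilinear, hfun.symm ▸ hf.nondegenerate⟩
  refine ⟨Q, hQ, hpol, fun g hg hiso => ⟨1, fun v => ?_⟩⟩
  obtain ⟨gs, π, hgs⟩ := mem_tensorWreath_iff.1 hg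
  have hpure : ∀ u, Q (powEmb e P (pureTensor u)) = 0 := fun u => by
    show c * _ = 0
    rw [powCoords_powEmb, pureTensor_eval]
    refine mul_eq_zero_of_right _ (Finset.prod_eq_zero (Finset.mem_univ (⟨1, by omega⟩ : Fin t)) ?_)
    rw [hY, Function.update_of_ne (by simp [Fin.ext_iff])]
    exact dot_self_eq_zero h2 (hs _) (hd _) _
  let D : (ι → F) → F := fun v => Q ((g : Matrix ι ι F) *ᵥ v) - Q v
  have hDadd : ∀ u v, D (u + v) = D u + D v := fun u v => by
    have h1 := hiso u v
    rw [← hpol, ← hpol] at h1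
    simp only [QuadraticMap.polar, ← Matrix.mulVec_add] at h1
    simp only [D]
    linear_combination h1
  have hDsmul : ∀ (a : F) v, D (a • v) = a ^ 2 * D v := fun a v => by
    simp only [D, Matrix.mulVec_smul, hQ.smul]; ring
  have hD0 : ∀ p, D (powEmb e P (Pi.single p 1)) = 0 := fun p => by
    have hsing : (Pi.single p (1 : F) : (Fin t → Fin d) → F) =
        pureTensor fun i => Pi.single (p i) 1 := by
      funext r
      rw [pureTensor]
      by_cases hr : r = p
      · subst hr; simp
      · obtain ⟨i, hi⟩ := Function.ne_iff.1 hr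
        rw [Pi.single_eq_of_ne hr, Finset.prod_eq_zero (Finset.mem_univ i) (Pi.single_eq_of_ne hi _)]
    show Q _ - Q _ = 0
    rw [hgs, tconj_mulVec_powEmb, kroneckerPow_perm_single, hpure, hsing, hpure, sub_zero]
  let Dh : (ι → F) →+ F := AddMonoidHom.mk' D hDadd
  have : D v = 0 := by
    have hv : v = ∑ p, powCoords e P v p • powEmb e P (Pi.single p 1) := by
      conv_lhs => rw [← powEmb_powCoords (e := e) (P := P) v, pi_eq_sum_univ' (powCoords e P v)]
      simp only [powEmb]
      rw [show ((∑ p, powCoords e P v p • (Pi.single p (1 : F) : (Fin t → Fin d) → F)) ∘ e) =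
          ∑ p, powCoords e P v p • ((Pi.single p (1 : F) : (Fin t → Fin d) → F) ∘ e) by ext i; simp,
        Matrix.mulVec_sum]
      exact Finset.sum_congr rfl fun p _ => Matrix.mulVec_smul _ _ _
    rw [hv, show D _ = Dh _ from rfl, map_sum]
    exact Finset.sum_eq_zero fun p _ => by
      show D _ = 0
      rw [hDsmul, hD0, mul_zero]
  rw [Units.val_one, one_mul]
  exact sub_eq_zero.1 this

/-- The alternatives for a tensor-induced group of isometries of an alternating form. -/
theorem induced_cases [Fintype F] [Nonempty ι] [NeZero d] (hf : Geo.IsSymplecticForm f)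
    {H : Subgroup (GL ι F)}
    (hiso : ∀ g ∈ H, ∀ u v, f ((g : Matrix ι ι F) *ᵥ u) ((g : Matrix ι ι F) *ᵥ v) = f u v)
    {S : Finset (Subalgebra F (Matrix ι ι F))} (h : CommutingData H d S)
    {e : ι ≃ (Fin S.card → Fin d)}
    (hle : H ≤ Geo.tensorWreathSubgroup d S.card e P)
    (hfac : ∀ i, ∃ A ∈ S, ∀ X, X ∈ A ↔
      ∃ M, X = tconj e P (kroneckerPow (Pi.mulSingle i M)))
    (hcl : FactorClosed f e P) :
    ((2 : F) = 0 ∧ ∃ Q : (ι → F) → F, Geo.IsNondegenerateQuadraticForm Q ∧
        (∀ u v, QuadraticMap.polar Q u v = f u v) ∧ H ≤ Geo.quadSimilarityGroup Q) ∨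
      ((2 : F) ≠ 0 ∧ Odd S.card ∧ ∃ (P' : GL ι F) (f₁ : (Fin d → F) → (Fin d → F) → F),
        H ≤ Geo.tensorWreathSubgroup d S.card e P' ∧ Geo.IsSymplecticForm f₁ ∧
        Geo.IsTensorPowerFormStructure id f f₁ e P') := by
  classical
  have hr := rform_of_symplectic hf
  have hS := h.two_le_card
  let i₀ : Fin S.card := ⟨0, by omega⟩
  obtain ⟨c, X, hc, hXu, hΓ⟩ := exists_powGram_eq_kroneckerPow hr hcl
  have hX0 : ∀ i, X i ≠ 0 := fun i => (hXu i).ne_zero
  choose A z hz hA using fun i => exists_factor_congr hf hiso h hle hfac hc hX0 hΓ i₀ i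
  have hrefl := powFactor_refl hr hc hX0 hΓ
  simp only [RingHom.id_apply] at hrefl
  choose δ hδ hXδ using hrefl
  have hnz : ∀ i, ∃ a b, X i a b ≠ 0 := fun i => by
    by_contra! h0
    exact hX0 i (Matrix.ext h0)
  by_cases h2 : (2 : F) = 0
  · left
    have hδ1 : ∀ i, δ i = 1 := fun i => (mul_self_eq_one_iff.1 (hδ i)).elim id fun h' => by
      rw [h']; linear_combination -h2
    have hs : ∀ i a b, X i a b = X i b a := fun i a b => by rw [hXδ i a b, hδ1, one_mul]
    have hd : ∀ i a, X i a a = 0 := by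
      intro i
      by_contra hi
      push Not at hi
      obtain ⟨a, ha⟩ := hi
      have hall : ∀ j, ∃ a, X j a a ≠ 0 := by
        intro j
        by_contra hj
        push Not at hj
        have hj0 : ∀ a, (z j • X i₀) a a = 0 := fun a => by
          rw [← hA j, Matrix.mul_assoc, Matrix.mul_apply]
          simpa [dotProduct, Matrix.mulVec, Matrix.mul_apply] using
            dot_self_eq_zero h2 (hs j) hj fun b => (A j : Md) b a
        have h00 : ∀ a, X i₀ a a = 0 := fun a => by
          simpa [hz j] using hj0 a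
        have hi0 : ∀ a, (z i • X i₀) a a = 0 := fun a => by simp [h00]
        have hone : (A i : Md) * ((A i)⁻¹ : GL (Fin d) F).val = 1 := Units.mul_inv _
        have hXi : X i = ((A i)⁻¹ : GL (Fin d) F).valᵀ * (z i • X i₀) * ((A i)⁻¹ : GL (Fin d) F).val := by
          rw [← hA i]
          simp only [← Matrix.mul_assoc, ← Matrix.transpose_mul, hone, Matrix.transpose_one, Matrix.one_mul]
          rw [Matrix.mul_assoc, hone, Matrix.mul_one]
        apply ha
        rw [hXi, Matrix.mul_assoc, Matrix.mul_apply]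
        simpa [dotProduct, Matrix.mulVec, Matrix.mul_apply] using
          dot_self_eq_zero h2 (X := z i • X i₀) (fun a b => by simp [hs i₀ a b]) hi0
            fun b => ((A i)⁻¹ : GL (Fin d) F).val b a
      choose b hb using hall
      have h1 : powGram f e P b b = 0 := hf.alternating _
      rw [hΓ] at h1
      simp [kroneckerPow, hc, Finset.prod_eq_zero_iff, hb] at h1
    obtain ⟨Q, hQ, hpol, hpres⟩ := pow_alt_quad hf hS h2 hs hd hΓ
    exact ⟨h2, Q, hQ, hpol, fun g hg => hpres g (hle hg) (hiso g hg)⟩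
  right
  have hδeq : ∀ i, δ i = δ i₀ := by
    intro i
    have hT : (X i)ᵀ = δ i • X i := by
      ext a b
      rw [Matrix.transpose_apply, hXδ i b a, Matrix.smul_apply, smul_eq_mul]
    have h1 : (z i • X i₀)ᵀ = δ i • (z i • X i₀) := by
      rw [← hA i, Matrix.transpose_mul, Matrix.transpose_mul, Matrix.transpose_transpose, hT,
        Matrix.smul_mul, Matrix.mul_smul, Matrix.mul_assoc]
    obtain ⟨a, b, hab⟩ := hnz i₀
    have h3 := congrFun (congrFun h1 b) a
    simp only [Matrix.transpose_apply, Matrix.smul_apply, smul_eq_mul, hXδ i₀ b a] at h3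
    have h4 : z i * X i₀ a b * (δ i * δ i₀ - 1) = 0 := by linear_combination -h3
    have h5 : δ i * δ i₀ = 1 := sub_eq_zero.1
      ((mul_eq_zero.1 h4).resolve_left (mul_ne_zero (hz i) hab))
    linear_combination (norm := ring_nf) δ i₀ * h5 - δ i * hδ i₀
  have hpow : δ i₀ ^ S.card = -1 := by
    choose a b hab using hnz
    have h1 : powGram f e P a b = - powGram f e P b a := hf.skew _ _
    have h3 : (∏ i, X i (a i) (b i)) = δ i₀ ^ S.card * ∏ i, X i (b i) (a i) := by
      rw [Finset.prod_congr rfl fun i _ => hXδ i (a i) (b i), Finset.prod_mul_distrib,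
        Finset.prod_congr rfl fun i _ => hδeq i, Finset.prod_const, Finset.card_univ, Fintype.card_fin]
    rw [hΓ] at h1
    simp only [Matrix.smul_apply, smul_eq_mul, kroneckerPow, Matrix.of_apply] at h1
    have hne : ∏ i, X i (b i) (a i) ≠ 0 := fun h0 => Finset.prod_ne_zero_iff.2 (fun i _ => hab i)
      (by rw [h3, h0, mul_zero])
    rw [h3] at h1
    apply mul_right_cancel₀ hne
    apply mul_left_cancel₀ hc
    linear_combination h1
  have hne1 : δ i₀ ≠ 1 := fun h1 => h2 (by rw [h1, one_pow] at hpow; linear_combination hpow)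
  have hm1 : δ i₀ = -1 := (mul_self_eq_one_iff.1 (hδ i₀)).resolve_left hne1
  have hodd : Odd S.card := Nat.not_even_iff_odd.1 fun hev => h2 (by
    rw [hm1, hev.neg_one_pow] at hpow; linear_combination hpow)
  obtain ⟨P', hP', hΓ'⟩ := powGram_change hr.sesq hΓ A
  have hz' : (fun i => (A i : Md)ᵀ * X i * (A i : Md).map (RingHom.id F)) = fun i => z i • X i₀ :=
    funext fun i => by simpa using hA i
  rw [hz', kroneckerPow_smul, smul_smul] at hΓ'
  have hsX : ∀ a b, X i₀ a b = (-1) * (RingHom.id F) (X i₀ b a) := fun a b => by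
    simpa [hm1] using hXδ i₀ a b
  have hs' := isSesquiForm_formOfGram (RingHom.id F) (X i₀)
  have hskew : ∀ v w, Geo.formOfGram (RingHom.id F) (X i₀) v w = - Geo.formOfGram (RingHom.id F) (X i₀) w v :=
    fun v w => by rw [formOfGram_refl _ (fun _ => rfl) hsX v w]; simp
  refine ⟨h2, hodd, P', _, hle.trans hP', ⟨⟨hs'.add_left, hs'.smul_left, hs'.add_right,
    fun c v x => hs'.smul_right c v x⟩, hskew, fun v => ?_,
    nondegenerate_formOfGram _ (fun _ => rfl) (neg_ne_zero.2 one_ne_zero) hsX (hXu i₀)⟩, ?_⟩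
  · exact (mul_eq_zero.1 (show (2 : F) * Geo.formOfGram (RingHom.id F) (X i₀) v v = 0 by
      linear_combination hskew v v)).resolve_left h2
  · exact isTensorPowerFormStructure_of_powGram hr.sesq
      (mul_ne_zero hc (Finset.prod_ne_zero_iff.2 fun i _ => hz i)) hΓ'

end CfsgLib.Aschbacher.Symp
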