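import Cfsg.Agent.Aschbacher.OrthOddAux
import Cfsg.Agent.Aschbacher.SympTensorPower
import Cfsg.Agent.Aschbacher.TensorInduced
import Cfsg.Agent.Aschbacher.NormalCases

/-!
Aschbacher's structure theorem for the subgroups of the orthogonal group in odd dimension: containment
in a member of a geometric class, or the residual class.
-/

set_option autoImplicit false
set_option linter.unusedSectionVars false

namespace CfsgLib.Aschbacher.OrthOdd

open Matrix Cfsg Module CfsgLib.OrthGeo CfsgLib.Aschbacher CfsgLib.Aschbacher.Centre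
  CfsgLib.Aschbacher.Forms

open scoped Kronecker MatrixGroups

theorem zmod_three_unit_column : ∀ a b c : ZMod 3, a * a + b * b + c * c = 1 →
    (b = 0 ∧ c = 0) ∨ (a = 0 ∧ c = 0) ∨ (a = 0 ∧ b = 0) := by decide

variable {F : Type*} [Field F] [Fintype F] {m : ℕ}
variable {H : Subgroup (GL (Unit ⊕ (Fin m ⊕ Fin m)) F)}

local notation "ι" => (Unit ⊕ (Fin m ⊕ Fin m))
local notation "Qm" => Cfsg.quadFormOdd m F

/-- Containment in a member of a geometric class. -/
def InMember (H : Subgroup (GL (Unit ⊕ (Fin m ⊕ Fin m)) F)) : Prop :=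
  ∃ M, Geo.InOrthogonalOddClass m F M ∧ H ≤ M

variable (h2 : (2 : F) ≠ 0) (hm : 1 ≤ m) (hH : H ≤ Cfsg.isometryGroup F (Cfsg.quadFormOdd m F))
include h2 hm hH

theorem frame_or_subfield
    (h : ((Fintype.card F).Prime ∧ ∃ (t : ℕ) (D : Fin t → Submodule F (ι → F)),
        Geo.IsOrthogonalMDecomposition Qm 1 D ∧ H ≤ Geo.decompositionStabilizer D) ∨
      (∃ (F₀ : Subfield F) (r : ℕ) (P : GL ι F), r.Prime ∧ Fintype.card F = Nat.card F₀ ^ r ∧
        Geo.IsQuadFormRationalStructure Qm F₀ P ∧ H ≤ Geo.subfieldSubgroup F₀ P)) : InMember H := by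
  rcases h with ⟨hp, t, D, hD, hle⟩ | ⟨F₀, r, P, hr, hc, hrat, hle⟩
  · refine ⟨_, ?_, le_inf hle hH⟩
    unfold Geo.InOrthogonalOddClass
    exact .inr <| .inr <| .inr <| .inl ⟨t, D, hp, hD, rfl⟩
  · refine ⟨_, ?_, le_inf hle hH⟩
    unfold Geo.InOrthogonalOddClass
    exact .inr <| .inr <| .inr <| .inr <| .inr <| .inr <| .inl ⟨F₀, r, P, hr, hc, hrat, rfl⟩

/-- A reducible group lies in a member of the first class. -/
theorem reducible_case {W : Submodule F (ι → F)} (h0 : W ≠ ⊥) (h1 : W ≠ ⊤)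
    (hinv : H ≤ Geo.subspaceStabilizer W) : InMember H := by
  have hQ := isNondegenerateQuadraticForm_quadFormOdd m h2
  have hperp : H ≤ Geo.subspaceStabilizer (perp hQ W) := fun g hg =>
    AschPrime.stabilizer_perp hQ (hH hg) (hinv hg)
  by_cases hrad : W ⊓ perp hQ W = ⊥
  · refine ⟨_, ?_, le_inf hinv hH⟩
    unfold Geo.InOrthogonalOddClass
    exact .inr <| .inl ⟨W, h0, h1, AschPrime.orth_nondeg_of_inf_eq_bot hQ hrad, rfl⟩
  · have hts : Geo.IsTotallySingularQuad Qm (W ⊓ perp hQ W) := by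
      rintro v ⟨hv, hv'⟩
      have h := (mem_perp hQ).1 hv' v hv
      rw [b_self hQ] at h
      exact (mul_eq_zero.1 h).resolve_left h2
    have hinv' : H ≤ Geo.subspaceStabilizer (W ⊓ perp hQ W) := fun g hg v =>
      and_congr (hinv hg v) (hperp hg v)
    refine ⟨_, ?_, le_inf hinv' hH⟩
    unfold Geo.InOrthogonalOddClass
    exact .inl ⟨_, hrad, hts, rfl⟩

/-- A closed commutative algebra normalised by the group and larger than the scalars. -/
theorem comm_case (hSL : H ≤ Geo.specialLinear ι F) (hirr : Geo.ActsIrreducibly (Geo.matrixSet H))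
    {Z : Subalgebra F (Matrix ι ι F)} (hc : ∀ x ∈ Z, ∀ y ∈ Z, x * y = y * x)
    (hcl : Closed (QuadraticMap.polar Qm) Z) (hN : Normalises H Z) (hbot : Z ≠ ⊥) : InMember H := by
  have hQ := isNondegenerateQuadraticForm_quadFormOdd m h2
  have hr := OrthEven.rform_polar hQ
  have hcard : Fintype.card ι = 2 * m + 1 := by simp; omega
  have hn : Odd (Fintype.card ι) := ⟨m, hcard⟩
  have hG : ∀ g ∈ H, ∃ c : F, c ≠ 0 ∧ ∀ u v, QuadraticMap.polar Qm ((g : Matrix ι ι F) *ᵥ u)
      ((g : Matrix ι ι F) *ᵥ v) = c * QuadraticMap.polar Qm u v :=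
    fun g hg => ⟨1, one_ne_zero, fun u v => by rw [one_mul]; exact isometry_b hQ (hH hg) u v⟩
  rcases fieldLike_or_idemSystem hirr hN hc with hfl | ⟨t, ⟨S⟩⟩
  · obtain ⟨r, hrp, hrn, -, hK, hle⟩ := exists_prime_subfield hN hc hfl hbot
    have hKc := closed_powFixed hr hc hcl r
    have hro : Odd r := Odd.of_dvd_nat hn hrn
    have hsa := selfAdjoint_of_odd hr hro hK hKc
    by_cases hrn' : 2 * m + 1 = r
    · rw [← hrn', ← hcard] at hK hsa hle
      exact (field_full_false hQ h2 hn (by omega) hH hSL hirr hK hsa hle).elim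
    · refine ⟨_, ?_, le_inf hle hH⟩
      unfold Geo.InOrthogonalOddClass
      exact .inr <| .inr <| .inr <| .inr <| .inl ⟨r, _, hrp, hrn', hK, hsa, rfl⟩
  · rcases frame_form_cases hr hG S.toFrame (idemSystem_adj hr hc hcl S) with
      ⟨s, k, D, hD, -, hle⟩ | ⟨k, D, hD, hk, hts, hle⟩
    · have hD' : Geo.IsOrthogonalMDecomposition Qm k D :=
        ⟨hD, OrthEven.isometric_blocks hQ hirr hH hD.decomp hle⟩
      rcases (Nat.one_le_iff_ne_zero.2 hD.decomp.pos.ne').eq_or_lt with rfl | hk1
      · exact frame_or_subfield h2 hm hH (lines_case hQ h2 hn (by omega)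
          (AschPrime.quadFormOdd_gram_mem h2 m) hH hD' hle)
      · refine ⟨_, ?_, le_inf hle hH⟩
        unfold Geo.InOrthogonalOddClass
        exact .inr <| .inr <| .inl ⟨s, k, D, hk1, hD', rfl⟩
    · omega

omit [Fintype F] hm hH in
theorem symm_of_refl {d : ℕ} (hd : Odd d) {X : Matrix (Fin d) (Fin d) F} (hX : IsUnit X) {δ : F}
    (hδ : δ * δ = 1) (h : ∀ i j, X i j = δ * X j i) : ∀ i j, X i j = X j i := by
  rcases mul_self_eq_one_iff.1 hδ with rfl | rfl
  · exact fun i j => by simpa using h i j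
  · exfalso
    have hsk : ∀ i j, X i j = - X j i := fun i j => by simpa using h i j
    have hdiag : ∀ i, X i i = 0 := fun i =>
      (mul_eq_zero.1 (show (2 : F) * X i i = 0 by linear_combination hsk i i)).resolve_left h2
    exact ((Matrix.isUnit_iff_isUnit_det _).1 hX).ne_zero
      (det_eq_zero_of_alternating (by rwa [Fintype.card_fin]) hsk hdiag)

omit hm hH in
/-- A monomial property of the orthogonal matrices of size three over the field with three elements. -/
theorem three_column (hq : Fintype.card F = 3) {M : Matrix (Fin 3) (Fin 3) F} {z : F} (hz : z ≠ 0)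
    (hdet : M.det ≠ 0) (hM : Mᵀ * M = z • 1) (b : Fin 3) :
    ∃ a, ∀ x, x ≠ a → M x b = 0 := by
  have := Fact.mk Nat.prime_three
  let φ := (ZMod.ringEquivOfPrime F Nat.prime_three hq).symm
  have hpow : ∀ x : F, x ≠ 0 → x * x = 1 := fun x hx => by
    have := FiniteField.pow_card_sub_one_eq_one x hx
    rwa [hq, pow_two] at this
  have hz1 : z = 1 := by
    have hd := congrArg Matrix.det hM
    rw [Matrix.det_mul, Matrix.det_transpose, Matrix.det_smul, Matrix.det_one, mul_one, Fintype.card_fin,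
      hpow _ hdet, pow_succ, pow_two, hpow z hz, one_mul] at hd
    exact hd.symm
  have hcol : M 0 b * M 0 b + M 1 b * M 1 b + M 2 b * M 2 b = 1 := by
    have h := congrFun (congrFun hM b) b
    rw [hz1, one_smul, Matrix.one_apply_eq, Matrix.mul_apply, Fin.sum_univ_three] at h
    simpa using h
  have h := zmod_three_unit_column _ _ _ (by simpa using congrArg φ hcol)
  simp only [map_eq_zero] at h
  rcases h with ⟨h', h''⟩ | ⟨h', h''⟩ | ⟨h', h''⟩
  · exact ⟨0, fun x hx => by fin_cases x <;> first | exact absurd rfl hx | assumption⟩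
  · exact ⟨1, fun x hx => by fin_cases x <;> first | exact absurd rfl hx | assumption⟩
  · exact ⟨2, fun x hx => by fin_cases x <;> first | exact absurd rfl hx | assumption⟩

/-- A tensor power whose Gram matrix is a product lies in a member. -/
theorem wreath_case {d t : ℕ} (hd : 2 ≤ d) (ht : 2 ≤ t) {e : ι ≃ (Fin t → Fin d)} {P : GL ι F}
    {c : F} {X : Fin t → Matrix (Fin d) (Fin d) F} (hc : c ≠ 0) (hX : ∀ i, IsUnit (X i))
    (hΓ : powGram (QuadraticMap.polar Qm) e P = c • kroneckerPow X)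
    (hle : H ≤ Geo.tensorWreathSubgroup d t e P) : InMember H := by
  classical
  have hQ := isNondegenerateQuadraticForm_quadFormOdd m h2
  have hr := OrthEven.rform_polar hQ
  have hcard : Fintype.card ι = 2 * m + 1 := by simp; omega
  have hn : Odd (Fintype.card ι) := ⟨m, hcard⟩
  have hdodd : Odd d := by
    have := Fintype.card_congr e
    rw [Fintype.card_fun, Fintype.card_fin, Fintype.card_fin] at this
    rw [this] at hn
    exact (Nat.odd_pow_iff (by omega)).1 hn
  have hd3 : 3 ≤ d := by obtain ⟨j, hj⟩ := hdodd; omega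
  have : NeZero d := ⟨by omega⟩
  have hrefl := powFactor_refl hr hc (fun i => (hX i).ne_zero) hΓ
  simp only [RingHom.id_apply] at hrefl
  choose δ hδ hXδ using hrefl
  choose A z hz hA using fun i =>
    exists_congr_one (F := F) h2 hdodd (hX i) (symm_of_refl h2 hdodd (hX i) (hδ i) (hXδ i))
  obtain ⟨P', hP', hΓ'⟩ := powGram_change hr.sesq hΓ A
  have hz' : (fun i => (A i : Matrix (Fin d) (Fin d) F)ᵀ * X i *
      (A i : Matrix (Fin d) (Fin d) F).map (RingHom.id F)) = fun i => z i • (1 : Matrix (Fin d) (Fin d) F) :=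
    funext fun i => by simpa using hA i
  rw [hz', kroneckerPow_smul, smul_smul] at hΓ'
  set c' := c * ∏ i, z i with hc'
  have hc'0 : c' ≠ 0 := mul_ne_zero hc (Finset.prod_ne_zero_iff.2 fun i _ => hz i)
  have hle' := hle.trans hP'
  by_cases hex : Fintype.card F = 3 ∧ d = 3
  · obtain ⟨hq, rfl⟩ := hex
    let num : ι ≃ Fin (2 * m + 1) := Fintype.equivFinOfCardEq hcard
    let L : (ι → F) ≃ₗ[F] (ι → F) := LinearEquiv.ofBijective (Matrix.toLin' (P' : Matrix ι ι F))
      ⟨Matrix.mulVec_injective_iff_isUnit.2 P'.isUnit, LinearMap.injective_iff_surjective.1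
        (Matrix.mulVec_injective_iff_isUnit.2 P'.isUnit)⟩
    let b : Basis ι F (ι → F) := (Pi.basisFun F ι).map L
    have hb : ∀ a, b a = powEmb e P' (Pi.single (e a) 1) := fun a => by
      show (P' : Matrix ι ι F) *ᵥ (Pi.basisFun F ι a) = _
      rw [Pi.basisFun_apply, powEmb]
      congr 1
      funext x
      simp [Pi.single_apply]
    have hbb : ∀ i j, bform hQ (b i) (b j) = if i = j then c' else 0 := fun i j => by
      rw [bform_apply, hb, hb]
      have h := congrFun (congrFun hΓ' (e i)) (e j)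
      rw [kroneckerPow_one, Matrix.smul_apply, Matrix.one_apply, smul_eq_mul, mul_ite, mul_one, mul_zero] at h
      rw [powGram] at h
      rw [h]
      simp
    have hperm : ∀ h ∈ H, ∃ (σ : Equiv.Perm ι) (k : ι → F), ∀ i, h.val *ᵥ b i = k i • b (σ i) := by
      intro g hg
      obtain ⟨gs, π, hgs⟩ := mem_tensorWreath_iff.1 (hle' hg)
      have hsim := powFactor_similar (σ := RingHom.id F) hr.sesq hc'0 (fun _ => one_ne_zero) hΓ' one_ne_zero
        (fun u v => by rw [one_mul]; exact isometry_b hQ (hH hg) u v) hgs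
      have hcol : ∀ i b, ∃ a, ∀ x, x ≠ a → (gs i : Matrix (Fin 3) (Fin 3) F) x b = 0 := by
        intro i b
        obtain ⟨w, hw, h⟩ := hsim i
        exact three_column h2 hq hw ((Matrix.isUnit_iff_isUnit_det _).1 (gs i).isUnit).ne_zero
          (by simpa using h) b
      choose τ hτ using hcol
      let T : (Fin t → Fin 3) → (Fin t → Fin 3) := fun q i => τ i (q (π.symm i))
      have him : ∀ q, ∃ k : F, (g : Matrix ι ι F) *ᵥ powEmb e P' (Pi.single q 1) =
          k • powEmb e P' (Pi.single (T q) 1) := by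
        intro q
        refine ⟨∏ i, (gs i : Matrix (Fin 3) (Fin 3) F) (T q i) (q (π.symm i)), ?_⟩
        rw [hgs, tconj_mulVec_powEmb, Symp.kroneckerPow_perm_single]
        simp only [powEmb, ← Matrix.mulVec_smul]
        congr 1
        funext x
        simp only [Function.comp_apply, Pi.smul_apply, smul_eq_mul, Symp.pureTensor]
        by_cases hx : e x = T q
        · rw [hx, Pi.single_eq_same, mul_one]
        · rw [Pi.single_eq_of_ne hx, mul_zero]
          obtain ⟨i, hi⟩ := Function.ne_iff.1 hx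
          exact Finset.prod_eq_zero (Finset.mem_univ i) (hτ i _ _ hi)
      choose k hk using him
      have hk0 : ∀ q, k q ≠ 0 := fun q h0 => by
        have h1 := hk q
        rw [h0, zero_smul] at h1
        have h2' := mulVec_inj g (h1.trans (Matrix.mulVec_zero _).symm)
        refine b.ne_zero (e.symm q) ?_
        rw [hb, Equiv.apply_symm_apply, h2']
      have hTinj : Function.Injective T := fun q q' hqq => by
        by_contra hne
        have h1 : (g : Matrix ι ι F) *ᵥ (k q' • powEmb e P' (Pi.single q 1)) =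
            (g : Matrix ι ι F) *ᵥ (k q • powEmb e P' (Pi.single q' 1)) := by
          rw [Matrix.mulVec_smul, Matrix.mulVec_smul, hk, hk, hqq, smul_smul, smul_smul, mul_comm]
        have h2' := mulVec_inj g h1
        rw [← e.apply_symm_apply q, ← e.apply_symm_apply q', ← hb, ← hb] at h2'
        have h3 := congrArg (fun v => b.repr v (e.symm q)) h2'
        simp [hne, hk0] at h3
      let σ : Equiv.Perm ι := Equiv.ofBijective (fun i => e.symm (T (e i)))
        (Finite.injective_iff_bijective.1 (e.symm.injective.comp (hTinj.comp e.injective)))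
      refine ⟨σ, fun i => k (e i), fun i => ?_⟩
      rw [hb, hb, hk]
      simp [σ]
    have hv : ∀ i, Qm (b i) = c' / 2 := fun i => by
      have := hbb i i
      rw [if_pos rfl, b_self hQ] at this
      rw [eq_div_iff h2, ← this, mul_comm]
    refine frame_or_subfield h2 hm hH ?_
    rcases frame_case hQ h2 hn (by omega) (AschPrime.quadFormOdd_gram_mem h2 m) num hH b
      (div_ne_zero hc'0 h2) hv (fun i j hij => by rw [hbb, if_neg hij]) hperm with ⟨hp, D, hD⟩ | h
    · exact Or.inl ⟨hp, _, D, hD⟩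
    · exact Or.inr h
  have hsX : ∀ a b : Fin d, (1 : Matrix (Fin d) (Fin d) F) a b = 1 * (RingHom.id F) ((1 : Matrix (Fin d) (Fin d) F) b a) :=
    fun a b => by
      rcases eq_or_ne a b with rfl | h
      · simp
      · simp [h, h.symm]
  have hs' := isSesquiForm_formOfGram (RingHom.id F) (1 : Matrix (Fin d) (Fin d) F)
  refine ⟨_, ?_, le_inf hle' hH⟩
  unfold Geo.InOrthogonalOddClass
  exact .inr <| .inr <| .inr <| .inr <| .inr <| .inr <| .inr
    ⟨d, t, e, P', Geo.formOfGram (RingHom.id F) 1, hd3, ht, hex,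
      ⟨⟨hs'.add_left, hs'.smul_left, hs'.add_right, fun c v x => hs'.smul_right c v x⟩,
        fun v w => by rw [formOfGram_refl _ (fun _ => rfl) hsX v w]; simp,
        nondegenerate_formOfGram _ (fun _ => rfl) one_ne_zero hsX isUnit_one⟩,
      isTensorPowerFormStructure_of_powGram hr.sesq hc'0 hΓ', rfl⟩

/-- The tensor configuration of a normal subgroup. -/
theorem tensor_case {N : Subgroup (GL ι F)} (hNH : N ≤ H) {d k : ℕ}
    {e : ι ≃ Fin d × Fin k} {P : GL ι F} (hT : TensorData H N d k e P) : InMember H := by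
  classical
  have hd := hT.two_le_left
  have hk := hT.two_le_right
  haveI : NeZero d := ⟨by omega⟩
  haveI : NeZero k := ⟨by omega⟩
  have hQ := isNondegenerateQuadraticForm_quadFormOdd m h2
  have hr := OrthEven.rform_polar hQ
  have hcard : d * k = 2 * m + 1 := by
    have := Fintype.card_congr e
    simp at this
    omega
  obtain ⟨hdo, hko⟩ := Nat.odd_mul.1 (hcard ▸ ⟨m, rfl⟩ : Odd (d * k))
  have hcl : Closed (QuadraticMap.polar Qm) (envAlg N) :=
    closed_adjoin hr fun g hg u v => isometry_b hQ (hH (hNH hg)) u v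
  obtain ⟨X, C, hX, hC, hΓ⟩ := exists_pullGram_eq_kronecker hr (e := e) (P := P) fun M => by
    obtain ⟨Y, hY, hadj⟩ := hcl _ ((hT.mem_iff _).2 ⟨M, rfl⟩)
    obtain ⟨M', rfl⟩ := (hT.mem_iff _).1 hY
    exact ⟨M', hadj⟩
  rcases eq_or_ne d k with rfl | hdk
  · let ε : Fin d × Fin d ≃ (Fin 2 → Fin d) :=
      { toFun := fun p => ![p.1, p.2]
        invFun := fun f => (f 0, f 1)
        left_inv := fun p => by simp
        right_inv := fun f => by ext i; fin_cases i <;> simp }
    have hprod : powGram (QuadraticMap.polar Qm) (e.trans ε) P = (1 : F) • kroneckerPow ![X, C] := by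
      ext x y
      have h := congrFun (congrFun hΓ (x 0, x 1)) (y 0, y 1)
      have hs : ∀ z : Fin 2 → Fin d, Forms.powEmb (e.trans ε) P (Pi.single z 1) =
          Forms.emb e P (Pi.single (z 0, z 1) 1) := by
        intro z
        rw [Forms.powEmb, Forms.emb]
        congr 1
        funext a
        simp only [Function.comp_apply, Equiv.trans_apply, Pi.single_apply]
        refine if_congr ?_ rfl rfl
        constructor
        · intro h1; rw [← h1]; simp [ε]
        · intro h1; rw [h1]; ext i; fin_cases i <;> simp [ε]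
      rw [Forms.powGram, hs, hs]
      rw [Forms.pullGram] at h
      rw [h]
      simp [kroneckerPow, Fin.prod_univ_two, Matrix.kroneckerMap_apply]
    have hle : Geo.tensorProductSubgroup d d e P ≤ Geo.tensorWreathSubgroup d 2 (e.trans ε) P := by
      intro g hg
      obtain ⟨a, b, hab⟩ := (mem_tensorProductSubgroup_iff e P g).1 hg
      refine Forms.mem_tensorWreath_iff.2 ⟨![a, b], 1, ?_⟩
      rw [hab, permPow_one, Matrix.mul_one, tconj_apply, tconj_apply]
      congr 2
      ext i j
      simp [kroneckerPow, Fin.prod_univ_two, Matrix.kroneckerMap_apply, ε]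
    exact wreath_case h2 hm hH hd le_rfl one_ne_zero (fun i => by fin_cases i <;> simpa) hprod
      (hT.le_tensor.trans hle)
  obtain ⟨δ₁, δ₂, hδ, hδ₁, hX', hC'⟩ := factor_refl hr hX.ne_zero hC.ne_zero hΓ
  simp only [RingHom.id_apply] at hδ₁ hX' hC'
  have hXs := symm_of_refl h2 hdo hX hδ₁ hX'
  have hCs := symm_of_refl h2 hko hC (δ := δ₂) (by linear_combination (δ₂ * δ₁ + 1) * hδ + (-δ₂ * δ₂) * hδ₁) hC'
  have hst := isTensorFormStructure_of_pullGram hr.sesq hΓ
  have h1 := OrthEven.symmetric_formOfGram hX hXs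
  have h1' := OrthEven.symmetric_formOfGram hC hCs
  have hid : (RingHom.id F : F → F) = id := rfl
  have hd3 : 3 ≤ d := by obtain ⟨j, hj⟩ := hdo; omega
  have hk3 : 3 ≤ k := by obtain ⟨j, hj⟩ := hko; omega
  rcases Nat.lt_or_gt_of_ne hdk with hlt | hlt
  · refine ⟨_, ?_, le_inf hT.le_tensor hH⟩
    unfold Geo.InOrthogonalOddClass
    exact .inr <| .inr <| .inr <| .inr <| .inr <| .inl
      ⟨d, k, e, P, _, _, hd3, hlt, h1, h1', hid ▸ hst, rfl⟩
  · refine ⟨_, ?_, le_inf (hT.le_tensor.trans (tensorProductSubgroup_comm e P)) hH⟩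
    unfold Geo.InOrthogonalOddClass
    exact .inr <| .inr <| .inr <| .inr <| .inr <| .inl
      ⟨k, d, _, P, _, _, hk3, hlt, h1', h1, hid ▸ isTensorFormStructure_swap hst, rfl⟩

/-- The tensor-induced configuration. -/
theorem commuting_case {d : ℕ} {S : Finset (Subalgebra F (Matrix ι ι F))} (h : CommutingData H d S) :
    InMember H := by
  have hQ := isNondegenerateQuadraticForm_quadFormOdd m h2
  have hr := OrthEven.rform_polar hQ
  haveI : NeZero d := ⟨by have := h.two_le; omega⟩
  obtain ⟨e, P, hle, hfac⟩ := h.exists_le_tensorWreath_factors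
  have hHH : ⁅H, H⁆ ≤ H := Subgroup.commutator_le.2 fun a ha b hb => by
    rw [commutatorElement_def]
    exact H.mul_mem (H.mul_mem (H.mul_mem ha hb) (H.inv_mem ha)) (H.inv_mem hb)
  have hcl : FactorClosed (QuadraticMap.polar Qm) e P := by
    intro i M
    obtain ⟨A, hA, hmem⟩ := hfac i
    obtain ⟨D, hD, rfl⟩ := h.generated A hA
    obtain ⟨Y, hY, hadj⟩ := closed_adjoin hr
      (fun g hg u v => isometry_b hQ (hH (hHH (hD hg))) u v) _ ((hmem _).2 ⟨M, rfl⟩)
    obtain ⟨M', rfl⟩ := (hmem Y).1 hY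
    exact ⟨M', hadj⟩
  obtain ⟨c, X, hc, hX, hΓ⟩ := exists_powGram_eq_kroneckerPow hr hcl
  exact wreath_case h2 hm hH h.two_le h.two_le_card hc hX hΓ hle

/-- Aschbacher's theorem for subgroups of the special orthogonal group in odd dimension. -/
theorem structure_theorem (hSL : H ≤ Geo.specialLinear ι F) :
    InMember H ∨ Geo.InOrthogonalResidualClass H := by
  have hQ := isNondegenerateQuadraticForm_quadFormOdd m h2
  have hr := OrthEven.rform_polar hQ
  have hcard : Fintype.card ι = 2 * m + 1 := by simp; omega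
  have hn : Odd (Fintype.card ι) := ⟨m, hcard⟩
  by_cases hirr : Geo.ActsIrreducibly (Geo.matrixSet H)
  swap
  · simp only [Geo.ActsIrreducibly, not_forall, not_or] at hirr
    obtain ⟨W, hW, h0, h1⟩ := hirr
    exact Or.inl (reducible_case h2 hm hH h0 h1 fun g hg =>
      mem_subspaceStabilizer_of_mapsTo fun v hv => hW _ ⟨g, hg, rfl⟩ ⟨v, hv, Matrix.toLin'_apply _ _⟩)
  have hcomm : ∀ {N : Subgroup (GL ι F)}, IsNonscalarNormal H N →
      centreAlg (envAlg N) ≠ ⊥ → InMember H := fun {N} hN hbot =>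
    comm_case h2 hm hH hSL hirr (centreAlg_comm_all _)
      ((closed_adjoin hr (N := N) fun g hg u v => isometry_b hQ (hH (hN.le hg)) u v).centre hr)
      (normalises_envAlg hN.normal).centreAlg hbot
  rcases CfsgLib.Aschbacher.normal_cases hirr with
    ⟨N, hN, t, ⟨S⟩⟩ | ⟨N, hN, hfl, hbot⟩ | ⟨N, d, k, e, P, hN, hT⟩ | hall
  · refine Or.inl (hcomm hN fun hb => ?_)
    have h0 : (0 : ℕ) < t := by have := S.two_le; omega
    obtain ⟨c, hc⟩ := Algebra.mem_bot.1 (hb.le (S.mem ⟨0, h0⟩))
    have hid := S.idem ⟨0, h0⟩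
    rw [← hc, ← map_mul] at hid
    rcases eq_or_ne c 0 with rfl | hc0
    · exact S.ne_zero _ (by rw [← hc, map_zero])
    · have h1 : c = 1 := mul_left_cancel₀ hc0
        (((algebraMap F (Matrix ι ι F)).injective hid).trans (mul_one c).symm)
      have := S.ortho ⟨0, h0⟩ ⟨1, S.two_le⟩ (by simp [Fin.ext_iff])
      rw [← hc, h1, map_one, one_mul] at this
      exact S.ne_zero _ this
  · exact Or.inl (hcomm hN hbot)
  · exact Or.inl (tensor_case h2 hm hH hN.le hT)
  rcases normal_structure hall (CfsgLib.Aschbacher.not_le_scalars_of_irreducible hirr (by omega)) with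
    ⟨N, r, hA⟩ | ⟨d, S, hC⟩ | ⟨P, hP⟩
  · exact (abelianData_false hQ h2 hn (by omega) hH hA).elim
  · exact Or.inl (commuting_case h2 hm hH hC)
  by_cases hreal : ∃ F₀ : Subfield F, F₀ ≠ ⊤ ∧ Geo.RealisableOver F₀ (Geo.matrixSet P)
  · obtain ⟨F₀, h0, B, hB⟩ := hreal
    obtain ⟨F₁, r, h01, hrp, hcardF, -⟩ := Aschbacher.exists_subfield_prime_index h0
    have hB1 : ∀ s ∈ Geo.matrixSet P, ∀ i j, (B.val * s * (B⁻¹ : GL ι F).val) i j ∈ F₁ :=
      fun s hs i j => h01 (hB s hs i j)
    obtain ⟨P', hrat, heq⟩ := AschPrime.exists_quad_rational hQ h2 hn (AschPrime.quadFormOdd_gram_mem h2 m)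
      hrp hcardF hP.absIrred (hP.le.trans hH) hB1
    exact Or.inl (frame_or_subfield h2 hm hH (Or.inr ⟨F₁, r, P', hrp, hcardF, hrat,
      heq ▸ Aschbacher.le_subfieldSubgroup_of_realisable hP.absIrred hP.normal hB1⟩))
  refine Or.inr ⟨P, hP.isResidualCore fun F₀ h0 h => hreal ⟨F₀, h0, h⟩, ?_⟩
  rintro ⟨σ, h, hh, hfixh⟩
  refine hreal (Symp.realisable_of_bilinear_unitary hQ.polar_bilinear hQ.nondegenerate hP.absIrred ?_ hh hfixh)
  rintro _ ⟨x, hx, rfl⟩ u v
  exact isometry_b hQ (hH (hP.le hx)) u v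

end CfsgLib.Aschbacher.OrthOdd
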