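import Cfsg.Agent.Aschbacher.BinaryTensorPower
import Cfsg.Agent.Aschbacher.TensorSquare
import Cfsg.Agent.Aschbacher.FormsTensor

/-!
A symmetric plus-type factor of dimension four is the tensor square of an alternating plane, so that
a tensor product of an alternating plane with it is inside a tensor cube stabiliser.
-/

set_option autoImplicit false
set_option linter.unusedSectionVars false

namespace CfsgLib.Aschbacher.PlusFour

open Matrix Module
open scoped Kronecker MatrixGroups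
open Cfsg CfsgLib.Aschbacher.Forms

variable {F : Type*} [Field F]

/-- The tensor square of the determinant form. -/
def detSq : Matrix (Fin 2 × Fin 2) (Fin 2 × Fin 2) F :=
  (detForm : Matrix (Fin 2) (Fin 2) F) ⊗ₖ (detForm : Matrix (Fin 2) (Fin 2) F)

theorem transpose_detForm_add (Y : Matrix (Fin 2) (Fin 2) F) :
    Yᵀ * detForm + detForm * Y = Y.trace • detForm := by
  ext i j
  fin_cases i <;> fin_cases j <;>
    simp [detForm, Matrix.mul_apply, Fin.sum_univ_two, Matrix.trace_fin_two, Matrix.vecMul,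
      dotProduct] <;> ring

theorem sq_of_trace_zero (Y : Matrix (Fin 2) (Fin 2) F) (hY : Y.trace = 0) :
    Y * Y = (-Y.det) • (1 : Matrix (Fin 2) (Fin 2) F) := by
  have h : Y 1 1 = -Y 0 0 := by rw [Matrix.trace_fin_two] at hY; linear_combination hY
  ext i j
  fin_cases i <;> fin_cases j <;>
    simp [Matrix.mul_apply, Fin.sum_univ_two, Matrix.det_fin_two, h] <;> ring

/-- A skew matrix for the tensor square of the determinant form is a sum of two factors. -/
theorem skew_decomp (h2 : (2 : F) ≠ 0) (X : Matrix (Fin 2 × Fin 2) (Fin 2 × Fin 2) F)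
    (h : Xᵀ * detSq + detSq * X = 0) :
    ∃ Y Z : Matrix (Fin 2) (Fin 2) F, Y.trace = 0 ∧ Z.trace = 0 ∧ X = Y ⊗ₖ 1 + 1 ⊗ₖ Z := by
  have e : ∀ p q : Fin 2 × Fin 2,
      (Xᵀ * detSq + detSq * X : Matrix (Fin 2 × Fin 2) (Fin 2 × Fin 2) F) p q = 0 := fun p q => by rw [h]; rfl
  simp only [Matrix.add_apply, Matrix.mul_apply, Fintype.sum_prod_type, Fin.sum_univ_two,
    Matrix.transpose_apply, detSq, Matrix.kroneckerMap_apply] at e
  have a00 := e (0, 0) (0, 0)
  have a11 := e (0, 1) (0, 1)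
  have a22 := e (1, 0) (1, 0)
  have a33 := e (1, 1) (1, 1)
  have a01 := e (0, 0) (0, 1)
  have a02 := e (0, 0) (1, 0)
  have a03 := e (0, 0) (1, 1)
  have a12 := e (0, 1) (1, 0)
  have a13 := e (0, 1) (1, 1)
  have a23 := e (1, 0) (1, 1)
  simp [detForm] at a00 a11 a22 a33 a01 a02 a03 a12 a13 a23
  have z : ∀ a : F, a + a = 0 → a = 0 := fun a ha =>
    (mul_eq_zero.1 (show (2 : F) * a = 0 by linear_combination ha)).resolve_left h2
  have h0 : X (1, 1) (0, 0) = 0 := z _ (by linear_combination a00)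
  have h1 : X (1, 0) (0, 1) = 0 := z _ (by linear_combination -a11)
  have h3 : X (0, 1) (1, 0) = 0 := z _ (by linear_combination -a22)
  have h4 : X (0, 0) (1, 1) = 0 := z _ (by linear_combination a33)
  refine ⟨!![(X (0, 0) (0, 0) + X (0, 1) (0, 1)) / 2, X (0, 0) (1, 0);
      X (1, 0) (0, 0), -((X (0, 0) (0, 0) + X (0, 1) (0, 1)) / 2)],
    !![(X (0, 0) (0, 0) - X (0, 1) (0, 1)) / 2, X (0, 0) (0, 1);
      X (0, 1) (0, 0), -((X (0, 0) (0, 0) - X (0, 1) (0, 1)) / 2)],
    by simp [Matrix.trace_fin_two], by simp [Matrix.trace_fin_two], ?_⟩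
  ext ⟨a, i⟩ ⟨b, j⟩
  fin_cases a <;> fin_cases i <;> fin_cases b <;> fin_cases j <;>
    simp [Matrix.kroneckerMap_apply, h0, h1, h3, h4]
  all_goals (try field_simp)
  all_goals first
    | ring1
    | linear_combination a01
    | linear_combination -a01
    | linear_combination a02
    | linear_combination -a02
    | linear_combination a13
    | linear_combination -a13
    | linear_combination a23
    | linear_combination -a23
    | linear_combination 2 * a03
    | linear_combination -2 * a03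
    | linear_combination 2 * a12
    | linear_combination -2 * a12

theorem sub_kron (A A' B : Matrix (Fin 2) (Fin 2) F) : (A - A') ⊗ₖ B = A ⊗ₖ B - A' ⊗ₖ B := by
  ext p q; simp [Matrix.kroneckerMap_apply, sub_mul]

theorem kron_sub (A B B' : Matrix (Fin 2) (Fin 2) F) : A ⊗ₖ (B - B') = A ⊗ₖ B - A ⊗ₖ B' := by
  ext p q; simp [Matrix.kroneckerMap_apply, mul_sub]

/-- A scalar square forces one of the two factors to vanish. -/
theorem factor_eq_zero (h2 : (2 : F) ≠ 0) {Y Z : Matrix (Fin 2) (Fin 2) F} (hY : Y.trace = 0)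
    (hZ : Z.trace = 0) {s : F} (h : (Y ⊗ₖ 1 + 1 ⊗ₖ Z) * (Y ⊗ₖ 1 + 1 ⊗ₖ Z) =
      s • (1 : Matrix (Fin 2 × Fin 2) (Fin 2 × Fin 2) F)) : Y = 0 ∨ Z = 0 := by
  simp only [add_mul, mul_add, ← Matrix.mul_kronecker_mul, one_mul, mul_one, sq_of_trace_zero Y hY,
    sq_of_trace_zero Z hZ, Matrix.smul_kronecker, Matrix.kronecker_smul, Matrix.one_kronecker_one] at h
  have hs : (2 : F) • (Y ⊗ₖ Z) = (s + Y.det + Z.det) • (1 : Matrix (Fin 2 × Fin 2) (Fin 2 × Fin 2) F) := by
    rw [add_smul, add_smul, ← h, two_smul]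
    module
  have htr := congrArg Matrix.trace hs
  rw [Matrix.trace_smul, Matrix.trace_kronecker, hY, zero_mul, smul_zero, Matrix.trace_smul,
    Matrix.trace_one, smul_eq_mul] at htr
  have hzero : s + Y.det + Z.det = 0 := by
    refine (mul_eq_zero.1 htr.symm).resolve_right ?_
    simp only [Fintype.card_prod, Fintype.card_fin]
    have : ((2 * 2 : ℕ) : F) = 2 * 2 := by norm_num
    rw [this]
    exact mul_ne_zero h2 h2
  rw [hzero, zero_smul] at hs
  have h0 := (smul_eq_zero.1 hs).resolve_left h2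
  by_contra! hne
  obtain ⟨a, b, hab⟩ : ∃ a b, Y a b ≠ 0 := by
    by_contra! hh; exact hne.1 (Matrix.ext hh)
  obtain ⟨i, j, hij⟩ : ∃ i j, Z i j ≠ 0 := by
    by_contra! hh; exact hne.2 (Matrix.ext hh)
  have := congrFun (congrFun h0 (a, i)) (b, j)
  rw [Matrix.kroneckerMap_apply] at this
  exact mul_ne_zero hab hij this

/-- Similitudes of the tensor square of the determinant form preserve the factors up to order. -/
theorem similitude_detSq (h2 : (2 : F) ≠ 0) (B : GL (Fin 2 × Fin 2) F) {t : F}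
    (ht : B.valᵀ * detSq * B.val = t • detSq) :
    ∃ b₁ b₂ : GL (Fin 2) F, B.val = b₁.val ⊗ₖ b₂.val ∨
      B.val = (b₁.val ⊗ₖ b₂.val) * TensorSquare.swapMat := by
  -- the image of a factor
  let im : Matrix (Fin 2) (Fin 2) F → Matrix (Fin 2 × Fin 2) (Fin 2 × Fin 2) F := fun Y =>
    conjAlg B (Y ⊗ₖ 1)
  have him_add : ∀ Y Y', im (Y + Y') = im Y + im Y' := fun Y Y' => by
    simp only [im, Matrix.add_kronecker, map_add]
  have hskew : ∀ Y, Y.trace = 0 → (im Y)ᵀ * detSq + detSq * im Y = 0 := by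
    intro Y hY
    have h0 : (Y ⊗ₖ (1 : Matrix (Fin 2) (Fin 2) F))ᵀ * detSq + detSq * (Y ⊗ₖ 1) = 0 := by
      rw [← Matrix.kroneckerMap_transpose, Matrix.transpose_one, detSq, ← Matrix.mul_kronecker_mul,
        ← Matrix.mul_kronecker_mul, one_mul, mul_one, ← Matrix.add_kronecker, transpose_detForm_add, hY,
        zero_smul, Matrix.zero_kronecker]
    have hB : B.valᵀ * ((im Y)ᵀ * detSq + detSq * im Y) * B.val = 0 := by
      have e1 : im Y * B.val = B.val * (Y ⊗ₖ 1) := by
        simp only [im, conjAlg_apply, mul_assoc, Units.inv_mul, mul_one]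
      have e1' : B.valᵀ * (im Y)ᵀ = (Y ⊗ₖ (1 : Matrix (Fin 2) (Fin 2) F))ᵀ * B.valᵀ := by
        rw [← Matrix.transpose_mul, e1, Matrix.transpose_mul]
      calc B.valᵀ * ((im Y)ᵀ * detSq + detSq * im Y) * B.val
          = (B.valᵀ * (im Y)ᵀ) * detSq * B.val + B.valᵀ * detSq * (im Y * B.val) := by noncomm_ring
        _ = (Y ⊗ₖ (1 : Matrix (Fin 2) (Fin 2) F))ᵀ * (B.valᵀ * detSq * B.val) +
              B.valᵀ * detSq * B.val * (Y ⊗ₖ 1) := by rw [e1, e1']; noncomm_ring
        _ = 0 := by rw [ht, Matrix.mul_smul, Matrix.smul_mul, ← smul_add, h0, smul_zero]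
    have hu : IsUnit (B.valᵀ) := by
      rw [Matrix.isUnit_iff_isUnit_det, Matrix.det_transpose, ← Matrix.isUnit_iff_isUnit_det]
      exact B.isUnit
    exact (hu.mul_right_eq_zero).1 (B.isUnit.mul_left_eq_zero.1 hB)
  let Lp : Matrix (Fin 2) (Fin 2) F → Prop := fun Y => ∃ Z, im Y = Z ⊗ₖ 1
  let Lm : Matrix (Fin 2) (Fin 2) F → Prop := fun Y => ∃ Z, im Y = 1 ⊗ₖ Z
  have hor : ∀ Y, Y.trace = 0 → Lp Y ∨ Lm Y := by
    intro Y hY
    obtain ⟨Y', Z', hY', hZ', e⟩ := skew_decomp h2 _ (hskew Y hY)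
    have hsq : im Y * im Y = (-Y.det) • 1 := by
      simp only [im, ← map_mul, ← Matrix.mul_kronecker_mul, mul_one, sq_of_trace_zero Y hY,
        Matrix.smul_kronecker, Matrix.one_kronecker_one, map_smul, map_one]
    rcases factor_eq_zero h2 hY' hZ' (s := -Y.det) (by rw [← e]; exact hsq) with r | r
    · exact Or.inr ⟨Z', by rw [e, r, Matrix.zero_kronecker, zero_add]⟩
    · exact Or.inl ⟨Y', by rw [e, r, Matrix.kronecker_zero, add_zero]⟩
  have hone : (∀ Y, Y.trace = 0 → Lp Y) ∨ ∀ Y, Y.trace = 0 → Lm Y := by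
    by_contra! hcon
    obtain ⟨⟨Y₁, hY₁, n1⟩, ⟨Y₂, hY₂, n2⟩⟩ := hcon
    have m1 := (hor Y₁ hY₁).resolve_left n1
    have p2 := (hor Y₂ hY₂).resolve_right n2
    rcases hor (Y₁ + Y₂) (by rw [Matrix.trace_add, hY₁, hY₂, add_zero]) with ⟨Z, hZ⟩ | ⟨Z, hZ⟩
    · obtain ⟨Z', hZ'⟩ := p2
      exact n1 ⟨Z - Z', by rw [sub_kron, ← hZ, ← hZ', him_add, add_sub_cancel_right]⟩
    · obtain ⟨Z', hZ'⟩ := m1
      exact n2 ⟨Z - Z', by rw [kron_sub, ← hZ, ← hZ', him_add, add_sub_cancel_left]⟩
  have hall : ∀ X : Matrix (Fin 2) (Fin 2) F, ∃ Y, Y.trace = 0 ∧ ∃ a : F, X = Y + a • 1 := fun X =>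
    ⟨X - (X.trace / 2) • 1, by simp [Matrix.trace_sub, Matrix.trace_smul]; field_simp; ring,
      X.trace / 2, by simp⟩
  have him1 : ∀ a : F, im (a • 1) = a • 1 := fun a => by
    simp only [im, Matrix.smul_kronecker, Matrix.one_kronecker_one, map_smul, map_one]
  let s : GL (Fin 2 × Fin 2) F :=
    ⟨TensorSquare.swapMat, TensorSquare.swapMat, TensorSquare.swapMat_mul_self, TensorSquare.swapMat_mul_self⟩
  have key : ∀ g : GL (Fin 2 × Fin 2) F,
      (∀ X : Matrix (Fin 2) (Fin 2) F, ∃ X', conjAlg g (X ⊗ₖ 1) = X' ⊗ₖ (1 : Matrix (Fin 2) (Fin 2) F)) →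
      ∃ a b : GL (Fin 2) F, g.val = a.val ⊗ₖ b.val := by
    intro g hg
    have hid : ∀ X, tconj (Equiv.refl (Fin 2 × Fin 2)) (1 : GL (Fin 2 × Fin 2) F) X = X := fun X => by
      simp [tconj_apply]
    obtain ⟨a, b, h⟩ := (mem_tensorProductSubgroup_iff (Equiv.refl _) 1 g).1
      (mem_tensorProductSubgroup_of_normalizes (Equiv.refl _) 1 fun X => by simpa only [hid] using hg X)
    exact ⟨a, b, by rw [h, hid]⟩
  rcases hone with hp | hm
  · obtain ⟨a, b, h⟩ := key B fun X => by
      obtain ⟨Y, hY, c, rfl⟩ := hall X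
      obtain ⟨Z, hZ⟩ := hp Y hY
      exact ⟨Z + c • 1, by
        show im (Y + c • 1) = _
        rw [him_add, him1, hZ, Matrix.add_kronecker, Matrix.smul_kronecker, Matrix.one_kronecker_one]⟩
    exact ⟨a, b, Or.inl h⟩
  · obtain ⟨a, b, h⟩ := key (s * B) fun X => by
      obtain ⟨Y, hY, c, rfl⟩ := hall X
      obtain ⟨Z, hZ⟩ := hm Y hY
      refine ⟨Z + c • 1, ?_⟩
      rw [conjAlg_mul]
      show conjAlg s (im (Y + c • 1)) = _
      rw [him_add, him1, map_add, map_smul, map_one, hZ, Matrix.add_kronecker, Matrix.smul_kronecker,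
        Matrix.one_kronecker_one]
      congr 1
      rw [conjAlg_apply]
      show TensorSquare.swapMat * _ * TensorSquare.swapMat = _
      rw [TensorSquare.swapMat_kron, mul_assoc, TensorSquare.swapMat_mul_self, mul_one]
    refine ⟨b, a, Or.inr ?_⟩
    have : B.val = TensorSquare.swapMat * (s * B).val := by
      show _ = TensorSquare.swapMat * (TensorSquare.swapMat * B.val)
      rw [← mul_assoc, TensorSquare.swapMat_mul_self, one_mul]
    rw [this, h, TensorSquare.swapMat_kron]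

/-- The index bijection splitting the four-dimensional factor. -/
def splitFour : Fin 2 × Fin 2 ≃ Fin 4 := finProdFinEquiv

/-- The index bijection of the cube. -/
def cubeEquiv : Fin 2 × Fin 4 ≃ (Fin 3 → Fin 2) where
  toFun p := ![p.1, (splitFour.symm p.2).1, (splitFour.symm p.2).2]
  invFun x := (x 0, splitFour (x 1, x 2))
  left_inv p := by simp
  right_inv x := by funext i; fin_cases i <;> simp

/-- A plus-type symmetric form in dimension four is the tensor square of an alternating plane. -/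
theorem exists_hyperbolic (h2 : (2 : F) ≠ 0) {f₂ : (Fin 4 → F) → (Fin 4 → F) → F}
    (hs : Geo.IsSymmetricForm f₂) (hplus : Geo.IsPlusTypeOn (fun v : Fin 4 → F => f₂ v v) ⊤) :
    ∃ T : GL (Fin 4) F, (T.valᵀ * Geo.gramMatrix f₂ * T.val).submatrix splitFour splitFour = detSq := by
  obtain ⟨U, -, hU, hdim⟩ := hplus
  rw [finrank_top, Module.finrank_pi, Fintype.card_fin] at hdim
  have hU2 : finrank F U = 2 := by omega
  let b := Module.finBasisOfFinrankEq F U hU2
  let u : Fin 2 → Fin 4 → F := fun i => (b i : Fin 4 → F)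
  have hsq := hs.bilinear
  have huu : ∀ i j, f₂ (u i) (u j) = 0 := fun i j => by
    have e1 : f₂ (u i) (u i) = 0 := hU _ (b i).2
    have e2 : f₂ (u j) (u j) = 0 := hU _ (b j).2
    have e3 : f₂ (u i + u j) (u i + u j) = 0 := hU _ (U.add_mem (b i).2 (b j).2)
    rw [hsq.add_left, hsq.add_right, hsq.add_right, e1, e2, hs.symm (u j) (u i)] at e3
    exact (mul_eq_zero.1 (show (2 : F) * f₂ (u i) (u j) = 0 by linear_combination e3)).resolve_left h2
  let L : (Fin 4 → F) →ₗ[F] (Fin 2 → F) :=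
    { toFun := fun x i => f₂ (u i) x
      map_add' := fun x y => by funext i; simp [hsq.add_right]
      map_smul' := fun c x => by funext i; simp [hsq.smul_right] }
  have hL : LinearMap.range L = ⊤ := by
    by_contra hne
    obtain ⟨ψ, hψ, hψ0⟩ := Submodule.exists_dual_map_eq_bot_of_lt_top (lt_top_iff_ne_top.2 hne)
      inferInstance
    apply hψ
    have hz : ∀ x, ψ (L x) = 0 := fun x => by
      have : ψ (L x) ∈ (LinearMap.range L).map ψ := ⟨L x, ⟨x, rfl⟩, rfl⟩
      rwa [hψ0, Submodule.mem_bot] at this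
    have hcomb : ψ (Pi.single 0 1) • u 0 + ψ (Pi.single 1 1) • u 1 = 0 := by
      by_contra hn0
      obtain ⟨x, hx⟩ := (hs.nondegenerate _ hn0).2
      apply hx
      rw [hsq.add_left, hsq.smul_left, hsq.smul_left, ← hz x, mul_comm, mul_comm (ψ (Pi.single 1 1))]
      conv_rhs => rw [pi_eq_sum_univ' (L x), map_sum, Fin.sum_univ_two, map_smul, map_smul,
        smul_eq_mul, smul_eq_mul]
      rfl
    have hli : LinearIndependent F u := b.linearIndependent.map' U.subtype U.ker_subtype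
    have h01 := Fintype.linearIndependent_iff.1 hli (fun i => ψ (Pi.single i 1))
      (by rw [Fin.sum_univ_two]; exact hcomb)
    refine LinearMap.ext fun v => ?_
    rw [pi_eq_sum_univ' v, map_sum, Fin.sum_univ_two, map_smul, map_smul, h01 0, h01 1]
    simp
  choose w' hw' using fun j : Fin 2 => LinearMap.range_eq_top.1 hL (Pi.single j 1)
  have hwu : ∀ i j, f₂ (u i) (w' j) = if i = j then 1 else 0 := fun i j => by
    have := congrFun (hw' j) i
    rw [Pi.single_apply] at this
    exact this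
  let a : Fin 2 → Fin 2 → F := fun i j => f₂ (w' i) (w' j)
  let w : Fin 2 → Fin 4 → F := fun j => w' j + (-(a j 0 / 2)) • u 0 + (-(a j 1 / 2)) • u 1
  have hw : ∀ i j, f₂ (u i) (w j) = if i = j then 1 else 0 := fun i j => by
    simp only [w, hsq.add_right, hsq.smul_right, huu, hwu, mul_zero, add_zero]
  have hww : ∀ i j, f₂ (w i) (w j) = 0 := fun i j => by
    have hwu' : ∀ i j, f₂ (w' j) (u i) = if i = j then 1 else 0 := fun i j => by rw [hs.symm, hwu]
    have hsym : a i j = a j i := hs.symm _ _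
    simp only [w, hsq.add_left, hsq.smul_left, hsq.add_right, hsq.smul_right, huu, hwu, hwu']
    change a i j + _ + _ + _ + _ = 0
    fin_cases i <;> fin_cases j <;> simp at hsym ⊢ <;> field_simp <;>
      first | ring1 | linear_combination hsym | linear_combination -hsym
  let col : Fin 4 → Fin 4 → F := ![u 0, u 1, -(w 1), w 0]
  let M : Matrix (Fin 4) (Fin 4) F := Matrix.of fun i j => col j i
  have hM : ∀ j k, (Mᵀ * Geo.gramMatrix f₂ * M) j k = f₂ (col j) (col k) := fun j k => by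
    rw [(IsSesquiForm.of_bilinear hsq).eq_dot, mul_assoc]
    simp [Matrix.mul_apply, dotProduct, Matrix.mulVec, M]
  have hnl : ∀ x v, f₂ (-x) v = -f₂ x v := fun x v => by
    rw [← neg_one_smul F x, hsq.smul_left, neg_one_mul]
  have hnr : ∀ x v, f₂ v (-x) = -f₂ v x := fun x v => by
    rw [← neg_one_smul F x, hsq.smul_right, neg_one_mul]
  have hsub : (Mᵀ * Geo.gramMatrix f₂ * M).submatrix splitFour splitFour = detSq := by
    ext ⟨p, p'⟩ ⟨q, q'⟩
    rw [Matrix.submatrix_apply, hM]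
    fin_cases p <;> fin_cases p' <;> fin_cases q <;> fin_cases q' <;>
      simp [col, splitFour, finProdFinEquiv, detSq, detForm, Matrix.kroneckerMap_apply, huu, hw, hww,
        hnl, hnr, hs.symm (w _) (u _)]
  have hMu : IsUnit M := by
    rw [Matrix.isUnit_iff_isUnit_det, isUnit_iff_ne_zero]
    intro h0
    have := congrArg Matrix.det hsub
    rw [Matrix.det_submatrix_equiv_self, Matrix.det_mul, Matrix.det_mul, h0, mul_zero, detSq,
      Matrix.det_kronecker] at this
    simp [detForm, Matrix.det_fin_two] at this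
  exact ⟨hMu.unit, hsub⟩

variable {ι : Type} [Fintype ι] [DecidableEq ι]

/-- The tensor product of an alternating plane with a plus-type four-space is a tensor cube. -/
theorem plus_four {f : (ι → F) → (ι → F) → F} (hf : Geo.IsSymplecticForm f) (h2 : (2 : F) ≠ 0)
    {e : ι ≃ Fin 2 × Fin 4} {P : GL ι F} {f₁ : (Fin 2 → F) → (Fin 2 → F) → F}
    {f₂ : (Fin 4 → F) → (Fin 4 → F) → F} (hf₁ : Geo.IsSymplecticForm f₁)
    (hf₂ : Geo.IsSymmetricForm f₂) (hplus : Geo.IsPlusTypeOn (fun v : Fin 4 → F => f₂ v v) ⊤)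
    (hT : Geo.IsTensorFormStructure id f f₁ f₂ e P) :
    ∃ (e' : ι ≃ (Fin 3 → Fin 2)) (P' : GL ι F) (c : F), c ≠ 0 ∧
      powGram f e' P' = c • kroneckerPow (fun _ => (detForm : Matrix (Fin 2) (Fin 2) F)) ∧
      ∀ g ∈ Geo.tensorProductSubgroup 2 4 e P,
        (∀ u v, f ((g : Matrix ι ι F) *ᵥ u) ((g : Matrix ι ι F) *ᵥ v) = f u v) →
        g ∈ Geo.tensorWreathSubgroup 2 3 e' P' := by
  obtain ⟨T, hTC⟩ := exists_hyperbolic h2 hf₂ hplus
  obtain ⟨c, hc, hcT⟩ := hT
  have hsf := IsSesquiForm.of_bilinear hf.bilinear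
  set X := Geo.gramMatrix f₁ with hX
  set C := Geo.gramMatrix f₂ with hC
  set x01 := X 0 1 with hx01
  have hX' : X = x01 • (detForm : Matrix (Fin 2) (Fin 2) F) := by
    ext i j
    fin_cases i <;> fin_cases j <;> simp [hX, hx01, detForm, Geo.gramMatrix, hf₁.alternating]
    exact hf₁.skew _ _
  have hXu : IsUnit X := by
    rw [Matrix.isUnit_iff_isUnit_det, isUnit_iff_ne_zero]
    exact det_gramMatrix_ne_zero (.of_bilinear hf₁.bilinear) hf₁.nondegenerate
  have hCu : IsUnit C := by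
    rw [Matrix.isUnit_iff_isUnit_det, isUnit_iff_ne_zero]
    exact det_gramMatrix_ne_zero (.of_bilinear hf₂.bilinear) hf₂.nondegenerate
  have hx0 : x01 ≠ 0 := fun h0 => hXu.ne_zero (by rw [hX', h0, zero_smul])
  have hΓ : pullGram f e P = (c • X) ⊗ₖ C := by
    ext p q
    show f (emb e P _) (emb e P _) = _
    rw [emb, emb, hcT, Matrix.smul_kronecker, Matrix.smul_apply, smul_eq_mul]
    congr 1
    exact formOfGram_single (RingHom.id F) _ p q
  -- the new coordinates
  let k : GL (Fin 2 × Fin 4) F :=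
    { val := (1 : Matrix (Fin 2) (Fin 2) F) ⊗ₖ T.val
      inv := (1 : Matrix (Fin 2) (Fin 2) F) ⊗ₖ (T⁻¹).val
      val_inv := by rw [← Matrix.mul_kronecker_mul, one_mul, Units.mul_inv, Matrix.one_kronecker_one]
      inv_val := by rw [← Matrix.mul_kronecker_mul, one_mul, Units.inv_mul, Matrix.one_kronecker_one] }
  let R : GL ι F := Geo.glReindex e.symm k
  let e' : ι ≃ (Fin 3 → Fin 2) := e.trans cubeEquiv
  refine ⟨e', P * R, c * x01, mul_ne_zero hc hx0, ?_, ?_⟩
  · have hpe : ∀ p, powEmb e' (P * R) (Pi.single p 1) =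
        emb e P (k.val *ᵥ Pi.single (cubeEquiv.symm p) 1) := fun p => by
      rw [powEmb, Units.val_mul, ← Matrix.mulVec_mulVec, emb]
      congr 1
      show k.val.submatrix e e *ᵥ _ = _
      rw [Matrix.submatrix_mulVec_equiv]
      congr 2
      funext z
      simp [e', Pi.single_apply, Equiv.eq_symm_apply]
    ext p q
    show f (powEmb e' (P * R) _) (powEmb e' (P * R) _) = _
    rw [hpe, hpe, form_emb hsf, hΓ, formOfGram_eq, Matrix.mulVec_single_one, Matrix.mulVec_single_one]
    have hsplit : ∀ a b, (T.valᵀ * C * T.val) a b = detSq (splitFour.symm a) (splitFour.symm b) :=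
      fun a b => by rw [← hTC, Matrix.submatrix_apply, Equiv.apply_symm_apply, Equiv.apply_symm_apply]
    trans ((k.valᵀ * ((c • X) ⊗ₖ C) * k.val) (cubeEquiv.symm p) (cubeEquiv.symm q))
    · rw [mul_assoc]
      simp [Matrix.mul_apply, dotProduct, Matrix.mulVec]
    show ((((1 : Matrix (Fin 2) (Fin 2) F) ⊗ₖ T.val)ᵀ * ((c • X) ⊗ₖ C) *
      ((1 : Matrix (Fin 2) (Fin 2) F) ⊗ₖ T.val) : Matrix (Fin 2 × Fin 4) (Fin 2 × Fin 4) F)) _ _ = _
    rw [← Matrix.kroneckerMap_transpose, Matrix.transpose_one, ← Matrix.mul_kronecker_mul, one_mul,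
      ← Matrix.mul_kronecker_mul, mul_one, Matrix.kroneckerMap_apply, hsplit, hX', Matrix.smul_apply,
      Matrix.smul_apply, smul_eq_mul, smul_eq_mul, Matrix.smul_apply, smul_eq_mul, kroneckerPow,
      Matrix.of_apply, Fin.prod_univ_three, detSq, Matrix.kroneckerMap_apply]
    simp [cubeEquiv]
    ring
  · intro g hg hiso
    obtain ⟨A, B, hAB⟩ := (mem_tensorProductSubgroup_iff e P g).1 hg
    have hcX : IsUnit (c • X) := (isUnit_smul_iff (Units.mk0 c hc) X).2 hXu
    obtain ⟨-, t, -, hB⟩ := factor_similar hsf hcX hCu hΓ one_ne_zero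
      (fun u v => by rw [one_mul]; exact hiso u v) hAB
    rw [RingHom.coe_id, Matrix.map_id] at hB
    let B' : GL (Fin 2 × Fin 2) F := Geo.glReindex splitFour.symm (T⁻¹ * B * T)
    have hB' : B'.valᵀ * detSq * B'.val = t • detSq := by
      show ((T⁻¹ * B * T).val.submatrix splitFour splitFour)ᵀ * detSq *
        (T⁻¹ * B * T).val.submatrix splitFour splitFour = _
      rw [← hTC, Matrix.transpose_submatrix, Matrix.submatrix_mul_equiv, Matrix.submatrix_mul_equiv]
      show Matrix.submatrix _ _ _ = (t • (T.valᵀ * C * T.val)).submatrix splitFour splitFour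
      congr 1
      calc (T⁻¹ * B * T).valᵀ * (T.valᵀ * C * T.val) * (T⁻¹ * B * T).val
          = T.valᵀ * (B.valᵀ * ((T⁻¹).valᵀ * T.valᵀ) * C * (T.val * (T⁻¹).val) * B.val) * T.val := by
            simp only [Units.val_mul, Matrix.transpose_mul, mul_assoc]
        _ = T.valᵀ * (B.valᵀ * C * B.val) * T.val := by
            rw [← Matrix.transpose_mul, Units.mul_inv, Matrix.transpose_one, mul_one, mul_one]
        _ = t • (T.valᵀ * C * T.val) := by rw [hB, Matrix.mul_smul, Matrix.smul_mul]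
    obtain ⟨b₁, b₂, hb⟩ := similitude_detSq h2 B' hB'
    have hg' : ∀ (π : Equiv.Perm (Fin 3)) (Z : Matrix (Fin 2 × Fin 2) (Fin 2 × Fin 2) F),
        B'.val = Z → (∀ (x y : Fin 3 → Fin 2), A.val (x 0) (y 0) * Z (x 1, x 2) (y 1, y 2) =
          (kroneckerPow (fun i => ((![A, b₁, b₂] i : GL (Fin 2) F) : Matrix (Fin 2) (Fin 2) F)) *
            permPow π : Matrix (Fin 3 → Fin 2) (Fin 3 → Fin 2) F) x y) →
        g ∈ Geo.tensorWreathSubgroup 2 3 e' (P * R) := by
      intro π Z hZ hK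
      refine mem_tensorWreath_iff.2 ⟨![A, b₁, b₂], π, ?_⟩
      rw [hAB, tconj_apply, tconj_apply, _root_.mul_inv_rev, Units.val_mul, Units.val_mul]
      have hmid : (A.val ⊗ₖ B.val) = k.val * (A.val ⊗ₖ (T⁻¹ * B * T).val) * (k⁻¹).val := by
        show _ = ((1 : Matrix (Fin 2) (Fin 2) F) ⊗ₖ T.val) * _ * ((1 : Matrix (Fin 2) (Fin 2) F) ⊗ₖ (T⁻¹).val)
        rw [← Matrix.mul_kronecker_mul, ← Matrix.mul_kronecker_mul, one_mul, mul_one, ← Units.val_mul,
          ← Units.val_mul]
        simp [mul_assoc]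
      have hmat : (A.val ⊗ₖ (T⁻¹ * B * T).val).submatrix e e =
          (kroneckerPow (fun i => ((![A, b₁, b₂] i : GL (Fin 2) F) : Matrix (Fin 2) (Fin 2) F)) *
            permPow π).submatrix e' e' := by
        ext i j
        rw [Matrix.submatrix_apply, Matrix.submatrix_apply, ← hK, ← hZ]
        simp [e', B', cubeEquiv, Geo.glReindex, Matrix.kroneckerMap_apply]
      rw [hmid, ← hmat, ← Matrix.submatrix_mul_equiv _ _ e e e, ← Matrix.submatrix_mul_equiv _ _ e e e]
      simp only [mul_assoc]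
      rfl
    rcases hb with hb | hb
    · refine hg' 1 _ hb fun x y => ?_
      rw [permPow_one, mul_one]
      simp [kroneckerPow, Matrix.kroneckerMap_apply, Fin.prod_univ_three, mul_assoc]
    · refine hg' (Equiv.swap 1 2) _ hb fun x y => ?_
      rw [Matrix.mul_apply, Matrix.mul_apply, Finset.sum_eq_single (y 2, y 1),
        Finset.sum_eq_single (y ∘ Equiv.swap (1 : Fin 3) 2)]
      · simp [permPow, kroneckerPow, TensorSquare.swapMat, Matrix.kroneckerMap_apply,
          Fin.prod_univ_three, Function.comp_def, Equiv.swap_apply_of_ne_of_ne, mul_assoc]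
      · intro z _ hz
        rw [permPow, Matrix.of_apply, if_neg fun h => hz ?_, mul_zero]
        funext i
        simp [h]
      · simp
      · intro z _ hz
        rw [TensorSquare.swapMat_apply, if_neg fun h => hz ?_, mul_zero]
        rw [← Prod.swap_swap z, ← h]
        rfl
      · simp

end CfsgLib.Aschbacher.PlusFour
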