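import Mathlib
import Cfsg.Agent.Aschbacher.OrthEvenCases
import Cfsg.Agent.Aschbacher.PlusFour
import Cfsg.Agent.Aschbacher.OrthEvenSmall
import Cfsg.Agent.Aschbacher.OrthEvenPlus
import Cfsg.Agent.OrthGeo.OddInvolutions

/-!
In a twelve-dimensional plus space a tensor product of symmetric factors of dimensions three and four
lies in the stabiliser of a product of alternating factors of dimensions two and six.
-/

set_option autoImplicit false
set_option linter.unusedSectionVars false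

namespace CfsgLib.Aschbacher.OrthPlusTwelve

open Matrix Module
open scoped Kronecker
open Cfsg CfsgLib.Aschbacher CfsgLib.Aschbacher.Forms CfsgLib.OrthGeo

variable {F : Type*} [Field F]

theorem transpose_detForm_congr (b : Matrix (Fin 2) (Fin 2) F) :
    bᵀ * detForm * b = b.det • detForm := by
  ext i j
  fin_cases i <;> fin_cases j <;>
    simp [detForm, Matrix.mul_apply, Fin.sum_univ_two, Matrix.det_fin_two, Matrix.vecMul, dotProduct] <;> ring

theorem det_swapMat : (TensorSquare.swapMat : Matrix (Fin 2 × Fin 2) (Fin 2 × Fin 2) F).det = -1 := by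
  have h : (TensorSquare.swapMat : Matrix (Fin 2 × Fin 2) (Fin 2 × Fin 2) F) =
      (Equiv.swap ((0 : Fin 2), (1 : Fin 2)) (1, 0)).permMatrix F := by
    ext p q
    fin_cases p <;> fin_cases q <;>
      simp [TensorSquare.swapMat_apply, Equiv.Perm.permMatrix, PEquiv.toMatrix_apply, Equiv.swap_apply_def]
  rw [h, Matrix.det_permutation, Equiv.Perm.sign_swap (by decide)]
  simp

theorem swap_detSq :
    (TensorSquare.swapMat : Matrix (Fin 2 × Fin 2) (Fin 2 × Fin 2) F)ᵀ * PlusFour.detSq *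
      TensorSquare.swapMat = PlusFour.detSq := by
  ext ⟨p, p'⟩ ⟨q, q'⟩
  fin_cases p <;> fin_cases p' <;> fin_cases q <;> fin_cases q' <;>
    simp [Matrix.mul_apply, Fintype.sum_prod_type, Fin.sum_univ_two, TensorSquare.swapMat_apply,
      PlusFour.detSq, detForm, Matrix.kroneckerMap_apply, Matrix.vecMul, dotProduct]

/-- A similitude of the square of the determinant form of positive determinant keeps the factors. -/
theorem exists_kron_of_det (h2 : (2 : F) ≠ 0) (B : GL (Fin 2 × Fin 2) F) {t : F}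
    (ht : B.valᵀ * PlusFour.detSq * B.val = t • PlusFour.detSq) (hdet : B.val.det = t ^ 2) :
    ∃ b₁ b₂ : GL (Fin 2) F, B.val = b₁.val ⊗ₖ b₂.val := by
  obtain ⟨b₁, b₂, hb | hb⟩ := PlusFour.similitude_detSq h2 B ht
  · exact ⟨b₁, b₂, hb⟩
  exfalso
  have hk : (b₁.val ⊗ₖ b₂.val)ᵀ * PlusFour.detSq * (b₁.val ⊗ₖ b₂.val) =
      (b₁.val.det * b₂.val.det) • (PlusFour.detSq : Matrix _ _ F) := by
    rw [← Matrix.kroneckerMap_transpose, PlusFour.detSq, ← Matrix.mul_kronecker_mul, ← Matrix.mul_kronecker_mul,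
      transpose_detForm_congr, transpose_detForm_congr, Matrix.smul_kronecker, Matrix.kronecker_smul, smul_smul]
  have he : B.valᵀ * PlusFour.detSq * B.val = (b₁.val.det * b₂.val.det) • (PlusFour.detSq : Matrix _ _ F) := by
    calc B.valᵀ * PlusFour.detSq * B.val
        = TensorSquare.swapMatᵀ * ((b₁.val ⊗ₖ b₂.val)ᵀ * PlusFour.detSq * (b₁.val ⊗ₖ b₂.val)) *
            TensorSquare.swapMat := by rw [hb, Matrix.transpose_mul]; simp only [mul_assoc]
      _ = _ := by rw [hk, Matrix.mul_smul, Matrix.smul_mul, swap_detSq]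
  have htd : t = b₁.val.det * b₂.val.det := by
    have := congrFun (congrFun (ht.symm.trans he) (0, 0)) (1, 1)
    simpa [PlusFour.detSq, detForm, Matrix.kroneckerMap_apply] using this
  rw [hb, Matrix.det_mul, det_swapMat, Matrix.det_kronecker, Fintype.card_fin, htd] at hdet
  have hne : (b₁.val.det * b₂.val.det) ^ 2 ≠ 0 := pow_ne_zero _ (mul_ne_zero
    ((Matrix.isUnit_iff_isUnit_det _).1 b₁.isUnit).ne_zero ((Matrix.isUnit_iff_isUnit_det _).1 b₂.isUnit).ne_zero)
  exact hne ((mul_eq_zero.1 (show (2 : F) * (b₁.val.det * b₂.val.det) ^ 2 = 0 by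
    linear_combination -hdet)).resolve_left h2)

/-- Six indices as pairs. -/
def finSix : Fin 3 × Fin 2 ≃ Fin 6 := finProdFinEquiv

/-- The regrouping of the indices. -/
def regroup : Fin 3 × Fin 4 ≃ Fin 2 × Fin 6 where
  toFun p := ((PlusFour.splitFour.symm p.2).1, finSix (p.1, (PlusFour.splitFour.symm p.2).2))
  invFun q := ((finSix.symm q.2).1, PlusFour.splitFour (q.1, (finSix.symm q.2).2))
  left_inv p := by simp
  right_inv q := by
    refine Prod.ext (by simp) ?_
    simp

variable {ι : Type} [Fintype ι] [DecidableEq ι] [Fintype F] {Q : (ι → F) → F}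

theorem exists_two_six (hQ : Geo.IsNondegenerateQuadraticForm Q) (h2 : (2 : F) ≠ 0)
    {H : Subgroup (GL ι F)} (hH : H ≤ Geo.omegaGL Q) {e : ι ≃ Fin 3 × Fin 4} {P : GL ι F}
    {f₁ : (Fin 3 → F) → (Fin 3 → F) → F} {f₂ : (Fin 4 → F) → (Fin 4 → F) → F}
    (hf₁ : Geo.IsSymmetricForm f₁) (hf₂ : Geo.IsSymmetricForm f₂)
    (hplus : Geo.IsPlusTypeOn (fun v : Fin 4 → F => f₂ v v) ⊤)
    (hT : Geo.IsTensorFormStructure id (QuadraticMap.polar Q) f₁ f₂ e P)
    (hle : H ≤ Geo.tensorProductSubgroup 3 4 e P) :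
    ∃ (e' : ι ≃ Fin 2 × Fin 6) (P' : GL ι F) (g₁ : (Fin 2 → F) → (Fin 2 → F) → F)
      (g₂ : (Fin 6 → F) → (Fin 6 → F) → F), Geo.IsSymplecticForm g₁ ∧ Geo.IsSymplecticForm g₂ ∧
      Geo.IsTensorFormStructure id (QuadraticMap.polar Q) g₁ g₂ e' P' ∧
      (∀ (x₁ : Fin 2 → F) (x₂ : Fin 6 → F),
        Q ((P' : Matrix ι ι F) *ᵥ ((fun a : Fin 2 × Fin 6 => x₁ a.1 * x₂ a.2) ∘ e')) = 0) ∧
      H ≤ Geo.tensorProductSubgroup 2 6 e' P' := by
  obtain ⟨T, hTC⟩ := PlusFour.exists_hyperbolic h2 hf₂ hplus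
  obtain ⟨c, hc, hcT⟩ := hT
  have hsf : IsSesquiForm (RingHom.id F) (QuadraticMap.polar Q) := IsSesquiForm.of_bilinear hQ.polar_bilinear
  set X := Geo.gramMatrix f₁ with hX
  set C := Geo.gramMatrix f₂ with hC
  have hXu : IsUnit X := by
    rw [Matrix.isUnit_iff_isUnit_det, isUnit_iff_ne_zero]
    exact det_gramMatrix_ne_zero (.of_bilinear hf₁.bilinear) hf₁.nondegenerate
  have hCu : IsUnit C := by
    rw [Matrix.isUnit_iff_isUnit_det, isUnit_iff_ne_zero]
    exact det_gramMatrix_ne_zero (.of_bilinear hf₂.bilinear) hf₂.nondegenerate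
  have hcX : IsUnit (c • X) := (isUnit_smul_iff (Units.mk0 c hc) X).2 hXu
  have hΓ : pullGram (QuadraticMap.polar Q) e P = (c • X) ⊗ₖ C := by
    ext p q
    show QuadraticMap.polar Q (emb e P _) (emb e P _) = _
    rw [emb, emb, hcT, Matrix.smul_kronecker, Matrix.smul_apply, smul_eq_mul]
    congr 1
    exact formOfGram_single (RingHom.id F) _ p q
  let k : GL (Fin 3 × Fin 4) F :=
    { val := (1 : Matrix (Fin 3) (Fin 3) F) ⊗ₖ T.val
      inv := (1 : Matrix (Fin 3) (Fin 3) F) ⊗ₖ (T⁻¹).val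
      val_inv := by rw [← Matrix.mul_kronecker_mul, one_mul, Units.mul_inv, Matrix.one_kronecker_one]
      inv_val := by rw [← Matrix.mul_kronecker_mul, one_mul, Units.inv_mul, Matrix.one_kronecker_one] }
  let R : GL ι F := Geo.glReindex e.symm k
  let e' : ι ≃ Fin 2 × Fin 6 := e.trans regroup
  let J : Matrix (Fin 2) (Fin 2) F := detForm
  let D : Matrix (Fin 6) (Fin 6) F := ((c • X) ⊗ₖ J).submatrix finSix.symm finSix.symm
  have hJ : IsUnit J := by
    rw [Matrix.isUnit_iff_isUnit_det, isUnit_iff_ne_zero]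
    simp [J, detForm, Matrix.det_fin_two]
  have hD : IsUnit D := by
    rw [Matrix.isUnit_iff_isUnit_det, Matrix.det_submatrix_equiv_self, Matrix.det_kronecker]
    exact ((Matrix.isUnit_iff_isUnit_det _).1 hcX).pow _ |>.mul (((Matrix.isUnit_iff_isUnit_det _).1 hJ).pow _)
  have hsplit : ∀ a b, (T.valᵀ * C * T.val) a b =
      PlusFour.detSq (PlusFour.splitFour.symm a) (PlusFour.splitFour.symm b) :=
    fun a b => by rw [← hTC, Matrix.submatrix_apply, Equiv.apply_symm_apply, Equiv.apply_symm_apply]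
  have hΓ' : pullGram (QuadraticMap.polar Q) e' (P * R) = J ⊗ₖ D := by
    have hpe : ∀ p, emb e' (P * R) (Pi.single p 1) = emb e P (k.val *ᵥ Pi.single (regroup.symm p) 1) := fun p => by
      rw [emb, Units.val_mul, ← Matrix.mulVec_mulVec, emb]
      congr 1
      show k.val.submatrix e e *ᵥ _ = _
      rw [Matrix.submatrix_mulVec_equiv]
      congr 2
      funext z
      simp [e', Pi.single_apply, Equiv.eq_symm_apply]
    ext p q
    show QuadraticMap.polar Q (emb e' (P * R) _) (emb e' (P * R) _) = _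
    rw [hpe, hpe, form_emb hsf, hΓ, formOfGram_eq, Matrix.mulVec_single_one, Matrix.mulVec_single_one]
    trans ((k.valᵀ * ((c • X) ⊗ₖ C) * k.val) (regroup.symm p) (regroup.symm q))
    · rw [mul_assoc]
      simp [Matrix.mul_apply, dotProduct, Matrix.mulVec]
    show ((((1 : Matrix (Fin 3) (Fin 3) F) ⊗ₖ T.val)ᵀ * ((c • X) ⊗ₖ C) *
      ((1 : Matrix (Fin 3) (Fin 3) F) ⊗ₖ T.val) : Matrix (Fin 3 × Fin 4) (Fin 3 × Fin 4) F)) _ _ = _
    rw [← Matrix.kroneckerMap_transpose, Matrix.transpose_one, ← Matrix.mul_kronecker_mul, one_mul,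
      ← Matrix.mul_kronecker_mul, mul_one, Matrix.kroneckerMap_apply, hsplit]
    simp [regroup, D, J, PlusFour.detSq, Matrix.kroneckerMap_apply]
    ring
  have hDs : ∀ i j, D i j = -D j i := fun i j => by
    have hs : ∀ a b : Fin 2, J a b = -J b a :=
      Fin.forall_fin_two.2 ⟨Fin.forall_fin_two.2 (by simp [J, detForm]), Fin.forall_fin_two.2 (by simp [J, detForm])⟩
    have hXs : ∀ a b, (c • X) a b = (c • X) b a := fun a b => by
      simp only [Matrix.smul_apply, hX, Geo.gramMatrix, Matrix.of_apply]; rw [hf₁.symm]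
    simp only [D, Matrix.submatrix_apply, Matrix.kroneckerMap_apply]
    rw [hXs, hs]; ring
  have hJd : ∀ a, J a a = 0 := Fin.forall_fin_two.2 (by simp [J, detForm])
  have hg₁ : Geo.IsSymplecticForm (Geo.formOfGram (RingHom.id F) J) :=
    OrthEven.symplectic_formOfGram hJ
      (Fin.forall_fin_two.2 ⟨Fin.forall_fin_two.2 (by simp [J, detForm]), Fin.forall_fin_two.2 (by simp [J, detForm])⟩)
      hJd
  have hg₂ : Geo.IsSymplecticForm (Geo.formOfGram (RingHom.id F) D) :=
    OrthEven.symplectic_formOfGram hD hDs (fun i => by simp [D, Matrix.kroneckerMap_apply, hJd])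
  have hT' := isTensorFormStructure_of_pullGram hsf hΓ'
  refine ⟨e', P * R, _, _, hg₁, hg₂, hT', fun x₁ x₂ => ?_, fun g hg => ?_⟩
  · obtain ⟨c', -, hc'⟩ := hT'
    have : (2 : F) * Q (((P * R : GL ι F) : Matrix ι ι F) *ᵥ (pureTen x₁ x₂ ∘ e')) = 0 := by
      rw [← b_self hQ, bform_apply]
      refine (hc' _ _).trans ?_
      have hp := formOfGram_pureTen hg₁.bilinear hg₂.bilinear x₁ x₁ x₂ x₂
      simp only [RingHom.coe_id] at hp ⊢
      rw [hp]
      exact mul_eq_zero_of_right _ (mul_eq_zero_of_left (hg₁.alternating x₁) _)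
    exact (mul_eq_zero.1 this).resolve_left h2
  obtain ⟨A, B, hAB⟩ := (mem_tensorProductSubgroup_iff e P g).1 (hle hg)
  have hiso : ∀ u v, QuadraticMap.polar Q (g.val *ᵥ u) (g.val *ᵥ v) = QuadraticMap.polar Q u v :=
    fun u v => isometry_b hQ (omegaGL_le (hH hg)) u v
  obtain ⟨⟨s, -, hA⟩, t, -, hB⟩ := factor_similar hsf hcX hCu hΓ one_ne_zero
    (fun u v => by rw [one_mul]; exact hiso u v) hAB
  rw [RingHom.coe_id, Matrix.map_id] at hA hB
  have hst : s * t = 1 := by
    have key : (A.valᵀ * (c • X) * A.val) ⊗ₖ (B.valᵀ * C * B.val) = (c • X) ⊗ₖ C := by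
      ext p q
      have h1 := hiso (emb e P (Pi.single p 1)) (emb e P (Pi.single q 1))
      rw [hAB, tconj_mulVec_emb, tconj_mulVec_emb, form_emb hsf, form_emb hsf, hΓ, formOfGram_single,
        formOfGram_eq] at h1
      simp only [Matrix.mulVec_single_one, RingHom.coe_id] at h1
      rw [← h1, Matrix.mul_kronecker_mul, Matrix.mul_kronecker_mul, Matrix.mul_apply, dotProduct]
      simp only [Matrix.col_apply, Matrix.mulVec, dotProduct]
      simp only [Matrix.mul_apply, Finset.sum_mul, Finset.mul_sum, Matrix.kroneckerMap_apply,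
        Matrix.transpose_apply, id_eq]
      rw [Finset.sum_comm]
      exact Finset.sum_congr rfl fun x _ => Finset.sum_congr rfl fun y _ => by ring
    rw [hA, hB, Matrix.smul_kronecker, Matrix.kronecker_smul, smul_smul] at key
    by_contra hne
    have h0 : (c • X) ⊗ₖ C = 0 := by
      have : (s * t - 1) • ((c • X) ⊗ₖ C) = 0 := by rw [sub_smul, key, one_smul, sub_self]
      exact (smul_eq_zero.1 this).resolve_left (sub_ne_zero.2 hne)
    have := congrArg Matrix.det h0
    rw [Matrix.det_kronecker, Matrix.det_zero] at this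
    exact mul_ne_zero (pow_ne_zero _ ((Matrix.isUnit_iff_isUnit_det _).1 hcX).ne_zero)
      (pow_ne_zero _ ((Matrix.isUnit_iff_isUnit_det _).1 hCu).ne_zero) this
  have hdetg : A.val.det ^ 4 * B.val.det ^ 3 = 1 := by
    have := OddInvolutions.det_of_mem_omegaGL (hH hg)
    rw [hAB, tconj_apply, Matrix.det_mul, Matrix.det_mul, mul_right_comm, ← Matrix.det_mul, Units.mul_inv,
      Matrix.det_one, one_mul, Matrix.det_submatrix_equiv_self, Matrix.det_kronecker, Fintype.card_fin,
      Fintype.card_fin] at this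
    exact this
  have hA2 : A.val.det ^ 2 = s ^ 3 := by
    have := congrArg Matrix.det hA
    rw [Matrix.det_mul, Matrix.det_mul, Matrix.det_transpose, Matrix.det_smul (c • X), Fintype.card_fin] at this
    exact mul_right_cancel₀ ((Matrix.isUnit_iff_isUnit_det _).1 hcX).ne_zero (by linear_combination this)
  have hB2 : B.val.det ^ 2 = t ^ 4 := by
    have := congrArg Matrix.det hB
    rw [Matrix.det_mul, Matrix.det_mul, Matrix.det_transpose, Matrix.det_smul, Fintype.card_fin] at this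
    exact mul_right_cancel₀ ((Matrix.isUnit_iff_isUnit_det _).1 hCu).ne_zero (by linear_combination this)
  have hBdet : B.val.det = t ^ 2 := by
    rcases mul_eq_zero.1 (show (B.val.det - t ^ 2) * (B.val.det + t ^ 2) = 0 by linear_combination hB2) with h | h
    · exact sub_eq_zero.1 h
    exfalso
    rw [show A.val.det ^ 4 = (A.val.det ^ 2) ^ 2 by ring, hA2, eq_neg_of_add_eq_zero_left h] at hdetg
    have hs6 : s ^ 6 * t ^ 6 = 1 := by rw [← mul_pow, hst, one_pow]
    exact h2 (by linear_combination -hdetg - hs6)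
  let B' : GL (Fin 2 × Fin 2) F := Geo.glReindex PlusFour.splitFour.symm (T⁻¹ * B * T)
  have hB' : B'.valᵀ * PlusFour.detSq * B'.val = t • (PlusFour.detSq : Matrix _ _ F) := by
    show ((T⁻¹ * B * T).val.submatrix PlusFour.splitFour PlusFour.splitFour)ᵀ * PlusFour.detSq *
      (T⁻¹ * B * T).val.submatrix PlusFour.splitFour PlusFour.splitFour = _
    rw [← hTC, Matrix.transpose_submatrix, Matrix.submatrix_mul_equiv, Matrix.submatrix_mul_equiv]
    show Matrix.submatrix _ _ _ = (t • (T.valᵀ * C * T.val)).submatrix PlusFour.splitFour PlusFour.splitFour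
    congr 1
    calc (T⁻¹ * B * T).valᵀ * (T.valᵀ * C * T.val) * (T⁻¹ * B * T).val
        = T.valᵀ * (B.valᵀ * ((T⁻¹).valᵀ * T.valᵀ) * C * (T.val * (T⁻¹).val) * B.val) * T.val := by
          simp only [Units.val_mul, Matrix.transpose_mul, mul_assoc]
      _ = T.valᵀ * (B.valᵀ * C * B.val) * T.val := by
          rw [← Matrix.transpose_mul, Units.mul_inv, Matrix.transpose_one, mul_one, mul_one]
      _ = t • (T.valᵀ * C * T.val) := by rw [hB, Matrix.mul_smul, Matrix.smul_mul]
  have hB'det : B'.val.det = t ^ 2 := by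
    show ((T⁻¹ * B * T).val.submatrix PlusFour.splitFour PlusFour.splitFour).det = _
    rw [Matrix.det_submatrix_equiv_self, Units.val_mul, Units.val_mul, Matrix.det_mul, Matrix.det_mul,
      mul_comm, ← mul_assoc, ← Matrix.det_mul, Units.mul_inv, Matrix.det_one, one_mul, hBdet]
  obtain ⟨b₁, b₂, hb⟩ := exists_kron_of_det h2 B' hB' hB'det
  let Ab : GL (Fin 3 × Fin 2) F :=
    { val := A.val ⊗ₖ b₂.val
      inv := (A⁻¹).val ⊗ₖ (b₂⁻¹).val
      val_inv := by rw [← Matrix.mul_kronecker_mul, Units.mul_inv, Units.mul_inv, Matrix.one_kronecker_one]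
      inv_val := by rw [← Matrix.mul_kronecker_mul, Units.inv_mul, Units.inv_mul, Matrix.one_kronecker_one] }
  refine (mem_tensorProductSubgroup_iff e' (P * R) g).2 ⟨b₁, Geo.glReindex finSix Ab, ?_⟩
  rw [hAB, tconj_apply, tconj_apply, _root_.mul_inv_rev, Units.val_mul, Units.val_mul]
  have hmid : (A.val ⊗ₖ B.val) = k.val * (A.val ⊗ₖ (T⁻¹ * B * T).val) * (k⁻¹).val := by
    show _ = ((1 : Matrix (Fin 3) (Fin 3) F) ⊗ₖ T.val) * _ * ((1 : Matrix (Fin 3) (Fin 3) F) ⊗ₖ (T⁻¹).val)
    rw [← Matrix.mul_kronecker_mul, ← Matrix.mul_kronecker_mul, one_mul, mul_one, ← Units.val_mul,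
      ← Units.val_mul]
    simp [mul_assoc]
  have hmat : (A.val ⊗ₖ (T⁻¹ * B * T).val).submatrix e e =
      (b₁.val ⊗ₖ (Geo.glReindex finSix Ab).val).submatrix e' e' := by
    ext i j
    have h1 : (T⁻¹ * B * T).val (e i).2 (e j).2 =
        b₁.val (PlusFour.splitFour.symm (e i).2).1 (PlusFour.splitFour.symm (e j).2).1 *
          b₂.val (PlusFour.splitFour.symm (e i).2).2 (PlusFour.splitFour.symm (e j).2).2 := by
      have := congrFun (congrFun hb (PlusFour.splitFour.symm (e i).2)) (PlusFour.splitFour.symm (e j).2)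
      rw [Matrix.kroneckerMap_apply] at this
      rw [← this]
      simp [B', Geo.glReindex]
    simp only [Units.val_mul, Matrix.coe_units_inv] at h1
    simp [e', regroup, Ab, Geo.glReindex, Matrix.kroneckerMap_apply, Units.val_mul]
    rw [h1]; ring
  rw [hmid, ← hmat, ← Matrix.submatrix_mul_equiv _ _ e e e, ← Matrix.submatrix_mul_equiv _ _ e e e]
  simp only [mul_assoc]
  rfl

/-- In plus type the four-dimensional symmetric factor has plus type. -/
theorem factor_plus (hQ : Geo.IsNondegenerateQuadraticForm Q) (h2 : (2 : F) ≠ 0)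
    (hV : Geo.IsPlusTypeOn Q ⊤) {e : ι ≃ Fin 3 × Fin 4} {P : GL ι F}
    {f₁ : (Fin 3 → F) → (Fin 3 → F) → F} {f₂ : (Fin 4 → F) → (Fin 4 → F) → F}
    (hf₁ : Geo.IsSymmetricForm f₁) (hf₂ : Geo.IsSymmetricForm f₂)
    (hT : Geo.IsTensorFormStructure id (QuadraticMap.polar Q) f₁ f₂ e P) :
    Geo.IsPlusTypeOn (fun v : Fin 4 → F => f₂ v v) ⊤ := by
  classical
  set q₂ : (Fin 4 → F) → F := fun v => f₂ v v
  have hb := hf₂.bilinear
  have hpol : ∀ u v, QuadraticMap.polar q₂ u v = 2 * f₂ u v := fun u v => by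
    show f₂ (u + v) (u + v) - f₂ u u - f₂ v v = _
    rw [hb.add_left, hb.add_right, hb.add_right, hf₂.symm v u]; ring
  have hq₂ : Geo.IsNondegenerateQuadraticForm q₂ := by
    refine ⟨fun c v => ?_, ⟨fun x y v => ?_, fun c x v => ?_, fun v x y => ?_, fun c v x => ?_⟩, fun v hv => ?_⟩
    · show f₂ (c • v) (c • v) = c ^ 2 * f₂ v v
      rw [hb.smul_left, hb.smul_right]; ring
    · simp only [hpol, hb.add_left]; ring
    · simp only [hpol, hb.smul_left]; ring
    · simp only [hpol, hb.add_right]; ring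
    · simp only [hpol, hb.smul_right]; ring
    · obtain ⟨⟨x, hx⟩, y, hy⟩ := hf₂.nondegenerate v hv
      exact ⟨⟨x, by rw [hpol]; exact mul_ne_zero h2 hx⟩, y, by rw [hpol]; exact mul_ne_zero h2 hy⟩
  obtain ⟨r, ev, fv, W₀, hd, -, ⟨-, hp⟩ | ⟨hW0, -⟩⟩ := OrthEven.exists_type_decomp hq₂ (W := ⊤)
    (fun w _ hw => ⟨(hq₂.nondegenerate w hw).1.imp fun x hx => ⟨trivial, hx⟩,
      (hq₂.nondegenerate w hw).2.imp fun x hx => ⟨trivial, hx⟩⟩)
    (by rw [finrank_top, finrank_fintype_fun_eq_card, Fintype.card_fin]; decide)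
  · exact hp
  exfalso
  have hdim := hd.dim
  rw [finrank_top, finrank_fintype_fun_eq_card, Fintype.card_fin, hW0] at hdim
  obtain rfl : r = 1 := by omega
  have hzero : ∀ u v, QuadraticMap.polar q₂ u v = 0 → f₂ u v = 0 := fun u v h =>
    (mul_eq_zero.1 ((hpol u v).symm.trans h)).resolve_left h2
  have hee : f₂ (ev 0) (ev 0) = 0 := hd.qe 0
  have hef : f₂ (ev 0) (fv 0) ≠ 0 := fun h =>
    one_ne_zero (α := F) ((hd.ef 0 0).symm.trans ((hpol _ _).trans (by rw [h, mul_zero])))
  have hfw : ∀ w ∈ W₀, f₂ w (fv 0) = 0 := fun w hw => by rw [hf₂.symm]; exact hzero _ _ (hd.fw 0 w hw)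
  have hew : ∀ w ∈ W₀, f₂ (ev 0) w = 0 := fun w hw => hzero _ _ (hd.ew 0 w hw)
  have haniso : ∀ w ∈ W₀, w ≠ 0 → f₂ w w ≠ 0 := fun w hw h0 h => h0 (hd.aniso w hw h)
  -- an orthogonal basis of the small factor
  haveI : Invertible (2 : F) := invertibleOfNonzero h2
  have hsymm : LinearMap.IsSymm (bilinOf hf₁.bilinear) :=
    ⟨fun x y => by simp only [bilinOf_apply, RingHom.id_apply]; exact hf₁.symm x y⟩
  obtain ⟨v₀, hv₀⟩ := LinearMap.BilinForm.exists_orthogonal_basis hsymm
  let v : Basis (Fin 3) F (Fin 3 → F) := v₀.reindex (finCongr (Module.finrank_fin_fun F))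
  have horth : ∀ i j, i ≠ j → f₁ (v i) (v j) = 0 := fun i j hij => by
    simp only [v, Basis.reindex_apply, ← bilinOf_apply hf₁.bilinear]
    exact hv₀ (fun h => hij (by simpa using h))
  have hvd : ∀ i, f₁ (v i) (v i) ≠ 0 := by
    intro i h0
    obtain ⟨x, hx⟩ := (hf₁.nondegenerate (v i) (v.ne_zero i)).2
    apply hx
    rw [← v.sum_repr x, ← bilinOf_apply hf₁.bilinear]
    simp only [map_sum, map_smul, bilinOf_apply]
    refine Finset.sum_eq_zero fun j _ => ?_
    by_cases hij : i = j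
    · subst hij; rw [h0, smul_zero]
    · rw [horth i j hij, smul_zero]
  obtain ⟨c, hc, hcT⟩ := hT
  let ten : (Fin 3 → F) → (Fin 4 → F) →ₗ[F] (ι → F) := fun x =>
    { toFun := fun y => (P : Matrix ι ι F) *ᵥ (pureTen x y ∘ e)
      map_add' := fun y y' => by
        rw [← Matrix.mulVec_add]; congr 1; funext i; simp [pureTen, mul_add]
      map_smul' := fun a y => by
        rw [RingHom.id_apply, ← Matrix.mulVec_smul]; congr 1; funext i; simp [pureTen, mul_left_comm] }
  have hten : ∀ x y x' y', bform hQ (ten x y) (ten x' y') = c * (f₁ x x' * f₂ y y') := fun x y x' y' => by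
    rw [bform_apply]
    exact (hcT _ _).trans (by rw [formOfGram_pureTen hf₁.bilinear hb])
  have hQten : ∀ x y, 2 * Q (ten x y) = c * (f₁ x x * f₂ y y) := fun x y => by rw [← b_self hQ]; exact hten x y x y
  let L : (Fin 3 → F) →ₗ[F] (ι → F) :=
    { toFun := fun x => ten x (ev 0)
      map_add' := fun x y => by
        show (P : Matrix ι ι F) *ᵥ _ = _ + _
        simp only [ten, LinearMap.coe_mk, AddHom.coe_mk]
        rw [← Matrix.mulVec_add]; congr 1; funext i; simp [pureTen, add_mul]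
      map_smul' := fun a x => by
        simp only [ten, LinearMap.coe_mk, AddHom.coe_mk, RingHom.id_apply]
        rw [← Matrix.mulVec_smul]; congr 1; funext i; simp [pureTen, mul_assoc] }
  -- the three anisotropic planes
  let B : Fin 3 → Submodule F (ι → F) := fun i => W₀.map (ten (v i))
  have hBq : ∀ i, ∀ z ∈ B i, Q z = 0 → z = 0 := by
    rintro i _ ⟨w, hw, rfl⟩ hz
    by_contra h0
    have := hQten (v i) w
    rw [hz, mul_zero] at this
    exact haniso w hw (fun h => h0 (by rw [h, map_zero]))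
      ((mul_eq_zero.1 ((mul_eq_zero.1 this.symm).resolve_left hc)).resolve_left (hvd i))
  have hBnd : ∀ i, Geo.IsNondegenerateOn (QuadraticMap.polar Q) (B i) := fun i z hz h0 => by
    have : bform hQ z z ≠ 0 := by rw [b_self hQ]; exact mul_ne_zero h2 fun h => h0 (hBq i z hz h)
    exact ⟨⟨z, hz, this⟩, z, hz, this⟩
  have hBd : ∀ i, finrank F (B i) = 2 := fun i => by
    refine (Submodule.equivMapOfInjective _ ((injective_iff_map_eq_zero _).2 fun y hy => ?_) W₀).finrank_eq.symm.trans hW0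
    by_contra hy0
    obtain ⟨⟨y', hy'⟩, -⟩ := hf₂.nondegenerate y hy0
    have := hten (v i) y' (v i) y
    rw [hy, map_zero] at this
    exact mul_ne_zero hc (mul_ne_zero (hvd i) hy') this.symm
  have hBp : ∀ i, ¬ Geo.IsPlusTypeOn Q (B i) := by
    rintro i ⟨U, hle, hU, hUd⟩
    rw [hBd i] at hUd
    obtain ⟨u, hu, hu0⟩ := Submodule.exists_mem_ne_zero_of_ne_bot (p := U) fun h => by
      rw [h, finrank_bot] at hUd; omega
    exact hu0 (hBq i u (hle hu) (hU u hu))
  have hBo : ∀ i j, i ≠ j → ∀ x ∈ B i, ∀ y ∈ B j, bform hQ x y = 0 := by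
    rintro i j hij _ ⟨x, hx, rfl⟩ _ ⟨y, hy, rfl⟩
    rw [hten, horth i j hij, zero_mul, mul_zero]
  have hindep := OrthEven.indep_of_orth hQ hBnd hBo
  obtain ⟨U₂, hU₂, hts₂, hd₂⟩ := OrthEven.pair_singular hQ (hBnd 0) (by rw [hBd]; exact even_two)
    (OrthEven.isometric_of_type hQ (hBnd 0) (hBnd 1) (by rw [hBd]; exact even_two) (by rw [hBd, hBd])
      (iff_of_false (hBp 0) (hBp 1))) (hindep.pairwiseDisjoint (by decide)) (hBo 0 1 (by decide))
  rw [hBd] at hd₂
  have hL : Function.Injective L := (injective_iff_map_eq_zero _).2 fun x hx => by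
    by_contra hx0
    obtain ⟨⟨x', hx'⟩, -⟩ := hf₁.nondegenerate x hx0
    have := hten x' (fv 0) x (ev 0)
    rw [show ten x (ev 0) = 0 from hx, map_zero, hf₂.symm] at this
    exact mul_ne_zero hc (mul_ne_zero hx' hef) this.symm
  have hLts : Geo.IsTotallySingularQuad Q (LinearMap.range L) := by
    rintro _ ⟨x, rfl⟩
    have := hQten x (ev 0)
    rw [hee, mul_zero, mul_zero] at this
    exact (mul_eq_zero.1 this).resolve_left h2
  have hLB : ∀ i, ∀ z ∈ LinearMap.range L, ∀ y ∈ B i, bform hQ z y = 0 := by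
    rintro i _ ⟨x, rfl⟩ _ ⟨y, hy, rfl⟩
    exact (hten x (ev 0) (v i) y).trans (by rw [hew y hy, mul_zero, mul_zero])
  have hdis : Disjoint (LinearMap.range L) (B 0 ⊔ B 1) := by
    rw [Submodule.disjoint_def]
    rintro _ ⟨x, rfl⟩ hx
    by_contra h0
    have hx0 : x ≠ 0 := fun h => h0 (by rw [h, map_zero])
    obtain ⟨⟨x', hx'⟩, -⟩ := hf₁.nondegenerate x hx0
    have hker : B 0 ⊔ B 1 ≤ LinearMap.ker (bform hQ (ten x' (fv 0))) := by
      refine sup_le ?_ ?_ <;> rintro _ ⟨y, hy, rfl⟩ <;>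
      · rw [LinearMap.mem_ker, hten, hf₂.symm, hfw y hy, mul_zero, mul_zero]
    have := (LinearMap.mem_ker.1 (hker hx)).symm.trans (hten x' (fv 0) x (ev 0))
    rw [hf₂.symm] at this
    exact mul_ne_zero hc (mul_ne_zero hx' hef) this.symm
  obtain ⟨hts, hle, hdU⟩ := OrthEven.singular_sup hQ hdis (fun a ha b hb' => by
      obtain ⟨p, hp, p', hp', rfl⟩ := Submodule.mem_sup.1 hb'
      rw [map_add, hLB 0 a ha p hp, hLB 1 a ha p' hp', add_zero]) le_rfl hU₂ hLts hts₂
  rw [hd₂, LinearMap.finrank_range_of_inj hL, finrank_fintype_fun_eq_card, Fintype.card_fin] at hdU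
  have hperp : LinearMap.range L ⊔ (B 0 ⊔ B 1) ≤ perp hQ (B 2) := by
    intro z hz
    refine (mem_perp hQ).2 fun y hy => ?_
    obtain ⟨a, ha, b, hb', rfl⟩ := Submodule.mem_sup.1 hz
    obtain ⟨p, hp, p', hp', rfl⟩ := Submodule.mem_sup.1 hb'
    rw [b_symm hQ, map_add, map_add, LinearMap.add_apply, LinearMap.add_apply, hLB 2 a ha y hy,
      hBo 0 2 (by decide) p hp y hy, hBo 1 2 (by decide) p' hp' y hy]
    simp
  have hn : Fintype.card ι = 12 := by simp [Fintype.card_congr e]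
  have hpp : Geo.IsPlusTypeOn Q (perp hQ (B 2)) := by
    refine ⟨_, hle.trans hperp, hts, ?_⟩
    have := finrank_perp_add hQ (B 2)
    rw [hBd] at this
    omega
  have := OrthEven.plus_perp hQ hV (AschPrime.orth_perp_nondeg hQ (hBnd 2)) hpp
  rw [perp_perp hQ] at this
  exact hBp 2 this

end CfsgLib.Aschbacher.OrthPlusTwelve
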