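import Mathlib
import Cfsg.Agent.Aschbacher.OrthEvenTypes
import Cfsg.Agent.Aschbacher.OrthEvenMembers

/-!
Plus type in twice odd dimension admits no complex similitude structure.
-/

set_option autoImplicit false
set_option linter.unusedSectionVars false

namespace CfsgLib.Aschbacher.OrthTen

open Matrix Cfsg Module CfsgLib.OrthGeo CfsgLib.Aschbacher.OrthEven

variable {ι : Type} [Fintype ι] [DecidableEq ι] {F : Type*} [Field F] [Finite F] {Q : (ι → F) → F}
variable (hQ : Geo.IsNondegenerateQuadraticForm Q)
include hQ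

/-- Below the maximal dimension, a totally singular subspace has a singular orthogonal vector outside. -/
theorem exists_singular_outside (hplus : Geo.IsPlusTypeOn Q ⊤) {X : Submodule F (ι → F)}
    (hX : Geo.IsTotallySingularQuad Q X) (hd : 2 * finrank F X < Fintype.card ι) :
    ∃ u, u ∈ perp hQ X ∧ u ∉ X ∧ Q u = 0 := by
  obtain ⟨U, hU, hle⟩ := exists_maxTS_ge hQ hplus hX
  obtain ⟨u, hu, hux⟩ : ∃ u ∈ U, u ∉ X := by
    by_contra! h
    have := Submodule.finrank_mono (show U ≤ X from h)
    have := hU.two_mul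
    omega
  exact ⟨u, perp_anti hQ hle (le_perp_self hQ hU.singular hu), hux, hU.singular u hu⟩

/-- A totally singular subspace of corank one is not complemented in its perpendicular by an anisotropic
plane, in plus type. -/
theorem false_of_aniso_rest (hplus : Geo.IsPlusTypeOn Q ⊤) {X P : Submodule F (ι → F)}
    (hX : Geo.IsTotallySingularQuad Q X) (hd : 2 * (finrank F X + 1) = Fintype.card ι)
    (hP : P ≤ perp hQ X) (hPd : finrank F P = 2) (han : ∀ p ∈ P, Q p = 0 → p = 0) : False := by
  obtain ⟨u, hu, hux, hu0⟩ := exists_singular_outside hQ hplus hX (by omega)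
  have hinf : X ⊓ P = ⊥ := (Submodule.eq_bot_iff _).2 fun x hx => han x hx.2 (hX x hx.1)
  have hsup : X ⊔ P = perp hQ X := by
    refine Submodule.eq_of_le_of_finrank_le (sup_le (le_perp_self hQ hX) hP) ?_
    have h := Submodule.finrank_sup_add_finrank_inf_eq X P
    rw [hinf, finrank_bot] at h
    have := finrank_perp_add hQ X
    omega
  obtain ⟨x, hx, p, hp, rfl⟩ := Submodule.mem_sup.1 (hsup.ge hu)
  rw [q_add hQ, hX x hx, (mem_perp hQ).1 (hP hp) x hx, zero_add, add_zero] at hu0
  exact hux (by rw [han p hp hu0, add_zero]; exact hx)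

/-- A similitude without eigenvectors satisfying a quadratic equation. -/
structure Complex (Q : (ι → F) → F) (J : (ι → F) →ₗ[F] (ι → F)) : Prop where
  free : ∀ (v : ι → F) (c : F), J v = c • v → v = 0
  sq : ∀ v, ∃ s t : F, J (J v) = s • v + t • J v
  sim : ∃ m : F, ∀ v, Q (J v) = m * Q v
  inner : ∃ t : F, ∀ v, QuadraticMap.polar Q v (J v) = t * Q v

theorem false_of_complex (hplus : Geo.IsPlusTypeOn Q ⊤) (hodd : ¬ 4 ∣ Fintype.card ι)
    {J : (ι → F) →ₗ[F] (ι → F)} (hJ : Complex Q J) : False := by
  obtain ⟨m, hm⟩ := hJ.sim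
  obtain ⟨t, ht⟩ := hJ.inner
  have hin : ∀ v, bform hQ v (J v) = t * Q v := ht
  have hpol : ∀ u v, bform hQ u (J v) + bform hQ v (J u) = t * bform hQ u v := fun u v => by
    have h := hin (u + v)
    simp only [map_add, LinearMap.add_apply, hin, q_add hQ] at h
    linear_combination h
  -- one step
  have step : ∀ S : Submodule F (ι → F), (∀ s ∈ S, J s ∈ S) → Geo.IsTotallySingularQuad Q S →
      2 * finrank F S < Fintype.card ι →
      ∃ S' : Submodule F (ι → F), (∀ s ∈ S', J s ∈ S') ∧ Geo.IsTotallySingularQuad Q S' ∧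
        finrank F S' = finrank F S + 2 := by
    intro S hS hts hlt
    obtain ⟨u, hu, huS, hu0⟩ := exists_singular_outside hQ hplus hts hlt
    have hne : u ≠ 0 := fun h => huS (h ▸ S.zero_mem)
    have hJu : J u ∈ perp hQ S := (mem_perp hQ).2 fun s hs => by
      have h := hpol s u
      rw [(mem_perp hQ).1 hu s hs, b_symm hQ u (J s), (mem_perp hQ).1 hu _ (hS s hs), mul_zero, add_zero] at h
      exact h
    set P := Submodule.span F ({u, J u} : Set (ι → F)) with hP
    have hli : LinearIndependent F ![u, J u] := (LinearIndependent.pair_iff' hne).2 fun c h =>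
      hne (hJ.free u c h.symm)
    have hPd : finrank F P = 2 := by
      have h := finrank_span_eq_card hli
      rwa [Matrix.range_cons_cons_empty, Fintype.card_fin] at h
    have hPts : Geo.IsTotallySingularQuad Q P := totallySingular_span hQ
      (by rintro x (rfl | rfl); exacts [hu0, by rw [hm, hu0, mul_zero]])
      (by
        have h1 : bform hQ u (J u) = 0 := by rw [hin, hu0, mul_zero]
        rintro x (rfl | rfl) y (rfl | rfl)
        exacts [by rw [b_self hQ, hu0, mul_zero], h1, by rw [b_symm hQ]; exact h1,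
          by rw [b_self hQ, hm, hu0, mul_zero, mul_zero]])
    have hPJ : ∀ p ∈ P, J p ∈ P := by
      intro p hp
      obtain ⟨a, b, rfl⟩ := Submodule.mem_span_pair.1 hp
      obtain ⟨c, d, hcd⟩ := hJ.sq u
      rw [map_add, map_smul, map_smul, hcd]
      exact Submodule.mem_span_pair.2 ⟨b * c, a + b * d, by rw [smul_add, smul_smul, smul_smul]; module⟩
    have hPS : P ≤ perp hQ S := Submodule.span_le.2 (by rintro x (rfl | rfl) <;> assumption)
    have hinf : S ⊓ P = ⊥ := by
      refine (Submodule.eq_bot_iff _).2 fun x hx => ?_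
      obtain ⟨hxS, hxP⟩ := hx
      obtain ⟨a, b, rfl⟩ := Submodule.mem_span_pair.1 hxP
      by_contra hx0
      have hJx := hS _ hxS
      obtain ⟨c, d, hcd⟩ := hJ.sq u
      set x := a • u + b • J u with hx
      have hJx' : J x = (b * c) • u + (a + b * d) • J u := by
        rw [hx, map_add, map_smul, map_smul, hcd]; module
      have hxi : LinearIndependent F ![x, J x] := (LinearIndependent.pair_iff' hx0).2 fun e h =>
        hx0 (hJ.free x e h.symm)
      have hle : Submodule.span F ({x, J x} : Set (ι → F)) ≤ S :=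
        Submodule.span_le.2 (by rintro y (rfl | rfl) <;> assumption)
      have hle' : Submodule.span F ({x, J x} : Set (ι → F)) ≤ P :=
        Submodule.span_le.2 (by
          rintro y (rfl | rfl)
          · exact hxP
          · exact hPJ _ hxP)
      have hd : finrank F ↥(Submodule.span F ({x, J x} : Set (ι → F))) = 2 := by
        have h := finrank_span_eq_card hxi
        rwa [Matrix.range_cons_cons_empty, Fintype.card_fin] at h
      have : P ≤ S := (Submodule.eq_of_le_of_finrank_le hle' (by omega)).ge.trans hle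
      exact huS (this (Submodule.subset_span (Set.mem_insert _ _)))
    refine ⟨S ⊔ P, ?_, ?_, ?_⟩
    · intro x hx
      obtain ⟨s, hs, p, hp, rfl⟩ := Submodule.mem_sup.1 hx
      rw [map_add]
      exact Submodule.add_mem_sup (hS s hs) (hPJ p hp)
    · intro x hx
      obtain ⟨s, hs, p, hp, rfl⟩ := Submodule.mem_sup.1 hx
      rw [q_add hQ, hts s hs, hPts p hp, (mem_perp hQ).1 (hPS hp) s hs, add_zero, add_zero]
    · have h := Submodule.finrank_sup_add_finrank_inf_eq S P
      rw [hinf, finrank_bot] at h
      omega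
  have key : ∀ k : ℕ, 4 * k ≤ Fintype.card ι + 2 → ∃ S : Submodule F (ι → F), (∀ s ∈ S, J s ∈ S) ∧
      Geo.IsTotallySingularQuad Q S ∧ finrank F S = 2 * k := by
    intro k
    induction k with
    | zero => exact fun _ => ⟨⊥, fun s hs => by simp [(Submodule.mem_bot F).1 hs],
        fun x hx => by rw [(Submodule.mem_bot F).1 hx]; exact q_zero hQ, by simp⟩
    | succ k ih =>
      intro hk
      obtain ⟨S, h1, h2, h3⟩ := ih (by omega)
      obtain ⟨S', h1', h2', h3'⟩ := step S h1 h2 (by omega)
      exact ⟨S', h1', h2', by omega⟩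
  obtain ⟨U, -, -, hd⟩ := hplus
  rw [finrank_top, finrank_fintype_fun_eq_card] at hd
  obtain ⟨S, -, hts, hdim⟩ := key ((Fintype.card ι + 2) / 4) (by omega)
  have := two_mul_finrank_le hQ hts
  omega

end CfsgLib.Aschbacher.OrthTen
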