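import Mathlib
import Cfsg.Agent.Aschbacher.OrthTenComplex
import Cfsg.Agent.Aschbacher.FormsField

/-!
Self-adjoint fields of odd degree with two-dimensional natural module in plus type: a singular line over
the field exists.
-/

set_option autoImplicit false
set_option linter.unusedSectionVars false
set_option linter.style.haveILetI false

namespace CfsgLib.Aschbacher.OrthTen

open Matrix Cfsg Module CfsgLib.OrthGeo CfsgLib.Aschbacher.OrthEven CfsgLib.Aschbacher.Forms

section Field

variable {F K : Type*} [Field F] [Finite F] [Field K] [Algebra F K] [FiniteDimensional F K]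

/-- An irreducible quadratic over `F` with no root in an extension of odd degree. -/
theorem exists_irred_quad (hodd : Odd (finrank F K)) :
    ∃ c : F, ∀ r : K, r ^ 2 + r + algebraMap F K c ≠ 0 := by
  obtain ⟨c, hc⟩ : ∃ c : F, ∀ t : F, t ^ 2 + t + c ≠ 0 := by
    by_contra! h
    have hsurj : Function.Surjective fun t : F => -(t ^ 2 + t) := fun c => by
      obtain ⟨t, ht⟩ := h c
      exact ⟨t, by show -(t ^ 2 + t) = c; linear_combination -ht⟩
    have := Finite.injective_iff_surjective.2 hsurj (a₁ := 0) (a₂ := -1) (by ring)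
    exact one_ne_zero (neg_eq_zero.1 this.symm)
  refine ⟨c, fun r hr => ?_⟩
  have hint : IsIntegral F r := IsIntegral.of_finite F r
  have hdvd := minpoly.degree_dvd (K := F) (x := r) hint
  have hle : (minpoly F r).natDegree ≤ 2 := by
    refine (Polynomial.natDegree_le_natDegree (minpoly.min F r (p := Polynomial.X ^ 2 + Polynomial.X +
      Polynomial.C c) (by monicity!) (by simpa using hr))).trans ?_
    compute_degree
  have h1 : (minpoly F r).natDegree = 1 := by
    have h0 := minpoly.natDegree_pos hint
    rcases (show (minpoly F r).natDegree = 1 ∨ (minpoly F r).natDegree = 2 by omega) with h | h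
    · exact h
    · exact absurd (even_iff_two_dvd.2 (h ▸ hdvd)) (Nat.not_even_iff_odd.2 hodd)
  obtain ⟨a, rfl⟩ := (minpoly.natDegree_eq_one_iff).1 h1
  refine hc a ((algebraMap F K).injective ?_)
  rw [map_add, map_add, map_pow, map_zero, hr]

variable {V : Type*} [AddCommGroup V] [Module K V] [FiniteDimensional K V]

/-- A quadratic form with a given multiplier has an anisotropic plane basis with constant from `F`. -/
theorem exists_normal_plane [Finite K] (q : QuadraticForm K V) (h2 : finrank K V = 2)
    (han : ∀ v, q v = 0 → v = 0) (hnd : ∀ v, (∀ w, QuadraticMap.polar q v w = 0) → v = 0)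
    {c : K} (hc : ∀ r : K, r ^ 2 + r + c ≠ 0) :
    ∃ b : Basis (Fin 2) K V, q (b 0) = 1 ∧ QuadraticMap.polar q (b 0) (b 1) = 1 ∧ q (b 1) = c := by
  obtain ⟨v, w, -, -, hli, -, hv, hvw, hw⟩ := LinAlg.Witt.aniso_plane q ⊤ (by rwa [finrank_top])
    (fun x _ => han x) (fun x _ h => hnd x fun y => h y trivial)
  obtain ⟨α, β, hα, h1, hval⟩ : ∃ α β : K, α ≠ 0 ∧ α + 2 * β = 1 ∧ α ^ 2 * q w + α * β + β ^ 2 = c := by
    by_cases h20 : (2 : K) = 0
    · obtain ⟨s, hs⟩ := exists_sq_add_self h20 hc hw
      exact ⟨1, s, one_ne_zero, by rw [h20, zero_mul, add_zero],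
        by linear_combination hs + q w * h20⟩
    · have hns : ∀ d : K, (∀ t : K, t ^ 2 + t + d ≠ 0) → ¬ IsSquare (1 - 4 * d) := by
        rintro d hd ⟨s, hs⟩
        refine hd ((s - 1) / 2) ?_
        field_simp
        linear_combination -hs
      have h4 : (1 - 4 * q w) ≠ 0 := fun h => hns _ hw (h ▸ IsSquare.zero)
      letI := Fintype.ofFinite K
      obtain ⟨s, hs⟩ := Classical.Orth.isSquare_mul_of_not (hns _ hc) (hns _ hw)
      set α := s / (1 - 4 * q w) with hα
      have hα2 : α ^ 2 * (1 - 4 * q w) = 1 - 4 * c := by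
        rw [hα]; field_simp; linear_combination -hs
      refine ⟨α, (1 - α) / 2, fun h => ?_, by field_simp; ring, ?_⟩
      · rw [h, zero_pow two_ne_zero, zero_mul] at hα2
        exact hns _ hc (hα2 ▸ IsSquare.zero)
      · field_simp
        linear_combination -hα2
  have hli' : LinearIndependent K ![v, α • w + β • v] := by
    rw [LinearIndependent.pair_iff] at hli ⊢
    intro s t hst
    have h := hli (s + t * β) (t * α) (by rw [← hst]; module)
    have ht : t = 0 := (mul_eq_zero.1 h.2).resolve_right hα
    exact ⟨by rw [ht, zero_mul, add_zero] at h; exact h.1, ht⟩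
  refine ⟨basisOfLinearIndependentOfCardEqFinrank hli' (by simp [h2]), ?_, ?_, ?_⟩ <;>
    simp only [coe_basisOfLinearIndependentOfCardEqFinrank, Matrix.cons_val_zero, Matrix.cons_val_one]
  · exact hv
  · rw [QuadraticMap.polar_add_right, QuadraticMap.polar_smul_right, QuadraticMap.polar_smul_right, hvw,
      QuadraticMap.polar_self, hv]
    simp only [smul_eq_mul, nsmul_eq_mul, Nat.cast_ofNat, mul_one]
    linear_combination h1
  · rw [QuadraticMap.map_add (f := ⇑q), QuadraticMap.map_smul, QuadraticMap.map_smul,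
      QuadraticMap.polar_smul_left, QuadraticMap.polar_smul_right, QuadraticMap.polar_comm _ w v, hvw, hv]
    simp only [smul_eq_mul, mul_one]
    linear_combination hval

end Field

variable {ι : Type} [Fintype ι] [DecidableEq ι] {F : Type*} [Field F] [Finite F] {Q : (ι → F) → F}
variable (hQ : Geo.IsNondegenerateQuadraticForm Q)
include hQ

/-- A field of odd degree acting self-adjointly on a two-dimensional module has a singular line. -/
theorem exists_singular_line_mod (hplus : Geo.IsPlusTypeOn Q ⊤) (hn4 : ¬ 4 ∣ Fintype.card ι)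
    {A : Type*} [Field A] [Finite A] [Algebra F A] [FiniteDimensional F A] [Module A (ι → F)]
    [IsScalarTower F A (ι → F)] [FiniteDimensional A (ι → F)] (hr : Odd (finrank F A))
    (hV : finrank A (ι → F) = 2) (hb : ∀ (k : A) (u v : ι → F), bform hQ (k • u) v = bform hQ u (k • v)) :
    ∃ v : ι → F, v ≠ 0 ∧ ∀ k : A, Q (k • v) = 0 := by
  classical
  letI : Fintype A := Fintype.ofFinite A
  -- the trace-like functional
  obtain ⟨T, hT0⟩ : ∃ T : A →ₗ[F] F, T ≠ 0 := by
    refine ⟨(Module.finBasis F A).coord ⟨0, Module.finrank_pos⟩, fun h => ?_⟩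
    have := LinearMap.congr_fun h ((Module.finBasis F A) ⟨0, Module.finrank_pos⟩)
    simp at this
  let μ : A →ₗ[F] (A →ₗ[F] F) := LinearMap.mk₂ F (fun c s => T (s * c))
    (fun a b s => by rw [mul_add, map_add]) (fun a b s => by rw [mul_smul_comm, map_smul])
    (fun a s s' => by rw [add_mul, map_add]) (fun a b s => by rw [smul_mul_assoc, map_smul])
  have hμ : Function.Bijective μ := by
    have hinj : Function.Injective μ := (injective_iff_map_eq_zero μ).2 fun c hc => by
      by_contra hc0
      exact hT0 (LinearMap.ext fun s => by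
        have := LinearMap.congr_fun hc (s * c⁻¹)
        simpa [μ, mul_assoc, inv_mul_cancel₀ hc0] using this)
    exact ⟨hinj, (LinearMap.injective_iff_surjective_of_finrank_eq_finrank Subspace.dual_finrank_eq.symm).1 hinj⟩
  have huniq : ∀ a a' : A, (∀ k : A, T (k ^ 2 * a) = T (k ^ 2 * a')) → a = a' := by
    intro a a' h
    refine hμ.1 (LinearMap.ext fun s => ?_)
    show T (s * a) = T (s * a')
    by_cases h2 : (2 : A) = 0
    · obtain ⟨k, hk⟩ := Classical.Orth.isSquare_of_two_eq_zero h2 s
      rw [hk, ← sq]; exact h k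
    · have hs : s = ((s + 1) / 2) ^ 2 - ((s - 1) / 2) ^ 2 := by field_simp; ring
      rw [hs, sub_mul, sub_mul, map_sub, map_sub, h, h]
  -- the form over the extension
  have hex : ∀ v : ι → F, ∃ a : A, ∀ k : A, Q (k • v) = T (k ^ 2 * a) := by
    intro v
    by_cases h2 : (2 : F) = 0
    · have h2A : (2 : A) = 0 := by
        rw [← map_ofNat (algebraMap F A), h2, map_zero]
      choose rt hrt using Classical.Orth.isSquare_of_two_eq_zero (F := A) h2A
      have hsq : ∀ x y : A, x * x = y * y → x = y := fun x y h => by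
        rcases mul_self_eq_mul_self_iff.1 h with h | h
        · exact h
        · rw [h]; linear_combination -y * h2A
      have hradd : ∀ s t, rt (s + t) = rt s + rt t := fun s t => hsq _ _ (by
        linear_combination -(hrt (s + t)) + hrt s + hrt t - rt s * rt t * h2A)
      let g : A →ₗ[F] F :=
        { toFun := fun s => Q (rt s • v)
          map_add' := fun s t => by
            rw [hradd, add_smul, q_add hQ, hb, smul_smul]
            have : bform hQ v ((rt s * rt t) • v) = 0 := by
              rw [hrt (rt s * rt t), mul_smul, ← hb, b_self hQ, h2, zero_mul]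
            rw [this, add_zero]
          map_smul' := fun c s => by
            obtain ⟨d, hd⟩ := Classical.Orth.isSquare_of_two_eq_zero h2 c
            rw [RingHom.id_apply, smul_eq_mul, show rt (c • s) = d • rt s from hsq _ _ (by
              rw [← hrt, smul_mul_smul_comm, ← hd, ← hrt]), smul_assoc, q_smul hQ, sq, ← hd] }
      obtain ⟨a, ha⟩ := hμ.2 g
      refine ⟨a, fun k => ?_⟩
      have h : T (k ^ 2 * a) = Q (rt (k ^ 2) • v) := LinearMap.congr_fun ha (k ^ 2)
      rw [h, show rt (k ^ 2) = k from hsq _ _ (by rw [← hrt, sq])]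
    · let g : A →ₗ[F] F :=
        { toFun := fun s => 2⁻¹ * bform hQ (s • v) v
          map_add' := fun s t => by rw [add_smul, map_add, LinearMap.add_apply, mul_add]
          map_smul' := fun c s => by
            rw [smul_assoc, map_smul, LinearMap.smul_apply, RingHom.id_apply, smul_eq_mul, smul_eq_mul]; ring }
      obtain ⟨a, ha⟩ := hμ.2 g
      refine ⟨a, fun k => ?_⟩
      have h1 : T (k ^ 2 * a) = 2⁻¹ * bform hQ (k ^ 2 • v) v := LinearMap.congr_fun ha (k ^ 2)
      rw [h1, sq, mul_smul, hb, b_self hQ, ← mul_assoc, inv_mul_cancel₀ h2, one_mul]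
  choose qv hqv using hex
  have hB : ∀ x y : ι → F, ∃ a : A, ∀ s : A, bform hQ (s • x) y = T (s * a) := fun x y => by
    let g : A →ₗ[F] F :=
      { toFun := fun s => bform hQ (s • x) y
        map_add' := fun s t => by rw [add_smul, map_add, LinearMap.add_apply]
        map_smul' := fun c s => by rw [smul_assoc, map_smul, LinearMap.smul_apply]; rfl }
    obtain ⟨a, ha⟩ := hμ.2 g
    exact ⟨a, fun s => (LinearMap.congr_fun ha s).symm⟩
  choose Bv hBv using hB
  have hpol : ∀ x y, QuadraticMap.polar qv x y = Bv x y := fun x y => huniq _ _ fun k => by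
    simp only [QuadraticMap.polar, mul_sub, map_sub, ← hqv, ← hBv]
    rw [smul_add, q_add hQ, sq, mul_smul, hb k (k • x) y]
    ring
  have hext : ∀ a a' : A, (∀ s, T (s * a) = T (s * a')) → a = a' :=
    fun a a' h => hμ.1 (LinearMap.ext h)
  have hsmul : ∀ (c : A) x, qv (c • x) = c * c * qv x := fun c x => huniq _ _ fun k => by
    rw [← hqv, smul_smul, hqv]; congr 1; ring
  let q : QuadraticForm A (ι → F) := QuadraticMap.ofPolar qv hsmul
    (fun x x' y => hext _ _ fun s => by
      simp only [hpol, mul_add, map_add, ← hBv, smul_add, LinearMap.add_apply])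
    (fun c x y => hext _ _ fun s => by
      simp only [hpol, smul_eq_mul]
      rw [← hBv, smul_smul, hBv, mul_assoc])
  have hq : ∀ v k, Q (k • v) = T (k ^ 2 * q v) := hqv
  by_contra! hno
  have han : ∀ v, q v = 0 → v = 0 := fun v hv => by
    by_contra h0
    obtain ⟨k, hkv⟩ := hno v h0
    exact hkv (by rw [hq, hv, mul_zero, map_zero])
  have hnd : ∀ v, (∀ w, QuadraticMap.polar q v w = 0) → v = 0 := fun v h => by
    by_contra h0
    obtain ⟨-, w, hw⟩ := hQ.nondegenerate v h0
    refine hw ?_
    have := hBv v w 1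
    rw [one_smul, ← hpol, show QuadraticMap.polar qv v w = QuadraticMap.polar q v w from rfl, h, mul_zero,
      map_zero] at this
    exact this
  obtain ⟨c, hc⟩ := exists_irred_quad (F := F) (K := A) hr
  obtain ⟨b, hb0, hb01, hb1⟩ := exists_normal_plane q hV han hnd hc
  set C := algebraMap F A c
  let J : (ι → F) →ₗ[A] (ι → F) := b.constr A ![b 1, -C • b 0 + b 1]
  have hJ0 : J (b 0) = b 1 := by simp [J]
  have hJ1 : J (b 1) = -C • b 0 + b 1 := by simp [J]
  have hco : ∀ z : ι → F, ∃ x y : A, z = x • b 0 + y • b 1 := fun z =>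
    ⟨_, _, (by have := b.sum_repr z; rw [Fin.sum_univ_two] at this; exact this.symm)⟩
  have hqc : ∀ x y : A, q (x • b 0 + y • b 1) = x * x + x * y + y * y * C := fun x y => by
    rw [QuadraticMap.map_add (f := ⇑q), QuadraticMap.map_smul, QuadraticMap.map_smul,
      QuadraticMap.polar_smul_left, QuadraticMap.polar_smul_right, hb0, hb01, hb1]
    simp only [smul_eq_mul, mul_one]; ring
  have hJc : ∀ x y : A, J (x • b 0 + y • b 1) = (-C * y) • b 0 + (x + y) • b 1 := fun x y => by
    rw [map_add, map_smul, map_smul, hJ0, hJ1]; module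
  have hJJ : ∀ z, J (J z) = J z + (-c) • z := fun z => by
    obtain ⟨x, y, rfl⟩ := hco z
    rw [neg_smul, ← algebraMap_smul A c (x • b 0 + y • b 1), hJc, hJc]
    show _ = _ + -(C • (x • b 0 + y • b 1))
    module
  have hone : ∀ z, Q z = T (q z) := fun z => by
    have := hq z 1; rwa [one_smul, one_pow, one_mul] at this
  have hqJ : ∀ z, q (J z) = C * q z ∧ QuadraticMap.polar q z (J z) = q z := fun z => by
    obtain ⟨x, y, rfl⟩ := hco z
    refine ⟨by rw [hJc, hqc, hqc]; ring, ?_⟩
    rw [QuadraticMap.polar, hJc, show x • b 0 + y • b 1 + ((-C * y) • b 0 + (x + y) • b 1) =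
      (x - C * y) • b 0 + (y + (x + y)) • b 1 by module, hqc, hqc, hqc]
    ring
  refine false_of_complex hQ hplus hn4 (J := J.restrictScalars F) ⟨fun v e he => ?_, fun v => ⟨-c, 1, ?_⟩,
    ⟨c, fun v => ?_⟩, ⟨1, fun v => ?_⟩⟩
  · have he' : J v = algebraMap F A e • v := by rw [algebraMap_smul]; exact he
    have h1 := (hqJ v).1
    have h2 := (hqJ v).2
    rw [he', QuadraticMap.polar_smul_right, QuadraticMap.polar_self, smul_eq_mul, nsmul_eq_mul,
      Nat.cast_ofNat] at h2
    rw [he', QuadraticMap.map_smul, smul_eq_mul] at h1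
    refine han v ?_
    by_contra hq0
    refine hc (-algebraMap F A e) ((mul_eq_zero.1 (show
      ((-algebraMap F A e) ^ 2 + -algebraMap F A e + C) * q v = 0 from ?_)).resolve_right hq0)
    linear_combination -h1 + algebraMap F A e * h2
  · show J (J v) = (-c) • v + (1 : F) • J v
    rw [hJJ, one_smul, add_comm]
  · show Q (J v) = c * Q v
    rw [hone, hone, (hqJ v).1, ← Algebra.smul_def, map_smul, smul_eq_mul]
  · show bform hQ v (J v) = 1 * Q v
    have h := hBv v (J v) 1
    rw [one_smul, one_mul, ← hpol, show QuadraticMap.polar qv v (J v) = QuadraticMap.polar q v (J v) from rfl,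
      (hqJ v).2] at h
    rw [h, one_mul, hone]

/-- A self-adjoint field of odd degree with two-dimensional natural module has a singular line. -/
theorem exists_singular_line (hplus : Geo.IsPlusTypeOn Q ⊤) (hn4 : ¬ 4 ∣ Fintype.card ι) {r : ℕ}
    (hr : Odd r) (hd : 2 * r = Fintype.card ι) {A : Subalgebra F (Matrix ι ι F)}
    (hA : Geo.IsFieldSubalgebra r A) (hsa : Geo.IsSelfAdjointFor (QuadraticMap.polar Q) A) :
    ∃ v : ι → F, v ≠ 0 ∧ ∀ k ∈ A, Q (k *ᵥ v) = 0 := by
  haveI : Nonempty ι := Fintype.card_pos_iff.1 (by have := hr.pos; omega)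
  haveI : Finite A := Finite.of_injective (fun x : A => (x : Matrix ι ι F)) Subtype.val_injective
  haveI : Module.Finite F A := FiniteDimensional.finiteDimensional_subalgebra A
  letI : Field A := (isField_of_isFieldSubalgebra hA).toField
  have hact : ∀ (k : A) (v : ι → F), k • v = (k : Matrix ι ι F) *ᵥ v := fun k v => rfl
  haveI : IsScalarTower F A (ι → F) := ⟨fun c k v => by
    rw [hact, hact, ← Matrix.smul_mulVec]; rfl⟩
  haveI : Module.Finite A (ι → F) := Module.Finite.of_restrictScalars_finite F A (ι → F)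
  have hV : finrank A (ι → F) = 2 := by
    have h := Module.finrank_mul_finrank F A (ι → F)
    rw [hA.finrank_eq, finrank_fintype_fun_eq_card, ← hd, mul_comm 2 r] at h
    exact Nat.eq_of_mul_eq_mul_left hr.pos h
  obtain ⟨v, hv0, hv⟩ := exists_singular_line_mod hQ hplus hn4 (A := A) (hA.finrank_eq ▸ hr) hV
    fun k u v => by rw [hact, hact]; exact hsa _ k.2 u v
  exact ⟨v, hv0, fun k hk => by
    have := hv ⟨k, hk⟩
    rwa [hact] at this⟩

end CfsgLib.Aschbacher.OrthTen
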