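import Mathlib
import Cfsg.Agent.Aschbacher.OrthTenComplex
import Cfsg.Agent.Aschbacher.OrthTenField
import Cfsg.Agent.Aschbacher.OrthEvenPlus
import Cfsg.Agent.Aschbacher.OrthEvenSmall
import Cfsg.Agent.Aschbacher.OrthEvenCases

/-!
The maximal subgroups of Omega of plus type in dimension ten.
-/

set_option autoImplicit false
set_option linter.unusedSectionVars false

namespace CfsgLib.Aschbacher.OrthTen

open Matrix Cfsg Module CfsgLib.OrthGeo CfsgLib.Aschbacher CfsgLib.Aschbacher.OrthEven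
  CfsgLib.Aschbacher.Centre

variable {ι : Type} [Fintype ι] [DecidableEq ι] {F : Type*} [Field F] [Fintype F] {Q : (ι → F) → F}
variable {H : Subgroup (GL ι F)}

variable (hQ : Geo.IsNondegenerateQuadraticForm Q)
include hQ

/-- Non-plus planes are anisotropic. -/
theorem aniso_of_not_plus {W : Submodule F (ι → F)} (hd : finrank F W = 2) (hp : ¬ Geo.IsPlusTypeOn Q W) :
    ∀ p ∈ W, Q p = 0 → p = 0 := by
  intro p hpW hp0
  by_contra h
  refine hp ⟨Submodule.span F {p}, (Submodule.span_singleton_le_iff_mem _ _).2 hpW, fun x hx => ?_, ?_⟩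
  · obtain ⟨c, rfl⟩ := Submodule.mem_span_singleton.1 hx
    rw [q_smul hQ, hp0, mul_zero]
  · rw [finrank_span_singleton h, hd]

/-- A decomposition of a non-degenerate five-space. -/
theorem five_core (_h2 : (2 : F) ≠ 0) {W : Submodule F (ι → F)}
    (hW : Geo.IsNondegenerateOn (QuadraticMap.polar Q) W) (hd : finrank F W = 5) :
    ∃ (e f : Fin 2 → ι → F) (W₀ : Submodule F (ι → F)) (w : ι → F),
      LinAlg.Witt.IsWittDecomp (qf hQ) W e f W₀ ∧ w ∈ W₀ ∧ Q w ≠ 0 ∧ W₀ ≤ Submodule.span F {w} ∧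
      Geo.IsTotallySingularQuad Q (Submodule.span F (Set.range e)) ∧
      finrank F (Submodule.span F (Set.range e)) = 2 ∧ w ≠ 0 := by
  obtain ⟨r, e, f, W₀, hdec⟩ := LinAlg.Witt.exists_wittDecomp (qf hQ) _ W le_rfl (nondeg_iff_polar hQ hW)
  have hle2 := LinAlg.Witt.finrank_le_two_of_aniso (qf hQ) W₀ hdec.aniso
  have hdim := hdec.dim
  obtain rfl : r = 2 := by omega
  have h1 : finrank F W₀ = 1 := by omega
  obtain ⟨w, hw, hw0⟩ := W₀.exists_mem_ne_zero_of_ne_bot fun h => by rw [h, finrank_bot] at h1; omega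
  have hli : LinearIndependent F e := Fintype.linearIndependent_iff.2 fun g hg i => by
    have := congrArg (fun x => bform hQ x (f i)) hg
    simp only [map_sum, map_smul, LinearMap.sum_apply, LinearMap.smul_apply, map_zero, LinearMap.zero_apply,
      smul_eq_mul] at this
    rw [Finset.sum_eq_single i (fun j _ hj => by
      rw [show bform hQ (e j) (f i) = 0 from (hdec.ef j i).trans (if_neg hj), mul_zero]) (by simp),
      show bform hQ (e i) (f i) = 1 from (hdec.ef i i).trans (if_pos rfl), mul_one] at this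
    exact this
  refine ⟨e, f, W₀, w, hdec, hw, fun h => hw0 (hdec.aniso w hw h), ?_,
    totallySingular_span hQ (by rintro _ ⟨i, rfl⟩; exact hdec.qe i)
      (by rintro _ ⟨i, rfl⟩ _ ⟨j, rfl⟩; exact hdec.ee i j), by rw [finrank_span_eq_card hli, Fintype.card_fin], hw0⟩
  exact (Submodule.eq_of_le_of_finrank_le ((Submodule.span_singleton_le_iff_mem _ _).2 hw)
    (by rw [finrank_span_singleton hw0, h1])).ge

variable (hplus : Geo.IsPlusTypeOn Q ⊤) (h10 : Fintype.card ι = 10)
include hplus h10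

/-- The anisotropic parts of two orthogonal five-spaces. -/
theorem cores_ratio (_h2 : (2 : F) ≠ 0) {W W' X X' : Submodule F (ι → F)} (hd : Disjoint W W')
    (ho : ∀ a ∈ W, ∀ b ∈ W', bform hQ a b = 0) (hX : X ≤ W) (hX' : X' ≤ W')
    (hts : Geo.IsTotallySingularQuad Q X) (hts' : Geo.IsTotallySingularQuad Q X')
    (hXd : finrank F X = 2) (hXd' : finrank F X' = 2) {w w' : ι → F} (hw : w ∈ W) (hw' : w' ∈ W')
    (hQw : Q w ≠ 0) (hQw' : Q w' ≠ 0) (hwX : ∀ x ∈ X, bform hQ x w = 0)
    (hwX' : ∀ x ∈ X', bform hQ x w' = 0) : ∃ c : F, c ≠ 0 ∧ Q w' = -(c ^ 2 * Q w) := by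
  obtain ⟨hU, -, hUd⟩ := singular_sup hQ hd ho hX hX' hts hts'
  have hww : bform hQ w w' = 0 := ho w hw w' hw'
  set P := Submodule.span F ({w, w'} : Set (ι → F))
  have hne : w ≠ 0 := fun h => hQw (h ▸ q_zero hQ)
  have hli : LinearIndependent F ![w, w'] := (LinearIndependent.pair_iff' hne).2 fun c hc => hQw' (by
    have : w' = 0 := Submodule.disjoint_def.1 hd w' (hc ▸ W.smul_mem c hw) hw'
    rw [this, q_zero hQ])
  have hPd : finrank F P = 2 := by
    have h := finrank_span_eq_card hli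
    rwa [Matrix.range_cons_cons_empty, Fintype.card_fin] at h
  have hperp : P ≤ perp hQ (X ⊔ X') := by
    rw [perp_sup]
    refine Submodule.span_le.2 ?_
    rintro x (rfl | rfl)
    · exact ⟨(mem_perp hQ).2 hwX, (mem_perp hQ).2 fun y hy => by rw [b_symm hQ]; exact ho _ hw _ (hX' hy)⟩
    · exact ⟨(mem_perp hQ).2 fun y hy => ho _ (hX hy) _ hw', (mem_perp hQ).2 hwX'⟩
  by_contra hcon
  refine false_of_aniso_rest hQ hplus hU (by omega) hperp hPd fun p hp hp0 => ?_
  obtain ⟨a, b, rfl⟩ := Submodule.mem_span_pair.1 hp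
  rw [q_add hQ, q_smul hQ, q_smul hQ, map_smul, map_smul, LinearMap.smul_apply, hww, smul_zero, smul_zero,
    add_zero] at hp0
  by_cases hb : b = 0
  · rw [hb] at hp0 ⊢
    have ha : a = 0 := pow_eq_zero_iff two_ne_zero |>.1 ((mul_eq_zero.1 (by simpa using hp0)).resolve_right hQw)
    rw [ha]; simp
  · refine absurd ⟨a / b, ?_, ?_⟩ hcon
    · intro h
      rcases div_eq_zero_iff.1 h with ha | hb'
      · rw [ha] at hp0
        simp at hp0
        rcases hp0 with h' | h'
        exacts [hb h', hQw' h']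
      · exact hb hb'
    · field_simp
      linear_combination hp0

/-- Two orthogonal isometric five-spaces: the field has order one modulo four. -/
theorem five_mod_four (hodd : Odd (Fintype.card F)) {W W' : Submodule F (ι → F)}
    (hW : Geo.IsNondegenerateOn (QuadraticMap.polar Q) W) (hd : finrank F W = 5) (hdis : Disjoint W W')
    (ho : ∀ a ∈ W, ∀ b ∈ W', bform hQ a b = 0) (hiso : Geo.AreIsometricFor Q W W') :
    Fintype.card F % 4 = 1 := by
  have h2 := two_ne_zero_of_odd_card hodd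
  obtain ⟨φ, hφ⟩ := hiso
  obtain ⟨e, f, W₀, w, hdec, hw, hQw, -, hts, hXd, -⟩ := five_core hQ h2 hW hd
  let ψ : W →ₗ[F] (ι → F) := W'.subtype.comp (φ : W →ₗ[F] W')
  have hψi : Function.Injective ψ := fun x y h => φ.injective (W'.injective_subtype h)
  have hψb : ∀ x y : W, bform hQ (ψ x) (ψ y) = bform hQ (x : ι → F) (y : ι → F) := fun x y => by
    show QuadraticMap.polar Q ((φ x : W') : ι → F) ((φ y : W') : ι → F) = QuadraticMap.polar Q _ _
    simp only [QuadraticMap.polar, ← Submodule.coe_add, ← map_add, hφ]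
  have hXW : Submodule.span F (Set.range e) ≤ W := Submodule.span_le.2 (by rintro _ ⟨i, rfl⟩; exact hdec.e_mem i)
  let X' : Submodule F (ι → F) := ((Submodule.span F (Set.range e)).comap W.subtype).map ψ
  obtain ⟨c, hc, hcw⟩ := cores_ratio hQ hplus h10 h2 hdis ho hXW (X' := X')
    (by rintro _ ⟨x, -, rfl⟩; exact Submodule.coe_mem _) hts
    (by rintro _ ⟨x, hx, rfl⟩; exact (hφ x).trans (hts x hx)) hXd
    (by rw [(Submodule.equivMapOfInjective _ hψi _).finrank_eq.symm,
      (Submodule.comapSubtypeEquivOfLe hXW).finrank_eq, hXd])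
    (hdec.le hw) (w' := ψ ⟨w, hdec.le hw⟩) (Submodule.coe_mem _) hQw (by rw [show Q (ψ ⟨w, _⟩) = Q w from hφ _]; exact hQw)
    (fun x hx => by
      have : Submodule.span F (Set.range e) ≤ LinearMap.ker ((bform hQ).flip w) :=
        Submodule.span_le.2 (by rintro _ ⟨i, rfl⟩; exact hdec.ew i w hw)
      exact this hx)
    (by
      rintro _ ⟨x, hx, rfl⟩
      rw [hψb]
      have : Submodule.span F (Set.range e) ≤ LinearMap.ker ((bform hQ).flip w) :=
        Submodule.span_le.2 (by rintro _ ⟨i, rfl⟩; exact hdec.ew i w hw)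
      exact this hx)
  rw [show Q (ψ ⟨w, _⟩) = Q w from hφ _] at hcw
  have hsq : IsSquare (-1 : F) := ⟨c, mul_right_cancel₀ hQw (by linear_combination -hcw)⟩
  have h3 := FiniteField.isSquare_neg_one_iff.1 hsq
  obtain ⟨m, hm⟩ := hodd
  omega

/-- Orthogonal five-spaces over a field of order one modulo four are isometric. -/
theorem five_isometric (h4 : Fintype.card F % 4 = 1) {W W' : Submodule F (ι → F)}
    (hW : Geo.IsNondegenerateOn (QuadraticMap.polar Q) W) (hW' : Geo.IsNondegenerateOn (QuadraticMap.polar Q) W')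
    (hd : finrank F W = 5) (hd' : finrank F W' = 5) (hdis : Disjoint W W')
    (ho : ∀ a ∈ W, ∀ b ∈ W', bform hQ a b = 0) : Geo.AreIsometricFor Q W W' := by
  have h2 : (2 : F) ≠ 0 := two_ne_zero_of_odd_card (Nat.odd_iff.2 (by omega))
  obtain ⟨e, f, W₀, w, hdec, hw, hQw, hspan, hts, hXd, hw0⟩ := five_core hQ h2 hW hd
  obtain ⟨e', f', W₀', w', hdec', hw', hQw', hspan', hts', hXd', hw0'⟩ := five_core hQ h2 hW' hd'
  obtain ⟨c, hc, hcw⟩ := cores_ratio hQ hplus h10 h2 hdis ho (X := Submodule.span F (Set.range e))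
    (X' := Submodule.span F (Set.range e'))
    (Submodule.span_le.2 (by rintro _ ⟨i, rfl⟩; exact hdec.e_mem i))
    (Submodule.span_le.2 (by rintro _ ⟨i, rfl⟩; exact hdec'.e_mem i)) hts hts' hXd hXd' (hdec.le hw) (hdec'.le hw')
    hQw hQw'
    (fun x hx => by
      have : Submodule.span F (Set.range e) ≤ LinearMap.ker ((bform hQ).flip w) :=
        Submodule.span_le.2 (by rintro _ ⟨i, rfl⟩; exact hdec.ew i w hw)
      exact this hx)
    (fun x hx => by
      have : Submodule.span F (Set.range e') ≤ LinearMap.ker ((bform hQ).flip w') :=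
        Submodule.span_le.2 (by rintro _ ⟨i, rfl⟩; exact hdec'.ew i w' hw')
      exact this hx)
  obtain ⟨i, hi⟩ := FiniteField.isSquare_neg_one_iff.2 (show Fintype.card F % 4 ≠ 3 by omega)
  have hi0 : i ≠ 0 := fun h => by rw [h, mul_zero, neg_eq_zero] at hi; exact one_ne_zero hi
  set z' := (c * i)⁻¹ • w'
  have hzq : Q z' = Q w := by
    rw [q_smul hQ, hcw]
    field_simp
    linear_combination hi
  let a := Sum.elim (Sum.elim e f) fun _ : Fin 1 => w
  let a' := Sum.elim (Sum.elim e' f') fun _ : Fin 1 => z'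
  have hspan2 : ∀ {U U₀ : Submodule F (ι → F)} {x y : Fin 2 → ι → F} {s : ι → F},
      LinAlg.Witt.IsWittDecomp (qf hQ) U x y U₀ → s ∈ U₀ → U₀ ≤ Submodule.span F {s} →
      Submodule.span F (Set.range (Sum.elim (Sum.elim x y) fun _ : Fin 1 => s)) = U := by
    intro U U₀ x y s hU hs hs'
    refine le_antisymm (Submodule.span_le.2 ?_) (hU.span.trans ?_)
    · rintro _ ⟨((i | i) | i), rfl⟩
      exacts [hU.e_mem i, hU.f_mem i, hU.le hs]
    · rw [Set.Sum.elim_range, Set.Sum.elim_range, Submodule.span_union _ (Set.range fun _ : Fin 1 => s),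
        Set.range_const]
      exact sup_le_sup le_rfl hs'
  have hA := hspan2 hdec hw hspan
  have hzW : z' ∈ W₀' := W₀'.smul_mem _ hw'
  have hA' := hspan2 hdec' hzW (hspan'.trans (by
    rw [Submodule.span_singleton_smul_eq (IsUnit.mk0 _ (inv_ne_zero (mul_ne_zero hc hi0)))]))
  have hli : LinearIndependent F a := linearIndependent_iff_card_eq_finrank_span.2 (by
    rw [Set.finrank, hA, hd]; simp)
  have hli' : LinearIndependent F a' := linearIndependent_iff_card_eq_finrank_span.2 (by
    rw [Set.finrank, hA', hd']; simp)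
  obtain ⟨g, hg, hga⟩ := LinAlg.Witt.exists_quadFun_family hQ (a := a) (b := a') hli hli'
    (by
      rintro ((i | i) | i)
      exacts [(hdec.qe i).trans (hdec'.qe i).symm, (hdec.qf i).trans (hdec'.qf i).symm, hzq.symm])
    (by
      show ∀ s t, bform hQ (a s) (a t) = bform hQ (a' s) (a' t)
      rintro ((i | i) | i) ((j | j) | j)
      · exact (hdec.ee i j).trans (hdec'.ee i j).symm
      · exact (hdec.ef i j).trans (hdec'.ef i j).symm
      · exact (hdec.ew i _ hw).trans (hdec'.ew i _ hzW).symm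
      · show bform hQ (f i) (e j) = bform hQ (f' i) (e' j)
        rw [b_symm hQ (f i), b_symm hQ (f' i)]
        exact (hdec.ef j i).trans (hdec'.ef j i).symm
      · exact (hdec.ff i j).trans (hdec'.ff i j).symm
      · exact (hdec.fw i _ hw).trans (hdec'.fw i _ hzW).symm
      · show bform hQ w (e j) = bform hQ z' (e' j)
        rw [b_symm hQ w, b_symm hQ z']
        exact (hdec.ew j _ hw).trans (hdec'.ew j _ hzW).symm
      · show bform hQ w (f j) = bform hQ z' (f' j)
        rw [b_symm hQ w, b_symm hQ z']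
        exact (hdec.fw j _ hw).trans (hdec'.fw j _ hzW).symm
      · show bform hQ w w = bform hQ z' z'
        rw [b_self hQ, b_self hQ, hzq])
  have hmap : W.map (Matrix.toLin' (g : Matrix ι ι F)) = W' := by
    rw [← hA, Submodule.map_span, ← hA', ← Set.range_comp]
    exact congrArg (fun h => Submodule.span F (Set.range h)) (funext fun x => (Matrix.toLin'_apply _ _).trans (hga x))
  refine ⟨(Submodule.equivMapOfInjective _ (toLin'_injective g) W).trans (LinearEquiv.ofEq _ _ hmap), fun x => ?_⟩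
  simp only [LinearEquiv.trans_apply, LinearEquiv.coe_ofEq_apply, Submodule.coe_equivMapOfInjective_apply,
    Matrix.toLin'_apply]
  exact mem_isometryGroup.1 hg _

/-- Ten isometric lines: minus one is a square. -/
theorem lines_square (hodd : Odd (Fintype.card F)) {D : Fin 10 → Submodule F (ι → F)}
    (hD : Geo.IsOrthogonalMDecomposition Q 1 D) : Fintype.card F % 4 = 1 := by
  classical
  have h2 := two_ne_zero_of_odd_card hodd
  obtain ⟨U, hU, hts, hUd⟩ := pieceTS_union hQ hD (J := Finset.univ.image ![(0 : Fin 10), 1, 2, 3])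
    (K := Finset.univ.image ![(4 : Fin 10), 5, 6, 7]) (by decide)
    (pieceTS_four hQ hD h2 (by decide)) (pieceTS_four hQ hD h2 (by decide))
  choose x hx hx0 using fun i : Fin 10 => (D i).exists_mem_ne_zero_of_ne_bot fun h => by
    have := hD.decomp.decomp.finrank_eq i
    rw [h, finrank_bot] at this
    exact zero_ne_one this
  obtain ⟨φ, hφ⟩ := hD.isometric 8 9
  set y := ((φ ⟨x 8, hx 8⟩ : D 9) : ι → F)
  have hyQ : Q y = Q (x 8) := hφ _
  have hQ8 : Q (x 8) ≠ 0 := fun h => by
    obtain ⟨⟨z, hz, hzb⟩, -⟩ := hD.decomp.nondegenerate 8 _ (hx 8) (hx0 8)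
    obtain ⟨c, hc⟩ := exists_smul_eq_of_finrank_eq_one (hD.decomp.decomp.finrank_eq 8)
      (x := (⟨x 8, hx 8⟩ : D 8)) (fun h' => hx0 8 (congrArg Subtype.val h')) ⟨z, hz⟩
    refine hzb ?_
    show bform hQ z (x 8) = 0
    rw [← show c • x 8 = z from congrArg Subtype.val hc, map_smul, LinearMap.smul_apply, b_self hQ, h, mul_zero,
      smul_zero]
  have hxy : bform hQ (x 8) y = 0 := hD.decomp.orthogonal 8 9 (by decide) _ (hx 8) _ (φ ⟨x 8, hx 8⟩).2
  have hperp : ∀ (i : Fin 10) (v : ι → F), 8 ≤ (i : ℕ) → v ∈ D i → v ∈ perp hQ U := by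
    intro i v hi hv
    refine (mem_perp hQ).2 fun u hu => ?_
    have hle : (Finset.univ.image ![(0 : Fin 10), 1, 2, 3] ∪ Finset.univ.image ![(4 : Fin 10), 5, 6, 7]).sup D ≤
        LinearMap.ker ((bform hQ).flip v) := Finset.sup_le fun j hj w hw =>
      hD.decomp.orthogonal j i (fun h => by
        have h8 : ∀ j ∈ Finset.univ.image ![(0 : Fin 10), 1, 2, 3] ∪ Finset.univ.image ![(4 : Fin 10), 5, 6, 7],
            (j : ℕ) < 8 := by decide
        have := h8 j hj
        rw [h] at this
        omega) w hw v hv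
    exact hle (hU hu)
  have hli : LinearIndependent F ![x 8, y] := (LinearIndependent.pair_iff' (hx0 8)).2 fun c hc => hQ8 (by
    have h' : bform hQ (x 8) y = c * (2 * Q (x 8)) := by rw [← hc, map_smul, smul_eq_mul, b_self hQ]
    rw [hxy] at h'
    rcases mul_eq_zero.1 h'.symm with h | h
    · rw [← hyQ, ← hc, h, zero_smul, q_zero hQ]
    · exact (mul_eq_zero.1 h).resolve_left h2)
  by_contra h4
  have hPd : finrank F (Submodule.span F ({x 8, y} : Set (ι → F))) = 2 := by
    have h := finrank_span_eq_card hli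
    rwa [Matrix.range_cons_cons_empty, Fintype.card_fin] at h
  refine false_of_aniso_rest hQ hplus hts (by omega) (Submodule.span_le.2 ?_) hPd fun p hp hp0 => ?_
  · rintro v (rfl | rfl)
    · exact hperp 8 _ le_rfl (hx 8)
    · exact hperp 9 _ (by decide) (φ ⟨x 8, hx 8⟩).2
  obtain ⟨a, b, rfl⟩ := Submodule.mem_span_pair.1 hp
  rw [q_add hQ, q_smul hQ, q_smul hQ, hyQ, map_smul, map_smul, LinearMap.smul_apply, hxy, smul_zero, smul_zero,
    add_zero, ← add_mul] at hp0
  have hab : a ^ 2 + b ^ 2 = 0 := (mul_eq_zero.1 hp0).resolve_right hQ8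
  by_cases hb : b = 0
  · rw [hb] at hab ⊢
    have ha : a = 0 := by simpa using hab
    rw [ha]; simp
  · have hsq : IsSquare (-1 : F) := ⟨a / b, by field_simp; linear_combination -hab⟩
    have h3 := FiniteField.isSquare_neg_one_iff.1 hsq
    obtain ⟨m, hm⟩ := hodd
    omega

/-- Five isometric planes have plus type. -/
theorem planes_plus {D : Fin 5 → Submodule F (ι → F)} (hD : Geo.IsOrthogonalMDecomposition Q 2 D) :
    ∀ i, Geo.IsPlusTypeOn Q (D i) := by
  classical
  intro i
  by_contra hi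
  have h4 : ¬ Geo.IsPlusTypeOn Q (D 4) := fun h => hi (plus_of_isometric (hD.isometric 4 i) h)
  obtain ⟨U, hU, hts, hUd⟩ := pieceTS_union hQ hD (J := {0, 1}) (K := {2, 3}) (by decide)
    (pieceTS_pair hQ hD even_two (by decide)) (pieceTS_pair hQ hD even_two (by decide))
  refine false_of_aniso_rest hQ hplus hts (by omega) (fun v hv => ?_) (hD.decomp.decomp.finrank_eq 4)
    (aniso_of_not_plus hQ (hD.decomp.decomp.finrank_eq 4) h4)
  refine (mem_perp hQ).2 fun u hu => ?_
  have hle : (({0, 1} : Finset (Fin 5)) ∪ {2, 3}).sup D ≤ LinearMap.ker ((bform hQ).flip v) :=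
    Finset.sup_le fun j hj w hw =>
      hD.decomp.orthogonal j 4 (fun h => by subst h; revert hj; decide) w hw v hv
  exact hle (hU hu)

end CfsgLib.Aschbacher.OrthTen
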