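import Mathlib
import Cfsg.Agent.Aschbacher.OrthTenPlus

/-!
Assembling the list of maximal subgroups of Omega of plus type in dimension ten.
-/

set_option autoImplicit false
set_option linter.unusedSectionVars false
set_option linter.style.haveILetI false

namespace CfsgLib.Aschbacher.OrthTen

open Matrix Cfsg Module CfsgLib.OrthGeo CfsgLib.Aschbacher CfsgLib.Aschbacher.OrthEven
  CfsgLib.Aschbacher.Centre

variable {F : Type*} [Field F] [Fintype F] {Q : (Fin 10 → F) → F}
variable {H : Subgroup (GL (Fin 10) F)}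

/-- The geometric and residual possibilities in dimension ten, plus type. -/
def TenPlus (Q : (Fin 10 → F) → F) (H : Subgroup (GL (Fin 10) F)) : Prop :=
    (∃ W : Submodule F (Fin 10 → F), W ≠ ⊥ ∧ Geo.IsTotallySingularQuad Q W ∧ finrank F W ≠ 4 ∧ H = Geo.subspaceStabilizer W ⊓ Geo.omegaGL Q) ∨
    (Odd (Fintype.card F) ∧ ∃ W : Submodule F (Fin 10 → F), W ≠ ⊥ ∧ W ≠ ⊤ ∧ Odd (finrank F W) ∧ 2 * finrank F W ≠ 10 ∧ Geo.IsNondegenerateOn (QuadraticMap.polar Q) W ∧ H = Geo.subspaceStabilizer W ⊓ Geo.omegaGL Q) ∨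
    (∃ W : Submodule F (Fin 10 → F), finrank F W = 2 ∧ Geo.IsNondegenerateOn (QuadraticMap.polar Q) W ∧ ¬ Geo.IsPlusTypeOn Q W ∧ H = Geo.subspaceStabilizer W ⊓ Geo.omegaGL Q) ∨
    (4 ≤ Fintype.card F ∧ ∃ W : Submodule F (Fin 10 → F), finrank F W = 2 ∧ Geo.IsNondegenerateOn (QuadraticMap.polar Q) W ∧ Geo.IsPlusTypeOn Q W ∧ H = Geo.subspaceStabilizer W ⊓ Geo.omegaGL Q) ∨
    (∃ W : Submodule F (Fin 10 → F), finrank F W = 4 ∧ Geo.IsNondegenerateOn (QuadraticMap.polar Q) W ∧ H = Geo.subspaceStabilizer W ⊓ Geo.omegaGL Q) ∨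
    (¬ Odd (Fintype.card F) ∧ ∃ v : (Fin 10 → F), Q v ≠ 0 ∧ H = Geo.subspaceStabilizer (Submodule.span F {v}) ⊓ Geo.omegaGL Q) ∨
    ((∃ p : ℕ, p.Prime ∧ Fintype.card F = p ∧ (p % 4 = 1)) ∧ ∃ D : Fin 10 → Submodule F (Fin 10 → F), Geo.IsOrthogonalMDecomposition Q 1 D ∧ H = Geo.decompositionStabilizer D ⊓ Geo.omegaGL Q) ∨
    (7 ≤ Fintype.card F ∧ ∃ D : Fin 5 → Submodule F (Fin 10 → F), Geo.IsOrthogonalMDecomposition Q 2 D ∧ H = Geo.decompositionStabilizer D ⊓ Geo.omegaGL Q) ∨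
    (Fintype.card F % 4 = 1 ∧ ∃ D : Fin 2 → Submodule F (Fin 10 → F), Geo.IsOrthogonalMDecomposition Q 5 D ∧ H = Geo.decompositionStabilizer D ⊓ Geo.omegaGL Q) ∨
    (Fintype.card F % 4 = 3 ∧ ∃ D : Fin 2 → Submodule F (Fin 10 → F), Geo.IsNondegenerateMDecomposition (QuadraticMap.polar Q) 5 D ∧ ¬ Geo.AreIsometricFor Q (D 0) (D 1) ∧ H = Geo.decompositionStabilizer D ⊓ Geo.omegaGL Q) ∨
    (Odd (Fintype.card F) ∧ ∃ K : Subalgebra F (Matrix (Fin 10) (Fin 10) F), Geo.IsFieldSubalgebra 2 K ∧ Geo.IsSelfAdjointFor (QuadraticMap.polar Q) K ∧ H = Geo.subalgebraNormalizer K ⊓ Geo.omegaGL Q) ∨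
    (∃ (F₀ : Subfield F) (r : ℕ) (P : GL (Fin 10) F) (ζ : F), r.Prime ∧ Fintype.card F = Nat.card F₀ ^ r ∧ ζ ≠ 0 ∧ Geo.IsQuadFormRationalStructure (fun v : Fin 10 → F => ζ * Q v) F₀ P ∧ H = Geo.subfieldSubgroup F₀ P ⊓ Geo.omegaGL Q) ∨
    Geo.InOrthogonalResidualClass H

variable (hQ : Geo.IsNondegenerateQuadraticForm Q)
include hQ

omit hQ in
theorem tenPlus_of_subfield (h : SubfieldClause Q H) : TenPlus Q H :=
  Or.inr <| Or.inr <| Or.inr <| Or.inr <| Or.inr <| Or.inr <| Or.inr <| Or.inr <| Or.inr <| Or.inr <|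
    Or.inr <| Or.inl h

theorem ten_seven : 7 ≤ Fintype.card (Fin 10) := by simp

variable (hplus : Geo.IsPlusTypeOn Q ⊤) (hH : Geo.IsMaximalIn (Geo.omegaGL Q) H)
include hplus hH

theorem tenPlus_of_frame (h : FrameClause 10 Q H) : TenPlus Q H := by
  obtain ⟨⟨p, hp, hodd, hcard⟩, D, hD, heq⟩ := h
  refine Or.inr <| Or.inr <| Or.inr <| Or.inr <| Or.inr <| Or.inr <| Or.inl ⟨⟨p, hp, hcard, ?_⟩, D, hD, heq⟩
  rw [← hcard]
  exact lines_square hQ hplus (Fintype.card_fin 10) (hcard ▸ hodd) hD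

theorem tenPlus_of_ts {W : Submodule F (Fin 10 → F)} (h0 : W ≠ ⊥) (hts : Geo.IsTotallySingularQuad Q W)
    (hle : H ≤ Geo.subspaceStabilizer W) : TenPlus Q H := by
  have hn := ten_seven hQ
  have h5 := two_mul_finrank_le hQ hts
  rw [Fintype.card_fin] at h5
  have hW1 : W ≠ ⊤ := fun h => by
    rw [h, finrank_top, finrank_fintype_fun_eq_card, Fintype.card_fin] at h5; omega
  by_cases h4 : finrank F W = 4
  · obtain ⟨U, hU, hle'⟩ := exists_maxTS_stable hQ hplus hts (by rw [h4, Fintype.card_fin])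
    have hUd := hU.two_mul
    rw [Fintype.card_fin] at hUd
    have hU0 : U ≠ ⊥ := fun h => by rw [h, finrank_bot] at hUd; omega
    have hU1 : U ≠ ⊤ := fun h => by
      rw [h, finrank_top, finrank_fintype_fun_eq_card, Fintype.card_fin] at hUd; omega
    exact Or.inl ⟨U, hU0, hU.singular, by omega,
      eq_inf_of_le hH (fun g hg => hle' ⟨hle hg, hH.1.le hg⟩) (not_le_subspace hQ hn hU0 hU1)⟩
  · exact Or.inl ⟨W, h0, hts, h4, eq_inf_of_le hH hle (not_le_subspace hQ hn h0 hW1)⟩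

theorem tenPlus_of_point {v : Fin 10 → F} (hv : Q v ≠ 0)
    (hle : H ≤ Geo.subspaceStabilizer (Submodule.span F {v})) : TenPlus Q H := by
  have hn := ten_seven hQ
  have heq := eq_inf_of_le hH hle (not_le_point hQ hn hv)
  have hv0 : v ≠ 0 := fun h => hv (h ▸ q_zero hQ)
  by_cases hodd : Odd (Fintype.card F)
  · refine Or.inr <| Or.inl ⟨hodd, _, fun h => hv0 ((Submodule.eq_bot_iff _).1 h v
      (Submodule.mem_span_singleton_self v)), fun h => ?_, by rw [finrank_span_singleton hv0]; exact odd_one,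
      by rw [finrank_span_singleton hv0]; omega, fun w hw hw0 => ?_, heq⟩
    · have := finrank_span_singleton (K := F) hv0
      rw [h, finrank_top, finrank_fintype_fun_eq_card, Fintype.card_fin] at this
      omega
    · obtain ⟨c, rfl⟩ := Submodule.mem_span_singleton.1 hw
      have hc : c ≠ 0 := fun h => hw0 (by rw [h, zero_smul])
      have hb : bform hQ v (c • v) ≠ 0 := by
        rw [map_smul, b_self hQ, smul_eq_mul]
        exact mul_ne_zero hc (mul_ne_zero (two_ne_zero_of_odd_card hodd) hv)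
      exact ⟨⟨v, Submodule.mem_span_singleton_self v, hb⟩, v, Submodule.mem_span_singleton_self v,
        fun h => hb ((b_symm hQ _ _).trans h)⟩
  · exact Or.inr <| Or.inr <| Or.inr <| Or.inr <| Or.inr <| Or.inl ⟨hodd, v, hv, heq⟩

theorem tenPlus_of_five (hodd : Odd (Fintype.card F)) {W : Submodule F (Fin 10 → F)}
    (hW : Geo.IsNondegenerateOn (QuadraticMap.polar Q) W) (hd : finrank F W = 5)
    (hle : H ≤ Geo.subspaceStabilizer W) : TenPlus Q H := by
  have hn := ten_seven hQ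
  have hI : H ≤ Cfsg.isometryGroup F Q := hH.1.le.trans omegaGL_le
  have hW' := AschPrime.orth_perp_nondeg hQ hW
  have hinf := AschPrime.orth_inf_eq_bot_of_nondeg hQ hW
  have hsup := AschPrime.orth_sup_eq_top hQ hW
  have hdis : Disjoint W (perp hQ W) := disjoint_iff.2 hinf
  have ho : ∀ a ∈ W, ∀ b ∈ perp hQ W, bform hQ a b = 0 := fun a ha b hb => (mem_perp hQ).1 hb a ha
  have hd' : finrank F (perp hQ W) = 5 := by
    have := finrank_perp_add hQ W; rw [Fintype.card_fin] at this; omega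
  let D : Fin 2 → Submodule F (Fin 10 → F) := ![W, perp hQ W]
  have hND : Geo.IsNondegenerateMDecomposition (QuadraticMap.polar Q) 5 D := by
    refine ⟨⟨le_rfl, by norm_num, Fin.forall_fin_two.2 ⟨hd, hd'⟩, ?_, ?_⟩, Fin.forall_fin_two.2 ⟨hW, hW'⟩, ?_⟩
    · refine indep_of_orth hQ (Fin.forall_fin_two.2 ⟨hW, hW'⟩)
        (Fin.forall_fin_two.2 ⟨Fin.forall_fin_two.2 ⟨fun h => absurd rfl h, fun _ => ho⟩,
          Fin.forall_fin_two.2 ⟨fun _ u hu v hv => (b_symm hQ _ _).trans (ho v hv u hu), fun h => absurd rfl h⟩⟩)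
    · rw [eq_top_iff, ← hsup]
      exact sup_le (le_iSup D 0) (le_iSup D 1)
    · exact Fin.forall_fin_two.2 ⟨Fin.forall_fin_two.2 ⟨fun h => absurd rfl h, fun _ => ho⟩,
        Fin.forall_fin_two.2 ⟨fun _ u hu v hv => (b_symm hQ _ _).trans (ho v hv u hu), fun h => absurd rfl h⟩⟩
  have hleD : H ≤ Geo.decompositionStabilizer D := by
    intro g hg
    have hmap : ∀ S : Submodule F (Fin 10 → F), g ∈ Geo.subspaceStabilizer S →
        S.map (Matrix.toLin' (g : Matrix (Fin 10) (Fin 10) F)) = S := fun S hS => by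
      refine Submodule.eq_of_le_of_finrank_eq ?_
        (Submodule.equivMapOfInjective _ (toLin'_injective g) S).finrank_eq.symm
      rintro _ ⟨x, hx, rfl⟩
      rw [Matrix.toLin'_apply]
      exact (hS x).1 hx
    exact ⟨1, Fin.forall_fin_two.2 ⟨hmap _ (hle hg), hmap _ (AschPrime.stabilizer_perp hQ (hI hg) (hle hg))⟩⟩
  have heq := eq_inf_of_le hH hleD (OrthEven.not_le_decompositionStabilizer hQ hn hND.decomp)
  have h10 : Fintype.card (Fin 10) = 10 := Fintype.card_fin 10
  by_cases h1 : Fintype.card F % 4 = 1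
  · refine Or.inr <| Or.inr <| Or.inr <| Or.inr <| Or.inr <| Or.inr <| Or.inr <| Or.inr <| Or.inl
      ⟨h1, D, ⟨hND, ?_⟩, heq⟩
    exact Fin.forall_fin_two.2 ⟨Fin.forall_fin_two.2 ⟨⟨LinearEquiv.refl F _, fun _ => rfl⟩,
        five_isometric hQ hplus h10 h1 hW hW' hd hd' hdis ho⟩,
      Fin.forall_fin_two.2 ⟨five_isometric hQ hplus h10 h1 hW' hW hd' hd hdis.symm
          (fun a ha b hb => (b_symm hQ _ _).trans (ho b hb a ha)), ⟨LinearEquiv.refl F _, fun _ => rfl⟩⟩⟩
  · refine Or.inr <| Or.inr <| Or.inr <| Or.inr <| Or.inr <| Or.inr <| Or.inr <| Or.inr <| Or.inr <| Or.inl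
      ⟨by obtain ⟨m, hm⟩ := hodd; omega, D, hND,
        fun hiso => h1 (five_mod_four hQ hplus h10 hodd hW hd hdis ho hiso), heq⟩

theorem tenPlus_of_nondeg {W : Submodule F (Fin 10 → F)} (h0 : W ≠ ⊥) (h1 : W ≠ ⊤)
    (hW : Geo.IsNondegenerateOn (QuadraticMap.polar Q) W) (hd : finrank F W ≤ 5)
    (hle : H ≤ Geo.subspaceStabilizer W) : TenPlus Q H := by
  have hn := ten_seven hQ
  have hI : H ≤ Cfsg.isometryGroup F Q := hH.1.le.trans omegaGL_le
  have heq := eq_inf_of_le hH hle (not_le_subspace hQ hn h0 h1)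
  have hpos : 0 < finrank F W := Nat.pos_of_ne_zero fun h => h0 (Submodule.finrank_eq_zero.1 h)
  rcases (show finrank F W = 4 ∨ finrank F W = 2 ∨ Odd (finrank F W) by
    rw [Nat.odd_iff]; omega) with h4 | h2d | ho
  · exact Or.inr <| Or.inr <| Or.inr <| Or.inr <| Or.inl ⟨W, h4, hW, heq⟩
  · by_cases hp : Geo.IsPlusTypeOn Q W
    swap
    · exact Or.inr <| Or.inr <| Or.inl ⟨W, h2d, hW, hp, heq⟩
    by_cases hq : 4 ≤ Fintype.card F
    · exact Or.inr <| Or.inr <| Or.inr <| Or.inl ⟨hq, W, h2d, hW, hp, heq⟩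
    obtain ⟨r, e, f, W₀, hdec, -, h | h⟩ := exists_type_decomp hQ hW (h2d ▸ even_two)
    swap
    · exact absurd hp h.2
    have hr : r = 1 := by have := hdec.dim; omega
    subst hr
    set v := e 0 + f 0
    have hef : bform hQ (e 0) (f 0) = 1 := (hdec.ef 0 0).trans (if_pos rfl)
    have hQe : Q (e 0) = 0 := hdec.qe 0
    have hQf : Q (f 0) = 0 := hdec.qf 0
    have hQv : Q v = 1 := by rw [q_add hQ, hQe, hQf, hef, zero_add, zero_add]
    refine tenPlus_of_point hQ hplus hH (v := v) (by rw [hQv]; exact one_ne_zero) fun g hg =>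
      mem_subspaceStabilizer_of_mapsTo fun x hx => ?_
    obtain ⟨c, rfl⟩ := Submodule.mem_span_singleton.1 hx
    rw [Matrix.mulVec_smul]
    refine Submodule.smul_mem _ _ ?_
    have hgv : (g : Matrix (Fin 10) (Fin 10) F) *ᵥ v ∈ W :=
      (hle hg v).1 (W.add_mem (hdec.e_mem 0) (hdec.f_mem 0))
    have hsp := hdec.span hgv
    rw [Submodule.finrank_eq_zero.1 h.1, sup_bot_eq, Set.range_unique, Set.range_unique,
      Set.singleton_union, Submodule.mem_span_pair] at hsp
    obtain ⟨a, b, hab⟩ := hsp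
    have hval := mem_isometryGroup.1 (hI hg) v
    rw [hQv, ← hab, q_add hQ, q_smul hQ, q_smul hQ, map_smul, map_smul, LinearMap.smul_apply] at hval
    change a ^ 2 * Q (e 0) + b ^ 2 * Q (f 0) + b • a • bform hQ (e 0) (f 0) = 1 at hval
    rw [hQe, hQf, hef, smul_eq_mul, smul_eq_mul, mul_zero, mul_zero, zero_add, zero_add, mul_one] at hval
    have ha : a ≠ 0 := fun h => by rw [h, mul_zero] at hval; exact zero_ne_one hval
    have haa : a * a = 1 := by
      have hpw := FiniteField.pow_card_sub_one_eq_one a ha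
      have h2' : 1 < Fintype.card F := Fintype.one_lt_card
      obtain h | h : Fintype.card F = 2 ∨ Fintype.card F = 3 := by omega
      · rw [h] at hpw; norm_num at hpw; rw [hpw, mul_one]
      · rw [h, show (3 : ℕ) - 1 = 2 from rfl, sq] at hpw; exact hpw
    have hba : b = a := mul_right_cancel₀ ha (hval.trans haa.symm)
    rw [← hab, hba]
    exact Submodule.mem_span_singleton.2 ⟨a, smul_add _ _ _⟩
  · have hodd := odd_card_of_odd_nondeg hQ hW ho
    by_cases h5 : finrank F W = 5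
    · exact tenPlus_of_five hQ hplus hH hodd hW h5 hle
    · exact Or.inr <| Or.inl ⟨hodd, W, h0, h1, ho, by omega, hW, heq⟩

theorem tenPlus_of_subspace {W : Submodule F (Fin 10 → F)} (h0 : W ≠ ⊥) (h1 : W ≠ ⊤)
    (hle : H ≤ Geo.subspaceStabilizer W) : TenPlus Q H := by
  have hI : H ≤ Cfsg.isometryGroup F Q := hH.1.le.trans omegaGL_le
  rcases subspace_trichotomy hQ hI h1 hle with ⟨R, hR0, -, hR, hts⟩ | hnd | ⟨-, v, hv, hR⟩
  · exact tenPlus_of_ts hQ hplus hH hR0 hts hR
  · have hWn := AschPrime.orth_nondeg_of_inf_eq_bot hQ hnd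
    by_cases hd : finrank F W ≤ 5
    · exact tenPlus_of_nondeg hQ hplus hH h0 h1 hWn hd hle
    refine tenPlus_of_nondeg hQ hplus hH (W := perp hQ W) (fun h => h1 ?_) (fun h => h0 ?_)
      (AschPrime.orth_perp_nondeg hQ hWn) ?_ fun g hg => AschPrime.stabilizer_perp hQ (hI hg) (hle hg)
    · rw [← AschPrime.orth_sup_eq_top hQ hWn, h, sup_bot_eq]
    · rw [← hnd, h, inf_top_eq]
    · have := finrank_perp_add hQ W; rw [Fintype.card_fin] at this; omega
  · exact tenPlus_of_point hQ hplus hH hv hR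

/-- The list in dimension ten, plus type. -/
theorem ten_plus_cases : TenPlus Q H := by
  classical
  have hn := ten_seven hQ
  have h10 : Fintype.card (Fin 10) = 10 := Fintype.card_fin 10
  by_cases hirr : Geo.ActsIrreducibly (Geo.matrixSet H)
  swap
  · simp only [Geo.ActsIrreducibly, not_forall, not_or] at hirr
    obtain ⟨W, hW, hW0, hW1⟩ := hirr
    exact tenPlus_of_subspace hQ hplus hH hW0 hW1 fun g hg => mem_subspaceStabilizer_of_mapsTo fun v hv =>
      hW _ ⟨g, hg, rfl⟩ ⟨v, hv, Matrix.toLin'_apply _ _⟩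
  have hpp : ∀ r k : ℕ, r.Prime → Fintype.card (Fin 10) ≠ r ^ k := fun r k hr h => by
    rw [h10] at h
    have e2 := (Nat.prime_dvd_prime_iff_eq Nat.prime_two hr).1
      (Nat.prime_two.dvd_of_dvd_pow (h ▸ (by norm_num : 2 ∣ 10)))
    have e5 := (Nat.prime_dvd_prime_iff_eq (by norm_num) hr).1
      (Nat.Prime.dvd_of_dvd_pow (by norm_num) (h ▸ (by norm_num : 5 ∣ 10)))
    omega
  have hpow : ∀ d k : ℕ, 2 ≤ k → Fintype.card (Fin 10) ≠ d ^ k := fun d k hk h => by
    rw [h10] at h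
    have h4 : d ≤ 3 := by
      by_contra hd
      have : 4 ^ 2 ≤ d ^ k := (Nat.pow_le_pow_left (by omega) 2).trans (Nat.pow_le_pow_right (by omega) hk)
      omega
    have hk4 : k ≤ 3 ∨ d ≤ 1 := by
      by_contra hc
      have : 2 ^ 4 ≤ d ^ k := (Nat.pow_le_pow_left (by omega) 4).trans (Nat.pow_le_pow_right (by omega) (by omega))
      omega
    rcases hk4 with hk4 | hd
    · interval_cases d <;> interval_cases k <;> omega
    · interval_cases d
      · rw [zero_pow (by omega)] at h; omega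
      · rw [one_pow] at h; omega
  rcases orth_even_composite hQ hn hH hpp hpow with
    ⟨W, h0, hts, heq⟩ | ⟨W, h0, h1, hW, hd, -, heq⟩ | ⟨hq, v, hv, heq⟩ |
    ⟨t, k, D, htk, ht, hko, hD, heq⟩ | ⟨k, D, hD, hk, hts, heq⟩ |
    ⟨r, K, hr, hrd, hK, hsa, heq⟩ | ⟨K, hK, -, hnsa, hsim, -⟩ |
    ⟨a, b, e, P, f₁, f₂, -, -, ⟨x, hx⟩, ⟨y, hy⟩, hab, -⟩ |
    ⟨-, a, b, e, P, f₁, f₂, ha, hb, hab, -⟩ | hsub | hres
  · exact tenPlus_of_ts hQ hplus hH h0 hts (heq.le.trans inf_le_left)
  · exact tenPlus_of_nondeg hQ hplus hH h0 h1 hW (by omega) (heq.le.trans inf_le_left)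
  · exact tenPlus_of_point hQ hplus hH hv (heq.le.trans inf_le_left)
  · have hle : H ≤ Geo.decompositionStabilizer D := heq.le.trans inf_le_left
    have hkd : k ∣ 10 := ⟨t, by rw [← h10, ← htk, mul_comm]⟩
    have hk5 : k ≤ 5 := by nlinarith
    have hk0 := hD.decomp.decomp.pos
    interval_cases k <;> first | omega | skip
    · -- ten lines
      rcases lines_frame hQ hn hH hD hle htk rfl (two_ne_zero_of_odd_card (hko odd_one)) h10 with h | h
      exacts [tenPlus_of_frame hQ hplus hH h, tenPlus_of_subfield h]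
    · -- five planes
      obtain rfl : t = 5 := by omega
      have hp := planes_plus hQ hplus h10 hD
      by_cases h7 : 7 ≤ Fintype.card F
      · exact Or.inr <| Or.inr <| Or.inr <| Or.inr <| Or.inr <| Or.inr <| Or.inr <| Or.inl ⟨h7, D, hD, heq⟩
      by_cases h3 : Fintype.card F ≤ 3
      · exact (plus_planes_false hQ hn hH hD hle htk hirr rfl h3 hp).elim
      rcases (show Fintype.card F = 4 ∨ Fintype.card F = 5 ∨ Fintype.card F = 6 by omega) with h | h | h
      · exact tenPlus_of_subfield (plus_planes_four hQ hn hH hD hle htk rfl h hp)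
      · rcases plus_planes_five hQ hn hH hD hle htk rfl h hp h10 with h' | h'
        exacts [tenPlus_of_frame hQ hplus hH h', tenPlus_of_subfield h']
      · obtain ⟨p, -, n, hp', hc⟩ := FiniteField.card' (K := F)
        rw [h] at hc
        have e2 := (Nat.prime_dvd_prime_iff_eq Nat.prime_two hp').1
          (Nat.prime_two.dvd_of_dvd_pow (hc ▸ (by norm_num : 2 ∣ 6)))
        have e3 := (Nat.prime_dvd_prime_iff_eq (by norm_num) hp').1
          (Nat.Prime.dvd_of_dvd_pow (by norm_num) (hc ▸ (by norm_num : 3 ∣ 6)))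
        omega
    · -- two five-spaces
      obtain rfl : t = 2 := by omega
      have h1 := five_mod_four hQ hplus h10 (hko (by decide)) (hD.decomp.nondegenerate 0)
        (hD.decomp.decomp.finrank_eq 0) (hD.decomp.decomp.indep.pairwiseDisjoint (by decide : (0 : Fin 2) ≠ 1))
        (hD.decomp.orthogonal 0 1 (by decide)) (hD.isometric 0 1)
      exact Or.inr <| Or.inr <| Or.inr <| Or.inr <| Or.inr <| Or.inr <| Or.inr <| Or.inr <| Or.inl
        ⟨h1, D, hD, heq⟩
  · -- totally singular halves: each is fixed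
    obtain rfl : k = 5 := by omega
    have hU : IsMaxTS Q (D 0) := ⟨hts 0, by rw [hD.finrank_eq, h10]⟩
    have h0 : D 0 ≠ ⊥ := fun h => by
      have := hD.finrank_eq 0
      rw [h, finrank_bot] at this
      omega
    refine tenPlus_of_ts hQ hplus hH h0 (hts 0) fun g hg => ?_
    obtain ⟨π, hπ⟩ := (heq.le hg).1
    have h01 : π 0 = 0 := by
      by_contra hne
      have hpar := omega_preserves_class hQ hU (hH.1.le hg)
      rw [show imgSub g (D 0) = D (π 0) from hπ 0,
        disjoint_iff.1 (hD.indep.pairwiseDisjoint (Ne.symm hne)), finrank_bot, hD.finrank_eq] at hpar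
      exact absurd hpar (by decide)
    refine mem_subspaceStabilizer_of_mapsTo fun v hv => ?_
    rw [← h01, ← hπ 0]
    exact ⟨v, hv, Matrix.toLin'_apply _ _⟩
  · -- self-adjoint fields
    rw [h10] at hrd
    have hr10 := Nat.le_of_dvd (by norm_num) hrd
    have hr2 := hr.two_le
    interval_cases r <;> first | omega | (norm_num at hr; done) | skip
    · by_cases hodd : Odd (Fintype.card F)
      · exact Or.inr <| Or.inr <| Or.inr <| Or.inr <| Or.inr <| Or.inr <| Or.inr <| Or.inr <| Or.inr <| Or.inr <|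
          Or.inl ⟨hodd, K, hK, hsa, heq⟩
      · exfalso
        have hs := OrthEven.symplectic_polar hQ (Symp.two_eq_zero_of_not_odd hodd)
        have h4 := Forms.two_mul_dvd_finrank hs hK hsa (Forms.alternating_of_selfAdjoint hs hK hsa) ⊤
          (fun w _ hw => by
            obtain ⟨⟨x, hx⟩, ⟨y, hy⟩⟩ := hs.nondegenerate w hw
            exact ⟨⟨x, trivial, hx⟩, ⟨y, trivial, hy⟩⟩) (fun k _ v _ => trivial)
        rw [finrank_top, finrank_fintype_fun_eq_card, h10] at h4
        omega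
    · obtain ⟨v, hv0, hv⟩ := exists_singular_line hQ hplus (by rw [h10]; norm_num) (r := 5) (by decide) h10.symm
        hK hsa
      haveI : Nonempty (Fin 10) := ⟨0⟩
      let ev : K →ₗ[F] (Fin 10 → F) :=
        { toFun := fun k => (k : Matrix (Fin 10) (Fin 10) F) *ᵥ v
          map_add' := fun k l => Matrix.add_mulVec _ _ _
          map_smul' := fun c k => Matrix.smul_mulVec _ _ _ }
      have hkill : ∀ (k : K) (z : Fin 10 → F), z ≠ 0 → (k : Matrix (Fin 10) (Fin 10) F) *ᵥ z = 0 → k = 0 := by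
        intro k z hz hkz
        by_contra hk0
        obtain ⟨y, hy, hky⟩ := hK.inv _ k.2 fun h => hk0 (Subtype.ext h)
        refine hz ?_
        rw [← Matrix.one_mulVec z, ← hky, hK.comm _ k.2 y hy, ← Matrix.mulVec_mulVec, hkz, Matrix.mulVec_zero]
      have hinj : Function.Injective ev := (injective_iff_map_eq_zero ev).2 fun k hk => hkill k v hv0 hk
      set L := LinearMap.range ev
      have hLts : Geo.IsTotallySingularQuad Q L := by rintro _ ⟨k, rfl⟩; exact hv _ k.2
      have hLd : finrank F L = 5 := by rw [LinearMap.finrank_range_of_inj hinj, hK.finrank_eq]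
      have hU : IsMaxTS Q L := ⟨hLts, by rw [hLd, h10]⟩
      have hL0 : L ≠ ⊥ := fun h => by rw [h, finrank_bot] at hLd; omega
      refine tenPlus_of_ts hQ hplus hH hL0 hLts fun g hg => ?_
      have hgK : g ∈ Geo.subalgebraNormalizer K := (heq.le hg).1
      set u := (g : Matrix (Fin 10) (Fin 10) F) *ᵥ v
      have hgL : ∀ x ∈ L, ∃ k : K, (g : Matrix (Fin 10) (Fin 10) F) *ᵥ x = (k : Matrix _ _ F) *ᵥ u := by
        rintro _ ⟨k, rfl⟩
        refine ⟨⟨_, (hgK _).1 k.2⟩, ?_⟩
        show (g : Matrix (Fin 10) (Fin 10) F) *ᵥ ((k : Matrix _ _ F) *ᵥ v) = _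
        simp only [u, Matrix.mulVec_mulVec]
        rw [mul_assoc, mul_assoc, ← Units.val_mul g⁻¹ g, inv_mul_cancel, Units.val_one, mul_one]
      obtain ⟨x, hx, hxL, hx0⟩ : ∃ x ∈ L, (g : Matrix (Fin 10) (Fin 10) F) *ᵥ x ∈ L ∧ x ≠ 0 := by
        by_contra! hall
        have hpar := omega_preserves_class hQ hU (hH.1.le hg)
        rw [show L ⊓ imgSub g L = ⊥ from (Submodule.eq_bot_iff _).2 fun y hy => by
          obtain ⟨x, hx, rfl⟩ := mem_imgSub.1 hy.2
          rw [hall x hx hy.1, Matrix.mulVec_zero], finrank_bot, hLd] at hpar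
        exact absurd hpar (by decide)
      obtain ⟨k, hk⟩ := hgL x hx
      have hk0 : k ≠ 0 := fun h => hx0 (CfsgLib.Aschbacher.mulVec_inj g (by
        show (g : Matrix (Fin 10) (Fin 10) F) *ᵥ x = (g : Matrix (Fin 10) (Fin 10) F) *ᵥ 0
        rw [hk, h, Matrix.mulVec_zero]; exact Matrix.zero_mulVec _))
      obtain ⟨y, hy, hky⟩ := hK.inv _ k.2 fun h => hk0 (Subtype.ext h)
      obtain ⟨l, hl⟩ := hxL
      have huL : ∀ m : K, (m : Matrix (Fin 10) (Fin 10) F) *ᵥ u ∈ L := fun m => by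
        refine ⟨m * ⟨y, hy⟩ * l, ?_⟩
        show ((m : Matrix (Fin 10) (Fin 10) F) * y * (l : Matrix (Fin 10) (Fin 10) F)) *ᵥ v = _
        rw [← Matrix.mulVec_mulVec, show (l : Matrix (Fin 10) (Fin 10) F) *ᵥ v = _ from hl, hk,
          Matrix.mulVec_mulVec, mul_assoc, hK.comm y hy _ k.2, hky, mul_one]
      exact mem_subspaceStabilizer_of_mapsTo fun z hz => by
        obtain ⟨m, hm⟩ := hgL z hz
        rw [hm]; exact huL m
  · -- unitary groups do not live in plus type
    exfalso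
    obtain ⟨j, hjK, hjns⟩ : ∃ j ∈ K, j ∉ (⊥ : Subalgebra F (Matrix (Fin 10) (Fin 10) F)) := by
      by_contra! hc
      have hfr := hK.finrank_eq
      rw [le_bot_iff.1 (show K ≤ ⊥ from hc), Subalgebra.finrank_bot] at hfr
      omega
    have hspan : ∀ x ∈ K, ∃ s t : F, x = s • (1 : Matrix (Fin 10) (Fin 10) F) + t • j := by
      intro x hx
      have hli : LinearIndependent F ![(1 : Matrix (Fin 10) (Fin 10) F), j] :=
        (LinearIndependent.pair_iff' one_ne_zero).2 fun c hc => hjns (Algebra.mem_bot.2 ⟨c, by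
          rw [Algebra.algebraMap_eq_smul_one]; exact hc⟩)
      have hle : Submodule.span F ({1, j} : Set (Matrix (Fin 10) (Fin 10) F)) ≤ K.toSubmodule :=
        Submodule.span_le.2 (by rintro z (rfl | rfl); exacts [K.one_mem, hjK])
      have heq : Submodule.span F ({1, j} : Set (Matrix (Fin 10) (Fin 10) F)) = K.toSubmodule := by
        refine Submodule.eq_of_le_of_finrank_le hle ?_
        have h := finrank_span_eq_card hli
        rw [Matrix.range_cons_cons_empty, Fintype.card_fin] at h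
        rw [h]
        exact hK.finrank_eq.le
      obtain ⟨s, t, h⟩ := Submodule.mem_span_pair.1 (heq.ge hx)
      exact ⟨s, t, h.symm⟩
    refine false_of_complex hQ hplus (by rw [h10]; norm_num) (J := Matrix.toLin' j)
      ⟨fun v c hvc => ?_, fun v => ?_, ?_, ?_⟩
    · by_contra hv
      have hmem : j - algebraMap F _ c ∈ K := K.sub_mem hjK (K.algebraMap_mem c)
      have hne : j - algebraMap F _ c ≠ 0 := fun h => hjns (Algebra.mem_bot.2 ⟨c, (sub_eq_zero.1 h).symm⟩)
      obtain ⟨y, hy, hy1⟩ := hK.inv _ hmem hne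
      refine hv ?_
      rw [← Matrix.one_mulVec v, ← hy1, hK.comm _ hmem y hy, ← Matrix.mulVec_mulVec, Matrix.sub_mulVec,
        ← Matrix.toLin'_apply j v, hvc, Algebra.algebraMap_eq_smul_one, Matrix.smul_mulVec, Matrix.one_mulVec,
        sub_self, Matrix.mulVec_zero]
    · obtain ⟨s, t, hst⟩ := hspan _ (K.mul_mem hjK hjK)
      refine ⟨s, t, ?_⟩
      rw [Matrix.toLin'_apply, Matrix.toLin'_apply, Matrix.mulVec_mulVec, hst, Matrix.add_mulVec,
        Matrix.smul_mulVec, Matrix.smul_mulVec, Matrix.one_mulVec]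
    · obtain ⟨m, hm⟩ := hsim j hjK
      exact ⟨m, fun v => by rw [Matrix.toLin'_apply]; exact hm v⟩
    · obtain ⟨m, hm⟩ := hsim j hjK
      obtain ⟨m', hm'⟩ := hsim (1 + j) (K.add_mem K.one_mem hjK)
      refine ⟨m' - 1 - m, fun v => ?_⟩
      have h := hm' v
      rw [Matrix.add_mulVec, Matrix.one_mulVec, q_add hQ, hm] at h
      rw [Matrix.toLin'_apply]
      show bform hQ v (j *ᵥ v) = _
      linear_combination h
  · exfalso
    rw [h10, hx, hy] at hab
    have : (x + x) * (y + y) = 4 * (x * y) := by ring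
    omega
  · exfalso
    rw [h10] at hab
    have h3 : a ≤ 3 := by nlinarith
    have : a = 3 := by omega
    subst this
    omega
  · exact tenPlus_of_subfield hsub
  · exact Or.inr <| Or.inr <| Or.inr <| Or.inr <| Or.inr <| Or.inr <| Or.inr <| Or.inr <| Or.inr <| Or.inr <|
      Or.inr <| Or.inr hres

end CfsgLib.Aschbacher.OrthTen
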