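import Mathlib
import Cfsg.Agent.Aschbacher.OrthTenField
import Cfsg.Agent.Aschbacher.OrthEvenMembers

/-!
A field of odd degree acting self-adjointly on a two-dimensional module without singular lines commutes with
an essentially unique rotation; hence its normaliser normalises a quadratic field of similitudes.
-/

set_option autoImplicit false
set_option linter.unusedSectionVars false
set_option linter.style.haveILetI false

namespace CfsgLib.Aschbacher.OrthTenRotation

open Matrix Cfsg Module CfsgLib.OrthGeo CfsgLib.Aschbacher CfsgLib.Aschbacher.OrthEven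
  CfsgLib.Aschbacher.OrthTen CfsgLib.Aschbacher.Forms

variable {ι : Type} [Fintype ι] [DecidableEq ι] {F : Type*} [Field F] [Finite F] {Q : (ι → F) → F}
variable (hQ : Geo.IsNondegenerateQuadraticForm Q)
include hQ

/-- The rotation of an anisotropic plane over an extension of odd degree. -/
theorem exists_rotation_mod
    {A : Type*} [Field A] [Finite A] [Algebra F A] [FiniteDimensional F A] [Module A (ι → F)]
    [IsScalarTower F A (ι → F)] [FiniteDimensional A (ι → F)] (hr : Odd (finrank F A))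
    (hV : finrank A (ι → F) = 2) (hb : ∀ (k : A) (u v : ι → F), bform hQ (k • u) v = bform hQ u (k • v))
    (hno : ∀ v : ι → F, v ≠ 0 → ∃ k : A, Q (k • v) ≠ 0) :
    ∃ (c : F) (J : (ι → F) →ₗ[A] (ι → F)), (∀ t : F, t ^ 2 + t + c ≠ 0) ∧
      (∀ z, J (J z) = J z + (-c) • z) ∧ (∀ v, Q (J v) = c * Q v) ∧ (∀ v, bform hQ v (J v) = Q v) ∧
      ∀ J' : (ι → F) →ₗ[A] (ι → F), (∀ z, J' (J' z) = J' z + (-c) • z) → (∀ v, Q (J' v) = c * Q v) →
        (∀ v, bform hQ v (J' v) = Q v) → J' = J ∨ ∀ z, J' z = z - J z := by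
  classical
  letI : Fintype A := Fintype.ofFinite A
  -- the trace-like functional
  obtain ⟨T, hT0⟩ : ∃ T : A →ₗ[F] F, T ≠ 0 := by
    refine ⟨(Module.finBasis F A).coord ⟨0, Module.finrank_pos⟩, fun h => ?_⟩
    have := LinearMap.congr_fun h ((Module.finBasis F A) ⟨0, Module.finrank_pos⟩)
    simp at this
  let μ : A →ₗ[F] (A →ₗ[F] F) := LinearMap.mk₂ F (fun c s => T (s * c))
    (fun a b s => by rw [mul_add, map_add]) (fun a b s => by rw [mul_smul_comm, map_smul])
    (fun a s s' => by rw [add_mul, map_add]) (fun a b s => by rw [smul_mul_assoc, map_smul])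
  have hμ : Function.Bijective μ := by
    have hinj : Function.Injective μ := (injective_iff_map_eq_zero μ).2 fun c hc => by
      by_contra hc0
      exact hT0 (LinearMap.ext fun s => by
        have := LinearMap.congr_fun hc (s * c⁻¹)
        simpa [μ, mul_assoc, inv_mul_cancel₀ hc0] using this)
    exact ⟨hinj, (LinearMap.injective_iff_surjective_of_finrank_eq_finrank Subspace.dual_finrank_eq.symm).1 hinj⟩
  have huniq : ∀ a a' : A, (∀ k : A, T (k ^ 2 * a) = T (k ^ 2 * a')) → a = a' := by
    intro a a' h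
    refine hμ.1 (LinearMap.ext fun s => ?_)
    show T (s * a) = T (s * a')
    by_cases h2 : (2 : A) = 0
    · obtain ⟨k, hk⟩ := Classical.Orth.isSquare_of_two_eq_zero h2 s
      rw [hk, ← sq]; exact h k
    · have hs : s = ((s + 1) / 2) ^ 2 - ((s - 1) / 2) ^ 2 := by field_simp; ring
      rw [hs, sub_mul, sub_mul, map_sub, map_sub, h, h]
  -- the form over the extension
  have hex : ∀ v : ι → F, ∃ a : A, ∀ k : A, Q (k • v) = T (k ^ 2 * a) := by
    intro v
    by_cases h2 : (2 : F) = 0
    · have h2A : (2 : A) = 0 := by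
        rw [← map_ofNat (algebraMap F A), h2, map_zero]
      choose rt hrt using Classical.Orth.isSquare_of_two_eq_zero (F := A) h2A
      have hsq : ∀ x y : A, x * x = y * y → x = y := fun x y h => by
        rcases mul_self_eq_mul_self_iff.1 h with h | h
        · exact h
        · rw [h]; linear_combination -y * h2A
      have hradd : ∀ s t, rt (s + t) = rt s + rt t := fun s t => hsq _ _ (by
        linear_combination -(hrt (s + t)) + hrt s + hrt t - rt s * rt t * h2A)
      let g : A →ₗ[F] F :=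
        { toFun := fun s => Q (rt s • v)
          map_add' := fun s t => by
            rw [hradd, add_smul, q_add hQ, hb, smul_smul]
            have : bform hQ v ((rt s * rt t) • v) = 0 := by
              rw [hrt (rt s * rt t), mul_smul, ← hb, b_self hQ, h2, zero_mul]
            rw [this, add_zero]
          map_smul' := fun c s => by
            obtain ⟨d, hd⟩ := Classical.Orth.isSquare_of_two_eq_zero h2 c
            rw [RingHom.id_apply, smul_eq_mul, show rt (c • s) = d • rt s from hsq _ _ (by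
              rw [← hrt, smul_mul_smul_comm, ← hd, ← hrt]), smul_assoc, q_smul hQ, sq, ← hd] }
      obtain ⟨a, ha⟩ := hμ.2 g
      refine ⟨a, fun k => ?_⟩
      have h : T (k ^ 2 * a) = Q (rt (k ^ 2) • v) := LinearMap.congr_fun ha (k ^ 2)
      rw [h, show rt (k ^ 2) = k from hsq _ _ (by rw [← hrt, sq])]
    · let g : A →ₗ[F] F :=
        { toFun := fun s => 2⁻¹ * bform hQ (s • v) v
          map_add' := fun s t => by rw [add_smul, map_add, LinearMap.add_apply, mul_add]
          map_smul' := fun c s => by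
            rw [smul_assoc, map_smul, LinearMap.smul_apply, RingHom.id_apply, smul_eq_mul, smul_eq_mul]; ring }
      obtain ⟨a, ha⟩ := hμ.2 g
      refine ⟨a, fun k => ?_⟩
      have h1 : T (k ^ 2 * a) = 2⁻¹ * bform hQ (k ^ 2 • v) v := LinearMap.congr_fun ha (k ^ 2)
      rw [h1, sq, mul_smul, hb, b_self hQ, ← mul_assoc, inv_mul_cancel₀ h2, one_mul]
  choose qv hqv using hex
  have hB : ∀ x y : ι → F, ∃ a : A, ∀ s : A, bform hQ (s • x) y = T (s * a) := fun x y => by
    let g : A →ₗ[F] F :=
      { toFun := fun s => bform hQ (s • x) y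
        map_add' := fun s t => by rw [add_smul, map_add, LinearMap.add_apply]
        map_smul' := fun c s => by rw [smul_assoc, map_smul, LinearMap.smul_apply]; rfl }
    obtain ⟨a, ha⟩ := hμ.2 g
    exact ⟨a, fun s => (LinearMap.congr_fun ha s).symm⟩
  choose Bv hBv using hB
  have hpol : ∀ x y, QuadraticMap.polar qv x y = Bv x y := fun x y => huniq _ _ fun k => by
    simp only [QuadraticMap.polar, mul_sub, map_sub, ← hqv, ← hBv]
    rw [smul_add, q_add hQ, sq, mul_smul, hb k (k • x) y]
    ring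
  have hext : ∀ a a' : A, (∀ s, T (s * a) = T (s * a')) → a = a' :=
    fun a a' h => hμ.1 (LinearMap.ext h)
  have hsmul : ∀ (c : A) x, qv (c • x) = c * c * qv x := fun c x => huniq _ _ fun k => by
    rw [← hqv, smul_smul, hqv]; congr 1; ring
  let q : QuadraticForm A (ι → F) := QuadraticMap.ofPolar qv hsmul
    (fun x x' y => hext _ _ fun s => by
      simp only [hpol, mul_add, map_add, ← hBv, smul_add, LinearMap.add_apply])
    (fun c x y => hext _ _ fun s => by
      simp only [hpol, smul_eq_mul]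
      rw [← hBv, smul_smul, hBv, mul_assoc])
  have hq : ∀ v k, Q (k • v) = T (k ^ 2 * q v) := hqv
  have han : ∀ v, q v = 0 → v = 0 := fun v hv => by
    by_contra h0
    obtain ⟨k, hkv⟩ := hno v h0
    exact hkv (by rw [hq, hv, mul_zero, map_zero])
  have hnd : ∀ v, (∀ w, QuadraticMap.polar q v w = 0) → v = 0 := fun v h => by
    by_contra h0
    obtain ⟨-, w, hw⟩ := hQ.nondegenerate v h0
    refine hw ?_
    have := hBv v w 1
    rw [one_smul, ← hpol, show QuadraticMap.polar qv v w = QuadraticMap.polar q v w from rfl, h, mul_zero,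
      map_zero] at this
    exact this
  obtain ⟨c, hc⟩ := exists_irred_quad (F := F) (K := A) hr
  obtain ⟨b, hb0, hb01, hb1⟩ := exists_normal_plane q hV han hnd hc
  set C := algebraMap F A c
  let J : (ι → F) →ₗ[A] (ι → F) := b.constr A ![b 1, -C • b 0 + b 1]
  have hJ0 : J (b 0) = b 1 := by simp [J]
  have hJ1 : J (b 1) = -C • b 0 + b 1 := by simp [J]
  have hco : ∀ z : ι → F, ∃ x y : A, z = x • b 0 + y • b 1 := fun z =>
    ⟨_, _, (by have := b.sum_repr z; rw [Fin.sum_univ_two] at this; exact this.symm)⟩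
  have hqc : ∀ x y : A, q (x • b 0 + y • b 1) = x * x + x * y + y * y * C := fun x y => by
    rw [QuadraticMap.map_add (f := ⇑q), QuadraticMap.map_smul, QuadraticMap.map_smul,
      QuadraticMap.polar_smul_left, QuadraticMap.polar_smul_right, hb0, hb01, hb1]
    simp only [smul_eq_mul, mul_one]; ring
  have hJc : ∀ x y : A, J (x • b 0 + y • b 1) = (-C * y) • b 0 + (x + y) • b 1 := fun x y => by
    rw [map_add, map_smul, map_smul, hJ0, hJ1]; module
  have hJJ : ∀ z, J (J z) = J z + (-c) • z := fun z => by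
    obtain ⟨x, y, rfl⟩ := hco z
    rw [neg_smul, ← algebraMap_smul A c (x • b 0 + y • b 1), hJc, hJc]
    show _ = _ + -(C • (x • b 0 + y • b 1))
    module
  have hone : ∀ z, Q z = T (q z) := fun z => by
    have := hq z 1; rwa [one_smul, one_pow, one_mul] at this
  have hqJ : ∀ z, q (J z) = C * q z ∧ QuadraticMap.polar q z (J z) = q z := fun z => by
    obtain ⟨x, y, rfl⟩ := hco z
    refine ⟨by rw [hJc, hqc, hqc]; ring, ?_⟩
    rw [QuadraticMap.polar, hJc, show x • b 0 + y • b 1 + ((-C * y) • b 0 + (x + y) • b 1) =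
      (x - C * y) • b 0 + (y + (x + y)) • b 1 by module, hqc, hqc, hqc]
    ring
  have hsim : ∀ v, Q (J v) = c * Q v := fun v => by
    rw [hone, hone, (hqJ v).1, ← Algebra.smul_def, map_smul, smul_eq_mul]
  have hin : ∀ v, bform hQ v (J v) = Q v := fun v => by
    have h := hBv v (J v) 1
    rw [one_smul, one_mul, ← hpol, show QuadraticMap.polar qv v (J v) = QuadraticMap.polar q v (J v) from rfl,
      (hqJ v).2] at h
    rw [h, hone]
  refine ⟨c, J, fun t ht => hc (algebraMap F A t) ?_, hJJ, hsim, hin, fun J' hsq' hsim' hin' => ?_⟩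
  · rw [← map_pow, ← map_add, ← map_add, ht, map_zero]
  have hq' : ∀ z, q (J' z) = C * q z := fun z => huniq _ _ fun k => by
    rw [← hq, ← map_smul J', hsim', hq, show k ^ 2 * (C * q z) = c • (k ^ 2 * q z) by
      rw [Algebra.smul_def]; ring, map_smul, smul_eq_mul]
  have hp' : QuadraticMap.polar q (b 0) (J' (b 0)) = q (b 0) := huniq _ _ fun k => by
    rw [show QuadraticMap.polar q (b 0) (J' (b 0)) = Bv (b 0) (J' (b 0)) from hpol _ _, ← hBv, sq, mul_smul, hb,
      ← map_smul J', hin', hq, sq]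
  obtain ⟨x, y, hxy⟩ := hco (J' (b 0))
  have h1 := hq' (b 0)
  rw [hxy, hqc, hb0, mul_one] at h1
  rw [hxy, QuadraticMap.polar_add_right, QuadraticMap.polar_smul_right, QuadraticMap.polar_smul_right,
    QuadraticMap.polar_self, hb01, hb0] at hp'
  simp only [smul_eq_mul, nsmul_eq_mul, Nat.cast_ofNat, mul_one] at hp'
  have hJb1 : J' (b 1) = J' (J (b 0)) := by rw [hJ0]
  have h4 : (1 : A) - 4 * C ≠ 0 := fun h => by
    by_cases h20 : (2 : A) = 0
    · exact one_ne_zero (α := A) (by linear_combination h + 2 * C * h20)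
    · refine hc (-2⁻¹) ?_
      have h' : (1 : A) - 4 * algebraMap F A c = 0 := h
      field_simp
      linear_combination -h'
  have hcases : (x = 0 ∧ y = 1) ∨ (x = 1 ∧ y = -1) := by
    have hy : y = 1 - 2 * x := by linear_combination hp'
    subst hy
    rcases mul_eq_zero.1 (show x * (1 - x) * (1 - 4 * C) = 0 by linear_combination h1) with h | h
    · rcases mul_eq_zero.1 h with h | h
      · exact Or.inl ⟨h, by rw [h]; ring⟩
      · exact Or.inr ⟨(sub_eq_zero.1 h).symm, by linear_combination 2 * h⟩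
    · exact absurd h h4
  have hsq0 := hsq' (b 0)
  rw [← algebraMap_smul A (-c) (b 0), map_neg] at hsq0
  change J' (J' (b 0)) = J' (b 0) + (-C) • b 0 at hsq0
  rcases hcases with ⟨rfl, rfl⟩ | ⟨rfl, rfl⟩
  · have h0 : J' (b 0) = b 1 := by rw [hxy]; module
    rw [h0] at hsq0
    refine Or.inl (b.ext ((Fin.forall_fin_two).2 ⟨h0.trans hJ0.symm, ?_⟩))
    rw [hsq0, hJ1]; module
  · have h0 : J' (b 0) = b 0 - b 1 := by rw [hxy]; module
    rw [h0, map_sub, h0] at hsq0
    refine Or.inr (LinearMap.congr_fun (show J' = LinearMap.id - J from b.ext ((Fin.forall_fin_two).2 ⟨?_, ?_⟩)))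
    · rw [LinearMap.sub_apply, LinearMap.id_apply, hJ0, h0]
    · rw [LinearMap.sub_apply, LinearMap.id_apply, hJ1]
      linear_combination (norm := module) -hsq0

/-- The normaliser of a self-adjoint field of odd degree without singular lines normalises a quadratic field of
similitudes. -/
theorem exists_quadratic_field {r : ℕ} (hr : Odd r) (hd : 2 * r = Fintype.card ι)
    {A : Subalgebra F (Matrix ι ι F)} (hA : Geo.IsFieldSubalgebra r A)
    (hsa : Geo.IsSelfAdjointFor (QuadraticMap.polar Q) A)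
    (hno : ∀ v : ι → F, v ≠ 0 → ∃ k ∈ A, Q (k *ᵥ v) ≠ 0) :
    ∃ K : Subalgebra F (Matrix ι ι F), Geo.IsFieldSubalgebra 2 K ∧
      Geo.IsAdjointClosedFor (QuadraticMap.polar Q) K ∧ ¬ Geo.IsSelfAdjointFor (QuadraticMap.polar Q) K ∧
      (∀ k ∈ K, ∃ c : F, ∀ v : ι → F, Q (k *ᵥ v) = c * Q v) ∧
      ∀ g : GL ι F, g ∈ Cfsg.isometryGroup F Q → g ∈ Geo.subalgebraNormalizer A →
        g ∈ Geo.subalgebraNormalizer K := by
  classical
  haveI : Nonempty ι := Fintype.card_pos_iff.1 (by have := hr.pos; omega)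
  haveI : Finite A := Finite.of_injective (fun x : A => (x : Matrix ι ι F)) Subtype.val_injective
  haveI : Module.Finite F A := FiniteDimensional.finiteDimensional_subalgebra A
  letI : Field A := (isField_of_isFieldSubalgebra hA).toField
  have hact : ∀ (k : A) (v : ι → F), k • v = (k : Matrix ι ι F) *ᵥ v := fun k v => rfl
  haveI : IsScalarTower F A (ι → F) := ⟨fun c k v => by
    rw [hact, hact, ← Matrix.smul_mulVec]; rfl⟩
  haveI : Module.Finite A (ι → F) := Module.Finite.of_restrictScalars_finite F A (ι → F)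
  have hV : finrank A (ι → F) = 2 := by
    have h := Module.finrank_mul_finrank F A (ι → F)
    rw [hA.finrank_eq, finrank_fintype_fun_eq_card, ← hd, mul_comm 2 r] at h
    exact Nat.eq_of_mul_eq_mul_left hr.pos h
  obtain ⟨c, J, hc, hJJ, hsim, hin, huniq⟩ := exists_rotation_mod hQ (A := A) (hA.finrank_eq ▸ hr) hV
    (fun k u v => hsa _ k.2 u v) (fun v hv => by obtain ⟨k, hk, h⟩ := hno v hv; exact ⟨⟨k, hk⟩, h⟩)
  set M : Matrix ι ι F := LinearMap.toMatrix' (J.restrictScalars F) with hM
  have hMv : ∀ v, M *ᵥ v = J v := fun v => LinearMap.toMatrix'_mulVec _ v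
  have hMM : M * M = M + (-c) • 1 := Matrix.ext_of_mulVec_single fun i => by
    rw [← Matrix.mulVec_mulVec, hMv, hMv, hJJ, Matrix.add_mulVec, Matrix.smul_mulVec, Matrix.one_mulVec, hMv]
  have hne : ∀ s t : F, s • (1 : Matrix ι ι F) + t • M = 0 → s = 0 ∧ t = 0 := by
    intro s t h
    have ht : t = 0 := by
      by_contra ht
      have hM' : M = (-(s / t)) • 1 := by
        rw [← inv_smul_smul₀ ht M, eq_neg_of_add_eq_zero_right h, smul_neg, smul_smul, neg_smul, inv_mul_eq_div]
      have h' := hMM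
      rw [hM', smul_mul_smul_comm, one_mul, ← add_smul] at h'
      refine hc (s / t) ?_
      obtain ⟨i⟩ := ‹Nonempty ι›
      have := congrFun (congrFun h' i) i
      simp at this
      linear_combination this
    refine ⟨?_, ht⟩
    rw [ht, zero_smul, add_zero] at h
    obtain ⟨i⟩ := ‹Nonempty ι›
    simpa using congrFun (congrFun h i) i
  have hmul : ∀ s t s' t' : F, (s • (1 : Matrix ι ι F) + t • M) * (s' • 1 + t' • M) =
      (s * s' - c * (t * t')) • 1 + (s * t' + t * s' + t * t') • M := fun s t s' t' => by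
    rw [add_mul, mul_add, mul_add, smul_mul_smul_comm, smul_mul_smul_comm, smul_mul_smul_comm, smul_mul_smul_comm,
      hMM, one_mul, one_mul, mul_one]
    module
  let K : Subalgebra F (Matrix ι ι F) :=
    { carrier := {x | ∃ s t : F, x = s • (1 : Matrix ι ι F) + t • M}
      mul_mem' := by
        rintro _ _ ⟨s, t, rfl⟩ ⟨s', t', rfl⟩; exact ⟨_, _, hmul s t s' t'⟩
      add_mem' := by
        rintro _ _ ⟨s, t, rfl⟩ ⟨s', t', rfl⟩; exact ⟨s + s', t + t', by module⟩
      algebraMap_mem' := fun a => ⟨a, 0, by rw [Algebra.algebraMap_eq_smul_one, zero_smul, add_zero]⟩ }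
  have hMK : M ∈ K := ⟨0, 1, by module⟩
  have hK : Geo.IsFieldSubalgebra 2 K := by
    refine ⟨?_, ?_, ?_⟩
    · rintro _ ⟨s, t, rfl⟩ _ ⟨s', t', rfl⟩
      rw [hmul, hmul]; module
    · rintro _ ⟨s, t, rfl⟩ hx
      have hN : s * s + s * t + c * (t * t) ≠ 0 := fun h => by
        by_cases ht : t = 0
        · rw [ht, mul_zero, mul_zero, mul_zero, add_zero, add_zero] at h
          exact hx (by rw [ht, mul_self_eq_zero.1 h]; module)
        · refine hc (s / t) ?_
          field_simp
          linear_combination h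
      refine ⟨_, ⟨(s + t) * (s * s + s * t + c * (t * t))⁻¹, -t * (s * s + s * t + c * (t * t))⁻¹, rfl⟩, ?_⟩
      rw [hmul]
      have e1 : s * ((s + t) * (s * s + s * t + c * (t * t))⁻¹) -
          c * (t * (-t * (s * s + s * t + c * (t * t))⁻¹)) = 1 := by
        linear_combination mul_inv_cancel₀ hN
      rw [e1]
      module
    · have hli : LinearIndependent F ![(1 : Matrix ι ι F), M] := LinearIndependent.pair_iff.2 hne
      have hspan : Submodule.span F ({1, M} : Set (Matrix ι ι F)) = K.toSubmodule := by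
        refine le_antisymm (Submodule.span_le.2 (by rintro z (rfl | rfl); exacts [K.one_mem, hMK])) ?_
        rintro _ ⟨s, t, rfl⟩
        exact Submodule.mem_span_pair.2 ⟨s, t, rfl⟩
      have h := finrank_span_eq_card hli
      rw [Matrix.range_cons_cons_empty, hspan, Fintype.card_fin] at h
      exact h
  have hadd : ∀ u v, bform hQ (J u) v + bform hQ u (J v) = bform hQ u v := fun u v => by
    have h := hin (u + v)
    simp only [map_add, LinearMap.add_apply, q_add hQ, hin] at h
    rw [b_symm hQ (J u)]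
    linear_combination h
  refine ⟨K, hK, ?_, fun h => ?_, ?_, fun g hgI hgA => ?_⟩
  · rintro _ ⟨s, t, rfl⟩
    refine ⟨_, ⟨s + t, -t, rfl⟩, fun u v => ?_⟩
    show bform hQ _ v = bform hQ u _
    rw [Matrix.add_mulVec, Matrix.add_mulVec, Matrix.smul_mulVec, Matrix.smul_mulVec, Matrix.smul_mulVec,
      Matrix.smul_mulVec, Matrix.one_mulVec, Matrix.one_mulVec, hMv, hMv]
    simp only [map_add, map_smul, LinearMap.add_apply, LinearMap.smul_apply, smul_eq_mul]
    linear_combination t * hadd u v
  · obtain ⟨v, hv⟩ : ∃ v : ι → F, v ≠ 0 := ⟨fun _ => 1, fun h => one_ne_zero (congrFun h (Classical.arbitrary ι))⟩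
    obtain ⟨-, w, hw⟩ := hQ.nondegenerate v hv
    have hsym : ∀ u u', bform hQ (J u) u' = bform hQ u (J u') := fun u u' => by
      have := h M hMK u u'
      rw [hMv, hMv] at this
      exact this
    have h2J : ∀ u, (2 : F) • J u = u := fun u => by
      by_contra hne'
      obtain ⟨-, y, hy⟩ := hQ.nondegenerate ((2 : F) • J u - u) (sub_ne_zero.2 hne')
      refine hy ?_
      show bform hQ ((2 : F) • J u - u) y = 0
      have := hadd u y
      rw [← hsym] at this
      rw [map_sub, map_smul, LinearMap.sub_apply, LinearMap.smul_apply, smul_eq_mul]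
      linear_combination this
    have h2 := hne (-1) 2 (Matrix.ext_of_mulVec_single fun i => by
      rw [Matrix.add_mulVec, Matrix.smul_mulVec, Matrix.smul_mulVec, Matrix.one_mulVec, hMv, h2J,
        Matrix.zero_mulVec]
      module)
    exact one_ne_zero (neg_eq_zero.1 h2.1)
  · rintro _ ⟨s, t, rfl⟩
    refine ⟨s * s + s * t + c * (t * t), fun v => ?_⟩
    rw [Matrix.add_mulVec, Matrix.smul_mulVec, Matrix.smul_mulVec, Matrix.one_mulVec, hMv, q_add hQ, q_smul hQ,
      q_smul hQ, hsim, map_smul, map_smul, LinearMap.smul_apply, hin]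
    simp only [smul_eq_mul]
    ring
  -- conjugates of the rotation are rotations
  have hginv : g⁻¹ ∈ Cfsg.isometryGroup F Q := (Cfsg.isometryGroup F Q).inv_mem hgI
  have hgA' : g⁻¹ ∈ Geo.subalgebraNormalizer A := (Geo.subalgebraNormalizer A).inv_mem hgA
  have key : ∀ h : GL ι F, h ∈ Cfsg.isometryGroup F Q → h ∈ Geo.subalgebraNormalizer A →
      (h : Matrix ι ι F) * M * ((h⁻¹ : GL ι F) : Matrix ι ι F) ∈ K := by
    intro h hhI hhA
    let J' : (ι → F) →ₗ[A] (ι → F) :=
      { toFun := fun v => (h : Matrix ι ι F) *ᵥ J (((h⁻¹ : GL ι F) : Matrix ι ι F) *ᵥ v)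
        map_add' := fun u v => by rw [Matrix.mulVec_add, map_add, Matrix.mulVec_add]
        map_smul' := fun k v => by
          set k' : Matrix ι ι F := ((h⁻¹ : GL ι F) : Matrix ι ι F) * (k : Matrix ι ι F) * (h : Matrix ι ι F)
          have hk' : k' ∈ A := by
            rw [hhA k']
            convert k.2 using 1
            simp only [k', mul_assoc, Units.mul_inv, mul_one]
            rw [← mul_assoc, Units.mul_inv, one_mul]
          have e1 : ((h⁻¹ : GL ι F) : Matrix ι ι F) *ᵥ (k • v) =
              (⟨k', hk'⟩ : A) • (((h⁻¹ : GL ι F) : Matrix ι ι F) *ᵥ v) := by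
            rw [hact, hact, Matrix.mulVec_mulVec, Matrix.mulVec_mulVec]
            simp only [k', mul_assoc, Units.mul_inv, mul_one]
          rw [RingHom.id_apply, e1, map_smul, hact, hact, Matrix.mulVec_mulVec, Matrix.mulVec_mulVec]
          congr 1
          simp only [k', ← mul_assoc, Units.mul_inv, one_mul] }
    have hJ' : ∀ v, J' v = (h : Matrix ι ι F) *ᵥ J (((h⁻¹ : GL ι F) : Matrix ι ι F) *ᵥ v) := fun v => rfl
    have hcan : ∀ v, (h : Matrix ι ι F) *ᵥ (((h⁻¹ : GL ι F) : Matrix ι ι F) *ᵥ v) = v :=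
      fun v => mulVec_inv_cancel h v
    have hQh := mem_isometryGroup.1 hhI
    rcases huniq J' (fun z => by
        rw [hJ', hJ', Matrix.mulVec_mulVec _ ((h⁻¹ : GL ι F) : Matrix ι ι F), Units.inv_mul, Matrix.one_mulVec,
          hJJ, Matrix.mulVec_add, Matrix.mulVec_smul, hcan])
      (fun v => by rw [hJ', hQh, hsim, ← hQh (((h⁻¹ : GL ι F) : Matrix ι ι F) *ᵥ v), hcan])
      (fun v => by
        rw [show bform hQ v (J' v) = bform hQ ((h : Matrix ι ι F) *ᵥ (((h⁻¹ : GL ι F) : Matrix ι ι F) *ᵥ v))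
          ((h : Matrix ι ι F) *ᵥ J (((h⁻¹ : GL ι F) : Matrix ι ι F) *ᵥ v)) by rw [hJ', hcan], isometry_b hQ hhI, hin, ← hQh (((h⁻¹ : GL ι F) : Matrix ι ι F) *ᵥ v), hcan]) with e | e
    · convert hMK using 1
      exact Matrix.ext_of_mulVec_single fun i => by
        rw [← Matrix.mulVec_mulVec, ← Matrix.mulVec_mulVec, hMv, hMv, ← hJ', e]
    · refine ⟨1, -1, Matrix.ext_of_mulVec_single fun i => ?_⟩
      rw [← Matrix.mulVec_mulVec, ← Matrix.mulVec_mulVec, hMv, ← hJ', e, Matrix.add_mulVec, Matrix.smul_mulVec,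
        Matrix.smul_mulVec, Matrix.one_mulVec, hMv]
      module
  have hmap : ∀ h : GL ι F, h ∈ Cfsg.isometryGroup F Q → h ∈ Geo.subalgebraNormalizer A → ∀ x ∈ K,
      (h : Matrix ι ι F) * x * ((h⁻¹ : GL ι F) : Matrix ι ι F) ∈ K := by
    rintro h hhI hhA _ ⟨s, t, rfl⟩
    rw [mul_add, add_mul, mul_smul_comm, mul_smul_comm, smul_mul_assoc, smul_mul_assoc, mul_one, Units.mul_inv]
    exact K.add_mem (K.smul_mem K.one_mem _) (K.smul_mem (key h hhI hhA) _)
  intro x
  refine ⟨hmap g hgI hgA x, fun hx => ?_⟩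
  have := hmap g⁻¹ hginv hgA' _ hx
  rw [inv_inv] at this
  convert this using 1
  rw [← mul_assoc, ← mul_assoc, Units.inv_mul, one_mul, mul_assoc, Units.inv_mul, mul_one]

end CfsgLib.Aschbacher.OrthTenRotation
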