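import Mathlib
import Cfsg.Agent.Aschbacher.OrthTenPlus
import Cfsg.Agent.Aschbacher.OrthTenRotation

/-!
Two five-spaces, ten lines and five planes in a ten-dimensional space of minus type.
-/

set_option autoImplicit false
set_option linter.unusedSectionVars false

namespace CfsgLib.Aschbacher.OrthTenMinus

open Matrix Cfsg Module CfsgLib.OrthGeo CfsgLib.Aschbacher CfsgLib.Aschbacher.OrthEven
  CfsgLib.Aschbacher.OrthTen

variable {ι : Type} [Fintype ι] [DecidableEq ι] {F : Type*} [Field F] [Fintype F] {Q : (ι → F) → F}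

variable (hQ : Geo.IsNondegenerateQuadraticForm Q)
include hQ

/-- A singular vector orthogonal to and outside a totally singular four-space gives plus type. -/
theorem plus_of_extension (h10 : Fintype.card ι = 10) {X : Submodule F (ι → F)}
    (hX : Geo.IsTotallySingularQuad Q X) (hd : finrank F X = 4) {v : ι → F} (hv : Q v = 0)
    (hperp : ∀ x ∈ X, bform hQ x v = 0) (hout : v ∉ X) : Geo.IsPlusTypeOn Q ⊤ := by
  have hts : Geo.IsTotallySingularQuad Q (Submodule.span F (insert v (X : Set (ι → F)))) := by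
    refine totallySingular_span hQ ?_ ?_
    · rintro x (rfl | hx)
      exacts [hv, hX x hx]
    · rintro x (rfl | hx) y (rfl | hy)
      · rw [b_self hQ, hv, mul_zero]
      · exact (b_symm hQ _ _).trans (hperp y hy)
      · exact hperp x hx
      · exact (mem_perp hQ).1 (le_perp_self hQ hX hy) x hx
  have hlt : X < Submodule.span F (insert v (X : Set (ι → F))) :=
    lt_of_le_of_ne (fun x hx => Submodule.subset_span (Set.mem_insert_of_mem _ hx))
      fun h => hout (h.ge (Submodule.subset_span (Set.mem_insert _ _)))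
  have h1 := Submodule.finrank_lt_finrank_of_lt hlt
  have h2 := two_mul_finrank_le hQ hts
  exact plus_of_half hts (by omega)

variable (hminus : ¬ Geo.IsPlusTypeOn Q ⊤) (h10 : Fintype.card ι = 10)
include hminus h10

/-- The anisotropic parts of two orthogonal five-spaces. -/
theorem cores_aniso (h2 : (2 : F) ≠ 0) {W W' X X' : Submodule F (ι → F)} (hd : Disjoint W W')
    (ho : ∀ a ∈ W, ∀ b ∈ W', bform hQ a b = 0) (hX : X ≤ W) (hX' : X' ≤ W')
    (hts : Geo.IsTotallySingularQuad Q X) (hts' : Geo.IsTotallySingularQuad Q X')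
    (hXd : finrank F X = 2) (hXd' : finrank F X' = 2) {w w' : ι → F} (hw : w ∈ W) (hw' : w' ∈ W')
    (hQw' : Q w' ≠ 0) (hwX : ∀ x ∈ X, bform hQ x w = 0) (hwX' : ∀ x ∈ X', bform hQ x w' = 0) :
    ∀ a : F, Q w' ≠ -(a ^ 2 * Q w) := by
  intro a ha
  obtain ⟨hU, -, hUd⟩ := singular_sup hQ hd ho hX hX' hts hts'
  have hww : bform hQ w w' = 0 := ho w hw w' hw'
  have hv : Q (a • w + w') = 0 := by
    rw [q_add hQ, q_smul hQ, map_smul, LinearMap.smul_apply, hww, smul_zero, add_zero, ha]; ring
  have hperp : ∀ x ∈ X ⊔ X', bform hQ x (a • w + w') = 0 := by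
    intro x hx
    obtain ⟨p, hp, p', hp', rfl⟩ := Submodule.mem_sup.1 hx
    have e1 : bform hQ p' w = 0 := (b_symm hQ _ _).trans (ho w hw p' (hX' hp'))
    simp only [map_add, map_smul, LinearMap.add_apply, smul_eq_mul, hwX p hp, ho p (hX hp) w' hw', e1, hwX' p' hp', mul_zero, add_zero]
  refine hminus (plus_of_extension hQ h10 hU (by omega) hv hperp fun hin => ?_)
  have h := hperp _ hin
  have hker : ∀ x ∈ X ⊔ X', bform hQ x w' = 0 := by
    intro x hx
    obtain ⟨p, hp, p', hp', rfl⟩ := Submodule.mem_sup.1 hx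
    rw [map_add, LinearMap.add_apply, ho p (hX hp) w' hw', hwX' p' hp', add_zero]
  have := hker _ hin
  rw [map_add, map_smul, LinearMap.add_apply, LinearMap.smul_apply, hww, smul_zero, zero_add, b_self hQ] at this
  exact mul_ne_zero h2 hQw' this

/-- Two orthogonal isometric five-spaces: the field has order three modulo four. -/
theorem five_mod_four_minus (hodd : Odd (Fintype.card F)) {W W' : Submodule F (ι → F)}
    (hW : Geo.IsNondegenerateOn (QuadraticMap.polar Q) W) (hd : finrank F W = 5) (hdis : Disjoint W W')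
    (ho : ∀ a ∈ W, ∀ b ∈ W', bform hQ a b = 0) (hiso : Geo.AreIsometricFor Q W W') :
    Fintype.card F % 4 = 3 := by
  have h2 := two_ne_zero_of_odd_card hodd
  by_contra h3
  obtain ⟨i, hi⟩ := FiniteField.isSquare_neg_one_iff.2 h3
  obtain ⟨φ, hφ⟩ := hiso
  obtain ⟨e, f, W₀, w, hdec, hw, hQw, -, hts, hXd, -⟩ := five_core hQ h2 hW hd
  let ψ : W →ₗ[F] (ι → F) := W'.subtype.comp (φ : W →ₗ[F] W')
  have hψi : Function.Injective ψ := fun x y h => φ.injective (W'.injective_subtype h)
  have hψb : ∀ x y : W, bform hQ (ψ x) (ψ y) = bform hQ (x : ι → F) (y : ι → F) := fun x y => by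
    show QuadraticMap.polar Q ((φ x : W') : ι → F) ((φ y : W') : ι → F) = QuadraticMap.polar Q _ _
    simp only [QuadraticMap.polar, ← Submodule.coe_add, ← map_add, hφ]
  have hXW : Submodule.span F (Set.range e) ≤ W := Submodule.span_le.2 (by rintro _ ⟨i, rfl⟩; exact hdec.e_mem i)
  have hker : Submodule.span F (Set.range e) ≤ LinearMap.ker ((bform hQ).flip w) :=
    Submodule.span_le.2 (by rintro _ ⟨i, rfl⟩; exact hdec.ew i w hw)
  refine cores_aniso hQ hminus h10 h2 hdis ho hXW
    (X' := ((Submodule.span F (Set.range e)).comap W.subtype).map ψ)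
    (by rintro _ ⟨x, -, rfl⟩; exact Submodule.coe_mem _) hts
    (by rintro _ ⟨x, hx, rfl⟩; exact (hφ x).trans (hts x hx)) hXd
    (by rw [(Submodule.equivMapOfInjective _ hψi _).finrank_eq.symm,
      (Submodule.comapSubtypeEquivOfLe hXW).finrank_eq, hXd])
    (hdec.le hw) (w' := ψ ⟨w, hdec.le hw⟩) (Submodule.coe_mem _)
    (by rw [show Q (ψ ⟨w, _⟩) = Q w from hφ _]; exact hQw) (fun x hx => hker hx)
    (by rintro _ ⟨x, hx, rfl⟩; rw [hψb]; exact hker hx) i ?_
  rw [show Q (ψ ⟨w, _⟩) = Q w from hφ _]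
  linear_combination -(Q w) * hi

/-- Orthogonal five-spaces over a field of order three modulo four are isometric. -/
theorem five_isometric_minus (h4 : Fintype.card F % 4 = 3) {W W' : Submodule F (ι → F)}
    (hW : Geo.IsNondegenerateOn (QuadraticMap.polar Q) W) (hW' : Geo.IsNondegenerateOn (QuadraticMap.polar Q) W')
    (hd : finrank F W = 5) (hd' : finrank F W' = 5) (hdis : Disjoint W W')
    (ho : ∀ a ∈ W, ∀ b ∈ W', bform hQ a b = 0) : Geo.AreIsometricFor Q W W' := by
  have h2 : (2 : F) ≠ 0 := two_ne_zero_of_odd_card (Nat.odd_iff.2 (by omega))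
  obtain ⟨e, f, W₀, w, hdec, hw, hQw, hspan, hts, hXd, hw0⟩ := five_core hQ h2 hW hd
  obtain ⟨e', f', W₀', w', hdec', hw', hQw', hspan', hts', hXd', hw0'⟩ := five_core hQ h2 hW' hd'
  have hno := cores_aniso hQ hminus h10 h2 hdis ho (X := Submodule.span F (Set.range e))
    (X' := Submodule.span F (Set.range e'))
    (Submodule.span_le.2 (by rintro _ ⟨i, rfl⟩; exact hdec.e_mem i))
    (Submodule.span_le.2 (by rintro _ ⟨i, rfl⟩; exact hdec'.e_mem i)) hts hts' hXd hXd' (hdec.le hw) (hdec'.le hw')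
    hQw'
    (fun x hx => by
      have : Submodule.span F (Set.range e) ≤ LinearMap.ker ((bform hQ).flip w) :=
        Submodule.span_le.2 (by rintro _ ⟨i, rfl⟩; exact hdec.ew i w hw)
      exact this hx)
    (fun x hx => by
      have : Submodule.span F (Set.range e') ≤ LinearMap.ker ((bform hQ).flip w') :=
        Submodule.span_le.2 (by rintro _ ⟨i, rfl⟩; exact hdec'.ew i w' hw')
      exact this hx)
  obtain ⟨d, hd0, hdw⟩ : ∃ d : F, d ≠ 0 ∧ Q w' = d ^ 2 * Q w := by
    have hn1 : ¬ IsSquare (-1 : F) := fun h => (FiniteField.isSquare_neg_one_iff.1 h) h4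
    have hn2 : ¬ IsSquare (-(Q w' / Q w)) := fun ⟨a, ha⟩ => hno a (by
      field_simp at ha ⊢
      linear_combination -ha)
    obtain ⟨d, hd⟩ := Classical.Orth.isSquare_mul_of_not hn1 hn2
    refine ⟨d, fun h => ?_, ?_⟩
    · rw [h, mul_zero] at hd
      have : Q w' / Q w = 0 := by linear_combination hd
      exact (div_eq_zero_iff.1 this).elim hQw' hQw
    · field_simp at hd
      linear_combination hd
  set z' := d⁻¹ • w'
  have hzq : Q z' = Q w := by rw [q_smul hQ, hdw]; field_simp
  let a := Sum.elim (Sum.elim e f) fun _ : Fin 1 => w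
  let a' := Sum.elim (Sum.elim e' f') fun _ : Fin 1 => z'
  have hspan2 : ∀ {U U₀ : Submodule F (ι → F)} {x y : Fin 2 → ι → F} {s : ι → F},
      LinAlg.Witt.IsWittDecomp (qf hQ) U x y U₀ → s ∈ U₀ → U₀ ≤ Submodule.span F {s} →
      Submodule.span F (Set.range (Sum.elim (Sum.elim x y) fun _ : Fin 1 => s)) = U := by
    intro U U₀ x y s hU hs hs'
    refine le_antisymm (Submodule.span_le.2 ?_) (hU.span.trans ?_)
    · rintro _ ⟨((i | i) | i), rfl⟩
      exacts [hU.e_mem i, hU.f_mem i, hU.le hs]
    · rw [Set.Sum.elim_range, Set.Sum.elim_range, Submodule.span_union _ (Set.range fun _ : Fin 1 => s),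
        Set.range_const]
      exact sup_le_sup le_rfl hs'
  have hA := hspan2 hdec hw hspan
  have hzW : z' ∈ W₀' := W₀'.smul_mem _ hw'
  have hA' := hspan2 hdec' hzW (hspan'.trans (by
    rw [Submodule.span_singleton_smul_eq (IsUnit.mk0 _ (inv_ne_zero hd0))]))
  have hli : LinearIndependent F a := linearIndependent_iff_card_eq_finrank_span.2 (by
    rw [Set.finrank, hA, hd]; simp)
  have hli' : LinearIndependent F a' := linearIndependent_iff_card_eq_finrank_span.2 (by
    rw [Set.finrank, hA', hd']; simp)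
  obtain ⟨g, hg, hga⟩ := LinAlg.Witt.exists_quadFun_family hQ (a := a) (b := a') hli hli'
    (by
      rintro ((i | i) | i)
      exacts [(hdec.qe i).trans (hdec'.qe i).symm, (hdec.qf i).trans (hdec'.qf i).symm, hzq.symm])
    (by
      show ∀ s t, bform hQ (a s) (a t) = bform hQ (a' s) (a' t)
      rintro ((i | i) | i) ((j | j) | j)
      · exact (hdec.ee i j).trans (hdec'.ee i j).symm
      · exact (hdec.ef i j).trans (hdec'.ef i j).symm
      · exact (hdec.ew i _ hw).trans (hdec'.ew i _ hzW).symm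
      · show bform hQ (f i) (e j) = bform hQ (f' i) (e' j)
        rw [b_symm hQ (f i), b_symm hQ (f' i)]
        exact (hdec.ef j i).trans (hdec'.ef j i).symm
      · exact (hdec.ff i j).trans (hdec'.ff i j).symm
      · exact (hdec.fw i _ hw).trans (hdec'.fw i _ hzW).symm
      · show bform hQ w (e j) = bform hQ z' (e' j)
        rw [b_symm hQ w, b_symm hQ z']
        exact (hdec.ew j _ hw).trans (hdec'.ew j _ hzW).symm
      · show bform hQ w (f j) = bform hQ z' (f' j)
        rw [b_symm hQ w, b_symm hQ z']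
        exact (hdec.fw j _ hw).trans (hdec'.fw j _ hzW).symm
      · show bform hQ w w = bform hQ z' z'
        rw [b_self hQ, b_self hQ, hzq])
  have hmap : W.map (Matrix.toLin' (g : Matrix ι ι F)) = W' := by
    rw [← hA, Submodule.map_span, ← hA', ← Set.range_comp]
    exact congrArg (fun h => Submodule.span F (Set.range h)) (funext fun x => (Matrix.toLin'_apply _ _).trans (hga x))
  refine ⟨(Submodule.equivMapOfInjective _ (toLin'_injective g) W).trans (LinearEquiv.ofEq _ _ hmap), fun x => ?_⟩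
  simp only [LinearEquiv.trans_apply, LinearEquiv.coe_ofEq_apply, Submodule.coe_equivMapOfInjective_apply,
    Matrix.toLin'_apply]
  exact mem_isometryGroup.1 hg _

/-- Ten isometric lines: minus one is no square. -/
theorem lines_nonsquare (hodd : Odd (Fintype.card F)) {D : Fin 10 → Submodule F (ι → F)}
    (hD : Geo.IsOrthogonalMDecomposition Q 1 D) : Fintype.card F % 4 = 3 := by
  classical
  have h2 := two_ne_zero_of_odd_card hodd
  by_contra h3
  obtain ⟨i, hi⟩ := FiniteField.isSquare_neg_one_iff.2 h3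
  obtain ⟨U, hU, hts, hUd⟩ := pieceTS_union hQ hD (J := Finset.univ.image ![(0 : Fin 10), 1, 2, 3])
    (K := Finset.univ.image ![(4 : Fin 10), 5, 6, 7]) (by decide)
    (pieceTS_four hQ hD h2 (by decide)) (pieceTS_four hQ hD h2 (by decide))
  obtain ⟨x, hx, hxQ⟩ := AschPrime.orth_anisotropic hQ (hD.decomp.nondegenerate 8) fun h => by
    have := hD.decomp.decomp.finrank_eq 8
    rw [h, finrank_bot] at this
    exact zero_ne_one this
  obtain ⟨φ, hφ⟩ := hD.isometric 8 9
  set y := ((φ ⟨x, hx⟩ : D 9) : ι → F)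
  have hyQ : Q y = Q x := hφ _
  have hxy : bform hQ x y = 0 := hD.decomp.orthogonal 8 9 (by decide) _ hx _ (φ ⟨x, hx⟩).2
  have hperp : ∀ (i : Fin 10) (v : ι → F), 8 ≤ (i : ℕ) → v ∈ D i → ∀ u ∈ U, bform hQ u v = 0 := by
    intro i v hi hv u hu
    have hle : (Finset.univ.image ![(0 : Fin 10), 1, 2, 3] ∪ Finset.univ.image ![(4 : Fin 10), 5, 6, 7]).sup D ≤
        LinearMap.ker ((bform hQ).flip v) := Finset.sup_le fun j hj w hw =>
      hD.decomp.orthogonal j i (fun h => by
        have h8 : ∀ j ∈ Finset.univ.image ![(0 : Fin 10), 1, 2, 3] ∪ Finset.univ.image ![(4 : Fin 10), 5, 6, 7],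
            (j : ℕ) < 8 := by decide
        have := h8 j hj
        rw [h] at this
        omega) w hw v hv
    exact hle (hU hu)
  have hp : ∀ u ∈ U, bform hQ u (i • x + y) = 0 := fun u hu => by
    rw [map_add, map_smul, hperp 8 x le_rfl hx u hu, hperp 9 y (by decide) (φ ⟨x, hx⟩).2 u hu]; simp
  refine hminus (plus_of_extension hQ h10 hts (by omega) (v := i • x + y) ?_ hp fun hin => ?_)
  · rw [q_add hQ, q_smul hQ, hyQ, map_smul, LinearMap.smul_apply, hxy, smul_zero, add_zero]
    linear_combination -(Q x) * hi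
  · have h := hperp 9 y (by decide) (φ ⟨x, hx⟩).2 _ hin
    rw [map_add, map_smul, LinearMap.add_apply, LinearMap.smul_apply, hxy, smul_zero, zero_add, b_self hQ, hyQ] at h
    exact mul_ne_zero h2 hxQ h

/-- Five isometric planes have minus type. -/
theorem planes_minus {D : Fin 5 → Submodule F (ι → F)} (hD : Geo.IsOrthogonalMDecomposition Q 2 D) :
    ∀ i, ¬ Geo.IsPlusTypeOn Q (D i) := by
  classical
  intro i hi
  refine hminus (plus_of_pieceTS (pieceTS_union hQ hD (J := _ ∪ _) (a := 4) (b := 1) ?_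
    (pieceTS_union hQ hD ?_ (pieceTS_pair hQ hD even_two (i := 0) (j := 1) (by decide))
      (pieceTS_pair hQ hD even_two (i := 2) (j := 3) (by decide)))
    (pieceTS_single hQ hD (i := 4) (plus_of_isometric (hD.isometric i 4) hi) (d := 1) rfl)) (by omega))
  all_goals decide

end CfsgLib.Aschbacher.OrthTenMinus
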