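import Cfsg.Agent.Eq.Def_GeometricClasses
import Cfsg.Agent.Eq.Def_Classical
import Cfsg.Agent.Aschbacher.FormsTensorPower
import Cfsg.Agent.Aschbacher.SympTensorPower
import Cfsg.Agent.Aschbacher.SimpleAlgebra
import Cfsg.Agent.OrthGeo.Eichler

/-!
In characteristic two the stabiliser of a symplectic tensor power with small factors normalises the
linear space of the Clifford generators of the spin module, and so is not maximal in `Ω`.
-/

set_option autoImplicit false
set_option linter.unusedSectionVars false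

namespace CfsgLib.Aschbacher.SpinLine

open Matrix Module Cfsg CfsgLib.Aschbacher CfsgLib.Aschbacher.Forms
open scoped MatrixGroups commutatorElement

variable {ι : Type} [Fintype ι] [DecidableEq ι] {F : Type*} [Field F]
variable {d t : ℕ} {e : ι ≃ (Fin t → Fin d)} {P : GL ι F}

local notation "Md" => Matrix (Fin d) (Fin d) F
local notation "Mt" => Matrix (Fin t → Fin d) (Fin t → Fin d) F

/-- The matrix `a` in the factor `r`. -/
def fac (r : Fin t) (a : Md) : Mt := kroneckerPow (Pi.mulSingle r a)

theorem fac_apply (r : Fin t) (a : Md) (x y : Fin t → Fin d) :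
    fac r a x y = if ∀ j, j ≠ r → x j = y j then a (x r) (y r) else 0 := by
  classical
  show ∏ i, (Pi.mulSingle r a : Fin t → Md) i (x i) (y i) = _
  rw [← Finset.mul_prod_erase Finset.univ _ (Finset.mem_univ r), Pi.mulSingle_eq_same]
  split_ifs with h
  · rw [Finset.prod_eq_one, mul_one]
    intro j hj
    rw [Pi.mulSingle_eq_of_ne (Finset.mem_erase.1 hj).1, h j (Finset.mem_erase.1 hj).1,
      Matrix.one_apply_eq]
  · push Not at h
    obtain ⟨j, hjr, hj⟩ := h
    rw [Finset.prod_eq_zero (i := j) (Finset.mem_erase.2 ⟨hjr, Finset.mem_univ j⟩)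
      (by rw [Pi.mulSingle_eq_of_ne hjr, Matrix.one_apply_ne hj]), mul_zero]

theorem fac_add (r : Fin t) (a b : Md) : fac r (a + b) = fac r a + fac r b := by
  ext x y
  simp only [fac_apply, Matrix.add_apply]
  split_ifs <;> simp

theorem fac_smul (r : Fin t) (κ : F) (a : Md) : fac r (κ • a) = κ • fac r a := by
  ext x y
  simp only [fac_apply, Matrix.smul_apply]
  split_ifs <;> simp

theorem fac_one (r : Fin t) : fac r (1 : Md) = 1 := by
  rw [fac, Pi.mulSingle_one]
  exact kroneckerPow_one

theorem fac_zero (r : Fin t) : fac r (0 : Md) = 0 := by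
  have := fac_smul r (0 : F) (0 : Md)
  rwa [zero_smul, zero_smul] at this

theorem fac_mul (r : Fin t) (a b : Md) : fac r a * fac r b = fac r (a * b) := by
  rw [fac, fac, fac, kroneckerPow_mul, Pi.mulSingle_mul]
  rfl

theorem fac_mul' (r s : Fin t) (a b : Md) :
    fac r a * fac s b = kroneckerPow (Pi.mulSingle r a * Pi.mulSingle s b) := by
  rw [fac, fac, kroneckerPow_mul]
  rfl

theorem fac_commute {r s : Fin t} (h : r ≠ s) (a b : Md) : Commute (fac r a) (fac s b) := by
  rw [Commute, SemiconjBy, fac_mul', fac_mul']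
  exact congrArg kroneckerPow (Pi.mulSingle_commute (f := fun _ : Fin t => Md) h a b).eq

theorem fac_commute_same {r : Fin t} {a b : Md} (h : Commute a b) : Commute (fac r a) (fac r b) := by
  rw [Commute, SemiconjBy, fac_mul, fac_mul, h.eq]

/-- The reversal form. -/
def revForm : Md := Matrix.of fun x y => if y = Fin.rev x then 1 else 0

theorem kroneckerPow_revForm (x y : Fin t → Fin d) :
    kroneckerPow (fun _ : Fin t => (revForm : Md)) x y = if y = Fin.rev ∘ x then (1 : F) else 0 := by
  simp only [kroneckerPow, revForm, Matrix.of_apply]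
  split_ifs with h
  · subst h; simp
  · obtain ⟨i, hi⟩ := Function.ne_iff.1 h
    exact Finset.prod_eq_zero (Finset.mem_univ i) (if_neg hi)

theorem dot_self_zero {α : Type*} [Fintype α] [DecidableEq α] (h2 : (2 : F) = 0) {X : Matrix α α F}
    (hs : ∀ a b, X a b = X b a) (hd : ∀ a, X a a = 0) (v : α → F) : v ⬝ᵥ (X *ᵥ v) = 0 := by
  let q := Fintype.equivFin α
  have h := Symp.dot_self_eq_zero (X := X.submatrix q.symm q.symm) h2
    (fun a b => hs _ _) (fun a => hd _) (v ∘ q.symm)
  rw [Matrix.submatrix_mulVec_equiv] at h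
  rw [← h]
  simp [dotProduct, Function.comp_assoc, ← Equiv.sum_comp q.symm]

/-- The set-up: a tensor power of reversal forms, with vanishing pure tensors. -/
structure Data (Q : (ι → F) → F) (e : ι ≃ (Fin t → Fin d)) (P : GL ι F) (c : F) : Prop where
  quad : Geo.IsNondegenerateQuadraticForm Q
  two : (2 : F) = 0
  c_ne : c ≠ 0
  gram : powGram (QuadraticMap.polar Q) e P = c • kroneckerPow (fun _ : Fin t => (revForm : Md))
  pure : ∀ u : Fin t → Fin d → F, Q (powEmb e P (fun a => ∏ i, u i (a i))) = 0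
  even : Even d

variable {Q : (ι → F) → F} {c : F}

theorem Data.sesqui (h : Data Q e P c) :
    CfsgLib.Aschbacher.IsSesquiForm (RingHom.id F) (QuadraticMap.polar Q) :=
  ⟨h.quad.polar_bilinear.add_left, h.quad.polar_bilinear.smul_left, h.quad.polar_bilinear.add_right,
    h.quad.polar_bilinear.smul_right⟩

theorem powEmb_add (x y : (Fin t → Fin d) → F) : powEmb e P (x + y) = powEmb e P x + powEmb e P y := by
  rw [powEmb, powEmb, powEmb, ← Matrix.mulVec_add]; rfl

theorem powEmb_smul (a : F) (x : (Fin t → Fin d) → F) : powEmb e P (a • x) = a • powEmb e P x := by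
  rw [powEmb, powEmb, ← Matrix.mulVec_smul]; rfl

theorem Data.polar_eq (h : Data Q e P c) (x y : (Fin t → Fin d) → F) :
    QuadraticMap.polar Q (powEmb e P x) (powEmb e P y) =
      c * (x ⬝ᵥ (kroneckerPow (fun _ : Fin t => (revForm : Md)) *ᵥ y)) := by
  rw [form_powEmb h.sesqui, h.gram, Geo.formOfGram, dotProduct, Finset.mul_sum]
  refine Finset.sum_congr rfl fun p _ => ?_
  simp only [Matrix.mulVec, dotProduct, Finset.mul_sum, Matrix.smul_apply, smul_eq_mul, RingHom.id_apply]
  exact Finset.sum_congr rfl fun q _ => by ring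

theorem Data.quad_add (_h : Data Q e P c) (u v : ι → F) :
    Q (u + v) = Q u + Q v + QuadraticMap.polar Q u v := by
  rw [QuadraticMap.polar]; ring

theorem Data.quad_zero (h : Data Q e P c) : Q 0 = 0 := by
  have := h.quad.smul 0 0
  simpa using this

/-- A criterion for `1 + X` to be an isometry. -/
theorem Data.isometry_of (h : Data Q e P c) {X : Mt}
    (hcol : ∀ y, Q (powEmb e P (fun a => X a y)) = 0)
    (h1 : Xᵀ * kroneckerPow (fun _ : Fin t => (revForm : Md)) * X = 0)
    (hs : ∀ a b, (kroneckerPow (fun _ : Fin t => (revForm : Md)) * X) a b =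
      (kroneckerPow (fun _ : Fin t => (revForm : Md)) * X) b a)
    (hd : ∀ a, (kroneckerPow (fun _ : Fin t => (revForm : Md)) * X) a a = 0) (v : ι → F) :
    Q (tconj e P (1 + X) *ᵥ v) = Q v := by
  classical
  obtain ⟨x, rfl⟩ := powEmb_surjective (e := e) (P := P) v
  rw [tconj_mulVec_powEmb, Matrix.add_mulVec, Matrix.one_mulVec, powEmb_add, h.quad_add, h.polar_eq,
    Matrix.mulVec_mulVec, dot_self_zero h.two hs hd, mul_zero, add_zero]
  have hsum : ∀ s : Finset (Fin t → Fin d), Q (powEmb e P (∑ y ∈ s, x y • fun a => X a y)) = 0 := by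
    intro s
    induction s using Finset.induction_on with
    | empty => simp [powEmb, h.quad_zero]
    | @insert y s hy ih =>
      rw [Finset.sum_insert hy, powEmb_add, h.quad_add, powEmb_smul, h.quad.smul, hcol, ih,
        ← powEmb_smul, h.polar_eq, Matrix.mulVec_sum, dotProduct_sum, Finset.sum_eq_zero]
      · simp
      intro z _
      rw [Matrix.mulVec_smul, dotProduct_smul, smul_dotProduct, ← Matrix.vecMul_transpose]
      have e1 : (fun a => X a z) ᵥ* (kroneckerPow (fun _ : Fin t => (revForm : Md)))ᵀ =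
          kroneckerPow (fun _ : Fin t => (revForm : Md)) *ᵥ fun a => X a z := Matrix.vecMul_transpose _ _
      rw [e1]
      have e2 : (fun a => X a y) ⬝ᵥ (kroneckerPow (fun _ : Fin t => (revForm : Md)) *ᵥ fun a => X a z) =
          (Xᵀ * kroneckerPow (fun _ : Fin t => (revForm : Md)) * X) y z := by
        rw [Matrix.mul_assoc]
        simp [Matrix.mul_apply, dotProduct, Matrix.mulVec, Finset.mul_sum]
      rw [e2, h1]
      simp
  have hX : X *ᵥ x = ∑ y, x y • fun a => X a y := by
    funext a
    simp [Matrix.mulVec, dotProduct, Finset.sum_apply, mul_comm]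
  rw [hX, hsum, add_zero]

/-- The isometry criterion for a Kronecker product. -/
theorem Data.isometry_kron (h : Data Q e P c) (W : Fin t → Md)
    (hzero : ∃ i, (W i)ᵀ * (revForm : Md) * W i = 0)
    (hs : ∀ i a b, ((revForm : Md) * W i) a b = ((revForm : Md) * W i) b a)
    (hd : ∃ i, ∀ a, ((revForm : Md) * W i) a a = 0) (v : ι → F) :
    Q (tconj e P (1 + kroneckerPow W) *ᵥ v) = Q v := by
  refine h.isometry_of (X := kroneckerPow W) (fun y => h.pure fun i a => W i a (y i)) ?_ ?_ ?_ v
  · rw [kroneckerPow_transpose, kroneckerPow_mul, kroneckerPow_mul]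
    obtain ⟨i, hi⟩ := hzero
    ext x y
    exact Finset.prod_eq_zero (Finset.mem_univ i) (by simp only [hi, Matrix.zero_apply])
  · intro a b
    rw [kroneckerPow_mul]
    simp only [kroneckerPow, Matrix.of_apply]
    exact Finset.prod_congr rfl fun i _ => hs i _ _
  · intro a
    obtain ⟨i, hi⟩ := hd
    rw [kroneckerPow_mul]
    exact Finset.prod_eq_zero (Finset.mem_univ i) (hi _)

/-- The involution `1 + X` of the ambient group. -/
def unip (h2 : (2 : F) = 0) (e : ι ≃ (Fin t → Fin d)) (P : GL ι F) {X : Mt} (hX : X * X = 0) :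
    GL ι F where
  val := tconj e P (1 + X)
  inv := tconj e P (1 + X)
  val_inv := by
    rw [← map_mul, add_mul, one_mul, mul_add, mul_one, hX, add_zero, add_assoc, ← two_smul F X, h2,
      zero_smul, add_zero, map_one]
  inv_val := by
    rw [← map_mul, add_mul, one_mul, mul_add, mul_one, hX, add_zero, add_assoc, ← two_smul F X, h2,
      zero_smul, add_zero, map_one]

/-- Two unipotent isometries with a commutator `1 + (uv + vu)`. -/
theorem Data.omega_of_pair (h : Data Q e P c) {u v : Mt} (hu : u * u = 0) (hv : v * v = 0)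
    (huvu : u * v * u = 0) (hvuv : v * u * v = 0)
    (hui : ∀ x, Q (tconj e P (1 + u) *ᵥ x) = Q x) (hvi : ∀ x, Q (tconj e P (1 + v) *ᵥ x) = Q x)
    {g : GL ι F} (hg : (g : Matrix ι ι F) = tconj e P (1 + (u * v + v * u))) :
    g ∈ Geo.omegaGL Q := by
  have he : g = ⁅unip h.two e P hu, unip h.two e P hv⁆ := by
    refine Units.ext ?_
    rw [hg, commutatorElement_def, Units.val_mul, Units.val_mul, Units.val_mul]
    show _ = tconj e P (1 + u) * tconj e P (1 + v) * tconj e P (1 + u) * tconj e P (1 + v)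
    rw [← map_mul, ← map_mul, ← map_mul]
    congr 1
    have e2 : ∀ m : Mt, m + m = 0 := fun m => by rw [← two_smul F m, h.two, zero_smul]
    have h4 : u * v * u * v = 0 := by rw [huvu, zero_mul]
    have expand : (1 + u) * (1 + v) * (1 + u) * (1 + v) = 1 + (u * v + v * u) + (u + u) + (v + v) +
        (u * v + u * v) + u * u + v * v + (u * u * v + u * v * v + u * v * u) + v * u * v + u * v * u * v := by
      noncomm_ring
    rw [expand, hu, hv, huvu, hvuv, e2, e2, e2, zero_mul, mul_assoc u v v, hv, mul_zero]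
    simp
  rw [he]
  exact CfsgLib.OrthGeo.commutator_mem_omegaGL (CfsgLib.OrthGeo.mem_isometryGroup.2 hui)
    (CfsgLib.OrthGeo.mem_isometryGroup.2 hvi)

/-! ### The linear space and its stabiliser -/

/-- The span of the identity and of the copies of `Λ` in the factors. -/
def lineSpace (Λ : Set Md) (t : ℕ) : Submodule F (Matrix (Fin t → Fin d) (Fin t → Fin d) F) :=
  Submodule.span F (insert 1 {X | ∃ r a, a ∈ Λ ∧ X = fac r a})

/-- The stabiliser of the transported space. -/
def lineStab (Λ : Set Md) (e : ι ≃ (Fin t → Fin d)) (P : GL ι F) : Subgroup (GL ι F) where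
  carrier := {g | ((lineSpace Λ t).map (tconj e P).toLinearMap).map (conjAlg g).toLinearMap =
    (lineSpace Λ t).map (tconj e P).toLinearMap}
  one_mem' := by
    show Submodule.map _ _ = _
    have : (conjAlg (1 : GL ι F)).toLinearMap = LinearMap.id := LinearMap.ext fun X => conjAlg_one X
    rw [this, Submodule.map_id]
  mul_mem' := fun {g h} hg hh => by
    show Submodule.map _ _ = _
    have : (conjAlg (g * h)).toLinearMap = (conjAlg g).toLinearMap.comp (conjAlg h).toLinearMap :=
      LinearMap.ext fun X => conjAlg_mul g h X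
    rw [this, Submodule.map_comp, show Submodule.map (conjAlg h).toLinearMap _ = _ from hh]
    exact hg
  inv_mem' := fun {g} hg => by
    show Submodule.map _ _ = _
    conv_lhs => rw [← show Submodule.map (conjAlg g).toLinearMap _ = _ from hg]
    rw [← Submodule.map_comp]
    have : (conjAlg g⁻¹).toLinearMap.comp (conjAlg g).toLinearMap = LinearMap.id :=
      LinearMap.ext fun X => Centre.conjAlg_inv_apply g X
    rw [this, Submodule.map_id]

/-- Membership from the generators. -/
theorem mem_lineStab {Λ : Set Md} {g : GL ι F} {Z : Mt} (hg : (g : Matrix ι ι F) = tconj e P Z)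
    (hgen : ∀ r, ∀ a ∈ Λ, ∃ Y ∈ lineSpace Λ t, Z * fac r a = Y * Z) :
    g ∈ lineStab Λ e P := by
  have hle : ((lineSpace Λ t).map (tconj e P).toLinearMap).map (conjAlg g).toLinearMap ≤
      (lineSpace Λ t).map (tconj e P).toLinearMap := by
    rw [← Submodule.map_comp, Submodule.map_le_iff_le_comap, lineSpace, Submodule.span_le]
    rintro X (rfl | ⟨r, a, ha, rfl⟩)
    · refine ⟨1, Submodule.subset_span (Set.mem_insert _ _), ?_⟩
      simp [conjAlg_apply]
    · obtain ⟨Y, hY, hZ⟩ := hgen r a ha
      refine ⟨Y, hY, ?_⟩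
      simp only [AlgEquiv.toLinearMap_apply, LinearMap.coe_comp, Function.comp_apply, conjAlg_apply]
      rw [hg, ← map_mul, hZ, map_mul, ← hg, mul_assoc, Units.mul_inv, mul_one]
  exact Submodule.eq_of_le_of_finrank_eq hle (LinearEquiv.finrank_map_eq (conjAlg g).toLinearEquiv _)

theorem lineSpace_apply_eq_zero {Λ : Set Md} {x y : Fin t → Fin d} {r s : Fin t} (hrs : r ≠ s)
    (hr : x r ≠ y r) (hs : x s ≠ y s) {X : Mt} (hX : X ∈ lineSpace Λ t) : X x y = 0 := by
  induction hX using Submodule.span_induction with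
  | mem X hX =>
    rcases hX with rfl | ⟨q, a, -, rfl⟩
    · exact Matrix.one_apply_ne fun e => hr (congrFun e r)
    · rw [fac_apply, if_neg]
      intro hall
      by_cases hq : r = q
      · subst hq; exact hs (hall s hrs.symm)
      · exact hr (hall r hq)
  | zero => rfl
  | add X Y _ _ hX hY => rw [Matrix.add_apply, hX, hY, add_zero]
  | smul a X _ hX => rw [Matrix.smul_apply, hX, smul_zero]

/-- What is needed of one factor. -/
structure Local (Λ : Set Md) (N l : Md) : Prop where
  N_mem : N ∈ Λ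
  l_mem : l ∈ Λ
  sq : N * N = 0
  partner : N * l + l * N = 1
  anti : ∀ a ∈ Λ, ∃ κ : F, N * a + a * N = κ • 1
  invariant : ∀ (g : GL (Fin d) F) (z : F), z ≠ 0 →
    (g : Md)ᵀ * revForm * (g : Md) = z • (revForm : Md) →
    ∀ a ∈ Λ, (g : Md) * a * ((g⁻¹ : GL (Fin d) F) : Md) ∈ Λ
  N_offdiag : ∃ i j, i ≠ j ∧ N i j ≠ 0
  l_offdiag : ∃ i j, i ≠ j ∧ l i j ≠ 0

variable {Λ : Set (Matrix (Fin d) (Fin d) F)} {N l : Matrix (Fin d) (Fin d) F}

/-- The tensor wreath elements preserving the form lie in the stabiliser. -/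
theorem Data.wreath_le (h : Data Q e P c) (hd : 0 < d) (hL : Local Λ N l) :
    Geo.tensorWreathSubgroup d t e P ⊓ Geo.omegaGL Q ≤ lineStab Λ e P := by
  intro g hg
  obtain ⟨gs, π, hgs⟩ := mem_tensorWreath_iff.1 hg.1
  have hQ := CfsgLib.OrthGeo.mem_isometryGroup.1 (CfsgLib.OrthGeo.omegaGL_le hg.2)
  have hpol : ∀ u v, QuadraticMap.polar Q ((g : Matrix ι ι F) *ᵥ u) ((g : Matrix ι ι F) *ᵥ v) =
      1 * QuadraticMap.polar Q u v := fun u v => by
    simp only [QuadraticMap.polar, ← Matrix.mulVec_add, hQ, one_mul]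
  have hne : ∀ _i : Fin t, (revForm : Md) ≠ 0 := fun _ e0 => by
    have := congrFun (congrFun e0 ⟨0, hd⟩) (Fin.rev ⟨0, hd⟩)
    simp [revForm] at this
  have hsim := powFactor_similar h.sesqui h.c_ne (X := fun _ : Fin t => (revForm : Md)) hne h.gram one_ne_zero
    hpol hgs
  refine mem_lineStab hgs fun r a ha => ?_
  obtain ⟨z, hz0, hz⟩ := hsim (π r)
  simp only [RingHom.coe_id, Matrix.map_id] at hz
  refine ⟨fac (π r) ((gs (π r) : Md) * a * ((gs (π r))⁻¹ : GL (Fin d) F).val),
    Submodule.subset_span (Set.mem_insert_of_mem _ ⟨_, _, hL.invariant _ z hz0 hz a ha, rfl⟩), ?_⟩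
  rw [fac, fac, Matrix.mul_assoc, permPow_mul_kroneckerPow, ← Matrix.mul_assoc, ← Matrix.mul_assoc,
    kroneckerPow_mul, kroneckerPow_mul]
  congr 2
  funext i
  by_cases hi : i = π r
  · subst hi
    simp [Function.comp, Matrix.mul_assoc]
  · have hi' : π.symm i ≠ r := fun e1 => hi (by rw [← e1, Equiv.apply_symm_apply])
    simp [Function.comp, Pi.mulSingle_eq_of_ne hi, Pi.mulSingle_eq_of_ne hi']

/-- `N` in two factors. -/
def moveMat (r r' : Fin t) (N : Md) : Mt := fac r N * fac r' N

theorem moveMat_sq {r r' : Fin t} (hne : r ≠ r') (hL : Local Λ N l) :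
    moveMat r r' N * moveMat r r' N = 0 := by
  rw [moveMat, (fac_commute hne N N).symm.mul_mul_mul_comm, fac_mul, hL.sq, fac_zero, zero_mul]

theorem conj_single (h2 : (2 : F) = 0) {B A C : Mt} (hBA : ∃ κ : F, B * A + A * B = κ • 1)
    (hBC : Commute B C) (hAC : Commute A C) (hC : C * C = 0) :
    ∃ κ : F, (1 + B * C) * A = (A + κ • C) * (1 + B * C) := by
  obtain ⟨κ, hκ⟩ := hBA
  refine ⟨κ, ?_⟩
  have e2 : ∀ m : Mt, m + m = 0 := fun m => by rw [← two_smul F m, h2, zero_smul]
  have h1 : C * (B * C) = 0 := by rw [← mul_assoc, ← hBC.eq, mul_assoc, hC, mul_zero]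
  have h3 : A * (B * C) = κ • C + B * A * C := by
    have : A * B = κ • 1 + B * A := by
      rw [← hκ, add_comm (B * A), add_assoc, e2, add_zero]
    rw [← mul_assoc, this, add_mul, smul_mul_assoc, one_mul]
  rw [add_mul, one_mul, add_mul A, mul_add A, mul_one, mul_add (κ • C), mul_one, smul_mul_assoc, h1,
    smul_zero, add_zero, h3, mul_assoc B C A, ← hAC.eq, ← mul_assoc]
  calc A + B * A * C = A + B * A * C + (κ • C + κ • C) := by rw [e2, add_zero]
    _ = _ := by abel

/-- The extra element normalises the space. -/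
theorem move_gen (h2 : (2 : F) = 0) {r r' : Fin t} (hne : r ≠ r') (hL : Local Λ N l) (s : Fin t)
    {a : Md} (ha : a ∈ Λ) :
    ∃ Y ∈ lineSpace Λ t, (1 + moveMat r r' N) * fac s a = Y * (1 + moveMat r r' N) := by
  have hmem : ∀ q b, b ∈ Λ → fac q b ∈ lineSpace Λ t := fun q b hb =>
    Submodule.subset_span (Set.mem_insert_of_mem _ ⟨q, b, hb, rfl⟩)
  have hanti : ∀ q : Fin t, ∃ κ : F, fac q N * fac q a + fac q a * fac q N = κ • 1 := fun q => by
    obtain ⟨κ, hκ⟩ := hL.anti a ha
    exact ⟨κ, by rw [fac_mul, fac_mul, ← fac_add, hκ, fac_smul, fac_one]⟩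
  have hsq : ∀ q : Fin t, fac q N * fac q N = 0 := fun q => by rw [fac_mul, hL.sq, fac_zero]
  by_cases h1 : s = r
  · subst h1
    obtain ⟨κ, hκ⟩ := conj_single h2 (hanti s) (fac_commute hne N N) (fac_commute hne a N) (hsq _)
    exact ⟨_, Submodule.add_mem _ (hmem _ _ ha) (Submodule.smul_mem _ κ (hmem _ _ hL.N_mem)), hκ⟩
  by_cases h1' : s = r'
  · subst h1'
    obtain ⟨κ, hκ⟩ := conj_single h2 (hanti s) (fac_commute hne.symm N N) (fac_commute hne.symm a N)
      (hsq _)
    rw [(fac_commute hne.symm N N).eq] at hκ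
    exact ⟨_, Submodule.add_mem _ (hmem _ _ ha) (Submodule.smul_mem _ κ (hmem _ _ hL.N_mem)), hκ⟩
  refine ⟨fac s a, hmem _ _ ha, ?_⟩
  rw [add_mul, mul_add, one_mul, mul_one, moveMat, ← mul_assoc (fac s a), (fac_commute h1 a N).eq,
    mul_assoc (fac r N) (fac s a), (fac_commute h1' a N).eq, ← mul_assoc]

/-- The extra element is not in the wreath group. -/
theorem move_not_mem (h2 : (2 : F) = 0) {r r' : Fin t} (hne : r ≠ r') (hd : 0 < d) (hL : Local Λ N l)
    {g : GL ι F} (hg : (g : Matrix ι ι F) = tconj e P (1 + moveMat r r' N)) :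
    g ∉ Geo.tensorWreathSubgroup d t e P := by
  classical
  intro hmem
  obtain ⟨gs, π, hgs⟩ := mem_tensorWreath_iff.1 hmem
  have hZ : 1 + moveMat r r' N = kroneckerPow (fun i => (gs i : Md)) * permPow π :=
    (tconj e P).injective (hg.symm.trans hgs)
  set B := (gs (π r) : Md) * l * ((gs (π r))⁻¹ : GL (Fin d) F).val
  have h1 : (1 + moveMat r r' N) * fac r l = fac (π r) B * (1 + moveMat r r' N) := by
    rw [hZ, fac, fac, Matrix.mul_assoc, permPow_mul_kroneckerPow, ← Matrix.mul_assoc, ← Matrix.mul_assoc,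
      kroneckerPow_mul, kroneckerPow_mul]
    congr 2
    funext i
    by_cases hi : i = π r
    · subst hi
      simp [B, Function.comp, Matrix.mul_assoc]
    · have hi' : π.symm i ≠ r := fun e1 => hi (by rw [← e1, Equiv.apply_symm_apply])
      simp [Function.comp, Pi.mulSingle_eq_of_ne hi, Pi.mulSingle_eq_of_ne hi']
  have e2 : ∀ m : Mt, m + m = 0 := fun m => by rw [← two_smul F m, h2, zero_smul]
  have hinv : (1 + moveMat r r' N) * (1 + moveMat r r' N) = 1 := by
    rw [add_mul, one_mul, mul_add, mul_one, moveMat_sq hne hL, add_zero, add_assoc, e2, add_zero]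
  obtain ⟨κ, hκ⟩ := conj_single h2 (B := fac r N) (A := fac r l) (C := fac r' N)
    ⟨(1 : F), by rw [fac_mul, fac_mul, ← fac_add, hL.partner, fac_one, one_smul]⟩
    (fac_commute hne N N) (fac_commute hne l N) (by rw [fac_mul, hL.sq, fac_zero])
  have hκ1 : κ = 1 := by
    -- the coefficient is read off from the commutator
    have e3 : fac r N * fac r l + fac r l * fac r N = 1 := by
      rw [fac_mul, fac_mul, ← fac_add, hL.partner, fac_one]
    have e4 : fac r N * fac r' N * fac r l + fac r l * (fac r N * fac r' N) = fac r' N := by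
      rw [mul_assoc, ← (fac_commute hne l N).eq, ← mul_assoc, ← mul_assoc, ← add_mul, e3, one_mul]
    have e5 : fac r' N * (fac r N * fac r' N) = 0 := by
      rw [← mul_assoc, ← (fac_commute hne N N).eq, mul_assoc, fac_mul, hL.sq, fac_zero, mul_zero]
    rw [add_mul, one_mul, add_mul (fac r l), mul_add, mul_one, mul_add, mul_one, smul_mul_assoc, e5,
      smul_zero, add_zero, add_assoc] at hκ
    have e6 : fac r N * fac r' N * fac r l = fac r l * (fac r N * fac r' N) + κ • fac r' N :=
      add_left_cancel hκ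
    rw [e6, add_comm, ← add_assoc, e2, zero_add] at e4
    obtain ⟨i, j, -, hij⟩ := hL.N_offdiag
    have := congrFun (congrFun e4 (Function.update (fun _ => ⟨0, hd⟩) r' i))
      (Function.update (fun _ => ⟨0, hd⟩) r' j)
    rw [Matrix.smul_apply, fac_apply, if_pos (fun q hq => by
      rw [Function.update_of_ne hq, Function.update_of_ne hq]), Function.update_self,
      Function.update_self, smul_eq_mul] at this
    exact mul_right_cancel₀ hij (this.trans (one_mul _).symm)
  rw [hκ1, one_smul] at hκ
  have heq : fac r l + fac r' N = fac (π r) B := by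
    have h3 := congrArg (· * (1 + moveMat r r' N)) (h1.symm.trans hκ)
    simp only [mul_assoc, moveMat] at h3 hinv
    rw [hinv, mul_one, mul_one] at h3
    exact h3.symm
  obtain ⟨q, q', i, j, hij, hnz, hqq, hval⟩ : ∃ (q q' : Fin t) (i j : Fin d), i ≠ j ∧
      (fac r l + fac r' N) (Function.update (fun _ => ⟨0, hd⟩) q i)
        (Function.update (fun _ => ⟨0, hd⟩) q j) ≠ 0 ∧ q ≠ π r ∧ q' = q := by
    by_cases hq : π r = r
    · obtain ⟨i, j, hij, hN⟩ := hL.N_offdiag
      refine ⟨r', r', i, j, hij, ?_, by rw [hq]; exact hne.symm, rfl⟩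
      rw [Matrix.add_apply, fac_apply, if_neg, fac_apply, if_pos, Function.update_self,
        Function.update_self, zero_add]
      · exact hN
      · exact fun s hs => by rw [Function.update_of_ne hs, Function.update_of_ne hs]
      · intro hall
        exact hij (by simpa using hall r' hne.symm)
    · obtain ⟨i, j, hij, hl⟩ := hL.l_offdiag
      refine ⟨r, r, i, j, hij, ?_, fun e1 => hq e1.symm, rfl⟩
      rw [Matrix.add_apply, fac_apply, if_pos, fac_apply, if_neg, Function.update_self,
        Function.update_self, add_zero]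
      · exact hl
      · intro hall
        exact hij (by simpa using hall r hne)
      · exact fun s hs => by rw [Function.update_of_ne hs, Function.update_of_ne hs]
  refine hnz ?_
  rw [heq, fac_apply, if_neg]
  intro hall
  exact hij (by simpa using hall q hqq)

/-- The pair of elementary matrices of a root element. -/
def rootMat (a b : Fin t → Fin d) : Mt :=
  Matrix.single a b 1 + Matrix.single (Fin.rev ∘ b) (Fin.rev ∘ a) 1

theorem rev_comp_rev (a : Fin t → Fin d) : Fin.rev ∘ (Fin.rev ∘ a) = a := funext fun i => by simp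

theorem rev_comp_ne (hd : Even d) (ht : 0 < t) (a : Fin t → Fin d) : Fin.rev ∘ a ≠ a := by
  intro e1
  have h := congrArg Fin.val (congrFun e1 ⟨0, ht⟩)
  rw [Function.comp_apply, Fin.val_rev] at h
  obtain ⟨k, hk⟩ := hd
  omega

theorem kroneckerPow_revForm_mul_single (a b : Fin t → Fin d) :
    kroneckerPow (fun _ : Fin t => (revForm : Md)) * Matrix.single a b (1 : F) =
      Matrix.single (Fin.rev ∘ a) b 1 := by
  ext x y
  rw [Matrix.mul_apply, Finset.sum_eq_single (Fin.rev ∘ x) (fun z _ hz => by
    rw [kroneckerPow_revForm, if_neg hz, zero_mul]) (by simp), kroneckerPow_revForm, if_pos rfl, one_mul,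
    Matrix.single_apply, Matrix.single_apply]
  refine if_congr ⟨fun e1 => ⟨?_, e1.2⟩, fun e1 => ⟨?_, e1.2⟩⟩ rfl rfl
  · rw [e1.1, rev_comp_rev]
  · rw [← e1.1, rev_comp_rev]

theorem single_mul_zero {i j k l : Fin t → Fin d} (h : j ≠ k) :
    (Matrix.single i j (1 : F) : Mt) * Matrix.single k l 1 = 0 := by
  simp [h]

theorem Data.root_isometry (h : Data Q e P c) (ht : 0 < t) {a b : Fin t → Fin d} (hab : a ≠ b)
    (hbar : Fin.rev ∘ a ≠ b) (v : ι → F) : Q (tconj e P (1 + rootMat a b) *ᵥ v) = Q v := by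
  classical
  have hne := rev_comp_ne h.even ht
  have hGX : kroneckerPow (fun _ : Fin t => (revForm : Md)) * rootMat a b =
      Matrix.single (Fin.rev ∘ a) b (1 : F) + Matrix.single b (Fin.rev ∘ a) 1 := by
    rw [rootMat, mul_add, kroneckerPow_revForm_mul_single, kroneckerPow_revForm_mul_single, rev_comp_rev]
  refine h.isometry_of (fun y => ?_) ?_ ?_ ?_ v
  · have hz : Q (powEmb e P (fun _ => (0 : F))) = 0 := by
      rw [show (fun _ : Fin t → Fin d => (0 : F)) = 0 from rfl, powEmb,
        show ((0 : (Fin t → Fin d) → F) ∘ e) = 0 from rfl, Matrix.mulVec_zero, h.quad_zero]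
    have hbasis : ∀ p : Fin t → Fin d, Q (powEmb e P (fun x => if p = x then 1 else 0)) = 0 := fun p => by
      convert h.pure (fun i x => if p i = x then 1 else 0) using 3
      funext x
      rw [Finset.prod_ite_zero]
      simp [funext_iff]
    by_cases hy : b = y
    · subst hy
      convert hbasis a using 3
      funext x
      simp [rootMat, Matrix.single_apply, hbar]
    · by_cases hy' : Fin.rev ∘ a = y
      · subst hy'
        convert hbasis (Fin.rev ∘ b) using 3
        funext x
        simp [rootMat, Matrix.single_apply, hy]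
      · convert hz using 3
        funext x
        simp [rootMat, hy, hy']
  · rw [Matrix.mul_assoc, hGX, rootMat, Matrix.transpose_add, Matrix.transpose_single, Matrix.transpose_single,
      add_mul, mul_add, mul_add, single_mul_zero (hne a).symm,
      single_mul_zero hab, single_mul_zero (fun e1 => hab
        (by rw [← rev_comp_rev a, ← e1, rev_comp_rev])),
      single_mul_zero (hne b)]
    simp
  · intro x y
    rw [hGX, Matrix.add_apply, Matrix.add_apply, Matrix.single_apply, Matrix.single_apply,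
      Matrix.single_apply, Matrix.single_apply, add_comm]
    congr 1 <;> exact if_congr ⟨fun e1 => ⟨e1.2, e1.1⟩, fun e1 => ⟨e1.2, e1.1⟩⟩ rfl rfl
  · intro x
    rw [hGX, Matrix.add_apply, Matrix.single_apply, Matrix.single_apply, if_neg, if_neg, add_zero]
    · exact fun e1 => hbar (e1.2.trans e1.1.symm)
    · exact fun e1 => hbar (e1.1.trans e1.2.symm)

theorem rootMat_mul (a b a' b' : Fin t → Fin d) :
    (rootMat a b : Mt) * rootMat a' b' =
      Matrix.single a b 1 * Matrix.single a' b' 1 +
      Matrix.single a b 1 * Matrix.single (Fin.rev ∘ b') (Fin.rev ∘ a') 1 +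
      Matrix.single (Fin.rev ∘ b) (Fin.rev ∘ a) 1 * Matrix.single a' b' 1 +
      Matrix.single (Fin.rev ∘ b) (Fin.rev ∘ a) 1 * Matrix.single (Fin.rev ∘ b') (Fin.rev ∘ a') 1 := by
  rw [rootMat, rootMat]; noncomm_ring

/-- A root element moving the space lies in `Ω`. -/
theorem Data.exists_outside (h : Data Q e P c) {r₀ r₁ : Fin t} (hr : r₀ ≠ r₁)
    {a b m : Fin t → Fin d} (ha : ∀ i, i ≠ r₁ → a i = b i)
    (hab : a ≠ b) (ham : a ≠ m) (hbm : b ≠ m) (hab' : Fin.rev ∘ a ≠ b) (ham' : Fin.rev ∘ a ≠ m)
    (hbm' : Fin.rev ∘ b ≠ m)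
    (hN : N ∈ Λ) {j : Fin d} (hj : b r₀ ≠ j) (hNj : N (b r₀) j ≠ 0)
    (hy : Function.update b r₀ j ≠ Fin.rev ∘ a) :
    ∃ g ∈ Geo.omegaGL Q, g ∉ lineStab Λ e P := by
  classical
  have ht : 0 < t := r₀.pos
  have hne := rev_comp_ne h.even ht
  have inj : ∀ {p q : Fin t → Fin d}, Fin.rev ∘ p = Fin.rev ∘ q → p = q := fun e1 => by
    have := congrArg (Fin.rev ∘ ·) e1
    simpa only [rev_comp_rev] using this
  have swap : ∀ {p q : Fin t → Fin d}, Fin.rev ∘ p ≠ q → p ≠ Fin.rev ∘ q :=
    fun hpq e1 => hpq (by rw [e1, rev_comp_rev])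
  have hsq : ∀ {p q : Fin t → Fin d}, p ≠ q → Fin.rev ∘ p ≠ q → (rootMat p q : Mt) * rootMat p q = 0 := by
    intro p q hpq hpq'
    rw [rootMat_mul, single_mul_zero hpq.symm, single_mul_zero (hne q).symm,
      single_mul_zero (hne p), single_mul_zero fun e1 => hpq (inj e1)]
    simp
  set u : Mt := rootMat a m
  set v : Mt := rootMat m b
  have huv : u * v = Matrix.single a b (1 : F) := by
    rw [rootMat_mul, Matrix.single_mul_single_same, single_mul_zero hbm'.symm,
      single_mul_zero ham', single_mul_zero fun e1 => hab (inj e1)]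
    simp
  have hvu : v * u = Matrix.single (Fin.rev ∘ b) (Fin.rev ∘ a) (1 : F) := by
    rw [rootMat_mul, Matrix.single_mul_single_same, single_mul_zero hab.symm,
      single_mul_zero (swap hbm'), single_mul_zero (swap ham').symm]
    simp
  have huvu : u * v * u = 0 := by
    rw [huv, show u = Matrix.single a m (1 : F) + Matrix.single (Fin.rev ∘ m) (Fin.rev ∘ a) 1 from rfl,
      mul_add, single_mul_zero hab.symm, single_mul_zero (fun e1 => hbm'
        (by rw [e1, rev_comp_rev]))]
    simp
  have hvuv : v * u * v = 0 := by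
    rw [hvu, show v = Matrix.single m b (1 : F) + Matrix.single (Fin.rev ∘ b) (Fin.rev ∘ m) 1 from rfl,
      mul_add, single_mul_zero ham', single_mul_zero (fun e1 => hab (inj e1))]
    simp
  have hX : rootMat a b = u * v + v * u := by rw [huv, hvu, rootMat]
  have hsqX := hsq hab hab'
  set g := unip h.two e P hsqX
  refine ⟨g, h.omega_of_pair (hsq ham ham') (hsq hbm.symm (fun e1 => hbm' (by rw [← e1, rev_comp_rev])))
    huvu hvuv (h.root_isometry ht ham ham')
    (h.root_isometry ht hbm.symm (fun e1 => hbm' (by rw [← e1, rev_comp_rev])))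
    (congrArg (fun X => tconj e P (1 + X)) hX), fun hg => ?_⟩
  -- the image of one generator has an entry in two factors
  have hmem : tconj e P (fac r₀ N) ∈ (lineSpace Λ t).map (tconj e P).toLinearMap :=
    ⟨_, Submodule.subset_span (Set.mem_insert_of_mem _ ⟨r₀, N, hN, rfl⟩), rfl⟩
  have h1 : conjAlg g (tconj e P (fac r₀ N)) ∈ (lineSpace Λ t).map (tconj e P).toLinearMap := by
    rw [← show Submodule.map (conjAlg g).toLinearMap _ = _ from hg]
    exact ⟨_, hmem, rfl⟩
  obtain ⟨Y, hY, hYe⟩ := h1
  have hY' : Y = (1 + rootMat a b) * fac r₀ N * (1 + rootMat a b) :=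
    (tconj e P).injective (hYe.trans (by rw [conjAlg_apply, map_mul, map_mul]; rfl))
  set y := Function.update b r₀ j with hydef
  have hab1 : a r₁ ≠ b r₁ := fun e1 => hab (funext fun i => by
    by_cases hi : i = r₁
    · rw [hi]; exact e1
    · exact ha i hi)
  have hay0 : a r₀ ≠ y r₀ := by rw [hydef, Function.update_self, ha r₀ hr]; exact hj
  have hay1 : a r₁ ≠ y r₁ := by rwa [hydef, Function.update_of_ne hr.symm]
  have hby : b ≠ y := fun e1 => hj (by
    have := congrFun e1 r₀
    rwa [hydef, Function.update_self] at this)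
  have hcol : ∀ z, rootMat a b z y = (0 : F) := fun z => by
    simp [rootMat, hby, Ne.symm hy]
  have h2 : Y a y = N (b r₀) j := by
    rw [hY', mul_add, mul_one, Matrix.add_apply, Matrix.mul_apply (N := rootMat a b),
      Finset.sum_eq_zero fun z _ => by rw [hcol, mul_zero], add_zero, add_mul, one_mul, Matrix.add_apply,
      fac_apply, if_neg (fun hall => hay1 (hall r₁ hr.symm)), zero_add, Matrix.mul_apply,
      Finset.sum_eq_single b]
    · rw [fac_apply, if_pos (fun i hi => by rw [hydef, Function.update_of_ne hi]),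
        hydef, Function.update_self]
      simp [rootMat, (swap hab').symm]
    · intro z _ hz
      rw [rootMat, Matrix.add_apply, Matrix.single_apply, Matrix.single_apply,
        if_neg (fun e1 => hz e1.2.symm), if_neg (fun e1 => swap hab' e1.1.symm)]
      simp
    · simp
  exact hNj (h2.symm.trans (lineSpace_apply_eq_zero hr hay0 hay1 hY))

/-- The core: the tensor wreath group in `Ω` is not maximal. -/
theorem Data.not_maximal (h : Data Q e P c) (hd : 0 < d) (hL : Local Λ N l) {r r' : Fin t} (hne : r ≠ r')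
    (hmove : ∀ g : GL ι F, (g : Matrix ι ι F) = tconj e P (1 + moveMat r r' N) → g ∈ Geo.omegaGL Q)
    (hout : ∃ g ∈ Geo.omegaGL Q, g ∉ lineStab Λ e P) :
    ∃ K : Subgroup (GL ι F), Geo.tensorWreathSubgroup d t e P ⊓ Geo.omegaGL Q < K ∧
      K < Geo.omegaGL Q := by
  refine ⟨lineStab Λ e P ⊓ Geo.omegaGL Q, ?_, ?_⟩
  · refine lt_of_le_of_ne (le_inf (h.wreath_le hd hL) inf_le_right) fun e1 => ?_
    set x := unip h.two e P (moveMat_sq hne hL)
    have hx : x ∈ lineStab Λ e P ⊓ Geo.omegaGL Q :=
      ⟨mem_lineStab rfl fun s a ha => move_gen h.two hne hL s ha, hmove x rfl⟩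
    rw [← e1] at hx
    exact move_not_mem h.two hne hd hL (g := x) rfl hx.1
  · refine lt_of_le_of_ne inf_le_right fun e1 => ?_
    obtain ⟨g, hg, hg'⟩ := hout
    rw [← e1] at hg
    exact hg' hg.1

/-- The move element as a commutator. -/
theorem Data.move_mem (h : Data Q e P c) {r r' s : Fin t} (hrs' : r' ≠ s) (hne : r ≠ r')
    (hL : Local Λ N l) {N' l' : Md} (hN' : N' * N' = 0) (hp : N' * l' + l' * N' = 1)
    (hc1 : Commute (fac r N) (fac s N')) (hc2 : Commute (fac r N) (fac s l'))
    (hl' : l' * l' = 0)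
    (hu : ∀ x, Q (tconj e P (1 + fac r N * fac s N') *ᵥ x) = Q x)
    (hv : ∀ x, Q (tconj e P (1 + fac s l' * fac r' N) *ᵥ x) = Q x)
    {g : GL ι F} (hg : (g : Matrix ι ι F) = tconj e P (1 + moveMat r r' N)) :
    g ∈ Geo.omegaGL Q := by
  set B := fac r N
  set C := fac s N'
  set D := fac s l'
  set A := fac r' N
  have hBA : Commute B A := fac_commute hne N N
  have hCA : Commute C A := fac_commute hrs'.symm N' N
  have hDA : Commute D A := fac_commute hrs'.symm l' N
  have hBB : B * B = 0 := by rw [fac_mul, hL.sq, fac_zero]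
  have hAA : A * A = 0 := by rw [fac_mul, hL.sq, fac_zero]
  have hCC : C * C = 0 := by rw [fac_mul, hN', fac_zero]
  have hDD : D * D = 0 := by rw [fac_mul, hl', fac_zero]
  have hsum : C * D + D * C = 1 := by rw [fac_mul, fac_mul, ← fac_add, hp, fac_one]
  have key : B * C * (D * A) + D * A * (B * C) = B * A := by
    have e1 : B * C * (D * A) = B * A * (C * D) := by
      rw [mul_assoc B C, mul_assoc B A]
      congr 1
      rw [← mul_assoc, ((hCA.symm).mul_right (hDA.symm)).eq]
    have e2 : D * A * (B * C) = B * A * (D * C) := by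
      rw [hDA.eq, mul_assoc A D, ← mul_assoc D B, ← hc2.eq, mul_assoc B D, ← mul_assoc, ← hBA.eq]
    rw [e1, e2, ← mul_add, hsum, mul_one]
  refine h.omega_of_pair (u := B * C) (v := D * A) ?_ ?_ ?_ ?_ hu hv (by rw [hg, key]; rfl)
  · rw [(hc1.symm).mul_mul_mul_comm, hBB, zero_mul]
  · rw [(hDA.symm).mul_mul_mul_comm, hAA, mul_zero]
  · have e : B * C * (D * A) * (B * C) = B * (B * (C * D * A * C)) := by
      have h1 : Commute B (C * D * A) := (hc1.mul_right hc2).mul_right hBA
      calc B * C * (D * A) * (B * C) = B * (C * D * A * B) * C := by simp only [mul_assoc]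
        _ = B * (B * (C * D * A)) * C := by rw [h1.eq]
        _ = _ := by simp only [mul_assoc]
    rw [e, ← mul_assoc, hBB, zero_mul]
  · have e : D * A * (B * C) * (D * A) = D * (B * C * D) * (A * A) := by
      have h1 : Commute A (B * C * D) := ((hBA.symm).mul_right hCA.symm).mul_right hDA.symm
      calc D * A * (B * C) * (D * A) = D * (A * (B * C * D)) * A := by simp only [mul_assoc]
        _ = D * (B * C * D * A) * A := by rw [h1.eq]
        _ = _ := by simp only [mul_assoc]
    rw [e, hAA, mul_zero]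

end CfsgLib.Aschbacher.SpinLine
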