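import Cfsg.Agent.Aschbacher.SpinLine
import Cfsg.Agent.LinAlg.Witt.Bases

/-!
The factors of dimension two and four for `SpinLine`: the spaces `Λ`, and the non-maximality of the
symplectic tensor wreath subgroups of plus-type orthogonal groups in characteristic two.
-/

set_option autoImplicit false
set_option linter.unusedSectionVars false
set_option linter.unusedSimpArgs false

namespace CfsgLib.Aschbacher.SpinLine

open Matrix Module Cfsg CfsgLib.Aschbacher CfsgLib.Aschbacher.Forms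
open scoped MatrixGroups

variable {ι : Type} [Fintype ι] [DecidableEq ι] {F : Type*} [Field F]

/-- Equal diagonal entries. -/
def lineTwo (F : Type*) [Field F] : Set (Matrix (Fin 2) (Fin 2) F) := {a | a 0 0 = a 1 1}

/-- The five-dimensional space in dimension four. -/
def lineFour (F : Type*) [Field F] : Set (Matrix (Fin 4) (Fin 4) F) :=
  {a | a 0 0 = a 3 3 ∧ a 1 1 = a 2 2 ∧ a 0 0 = a 1 1 ∧ a 0 1 = a 2 3 ∧ a 0 2 = a 1 3 ∧
    a 1 0 = a 3 2 ∧ a 2 0 = a 3 1 ∧ a 0 3 = 0 ∧ a 1 2 = 0 ∧ a 2 1 = 0 ∧ a 3 0 = 0}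

theorem eq_of_add_zero (h2 : (2 : F) = 0) {x y : F} (h : x + y = 0) : x = y := by
  linear_combination h - y * h2

theorem local_two (h2 : (2 : F) = 0) :
    Local (lineTwo F) (!![0, 1; 0, 0]) (!![0, 0; 1, 0] : Matrix (Fin 2) (Fin 2) F) where
  N_mem := by simp [lineTwo]
  l_mem := by simp [lineTwo]
  sq := by ext i j; fin_cases i <;> fin_cases j <;> simp [Matrix.mul_apply, Fin.sum_univ_two]
  partner := by
    ext i j; fin_cases i <;> fin_cases j <;> simp [Matrix.mul_apply, Fin.sum_univ_two]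
  anti a ha := by
    refine ⟨a 1 0, ?_⟩
    have e : a 0 0 = a 1 1 := ha
    rw [Matrix.eta_fin_two a, Matrix.mul_fin_two, Matrix.mul_fin_two]
    ext i j
    fin_cases i <;> fin_cases j <;> simp [e]
    linear_combination (a 1 1) * h2
  invariant g z _ _ a ha := by
    refine eq_of_add_zero h2 ?_
    have e : a 0 0 = a 1 1 := ha
    rw [← Matrix.trace_fin_two, Matrix.trace_mul_cycle, Units.inv_mul, Matrix.one_mul,
      Matrix.trace_fin_two, e]
    linear_combination (a 1 1) * h2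
  N_offdiag := ⟨0, 1, by decide, by simp⟩
  l_offdiag := ⟨1, 0, by decide, by simp⟩

theorem alternating_of_entries (h2 : (2 : F) = 0) {d : ℕ} {X : Matrix (Fin d) (Fin d) F}
    (hs : ∀ a b, X a b = X b a) (hd : ∀ a, X a a = 0) (v : Fin d → F) : v ⬝ᵥ (X *ᵥ v) = 0 :=
  dot_self_zero h2 hs hd v

theorem entries_of_alternating (h2 : (2 : F) = 0) {d : ℕ} {X : Matrix (Fin d) (Fin d) F}
    (h : ∀ v : Fin d → F, v ⬝ᵥ (X *ᵥ v) = 0) : (∀ a b, X a b = X b a) ∧ ∀ a, X a a = 0 := by
  have hd : ∀ a, X a a = 0 := fun a => by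
    have := h (Pi.single a 1)
    simpa [Matrix.mulVec_single_one] using this
  refine ⟨fun a b => eq_of_add_zero h2 ?_, hd⟩
  have := h (Pi.single a 1 + Pi.single b 1)
  have e : X b a + X a b = 0 := by
    simpa [Matrix.mulVec_add, Matrix.mulVec_single_one, add_dotProduct, dotProduct_add, hd] using this
  linear_combination e

theorem lineFour_iff (h2 : (2 : F) = 0) (a : Matrix (Fin 4) (Fin 4) F) :
    a ∈ lineFour F ↔ (∀ v : Fin 4 → F, v ⬝ᵥ ((revForm * a) *ᵥ v) = 0) ∧
      ∃ μ : F, a * a = μ • (1 : Matrix (Fin 4) (Fin 4) F) := by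
  have hG : ∀ x y, ((revForm : Matrix (Fin 4) (Fin 4) F) * a) x y = a (Fin.rev x) y := fun x y => by
    rw [Matrix.mul_apply, Finset.sum_eq_single (Fin.rev x) (fun z _ hz => by simp [revForm, hz])
      (by simp)]
    simp [revForm]
  constructor
  · rintro ⟨h1, h3, h4, h5, h6, h7, h8, h9, h10, h11, h12⟩
    constructor
    · refine alternating_of_entries h2 (fun x y => ?_) fun x => ?_
      · fin_cases x <;> fin_cases y <;> simp [hG, *]
      · fin_cases x <;> simp [hG, *]
    · refine ⟨a 0 0 * a 0 0 + a 0 1 * a 1 0 + a 0 2 * a 2 0, ?_⟩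
      ext i j
      fin_cases i <;> fin_cases j <;>
        simp only [Fin.zero_eta, Fin.mk_one, Fin.reduceFinMk, Matrix.mul_apply, Fin.sum_univ_four,
          Matrix.smul_apply, smul_eq_mul, Matrix.one_apply, Fin.reduceEq, if_true, if_false, mul_one,
          mul_zero, ← h1, ← h3, ← h4, ← h5, ← h6, ← h7, ← h8, h9, h10, h11, h12, zero_mul, add_zero,
          zero_add] <;>
        ring_nf <;> simp [h2]
  · rintro ⟨halt, μ, hμ⟩
    obtain ⟨hs, hd⟩ := entries_of_alternating h2 halt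
    simp only [hG] at hs hd
    have s01 : a 3 1 = a 2 0 := hs 0 1
    have s02 : a 3 2 = a 1 0 := hs 0 2
    have s03 : a 3 3 = a 0 0 := hs 0 3
    have s12 : a 2 2 = a 1 1 := hs 1 2
    have s13 : a 2 3 = a 0 1 := hs 1 3
    have s23 : a 1 3 = a 0 2 := hs 2 3
    have d0 : a 3 0 = 0 := hd 0
    have d1 : a 2 1 = 0 := hd 1
    have d2 : a 1 2 = 0 := hd 2
    have d3 : a 0 3 = 0 := hd 3
    refine ⟨s03.symm, s12.symm, ?_, s13.symm, s23.symm, s02.symm, s01.symm, d3, d2, d1, d0⟩
    have e0 := congrFun (congrFun hμ 0) 0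
    have e1 := congrFun (congrFun hμ 1) 1
    simp only [Matrix.mul_apply, Fin.sum_univ_four, Matrix.smul_apply, smul_eq_mul, Matrix.one_apply_eq,
      d0, d1, d2, d3, s01, s02, s03, s12, s13, s23] at e0 e1
    have : (a 0 0 - a 1 1) * (a 0 0 - a 1 1) = 0 := by
      linear_combination e0 - e1 + (a 1 1 * a 1 1 - a 0 0 * a 1 1) * h2
    exact sub_eq_zero.1 (mul_self_eq_zero.1 this)

theorem local_four (h2 : (2 : F) = 0) :
    Local (lineFour F) (!![0, 0, 1, 0; 0, 0, 0, 1; 0, 0, 0, 0; 0, 0, 0, 0])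
      (!![0, 0, 0, 0; 0, 0, 0, 0; 1, 0, 0, 0; 0, 1, 0, 0] : Matrix (Fin 4) (Fin 4) F) where
  N_mem := by simp [lineFour]
  l_mem := by simp [lineFour]
  sq := by ext i j; fin_cases i <;> fin_cases j <;> simp [Matrix.mul_apply, Fin.sum_univ_four]
  partner := by
    ext i j; fin_cases i <;> fin_cases j <;> simp [Matrix.mul_apply, Fin.sum_univ_four]
  anti a ha := by
    refine ⟨a 2 0, ?_⟩
    obtain ⟨h1, h3, h4, h5, h6, h7, h8, h9, h10, h11, h12⟩ := ha
    ext i j
    fin_cases i <;> fin_cases j <;>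
      simp [Matrix.mul_apply, Fin.sum_univ_four, Matrix.vecMul, dotProduct, ← h1, ← h3, ← h4, ← h5,
        ← h6, ← h7, ← h8, h9, h10, h11, h12]
    all_goals (ring_nf; simp [h2])
  invariant g z _ hg a ha := by
    rw [lineFour_iff h2] at ha ⊢
    obtain ⟨halt, μ, hμ⟩ := ha
    refine ⟨fun v => ?_, μ, ?_⟩
    · have e1 : (revForm : Matrix (Fin 4) (Fin 4) F) * g.val =
          z • (((g⁻¹ : GL (Fin 4) F).val)ᵀ * revForm) := by
        rw [← Matrix.mul_smul, ← hg, ← Matrix.mul_assoc, ← Matrix.mul_assoc, ← Matrix.transpose_mul,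
          Units.mul_inv, Matrix.transpose_one, Matrix.one_mul]
      rw [← Matrix.mul_assoc, ← Matrix.mul_assoc, e1, Matrix.smul_mul, Matrix.smul_mul, Matrix.smul_mulVec,
        dotProduct_smul, Matrix.mul_assoc _ revForm a, ← Matrix.mulVec_mulVec, ← Matrix.mulVec_mulVec,
        Matrix.dotProduct_mulVec, Matrix.vecMul_transpose, halt, smul_zero]
    · calc g.val * a * (g⁻¹).val * (g.val * a * (g⁻¹).val)
          = g.val * (a * ((g⁻¹).val * g.val) * a) * (g⁻¹).val := by simp only [Matrix.mul_assoc]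
        _ = g.val * (a * a) * (g⁻¹).val := by rw [Units.inv_mul, Matrix.mul_one]
        _ = μ • (1 : Matrix (Fin 4) (Fin 4) F) := by
          rw [hμ, Matrix.mul_smul, Matrix.mul_one, Matrix.smul_mul, Units.mul_inv]
  N_offdiag := ⟨0, 2, by decide, by simp⟩
  l_offdiag := ⟨2, 0, by decide, by simp⟩

theorem rev_ne_of_zero {d t : ℕ} {x y : Fin t → Fin d} (i : Fin t) (h : Fin.rev (x i) ≠ y i) :
    Fin.rev ∘ x ≠ y := fun e => h (congrFun e i)

variable {Q : (ι → F) → F} {c : F} {t : ℕ}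

theorem not_maximal_two {e : ι ≃ (Fin t → Fin 2)} {P : GL ι F} (h : Data Q e P c) (ht : 4 ≤ t) :
    ∃ K : Subgroup (GL ι F), Geo.tensorWreathSubgroup 2 t e P ⊓ Geo.omegaGL Q < K ∧
      K < Geo.omegaGL Q := by
  classical
  have hL := local_two (F := F) h.two
  let i0 : Fin t := ⟨0, by omega⟩
  let i1 : Fin t := ⟨1, by omega⟩
  let i2 : Fin t := ⟨2, by omega⟩
  let i3 : Fin t := ⟨3, by omega⟩
  have h01 : i0 ≠ i1 := by simp [i0, i1]
  have h02 : i0 ≠ i2 := by simp [i0, i2]
  have h12 : i1 ≠ i2 := by simp [i1, i2]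
  have h03 : i3 ≠ i0 := by simp [i0, i3]
  have h13 : i3 ≠ i1 := by simp [i1, i3]
  have h23 : i3 ≠ i2 := by simp [i2, i3]
  have iso : ∀ {r s : Fin t}, r ≠ s → i3 ≠ r → i3 ≠ s → ∀ (a b : Matrix (Fin 2) (Fin 2) F),
      (aᵀ * (revForm : Matrix (Fin 2) (Fin 2) F) * a = 0) → (∀ x y, ((revForm : Matrix (Fin 2) (Fin 2) F) * a) x y = ((revForm : Matrix (Fin 2) (Fin 2) F) * a) y x) →
      (∀ x y, ((revForm : Matrix (Fin 2) (Fin 2) F) * b) x y = ((revForm : Matrix (Fin 2) (Fin 2) F) * b) y x) →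
      ∀ v, Q (tconj e P (1 + fac r a * fac s b) *ᵥ v) = Q v := by
    intro r s hrs h3r h3s a b hza hsa hsb v
    rw [fac_mul']
    refine h.isometry_kron _ ⟨r, ?_⟩ (fun i => ?_) ⟨i3, ?_⟩ v
    · simpa [Pi.mulSingle_eq_of_ne hrs] using hza
    · rw [Pi.mul_apply]
      by_cases hir : i = r
      · subst hir; simpa [Pi.mulSingle_eq_of_ne hrs] using hsa
      · by_cases his : i = s
        · subst his; simpa [Pi.mulSingle_eq_of_ne hir] using hsb
        · intro x y
          fin_cases x <;> fin_cases y <;>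
            simp [Pi.mulSingle_eq_of_ne hir, Pi.mulSingle_eq_of_ne his, revForm]
    · intro x
      fin_cases x <;> simp [Pi.mulSingle_eq_of_ne h3r, Pi.mulSingle_eq_of_ne h3s, revForm]
  refine h.not_maximal (by omega) hL h01 (fun g hg => h.move_mem h12 h01 hL
      (N' := !![0, 1; 0, 0]) (l' := !![0, 0; 1, 0]) hL.sq hL.partner (fac_commute h02 _ _)
      (fac_commute h02 _ _) ?_ ?_ ?_ hg) ?_
  · ext i j; fin_cases i <;> fin_cases j <;> simp [Matrix.mul_apply, Fin.sum_univ_two]
  · refine iso h02 h03 h23 _ _ ?_ ?_ ?_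
    · ext i j; fin_cases i <;> fin_cases j <;> simp [Matrix.mul_apply, Fin.sum_univ_two, revForm]
    all_goals intro x y; fin_cases x <;> fin_cases y <;> simp [Matrix.mul_apply, Fin.sum_univ_two, revForm]
  · refine iso h12.symm h23 h13 _ _ ?_ ?_ ?_
    · ext i j; fin_cases i <;> fin_cases j <;> simp [Matrix.mul_apply, Fin.sum_univ_two, revForm]
    all_goals intro x y; fin_cases x <;> fin_cases y <;> simp [Matrix.mul_apply, Fin.sum_univ_two, revForm]
  · refine h.exists_outside (N := !![0, 1; 0, 0]) h01 (r₀ := i0) (r₁ := i1) (a := fun _ => 0)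
      (b := Function.update (fun _ => 0) i1 1) (m := Function.update (fun _ => 0) i0 1)
      (fun i hi => by rw [Function.update_of_ne hi]) ?_ ?_ ?_ ?_ ?_ ?_ hL.N_mem (j := 1) ?_ ?_ ?_
    · exact Function.ne_iff.2 ⟨i1, by simp⟩
    · exact Function.ne_iff.2 ⟨i0, by simp⟩
    · exact Function.ne_iff.2 ⟨i0, by simp [h01]⟩
    · exact rev_ne_of_zero i0 (by simp [h01])
    · exact rev_ne_of_zero i1 (by simp [h01.symm])
    · exact rev_ne_of_zero i2 (by simp [h12.symm, h02.symm])
    · simp [h01]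
    · simp [h01]
    · refine fun e1 => ?_
      have := congrFun e1 i2
      simp [h02.symm, h12.symm] at this

theorem not_maximal_four {e : ι ≃ (Fin t → Fin 4)} {P : GL ι F} (h : Data Q e P c) (ht : 2 ≤ t) :
    ∃ K : Subgroup (GL ι F), Geo.tensorWreathSubgroup 4 t e P ⊓ Geo.omegaGL Q < K ∧
      K < Geo.omegaGL Q := by
  classical
  have hL := local_four (F := F) h.two
  let i0 : Fin t := ⟨0, by omega⟩
  let i1 : Fin t := ⟨1, by omega⟩
  have h01 : i0 ≠ i1 := by simp [i0, i1]
  set N : Matrix (Fin 4) (Fin 4) F := !![0, 0, 1, 0; 0, 0, 0, 1; 0, 0, 0, 0; 0, 0, 0, 0]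
  set N' : Matrix (Fin 4) (Fin 4) F := !![0, 1, 0, 0; 0, 0, 0, 0; 0, 0, 0, 1; 0, 0, 0, 0] with hN'
  set l' : Matrix (Fin 4) (Fin 4) F := !![0, 0, 0, 0; 1, 0, 0, 0; 0, 0, 0, 0; 0, 0, 1, 0] with hl'
  refine h.not_maximal (by omega) hL h01 (fun g hg => h.move_mem (s := i0) h01.symm h01 hL
      (N' := N') (l' := l') ?_ ?_ (fac_commute_same ?_) (fac_commute_same ?_) ?_ ?_ ?_ hg) ?_
  · ext i j; fin_cases i <;> fin_cases j <;> simp [hN', Matrix.mul_apply, Fin.sum_univ_four]
  · ext i j; fin_cases i <;> fin_cases j <;> simp [hN', hl', Matrix.mul_apply, Fin.sum_univ_four]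
  · ext i j; fin_cases i <;> fin_cases j <;> simp [N, hN', Matrix.mul_apply, Fin.sum_univ_four]
  · ext i j; fin_cases i <;> fin_cases j <;> simp [N, hl', Matrix.mul_apply, Fin.sum_univ_four]
  · ext i j; fin_cases i <;> fin_cases j <;> simp [hl', Matrix.mul_apply, Fin.sum_univ_four]
  · intro v
    rw [fac_mul]
    refine h.isometry_kron _ ⟨i0, ?_⟩ (fun i => ?_) ⟨i1, ?_⟩ v
    · rw [Pi.mulSingle_eq_same]
      ext x y
      fin_cases x <;> fin_cases y <;> simp [N, hN', revForm, Matrix.mul_apply, Fin.sum_univ_four]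
    · by_cases hi : i = i0
      · subst hi
        rw [Pi.mulSingle_eq_same]
        intro x y
        fin_cases x <;> fin_cases y <;> simp [N, hN', revForm, Matrix.mul_apply, Fin.sum_univ_four]
      · rw [Pi.mulSingle_eq_of_ne hi, Matrix.mul_one]
        intro x y
        fin_cases x <;> fin_cases y <;> simp [revForm]
    · rw [Pi.mulSingle_eq_of_ne h01.symm, Matrix.mul_one]
      intro x
      fin_cases x <;> simp [revForm]
  · intro v
    rw [fac_mul']
    refine h.isometry_kron _ ⟨i0, ?_⟩ (fun i => ?_) ⟨i0, ?_⟩ v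
    · rw [Pi.mul_apply, Pi.mulSingle_eq_same, Pi.mulSingle_eq_of_ne h01, mul_one]
      ext x y
      fin_cases x <;> fin_cases y <;> simp [hl', revForm, Matrix.mul_apply, Fin.sum_univ_four]
    · rw [Pi.mul_apply]
      by_cases hi : i = i0
      · subst hi
        rw [Pi.mulSingle_eq_same, Pi.mulSingle_eq_of_ne h01, mul_one]
        intro x y
        fin_cases x <;> fin_cases y <;> simp [hl', revForm, Matrix.mul_apply, Fin.sum_univ_four]
      · rw [Pi.mulSingle_eq_of_ne hi, one_mul]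
        by_cases hi' : i = i1
        · subst hi'
          rw [Pi.mulSingle_eq_same]
          intro x y
          fin_cases x <;> fin_cases y <;> simp [N, revForm, Matrix.mul_apply, Fin.sum_univ_four]
        · rw [Pi.mulSingle_eq_of_ne hi', Matrix.mul_one]
          intro x y
          fin_cases x <;> fin_cases y <;> simp [revForm]
    · rw [Pi.mul_apply, Pi.mulSingle_eq_same, Pi.mulSingle_eq_of_ne h01, mul_one]
      intro x
      fin_cases x <;> simp [hl', revForm, Matrix.mul_apply, Fin.sum_univ_four]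
  · refine h.exists_outside (N := N) h01 (r₀ := i0) (r₁ := i1) (a := fun _ => 0)
      (b := Function.update (fun _ => 0) i1 1) (m := Function.update (fun _ => 0) i0 1)
      (fun i hi => by rw [Function.update_of_ne hi]) ?_ ?_ ?_ ?_ ?_ ?_ hL.N_mem (j := 2) ?_ ?_ ?_
    · exact Function.ne_iff.2 ⟨i1, by simp⟩
    · exact Function.ne_iff.2 ⟨i0, by simp⟩
    · exact Function.ne_iff.2 ⟨i0, by simp [h01]⟩
    · exact rev_ne_of_zero i0 (by simp [h01])
    · exact rev_ne_of_zero i1 (by simp [h01.symm])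
    · exact rev_ne_of_zero i1 (by simp [h01.symm])
    · simp [h01]
    · simp [N, h01]
    · refine fun e1 => ?_
      have := congrFun e1 i0
      simp at this

/-! ### Change of basis -/

theorem bilin_eq_gram {k : ℕ} {f : (Fin k → F) → (Fin k → F) → F}
    (hf : CfsgLib.Aschbacher.IsSesquiForm (RingHom.id F) f) (x y : Fin k → F) :
    f x y = x ⬝ᵥ (Geo.gramMatrix f *ᵥ y) := by
  conv_lhs => rw [pi_eq_sum_univ' x, pi_eq_sum_univ' y, hf.sum_left]
  simp only [dotProduct, Matrix.mulVec, Finset.mul_sum, Geo.gramMatrix]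
  refine Finset.sum_congr rfl fun a _ => ?_
  rw [hf.smul_left, hf.sum_right, Finset.mul_sum]
  refine Finset.sum_congr rfl fun b _ => ?_
  rw [hf.smul_right, RingHom.id_apply, mul_comm (f _ _)]

theorem exists_rev_basis (h2 : (2 : F) = 0) {k : ℕ} (hk0 : 0 < k) (hk : k ≤ 4)
    {f : (Fin k → F) → (Fin k → F) → F} (hf : Geo.IsSymplecticForm f) :
    (k = 2 ∨ k = 4) ∧ ∃ (B : GL (Fin k) F) (a : F), a ≠ 0 ∧
      (B : Matrix (Fin k) (Fin k) F)ᵀ * Geo.gramMatrix f * (B : Matrix (Fin k) (Fin k) F) =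
        a • (revForm : Matrix (Fin k) (Fin k) F) := by
  classical
  let Bf : LinearMap.BilinForm F (Fin k → F) := LinearMap.mk₂ F f hf.bilinear.add_left
    hf.bilinear.smul_left hf.bilinear.add_right hf.bilinear.smul_right
  have hker : LinearMap.ker Bf = ⊥ := by
    rw [LinearMap.ker_eq_bot']
    intro v hv
    by_contra h0
    obtain ⟨-, x, hx⟩ := hf.nondegenerate v h0
    exact hx (LinearMap.congr_fun hv x)
  obtain ⟨m, b, hm, hlr, hll, hrr⟩ := CfsgLib.LinAlg.Witt.exists_symplectic_basis Bf hf.alternating hker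
  rw [Module.finrank_pi, Fintype.card_fin] at hm
  have hrl : ∀ i j, f (b (Sum.inr i)) (b (Sum.inl j)) = if j = i then 1 else 0 := fun i j => by
    rw [hf.skew, show f (b (Sum.inl j)) (b (Sum.inr i)) = if j = i then 1 else 0 from hlr j i]
    split_ifs
    · linear_combination -h2
    · exact neg_zero
  refine ⟨by omega, ?_⟩
  have hs : CfsgLib.Aschbacher.IsSesquiForm (RingHom.id F) f :=
    ⟨hf.bilinear.add_left, hf.bilinear.smul_left, hf.bilinear.add_right, hf.bilinear.smul_right⟩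
  have key : ∀ (σ : Fin k ≃ Fin m ⊕ Fin m),
      (∀ x y, f (b (σ x)) (b (σ y)) = if y = Fin.rev x then 1 else 0) →
      ∃ (B : GL (Fin k) F) (a : F), a ≠ 0 ∧
      (B : Matrix (Fin k) (Fin k) F)ᵀ * Geo.gramMatrix f * (B : Matrix (Fin k) (Fin k) F) =
        a • (revForm : Matrix (Fin k) (Fin k) F) := by
    intro σ hσ
    let b' := b.reindex σ.symm
    have hB : IsUnit ((Pi.basisFun F (Fin k)).toMatrix b') :=
      ⟨⟨_, b'.toMatrix (Pi.basisFun F (Fin k)), Module.Basis.toMatrix_mul_toMatrix_flip _ _,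
        Module.Basis.toMatrix_mul_toMatrix_flip _ _⟩, rfl⟩
    refine ⟨hB.unit, 1, one_ne_zero, ?_⟩
    ext x y
    rw [one_smul, revForm, Matrix.of_apply, ← hσ x y, IsUnit.unit_spec, bilin_eq_gram hs, Matrix.mul_assoc]
    simp only [Matrix.mul_apply, Matrix.transpose_apply, dotProduct, Matrix.mulVec,
      Module.Basis.toMatrix_apply, Pi.basisFun_repr, b', Module.Basis.reindex_apply, Equiv.symm_symm]
  rcases (show k = 2 ∨ k = 4 by omega) with rfl | rfl
  · obtain rfl : m = 1 := by omega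
    refine key ⟨![Sum.inl 0, Sum.inr 0], Sum.elim (fun _ => 0) (fun _ => 1), ?_, ?_⟩ fun x y => ?_
    · intro x; fin_cases x <;> rfl
    · rintro (x | x) <;> fin_cases x <;> rfl
    · have l1 : ∀ i j, f (b (Sum.inl i)) (b (Sum.inr j)) = if i = j then 1 else 0 := hlr
      have l2 : ∀ i j, f (b (Sum.inl i)) (b (Sum.inl j)) = 0 := hll
      have l3 : ∀ i j, f (b (Sum.inr i)) (b (Sum.inr j)) = 0 := hrr
      fin_cases x <;> fin_cases y <;> simp [l1, l2, l3, hrl]
  · obtain rfl : m = 2 := by omega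
    refine key ⟨![Sum.inl 0, Sum.inl 1, Sum.inr 1, Sum.inr 0], Sum.elim ![0, 1] ![3, 2], ?_, ?_⟩ fun x y => ?_
    · intro x; fin_cases x <;> rfl
    · rintro (x | x) <;> fin_cases x <;> rfl
    · have l1 : ∀ i j, f (b (Sum.inl i)) (b (Sum.inr j)) = if i = j then 1 else 0 := hlr
      have l2 : ∀ i j, f (b (Sum.inl i)) (b (Sum.inl j)) = 0 := hll
      have l3 : ∀ i j, f (b (Sum.inr i)) (b (Sum.inr j)) = 0 := hrr
      fin_cases x <;> fin_cases y <;> simp [l1, l2, l3, hrl]

theorem tconj_change {k : ℕ} (e : ι ≃ (Fin t → Fin k)) (P : GL ι F) (B : Fin t → GL (Fin k) F)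
    (Z : Matrix (Fin t → Fin k) (Fin t → Fin k) F) :
    tconj e (P * Geo.glReindex e.symm (kroneckerPowGL B)) Z =
      tconj e P ((kroneckerPowGL B).val * Z * (kroneckerPowGL B)⁻¹.val) := by
  rw [tconj_apply, tconj_apply, _root_.mul_inv_rev, Units.val_mul, Units.val_mul, ← map_inv,
    ← Matrix.submatrix_mul_equiv _ _ _ e, ← Matrix.submatrix_mul_equiv _ _ _ e]
  simp only [Matrix.mul_assoc]
  rfl

/-- The general statement. -/
theorem not_maximal {k : ℕ} (hn : 13 ≤ Fintype.card ι) (h2 : (2 : F) = 0) {Q : (ι → F) → F}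
    (hQ : Geo.IsNondegenerateQuadraticForm Q) (hk : k ≤ 4) (ht : 2 ≤ t) (e : ι ≃ (Fin t → Fin k))
    (P : GL ι F) {f₁ : (Fin k → F) → (Fin k → F) → F} (hf₁ : Geo.IsSymplecticForm f₁)
    (hT : Geo.IsTensorPowerFormStructure id (QuadraticMap.polar Q) f₁ e P)
    (hpure : ∀ u : Fin t → Fin k → F, Q (powEmb e P (fun a => ∏ i, u i (a i))) = 0) :
    ∃ K : Subgroup (GL ι F), Geo.tensorWreathSubgroup k t e P ⊓ Geo.omegaGL Q < K ∧
      K < Geo.omegaGL Q := by
  classical
  have hcard : Fintype.card ι = k ^ t := by rw [Fintype.card_congr e]; simp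
  have hk0 : 0 < k := by
    by_contra h0
    rw [show k = 0 by omega, zero_pow (by omega)] at hcard
    omega
  obtain ⟨hk24, B, a, ha, hB⟩ := exists_rev_basis h2 hk0 hk hf₁
  obtain ⟨c₀, hc₀, hT⟩ := hT
  have hsesq : CfsgLib.Aschbacher.IsSesquiForm (RingHom.id F) (QuadraticMap.polar Q) :=
    ⟨hQ.polar_bilinear.add_left, hQ.polar_bilinear.smul_left, hQ.polar_bilinear.add_right,
      hQ.polar_bilinear.smul_right⟩
  have hΓ : powGram (QuadraticMap.polar Q) e P =
      c₀ • kroneckerPow (fun _ : Fin t => Geo.gramMatrix f₁) := by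
    ext p q
    rw [powGram, powEmb, powEmb, hT]
    rw [Finset.sum_eq_single p (fun x _ hx => by simp [hx]) (by simp),
      Finset.sum_eq_single q (fun x _ hx => by simp [hx]) (by simp)]
    simp [kroneckerPow]
  set P' := P * Geo.glReindex e.symm (kroneckerPowGL fun _ : Fin t => B)
  have hemb : ∀ x, powEmb e P' x =
      powEmb e P (kroneckerPow (fun _ : Fin t => (B : Matrix (Fin k) (Fin k) F)) *ᵥ x) := by
    intro x
    simp only [powEmb, P', Units.val_mul]
    rw [← Matrix.mulVec_mulVec]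
    congr 1
    funext i
    simp only [Matrix.mulVec, dotProduct, Function.comp_apply]
    refine Fintype.sum_equiv e _ _ fun j => ?_
    rfl
  have hD : Data Q e P' (c₀ * a ^ t) :=
    { quad := hQ
      two := h2
      c_ne := mul_ne_zero hc₀ (pow_ne_zero _ ha)
      gram := by
        have e1 : kroneckerPow (fun _ : Fin t => (B : Matrix (Fin k) (Fin k) F)ᵀ) *
            kroneckerPow (fun _ : Fin t => Geo.gramMatrix f₁) *
            kroneckerPow (fun _ : Fin t => (B : Matrix (Fin k) (Fin k) F)) =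
            a ^ t • kroneckerPow (fun _ : Fin t => (revForm : Matrix (Fin k) (Fin k) F)) := by
          rw [kroneckerPow_mul, kroneckerPow_mul]
          simp only [hB]
          rw [kroneckerPow_smul (fun _ : Fin t => a) fun _ : Fin t => (revForm : Matrix (Fin k) (Fin k) F)]
          simp
        rw [mul_smul, ← e1, ← kroneckerPow_transpose, ← Matrix.smul_mul, ← Matrix.mul_smul, ← hΓ]
        ext p q
        rw [powGram, hemb, hemb, form_powEmb hsesq, Geo.formOfGram, Matrix.mul_apply, Finset.sum_comm]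
        refine Finset.sum_congr rfl fun y _ => ?_
        rw [Matrix.mul_apply, Finset.sum_mul]
        refine Finset.sum_congr rfl fun x _ => ?_
        simp [Matrix.mulVec_single_one]
      pure := fun u => by
        rw [hemb]
        convert hpure (fun i => (B : Matrix (Fin k) (Fin k) F) *ᵥ u i) using 3
        funext x
        simp only [Matrix.mulVec, dotProduct, kroneckerPow, Matrix.of_apply]
        rw [Fintype.prod_sum (fun i z => (B : Matrix (Fin k) (Fin k) F) (x i) z * u i z)]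
        exact Finset.sum_congr rfl fun z _ => (Finset.prod_mul_distrib).symm
      even := by rcases hk24 with rfl | rfl <;> decide }
  have hle : Geo.tensorWreathSubgroup k t e P ≤ Geo.tensorWreathSubgroup k t e P' := by
    intro g hg
    obtain ⟨gs, π, hgs⟩ := mem_tensorWreath_iff.1 hg
    refine mem_tensorWreath_iff.2 ⟨fun i => B⁻¹ * gs i * B, π, ?_⟩
    rw [hgs, tconj_change]
    congr 1
    show _ = kroneckerPow (fun _ : Fin t => (B : Matrix (Fin k) (Fin k) F)) * _ *
      kroneckerPow (fun _ : Fin t => ((B⁻¹ : GL (Fin k) F) : Matrix (Fin k) (Fin k) F))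
    rw [Matrix.mul_assoc, Matrix.mul_assoc, permPow_mul_kroneckerPow, ← Matrix.mul_assoc,
      ← Matrix.mul_assoc, kroneckerPow_mul, kroneckerPow_mul]
    congr 2
    funext i
    simp only [Function.comp_apply, Units.val_mul]
    rw [Matrix.mul_assoc, Matrix.mul_assoc, Matrix.mul_assoc, Units.mul_inv, Matrix.mul_one,
      ← Matrix.mul_assoc, Units.mul_inv, Matrix.one_mul]
  obtain ⟨K, hK1, hK2⟩ : ∃ K : Subgroup (GL ι F),
      Geo.tensorWreathSubgroup k t e P' ⊓ Geo.omegaGL Q < K ∧ K < Geo.omegaGL Q := by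
    rcases hk24 with rfl | rfl
    · refine not_maximal_two hD ?_
      by_contra hlt
      have : 2 ^ t ≤ 2 ^ 3 := Nat.pow_le_pow_right (by norm_num) (by omega)
      omega
    · exact not_maximal_four hD ht
  exact ⟨K, lt_of_le_of_lt (inf_le_inf_right _ hle) hK1, hK2⟩

end CfsgLib.Aschbacher.SpinLine
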