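import Cfsg.Agent.Aschbacher.SympBinaryProper

/-!
Maximal subgroups of the symplectic group inside a binary tensor power stabiliser, and inside the
normaliser of an extraspecial group.
-/

set_option autoImplicit false
set_option linter.unusedSectionVars false

namespace CfsgLib.Aschbacher.Symp

open Matrix Module
open scoped MatrixGroups
open Cfsg CfsgLib.Aschbacher.Centre CfsgLib.Aschbacher.Forms CfsgLib.AltFormTransv

variable {ι : Type} [Fintype ι] [DecidableEq ι] {F : Type*} [Field F] [Fintype F]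
variable {f : (ι → F) → (ι → F) → F} {I H : Subgroup (GL ι F)}

/-- A maximal subgroup normalising an extraspecial group is a class six or a subfield member. -/
def ExtraOutcome (f : (ι → F) → (ι → F) → F) (I H : Subgroup (GL ι F)) (k : ℕ) : Prop :=
  (∃ (p : ℕ) (R : Subgroup (GL ι F)), p.Prime ∧ Odd p ∧ Fintype.card F = p ∧
    Geo.IsSymplecticTypeGroup 2 R ∧ Geo.ActsAbsolutelyIrreducibly (Geo.matrixSet R) ∧
    R ≤ Geo.similarityGroup f ∧ Nat.card R = 2 ^ (1 + 2 * k) ∧ Nat.card (Subgroup.center R) = 2 ∧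
    Geo.IsOfMinusType k R ∧ H = Geo.subgroupNormalizer R ⊓ I) ∨
  (∃ (F₀ : Subfield F) (r : ℕ) (P : GL ι F) (ζ : F), r.Prime ∧ Fintype.card F = Nat.card F₀ ^ r ∧
    ζ ≠ 0 ∧ Geo.IsFormRationalStructure f F₀ ζ P ∧ H = Geo.subfieldSubgroup F₀ P ⊓ I)

/-- A maximal subgroup normalising an extraspecial group. -/
theorem extra_cases (hf : Geo.IsSymplecticForm f) (hT : ∀ v c, sympT hf v c ∈ I) {k : ℕ}
    (hk : Fintype.card ι = 2 ^ k) (hn : 5 ≤ Fintype.card ι) (hH : Geo.IsMaximalIn I H)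
    {N : Subgroup (GL ι F)} (hN : IsExtra f N) (hnorm : ∀ g ∈ H, ∀ x ∈ N, g * x * g⁻¹ ∈ N) :
    ExtraOutcome f I H k := by
  rcases hN.classSix hnorm with
    ⟨p, j, h1, h2, h3, hp, hodd, hcard, hj, hN', hc, hm⟩ | ⟨F₁, r, B, ζ, hr, hcard, h1, hζ, hB, hle⟩
  · obtain rfl : j = k := Nat.pow_right_injective le_rfl (hj.symm.trans hk)
    refine Or.inl ⟨p, N, hp, hodd, hcard, h1, h2, h3, hN', hc, hm,
      eq_inf_of_le hH (fun g hg => ?_) (not_le_extraNormalizer hn hN hT)⟩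
    rw [Geo.subgroupNormalizer, Subgroup.mem_normalizer_iff]
    intro x
    refine ⟨hnorm g hg x, fun hx => ?_⟩
    have := hnorm g⁻¹ (H.inv_mem hg) _ hx
    simpa [mul_assoc] using this
  · exact Or.inr ⟨F₁, r, B, ζ, hr, hcard, hζ, hB,
      eq_inf_of_le hH hle (not_le_subfieldSubgroup hf hT (by omega) h1 B)⟩

/-- A maximal subgroup inside a binary tensor power stabiliser. -/
theorem binary_cases (hf : Geo.IsSymplecticForm f) (hIf : ∀ g ∈ I,
      ∀ u v, f ((g : Matrix ι ι F) *ᵥ u) ((g : Matrix ι ι F) *ᵥ v) = f u v)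
    (hT : ∀ v c, sympT hf v c ∈ I) {t : ℕ} (ht : 3 ≤ t) (hH : Geo.IsMaximalIn I H)
    {e : ι ≃ (Fin t → Fin 2)} {P : GL ι F} (hle : H ≤ Geo.tensorWreathSubgroup 2 t e P) {c : F}
    (hc : c ≠ 0)
    (hΓ : powGram f e P = c • kroneckerPow fun _ => (detForm : Matrix (Fin 2) (Fin 2) F)) :
    (¬ Odd (Fintype.card F) ∧ ∃ Q : (ι → F) → F, Geo.IsNondegenerateQuadraticForm Q ∧
      (∀ u v, QuadraticMap.polar Q u v = f u v) ∧ H = Geo.quadSimilarityGroup Q ⊓ I) ∨
    ExtraOutcome f I H t ∨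
    (Odd (Fintype.card F) ∧ 5 ≤ Fintype.card F ∧ ∃ f₁ : (Fin 2 → F) → (Fin 2 → F) → F,
      Geo.IsSymplecticForm f₁ ∧ Geo.IsTensorPowerFormStructure id f f₁ e P ∧
      H = Geo.tensorWreathSubgroup 2 t e P ⊓ I) := by
  have hcard : Fintype.card ι = 2 ^ t := by
    rw [Fintype.card_congr e, Fintype.card_fun, Fintype.card_fin, Fintype.card_fin]
  have h8 : 5 ≤ Fintype.card ι := by
    rw [hcard]; exact le_trans (by norm_num) (Nat.pow_le_pow_right (by norm_num) ht)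
  by_cases h2 : (2 : F) = 0
  · obtain ⟨Q, hQ, hpol, hW⟩ := binary_quad hf (by omega) h2 hΓ
    refine Or.inl ⟨fun ho => two_ne_zero_of_odd_card ho h2, Q, hQ, hpol,
      eq_inf_of_le hH (fun g hg => hW g (hle hg) (hIf g (hH.1.le hg)))
        (not_le_quadSimilarityGroup hf hT h8 hQ hpol)⟩
  have hodd := odd_card_of_two_ne_zero h2
  by_cases h5 : 5 ≤ Fintype.card F
  · obtain ⟨f₁, hf₁, hs⟩ := binary_member hf h2 hc hΓ
    exact Or.inr (Or.inr ⟨hodd, h5, f₁, hf₁, hs,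
      eq_inf_of_le hH hle (not_le_binaryWreath hf hT (by omega) e P)⟩)
  have h3 : Fintype.card F = 3 := by
    have := Fintype.one_lt_card (α := F)
    obtain ⟨j, hj⟩ := hodd
    omega
  obtain ⟨R, hR, hW⟩ := binary_three hf h3 (by omega) hΓ
  exact Or.inr (Or.inl (extra_cases hf hT hcard h8 hH hR fun g hg => hW g (hle hg)))

end CfsgLib.Aschbacher.Symp
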