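import Cfsg.Agent.Aschbacher.BinaryTensorPower
import Cfsg.Agent.Aschbacher.NormalizerProper

/-!
The symplectic group stabilises no tensor power decomposition and normalises no symplectic-type
group in dimension at least five.
-/

set_option autoImplicit false
set_option linter.unusedSectionVars false

namespace CfsgLib.Aschbacher.Symp

open Matrix Module
open scoped MatrixGroups
open Cfsg CfsgLib.Aschbacher.Centre CfsgLib.Aschbacher.Forms CfsgLib.AltFormTransv

variable {ι : Type} [Fintype ι] [DecidableEq ι] {F : Type*} [Field F]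
variable {f : (ι → F) → (ι → F) → F} {I : Subgroup (GL ι F)} {t : ℕ}

/-- The operators of the wreath group map pure tensors to pure tensors. -/
theorem kron_pureVec (gs : Fin t → Matrix (Fin 2) (Fin 2) F) (π : Equiv.Perm (Fin t))
    (u : Fin t → Fin 2 → F) :
    (kroneckerPow gs * permPow π) *ᵥ pureVec u = pureVec fun i => gs i *ᵥ u (π.symm i) := by
  have h1 : (permPow π : Matrix (Fin t → Fin 2) (Fin t → Fin 2) F) *ᵥ pureVec u =
      pureVec fun i => u (π.symm i) := by
    funext p
    simp [Matrix.mulVec, dotProduct, permPow, pureVec]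
    exact Fintype.prod_equiv π _ _ (fun i => by simp)
  rw [← Matrix.mulVec_mulVec, h1]
  funext p
  simp only [Matrix.mulVec, dotProduct, kroneckerPow, Matrix.of_apply, pureVec, Fintype.prod_sum,
    Finset.prod_mul_distrib]

/-- The isometry group stabilises no binary tensor power decomposition. -/
theorem not_le_binaryWreath (hf : Geo.IsSymplecticForm f) (hI : ∀ v c, sympT hf v c ∈ I) (ht : 2 ≤ t)
    (e : ι ≃ (Fin t → Fin 2)) (P : GL ι F) : ¬ I ≤ Geo.tensorWreathSubgroup 2 t e P := by
  classical
  intro hle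
  let S : Set (ι → F) := {x | ∃ u, x = powEmb e P (pureVec u)}
  have hS : ∀ v c, ∀ x ∈ S, (sympT hf v c : Matrix ι ι F) *ᵥ x ∈ S := by
    rintro v c _ ⟨u, rfl⟩
    obtain ⟨gs, π, hg⟩ := mem_tensorWreath_iff.1 (hle (hI v c))
    exact ⟨_, by rw [hg, tconj_mulVec_powEmb, kron_pureVec]⟩
  have hadd : ∀ x y, powEmb e P (x + y) = powEmb e P x + powEmb e P y := fun x y => by
    simp [powEmb, Pi.add_comp, Matrix.mulVec_add]
  have hspan : Submodule.span F S = ⊤ := by
    rw [eq_top_iff]
    intro v _
    obtain ⟨x, rfl⟩ := powEmb_surjective (e := e) (P := P) v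
    show AddMonoidHom.mk' (powEmb e P) hadd x ∈ Submodule.span F S
    rw [pi_eq_sum_univ' x, map_sum]
    refine Submodule.sum_mem _ fun p _ => ?_
    show powEmb e P (x p • (Pi.single p (1 : F) : (Fin t → Fin 2) → F)) ∈ _
    have hsm : powEmb e P (x p • (Pi.single p (1 : F) : (Fin t → Fin 2) → F)) =
        x p • powEmb e P (Pi.single p (1 : F)) := by
      simp [powEmb, ← Matrix.mulVec_smul]
      rfl
    rw [hsm]
    refine Submodule.smul_mem _ _ (Submodule.subset_span ⟨fun i => Pi.single (p i) 1, congrArg _ ?_⟩)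
    funext r
    rw [pureVec]
    by_cases hr : r = p
    · subst hr; simp
    · obtain ⟨i, hi⟩ := Function.ne_iff.1 hr
      rw [Pi.single_eq_of_ne hr, Finset.prod_eq_zero (Finset.mem_univ i) (Pi.single_eq_of_ne hi _)]
  let i0 : Fin t := ⟨0, by omega⟩
  let i1 : Fin t := ⟨1, by omega⟩
  have h01 : i0 ≠ i1 := by simp [i0, i1, Fin.ext_iff]
  let p : Fin t → Fin 2 := fun _ => 0
  let r : Fin t → Fin 2 := Function.update p i0 1
  let q : Fin t → Fin 2 := Function.update r i1 1
  have hr1 : r i1 = 0 := by simp [r, p, h01.symm]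
  have hqp : q ≠ p := fun h => by simpa [q, p] using congrFun h i1
  have hqr : q ≠ r := fun h => by simpa [q, hr1] using congrFun h i1
  have hrp : r ≠ p := fun h => by simpa [r, p] using congrFun h i0
  let y : (Fin t → Fin 2) → F := Pi.single p 1 + Pi.single q 1
  have hy : powEmb e P y ≠ 0 := fun h => by
    have h' := congrFun (congrArg (coords e P) h) p
    rw [coords_powEmb] at h'
    simp [y, coords, hqp.symm] at h'
  obtain ⟨u, hu⟩ := mem_of_invariant hf hS hspan hy
  have hfun : y = pureVec u := by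
    have := congrArg (coords e P) hu
    rwa [coords_powEmb, coords_powEmb] at this
  have hP : pureVec u p = 1 := by rw [← hfun]; simp [y, hqp.symm]
  have hQ : pureVec u q = 1 := by rw [← hfun]; simp [y, hqp]
  have hR : pureVec u r = 0 := by rw [← hfun]; simp [y, hrp, hqr.symm]
  obtain ⟨i, -, hi⟩ := Finset.prod_eq_zero_iff.1 (show (∏ i, u i (r i)) = 0 from hR)
  have hnzP : ∀ i, u i (p i) ≠ 0 := fun i h => zero_ne_one
    ((Finset.prod_eq_zero (Finset.mem_univ i) h).symm.trans hP)
  have hnzQ : ∀ i, u i (q i) ≠ 0 := fun i h => zero_ne_one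
    ((Finset.prod_eq_zero (Finset.mem_univ i) h).symm.trans hQ)
  by_cases h : i = i1
  · subst h
    exact hnzP i1 (by rw [show p i1 = r i1 from hr1.symm]; exact hi)
  · exact hnzQ i (by simp only [q, Function.update_of_ne h]; exact hi)

/-- The isometry group normalises no symplectic-type group of isometries in dimension at least five. -/
theorem not_le_extraNormalizer [Fintype F] (hn : 5 ≤ Fintype.card ι) {N : Subgroup (GL ι F)}
    (hN : IsExtra f N) (hI : ∀ v c, sympT hN.symplectic v c ∈ I) :
    ¬ I ≤ Geo.subgroupNormalizer N := by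
  intro hle
  have hf := hN.symplectic
  have : Nonempty ι := Fintype.card_pos_iff.1 (by omega)
  obtain ⟨x, hx, z₀, hz₀, -, hxz⟩ := hN.exists_anti
  have hxs : x ∉ Geo.scalars ι F := fun hs => hxz (scalars_commute hs z₀)
  obtain ⟨v, hv⟩ := exists_mulVec_notMem_span hxs
  set u := (x : Matrix ι ι F) *ᵥ v with hu
  set T := sympT hf v 1 with hTdef
  have hTn := hle (hI v 1)
  rw [Geo.subgroupNormalizer, Subgroup.mem_normalizer_iff] at hTn
  set y := T * x * T⁻¹ * x⁻¹ with hy
  have hyN : y ∈ N := mul_mem ((hTn x).1 hx) (inv_mem hx)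
  have hr := rform_of_symplectic hf
  let L : (ι → F) →ₗ[F] F × F :=
    { toFun := fun w => (f w v, f w u)
      map_add' := fun a b => by simp [hf.bilinear.add_left]
      map_smul' := fun c a => by simp [hf.bilinear.smul_left] }
  let W := LinearMap.ker L
  have hfixT : ∀ w, f w v = 0 → (T : Matrix ι ι F) *ᵥ w = w ∧
      ((T⁻¹ : GL ι F) : Matrix ι ι F) *ᵥ w = w := by
    intro w hw
    have h1 : (T : Matrix ι ι F) *ᵥ w = w := by rw [hTdef, sympT_mulVec, hw]; simp
    exact ⟨h1, by conv_lhs => rw [← h1, inv_mulVec_mulVec]⟩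
  have hfix : ∀ w ∈ W, (y : Matrix ι ι F) *ᵥ w = w := by
    intro w hw
    have hw' : f w v = 0 ∧ f w u = 0 := by simpa [W, L] using hw
    have h1 : f (((x⁻¹ : GL ι F) : Matrix ι ι F) *ᵥ w) v = 0 := by
      rw [← hN.iso x hx, mulVec_inv_mulVec, ← hu, hw'.2]
    rw [hy, Units.val_mul, Units.val_mul, Units.val_mul, ← mulVec_mulVec, ← mulVec_mulVec,
      ← mulVec_mulVec, (hfixT _ h1).2, mulVec_inv_mulVec, (hfixT w hw'.1).1]
  have hW : Fintype.card ι ≤ finrank F W + 2 := by
    have h1 := LinearMap.finrank_range_add_finrank_ker L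
    have h2 := Submodule.finrank_le (LinearMap.range L)
    rw [finrank_prod, Module.finrank_self] at h2
    rw [Module.finrank_pi] at h1
    show _ ≤ finrank F (LinearMap.ker L) + 2
    omega
  obtain ⟨w, hwW, hw0⟩ := W.exists_mem_ne_zero_of_ne_bot fun h => by
    rw [h, finrank_bot] at hW; omega
  have hsign : ∀ g : GL ι F, g = 1 ∨ g = -1 → (g : Matrix ι ι F) *ᵥ w = w → g = 1 := by
    rintro g (h | rfl) hg
    · exact h
    · exfalso
      rw [Units.val_neg, Units.val_one, neg_mulVec, one_mulVec] at hg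
      exact hw0 ((smul_eq_zero.1 (show (2 : F) • w = 0 by
        rw [two_smul]; nth_rewrite 1 [← hg]; exact neg_add_cancel w)).resolve_left hN.two_ne)
  by_cases hys : y ∈ Geo.scalars ι F
  · have hy1 := hsign y (hN.scalar_sign hyN hys) (hfix w hwW)
    have hcomm : T * x = x * T := by
      rw [← mul_inv_eq_one, _root_.mul_inv_rev, ← hy1, hy]
      simp only [mul_assoc]
    obtain ⟨b, hb⟩ := (hf.nondegenerate v fun h0 => hv (by simp [hu, h0])).1
    have hc := congrArg (fun g : GL ι F => (g : Matrix ι ι F) *ᵥ b) hcomm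
    simp only [Units.val_mul, ← mulVec_mulVec, hTdef, sympT_mulVec, one_mul, mulVec_add, mulVec_smul,
      add_right_inj, ← hu] at hc
    exact hv (Submodule.mem_span_singleton.2 ⟨(f b v)⁻¹ * f ((x : Matrix ι ι F) *ᵥ b) v, by
      rw [mul_smul, hc, smul_smul, inv_mul_cancel₀ hb, one_smul]⟩)
  · obtain ⟨z, hz, hzy⟩ : ∃ z ∈ N, y * z ≠ z * y := by
      by_contra! h
      exact hys (mem_scalars_of_commute hN.absIrred h)
    have hanti : y * z = -(z * y) := (hN.comm_or hyN hz).resolve_left hzy
    have hzW : ∀ a ∈ W, (y : Matrix ι ι F) *ᵥ ((z : Matrix ι ι F) *ᵥ a) = -((z : Matrix ι ι F) *ᵥ a) :=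
      fun a ha => by
        rw [mulVec_mulVec, ← Units.val_mul, hanti, Units.val_neg, Units.val_mul, neg_mulVec,
          ← mulVec_mulVec, hfix a ha]
    let W' := W.map (Matrix.toLin' (z : Matrix ι ι F))
    have hinj : Function.Injective (Matrix.toLin' (z : Matrix ι ι F)) := by
      have := Matrix.mulVec_injective_iff_isUnit.2 z.isUnit
      intro a b hab
      exact this (by simpa using hab)
    have hW' : finrank F W' = finrank F W :=
      LinearEquiv.finrank_eq (Submodule.equivMapOfInjective _ hinj W).symm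
    have hinf : W ⊓ W' = ⊥ := by
      rw [Submodule.eq_bot_iff]
      rintro a ⟨ha, b, hb, rfl⟩
      have h1 := hzW b hb
      rw [Matrix.toLin'_apply] at ha ⊢
      rw [hfix _ ha] at h1
      exact (smul_eq_zero.1 (show (2 : F) • ((z : Matrix ι ι F) *ᵥ b) = 0 by
        rw [two_smul]; nth_rewrite 1 [h1]; exact neg_add_cancel _)).resolve_left hN.two_ne
    have h3 := Submodule.finrank_sup_add_finrank_inf_eq W W'
    have h4 := Submodule.finrank_le (W ⊔ W')
    rw [hinf, finrank_bot, hW'] at h3
    rw [Module.finrank_pi] at h4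
    omega

end CfsgLib.Aschbacher.Symp
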