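import Cfsg.Agent.Eq.Def_GeometricClasses
import Cfsg.Agent.Aschbacher.SymplecticType
import Cfsg.Agent.Aschbacher.SympComposite

/-!
An absolutely irreducible group of isometries of an alternating form whose commutators are scalar is
an extraspecial two-group of minus type, in odd characteristic, and is realisable over the prime
field.
-/

set_option autoImplicit false
set_option linter.unusedSectionVars false

namespace CfsgLib.Aschbacher.Symp

open Matrix Module
open scoped MatrixGroups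
open Cfsg CfsgLib.Aschbacher.Centre CfsgLib.Aschbacher.Forms

variable {ι : Type} [Fintype ι] [DecidableEq ι] {F : Type*} [Field F]
variable {f : (ι → F) → (ι → F) → F}

/-- A normalised group fixing the form and realisable over a proper subfield: a subfield member. -/
theorem subfield_form [Fintype F] [Nonempty ι] (hf : Geo.IsSymplecticForm f) (hn : 2 ≤ Fintype.card ι)
    {H P : Subgroup (GL ι F)} (hP : Geo.ActsAbsolutelyIrreducibly (Geo.matrixSet P))
    (hnorm : ∀ h ∈ H, ∀ x ∈ P, h * x * h⁻¹ ∈ P) (hfix : Geo.FixesForm (Geo.matrixSet P) f)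
    {F₀ : Subfield F} (h0 : F₀ ≠ ⊤) (hreal : Geo.RealisableOver F₀ (Geo.matrixSet P)) :
    ∃ (F₁ : Subfield F) (r : ℕ) (B : GL ι F) (ζ : F), r.Prime ∧ Fintype.card F = Nat.card F₁ ^ r ∧
      F₁ ≠ ⊤ ∧ ζ ≠ 0 ∧ Geo.IsFormRationalStructure f F₁ ζ B ∧ H ≤ Geo.subfieldSubgroup F₁ B := by
  have hr := rform_of_symplectic hf
  obtain ⟨B, hB⟩ := hreal
  obtain ⟨F₁, r, h01, hrp, hcardF, h1⟩ := exists_subfield_prime_index h0
  have hB1 : ∀ s ∈ Geo.matrixSet P, ∀ i j, (B.val * s * (B⁻¹ : GL ι F).val) i j ∈ F₁ :=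
    fun s hs i j => h01 (hB s hs i j)
  obtain ⟨i, j, hij⟩ : ∃ i j, f ((B⁻¹ : GL ι F).val *ᵥ Pi.single i 1)
      ((B⁻¹ : GL ι F).val *ᵥ Pi.single j 1) ≠ 0 := by
    by_contra! hall
    obtain ⟨v, w, hvw⟩ := IsNondegenerateForm.exists_ne (by omega) hf.nondegenerate
    apply hvw
    rw [← mulVec_inv_mulVec B⁻¹ v, ← mulVec_inv_mulVec B⁻¹ w, pi_eq_sum_univ' ((B⁻¹)⁻¹.val *ᵥ v),
      pi_eq_sum_univ' ((B⁻¹)⁻¹.val *ᵥ w), Matrix.mulVec_sum, Matrix.mulVec_sum, hr.sesq.sum_left]
    refine Finset.sum_eq_zero fun a _ => ?_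
    rw [hr.sesq.sum_right]
    refine Finset.sum_eq_zero fun b _ => ?_
    rw [Matrix.mulVec_smul, Matrix.mulVec_smul, hr.sesq.smul_left, hr.sesq.smul_right, hall, mul_zero,
      mul_zero]
  refine ⟨F₁, r, B⁻¹, _, hrp, hcardF, h1, inv_ne_zero hij, ?_,
    le_subfieldSubgroup_of_realisable hP hnorm hB1⟩
  intro u v hu hv
  rw [pi_eq_sum_univ' u, pi_eq_sum_univ' v, Matrix.mulVec_sum, Matrix.mulVec_sum, hr.sesq.sum_left,
    Finset.mul_sum]
  refine sum_mem fun a _ => ?_
  rw [hr.sesq.sum_right, Finset.mul_sum]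
  refine sum_mem fun b _ => ?_
  rw [Matrix.mulVec_smul, Matrix.mulVec_smul, hr.sesq.smul_left, hr.sesq.smul_right, RingHom.id_apply]
  have := CfsgLib.AschPrime.gram_ratio_mem (σ := RingHom.id F) (fun x hx => hx) hP hr.sesq
    hf.nondegenerate hfix hB1 hij a b
  rw [div_eq_inv_mul] at this
  convert F₁.mul_mem (F₁.mul_mem (hu a) (hv b)) this using 1
  ring

/-- An absolutely irreducible group of isometries with scalar commutators. -/
structure IsExtra (f : (ι → F) → (ι → F) → F) (N : Subgroup (GL ι F)) : Prop where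
  symplectic : Geo.IsSymplecticForm f
  iso : ∀ g ∈ N, ∀ u v, f ((g : Matrix ι ι F) *ᵥ u) ((g : Matrix ι ι F) *ᵥ v) = f u v
  absIrred : Geo.ActsAbsolutelyIrreducibly (Geo.matrixSet N)
  comm : ∀ x ∈ N, ∀ y ∈ N, y * x * y⁻¹ * x⁻¹ ∈ Geo.scalars ι F
  two_le : 2 ≤ Fintype.card ι

variable {N : Subgroup (GL ι F)}

theorem IsExtra.scalar_sign (h : IsExtra f N) {z : GL ι F} (hz : z ∈ N) (hs : z ∈ Geo.scalars ι F) :
    z = 1 ∨ z = -1 := by
  obtain ⟨c, hc⟩ := (Geo.mem_scalars_iff z).1 hs
  obtain ⟨v, w, hvw⟩ := IsNondegenerateForm.exists_ne (by have := h.two_le; omega) h.symplectic.nondegenerate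
  have h1 := h.iso z hz v w
  simp only [hc, smul_mulVec, one_mulVec, h.symplectic.bilinear.smul_left,
    h.symplectic.bilinear.smul_right, ← mul_assoc] at h1
  rcases mul_self_eq_one_iff.1 (mul_left_eq_self₀.1 h1 |>.resolve_right hvw) with e | e
  · exact Or.inl (Units.ext (by rw [hc, e, one_smul, Units.val_one]))
  · exact Or.inr (Units.ext (by rw [hc, e, Units.val_neg, Units.val_one, neg_one_smul]))

theorem IsExtra.comm_or (h : IsExtra f N) {x y : GL ι F} (hx : x ∈ N) (hy : y ∈ N) :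
    x * y = y * x ∨ x * y = -(y * x) := by
  have hm : x * y * x⁻¹ * y⁻¹ ∈ N := mul_mem (mul_mem (mul_mem hx hy) (inv_mem hx)) (inv_mem hy)
  have e : x * y = x * y * x⁻¹ * y⁻¹ * (y * x) := by simp [mul_assoc]
  rcases h.scalar_sign hm (h.comm y hy x hx) with h1 | h1 <;> rw [h1] at e
  · exact Or.inl (by rwa [one_mul] at e)
  · exact Or.inr (by rwa [neg_one_mul] at e)

theorem IsExtra.sq (h : IsExtra f N) {x : GL ι F} (hx : x ∈ N) : x * x = 1 ∨ x * x = -1 := by
  have : Nonempty ι := Fintype.card_pos_iff.1 (by have := h.two_le; omega)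
  refine h.scalar_sign (mul_mem hx hx) (mem_scalars_of_commute h.absIrred fun y hy => ?_)
  rcases h.comm_or hx hy with e | e
  · rw [mul_assoc, e, ← mul_assoc, e, mul_assoc]
  · rw [mul_assoc, e, mul_neg, ← mul_assoc, e, neg_mul, neg_neg, mul_assoc]

theorem IsExtra.exists_anti (h : IsExtra f N) :
    ∃ x ∈ N, ∃ y ∈ N, x * y = -(y * x) ∧ x * y ≠ y * x := by
  obtain ⟨x, hx, y, hy, hxy⟩ := exists_not_commute h.two_le h.absIrred
  exact ⟨x, hx, y, hy, (h.comm_or hx hy).resolve_left hxy, hxy⟩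

theorem IsExtra.neg_one_ne (h : IsExtra f N) : (-1 : GL ι F) ≠ 1 := fun e => by
  obtain ⟨x, _, y, _, h1, h2⟩ := h.exists_anti
  exact h2 (by rw [h1, ← neg_one_mul, e, one_mul])

theorem IsExtra.two_ne (h : IsExtra f N) : (2 : F) ≠ 0 := fun h2 => h.neg_one_ne <| Units.ext <| by
  have : (-1 : F) = 1 := by linear_combination -h2
  rw [Units.val_neg, Units.val_one, ← neg_one_smul F (1 : Matrix ι ι F), this, one_smul]

theorem IsExtra.neg_ne (h : IsExtra f N) (g : GL ι F) : -g ≠ g := fun e =>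
  h.neg_one_ne (mul_right_cancel (b := g) (by rw [neg_one_mul, one_mul, e]))

theorem IsExtra.neg_one_mem (h : IsExtra f N) : (-1 : GL ι F) ∈ N := by
  obtain ⟨x, hx, y, hy, h1, -⟩ := h.exists_anti
  have e : x * y * (y * x)⁻¹ = -1 := by rw [h1, neg_mul, mul_inv_cancel]
  exact e ▸ mul_mem (mul_mem hx hy) (inv_mem (mul_mem hy hx))

theorem neg_one_mem_scalars : (-1 : GL ι F) ∈ Geo.scalars ι F :=
  (Geo.mem_scalars_iff _).2 ⟨-1, by simp⟩

theorem IsExtra.card_scalars (h : IsExtra f N) :
    Nat.card ((Geo.scalars ι F).subgroupOf N) = 2 := by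
  rw [Nat.card_eq_two_iff]
  refine ⟨1, ⟨⟨-1, h.neg_one_mem⟩, neg_one_mem_scalars⟩, fun e => h.neg_one_ne ?_, ?_⟩
  · exact (congrArg (fun z => z.1.1) e).symm
  · refine Set.eq_univ_of_forall fun z => ?_
    rcases h.scalar_sign z.1.2 z.2 with e | e
    · exact Or.inl (Subtype.ext (Subtype.ext e))
    · exact Or.inr (Subtype.ext (Subtype.ext e))

theorem IsExtra.center_eq (h : IsExtra f N) : Subgroup.center N = (Geo.scalars ι F).subgroupOf N := by
  have : Nonempty ι := Fintype.card_pos_iff.1 (by have := h.two_le; omega)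
  ext g
  exact ⟨fun hg => mem_scalars_of_commute h.absIrred fun z hz =>
      (congrArg Subtype.val (Subgroup.mem_center_iff.1 hg ⟨z, hz⟩)).symm,
    fun hg => Subgroup.mem_center_iff.2 fun z => Subtype.ext (scalars_commute hg z.1).symm⟩

theorem IsExtra.pow_four (h : IsExtra f N) (g : N) : g ^ 4 = 1 := by
  refine Subtype.ext ?_
  rw [Subgroup.coe_pow, Subgroup.coe_one, show 4 = 2 * 2 from rfl, pow_mul, pow_two g.1]
  rcases h.sq g.2 with e | e <;> rw [e] <;> simp

theorem IsExtra.card [Finite F] (h : IsExtra f N) :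
    ∃ j, 0 < j ∧ Fintype.card ι = 2 ^ j ∧ Nat.card N = 2 ^ (1 + 2 * j) := by
  have : Nonempty ι := Fintype.card_pos_iff.1 (by have := h.two_le; omega)
  have hp : IsPGroup 2 N := fun g => ⟨2, h.pow_four g⟩
  obtain ⟨a, ha⟩ := IsPGroup.iff_card.1 hp
  have hN : Nat.card N = Fintype.card ι * Fintype.card ι * 2 := by
    rw [Subgroup.card_eq_card_quotient_mul_card_subgroup ((Geo.scalars ι F).subgroupOf N),
      card_quotient_scalars h.absIrred h.comm, h.card_scalars]
  have hdvd : Fintype.card ι ∣ 2 ^ a := ⟨Fintype.card ι * 2, by rw [← ha, hN, mul_assoc]⟩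
  obtain ⟨j, -, hj⟩ := (Nat.dvd_prime_pow Nat.prime_two).1 hdvd
  refine ⟨j, Nat.pos_of_ne_zero fun h0 => ?_, hj, by rw [hN, hj]; ring⟩
  have := h.two_le
  rw [hj, h0] at this
  omega

theorem IsExtra.exists_sq_neg (h : IsExtra f N) : ∃ x ∈ N, x * x = -1 := by
  by_contra hcon
  push Not at hcon
  obtain ⟨x, hx, y, hy, -, h2⟩ := h.exists_anti
  have hinv : ∀ z ∈ N, z⁻¹ = z := fun z hz =>
    inv_eq_of_mul_eq_one_right ((h.sq hz).resolve_right (hcon z hz))
  refine h2 ?_
  calc x * y = (x * y)⁻¹ := (hinv _ (mul_mem hx hy)).symm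
    _ = y * x := by rw [_root_.mul_inv_rev, hinv x hx, hinv y hy]

/-- Commuting involutions have a common eigenvector. -/
theorem IsExtra.common_eigen (h : IsExtra f N) {S : Set (GL ι F)} (hS : S.Finite)
    (hc : ∀ a ∈ S, ∀ b ∈ S, a * b = b * a) (h1 : ∀ a ∈ S, a * a = 1) :
    ∃ v : ι → F, v ≠ 0 ∧ ∀ a ∈ S, (a : Matrix ι ι F) *ᵥ v = v ∨ (a : Matrix ι ι F) *ᵥ v = -v := by
  classical
  suffices ∀ s : Finset (GL ι F), ↑s ⊆ S → ∃ W : Submodule F (ι → F), W ≠ ⊥ ∧
      (∀ a ∈ S, ∀ w ∈ W, (a : Matrix ι ι F) *ᵥ w ∈ W) ∧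
      ∀ a ∈ s, (∀ w ∈ W, (a : Matrix ι ι F) *ᵥ w = w) ∨ (∀ w ∈ W, (a : Matrix ι ι F) *ᵥ w = -w) by
    obtain ⟨W, hW, -, hsign⟩ := this hS.toFinset (by simp)
    obtain ⟨v, hv, hv0⟩ := W.exists_mem_ne_zero_of_ne_bot hW
    exact ⟨v, hv0, fun a ha => (hsign a (hS.mem_toFinset.2 ha)).imp (fun e => e v hv) fun e => e v hv⟩
  intro s
  induction s using Finset.induction_on with
  | empty =>
    intro _
    have : Nonempty ι := Fintype.card_pos_iff.1 (by have := h.two_le; omega)
    exact ⟨⊤, top_ne_bot, fun _ _ _ _ => trivial, by simp⟩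
  | @insert b s hb ih =>
    intro hsub
    rw [Finset.coe_insert, Set.insert_subset_iff] at hsub
    obtain ⟨W, hW, hinv, hsign⟩ := ih hsub.2
    let W' : Submodule F (ι → F) := W ⊓ LinearMap.ker (Matrix.toLin' (b : Matrix ι ι F) - 1)
    have hmem : ∀ w, w ∈ W' ↔ w ∈ W ∧ (b : Matrix ι ι F) *ᵥ w = w := fun w => by
      simp [W', sub_eq_zero]
    by_cases hW' : W' = ⊥
    · refine ⟨W, hW, hinv, fun a ha => ?_⟩
      rcases Finset.mem_insert.1 ha with rfl | ha
      · refine Or.inr fun w hw => eq_neg_of_add_eq_zero_left ?_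
        rw [← Submodule.mem_bot F, ← hW', hmem]
        refine ⟨W.add_mem (hinv _ hsub.1 w hw) hw, ?_⟩
        rw [Matrix.mulVec_add, Matrix.mulVec_mulVec, ← Units.val_mul, h1 _ hsub.1, Units.val_one,
          Matrix.one_mulVec, add_comm]
      · exact hsign a ha
    · refine ⟨W', hW', fun a ha w hw => ?_, fun a ha => ?_⟩
      · rw [hmem] at hw ⊢
        refine ⟨hinv a ha w hw.1, ?_⟩
        rw [Matrix.mulVec_mulVec, ← Units.val_mul, hc b hsub.1 a ha, Units.val_mul,
          ← Matrix.mulVec_mulVec, hw.2]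
      · rcases Finset.mem_insert.1 ha with rfl | ha
        · exact Or.inl fun w hw => ((hmem w).1 hw).2
        · exact (hsign a ha).imp (fun e w hw => e w hw.1) fun e w hw => e w hw.1

/-- No large elementary abelian subgroup. -/
theorem IsExtra.minus [Finite F] (h : IsExtra f N) {j : ℕ} (hj : Fintype.card ι = 2 ^ j) :
    Geo.IsOfMinusType j N := by
  classical
  intro A hA h1
  by_contra hlt
  push Not at hlt
  have : Nonempty ι := Fintype.card_pos_iff.1 (by have := h.two_le; omega)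
  let S : Set (GL ι F) := N.subtype '' A
  obtain ⟨v, hv0, hv⟩ := h.common_eigen (S := S) (Set.toFinite _)
    (by
      rintro _ ⟨a, ha, rfl⟩ _ ⟨b, hb, rfl⟩
      exact congrArg (fun t : A => t.1.1) (hA.is_comm.comm (⟨a, ha⟩ : A) ⟨b, hb⟩))
    (by rintro _ ⟨a, ha, rfl⟩; exact congrArg Subtype.val (h1 a ha))
  -- the translates of the eigenvector
  let T : Set (ι → F) := Set.range fun x : N => (x.1 : Matrix ι ι F) *ᵥ v
  have hspan : Submodule.span F T = ⊤ := by
    refine eq_top_of_invariant h.absIrred.1 (fun hbot => hv0 ?_) fun x hx w hw => ?_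
    · rw [← Submodule.mem_bot F, ← hbot]
      exact Submodule.subset_span ⟨1, by simp⟩
    · have hle : (Submodule.span F T).map (Matrix.toLin' (x : Matrix ι ι F)) ≤ Submodule.span F T := by
        rw [Submodule.map_span, Submodule.span_le]
        rintro _ ⟨_, ⟨y, rfl⟩, rfl⟩
        exact Submodule.subset_span ⟨⟨x, hx⟩ * y, by simp [Matrix.mulVec_mulVec]⟩
      exact hle ⟨w, hw, Matrix.toLin'_apply _ _⟩
  have hT : ∀ a ∈ S, ∀ t ∈ T, (a : Matrix ι ι F) *ᵥ t = t ∨ (a : Matrix ι ι F) *ᵥ t = -t := by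
    rintro _ ⟨a, ha, rfl⟩ _ ⟨y, rfl⟩
    show (a.1 : Matrix ι ι F) *ᵥ ((y.1 : Matrix ι ι F) *ᵥ v) = (y.1 : Matrix ι ι F) *ᵥ v ∨
      (a.1 : Matrix ι ι F) *ᵥ ((y.1 : Matrix ι ι F) *ᵥ v) = -((y.1 : Matrix ι ι F) *ᵥ v)
    have e1 : (a.1 : Matrix ι ι F) *ᵥ v = v ∨ (a.1 : Matrix ι ι F) *ᵥ v = -v := hv _ ⟨a, ha, rfl⟩
    rw [Matrix.mulVec_mulVec, ← Units.val_mul]
    rcases h.comm_or a.2 y.2 with c | c <;> rw [c] <;> rcases e1 with e | e
    · exact Or.inl (by rw [Units.val_mul, ← Matrix.mulVec_mulVec, e])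
    · exact Or.inr (by rw [Units.val_mul, ← Matrix.mulVec_mulVec, e, Matrix.mulVec_neg])
    · exact Or.inr (by rw [Units.val_neg, Matrix.neg_mulVec, Units.val_mul, ← Matrix.mulVec_mulVec, e])
    · exact Or.inl (by rw [Units.val_neg, Matrix.neg_mulVec, Units.val_mul, ← Matrix.mulVec_mulVec, e,
        Matrix.mulVec_neg, neg_neg])
  -- a basis of translates containing the eigenvector
  obtain ⟨b, hbT, hvb, hTb, hli⟩ := exists_linearIndepOn_id_extension (K := F)
    (LinearIndepOn.singleton (R := F) (v := id) hv0) (show ({v} : Set (ι → F)) ⊆ T from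
      Set.singleton_subset_iff.2 ⟨1, by simp⟩)
  have hb : Submodule.span F b = ⊤ := by
    rw [eq_top_iff, ← hspan, Submodule.span_le]; exact hTb
  let B : Basis b F (ι → F) := Basis.mk hli (by simp [hb])
  have : Fintype b := FiniteDimensional.fintypeBasisIndex B
  have hBk : ∀ k : b, B k = k.1 := fun k => by simp [B]
  -- operators diagonal in this basis
  let Ψ : (b → F) →ₗ[F] Matrix ι ι F :=
    { toFun := fun c => LinearMap.toMatrix' (B.constr F fun k => c k • B k)
      map_add' := fun c d => by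
        rw [← map_add]; congr 1; refine B.ext fun k => ?_; simp only [LinearMap.add_apply, Basis.constr_basis, Pi.add_apply, add_smul]
      map_smul' := fun r c => by
        rw [RingHom.id_apply, ← map_smul]; congr 1; refine B.ext fun k => ?_; simp [mul_smul] }
  have hΨ : ∀ c k, Ψ c *ᵥ B k = c k • B k := fun c k => by
    simp [Ψ, ← Matrix.toLin'_apply]
  have hA' : ∀ a ∈ S, (a : Matrix ι ι F) ∈ LinearMap.range Ψ := by
    intro a ha
    have hs : ∀ k : b, ∃ s : F, (a : Matrix ι ι F) *ᵥ B k = s • B k := fun k => by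
      rw [hBk]
      rcases hT a ha _ (hbT k.2) with e | e
      · exact ⟨1, by rw [e, one_smul]⟩
      · exact ⟨-1, by rw [e, neg_one_smul]⟩
    choose s hs using hs
    refine ⟨s, Matrix.toLin'.injective (B.ext fun k => ?_)⟩
    rw [Matrix.toLin'_apply, Matrix.toLin'_apply, hΨ, hs]
  -- representatives of `A` modulo scalars
  let Z : Subgroup A := ((Geo.scalars ι F).subgroupOf N).subgroupOf A
  let Q := A ⧸ Z
  have : Fintype Q := Fintype.ofFinite Q
  let g : Q → GL ι F := fun c => c.out.1.1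
  have hgS : ∀ c, g c ∈ S := fun c => ⟨c.out.1, c.out.2, rfl⟩
  have hliQ : LinearIndependent F fun c : Q => (g c).val := by
    refine linearIndependent_of_distinct_classes h.absIrred h.comm g (fun c => c.out.1.2) fun a b hab => ?_
    rw [← a.out_eq', ← b.out_eq']
    exact QuotientGroup.eq.2 (by simpa [Z, Q, g, Subgroup.mem_subgroupOf] using hab)
  have hZ : Nat.card Z ≤ 2 := by
    rw [← h.card_scalars]
    exact Nat.card_le_card_of_injective (fun z : Z => (⟨z.1.1, z.2⟩ : (Geo.scalars ι F).subgroupOf N))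
      fun x y e => Subtype.ext (Subtype.ext (congrArg (fun z => z.1) e))
  have hQ : 2 ^ j ≤ Fintype.card Q := by
    have hc := Subgroup.card_eq_card_quotient_mul_card_subgroup Z
    rw [Nat.card_eq_fintype_card (α := A ⧸ Z)] at hc
    have h4 : Fintype.card Q * Nat.card Z ≤ Fintype.card Q * 2 := Nat.mul_le_mul_left _ hZ
    rw [pow_succ] at hlt
    have : Nat.card A ≤ Fintype.card Q * 2 := hc ▸ h4
    omega
  have hle : Submodule.span F (Set.range fun c : Q => (g c).val) ≤ LinearMap.range Ψ :=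
    Submodule.span_le.2 (by rintro _ ⟨c, rfl⟩; exact hA' _ (hgS c))
  have heq : Submodule.span F (Set.range fun c : Q => (g c).val) = LinearMap.range Ψ := by
    refine Submodule.eq_of_le_of_finrank_le hle ?_
    have h5 := LinearMap.finrank_range_le Ψ
    rw [Module.finrank_pi, ← finrank_eq_card_basis B, Module.finrank_pi, hj] at h5
    rw [finrank_span_eq_card hliQ]
    omega
  -- the projector onto the eigenvector line
  let v₁ : b := ⟨v, hvb rfl⟩
  let P₀ := Ψ (Pi.single v₁ 1)
  have hP₀ : ∀ w, ∃ t : F, P₀ *ᵥ w = t • v := fun w => by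
    refine ⟨B.repr w v₁, ?_⟩
    conv_lhs => rw [← B.sum_repr w]
    rw [Matrix.mulVec_sum, Finset.sum_eq_single v₁]
    · rw [Matrix.mulVec_smul, hΨ, hBk, Pi.single_eq_same, one_smul]
    · intro k _ hk
      rw [Matrix.mulVec_smul, hΨ, Pi.single_eq_of_ne hk, zero_smul, smul_zero]
    · simp
  have hPv : P₀ *ᵥ v = v := by
    have := hΨ (Pi.single v₁ 1) v₁
    rwa [hBk, Pi.single_eq_same, one_smul] at this
  have hf := h.symplectic
  obtain ⟨x, hx⟩ : ∃ x : N, f v ((x.1 : Matrix ι ι F) *ᵥ v) ≠ 0 := by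
    by_contra! hz
    obtain ⟨y, hy⟩ := (hf.nondegenerate v hv0).2
    refine hy ?_
    have hmem : y ∈ Submodule.span F T := hspan ▸ Submodule.mem_top
    refine Submodule.span_induction (p := fun y _ => f v y = 0) ?_ ?_ ?_ ?_ hmem
    · rintro _ ⟨x, rfl⟩; exact hz x
    · simpa using hf.bilinear.smul_right 0 v 0
    · intro p r _ _ hp hr; rw [hf.bilinear.add_right, hp, hr, add_zero]
    · intro c p _ hp; rw [hf.bilinear.smul_right, hp, mul_zero]
  have hxA : ∀ a ∈ S, (x.1 : Matrix ι ι F) * (a : Matrix ι ι F) = (a : Matrix ι ι F) * x.1 := by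
    rintro _ ⟨a, ha, rfl⟩
    rcases h.comm_or x.2 a.2 with c | c
    · exact congrArg Units.val c
    exfalso
    refine hx ?_
    have e := h.iso _ a.2 v ((x.1 : Matrix ι ι F) *ᵥ v)
    have c' : (a.1 : Matrix ι ι F) * x.1 = -((x.1 : Matrix ι ι F) * a.1) := by
      have := congrArg Units.val c
      simp only [Units.val_mul, Units.val_neg] at this
      rw [this, neg_neg]
    rw [Matrix.mulVec_mulVec, c', Matrix.neg_mulVec, ← Matrix.mulVec_mulVec] at e
    have hneg : ∀ p r, f p (-r) = - f p r := fun p r => by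
      rw [← neg_one_smul F r, hf.bilinear.smul_right, neg_one_mul]
    have hneg' : ∀ p r, f (-p) r = - f p r := fun p r => by
      rw [← neg_one_smul F p, hf.bilinear.smul_left, neg_one_mul]
    rcases (show (a.1 : Matrix ι ι F) *ᵥ v = v ∨ (a.1 : Matrix ι ι F) *ᵥ v = -v from hv _ ⟨a, ha, rfl⟩)
      with ea | ea <;> simp [← Matrix.mulVec_mulVec, ea, Matrix.mulVec_neg, hneg, hneg'] at e <;>
      exact (mul_eq_zero.1 (show (2 : F) * f v ((x.1 : Matrix ι ι F) *ᵥ v) = 0 by
        first | linear_combination e | linear_combination -e)).resolve_left h.two_ne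
  have hcommP : (x.1 : Matrix ι ι F) * P₀ = P₀ * x.1 := by
    have hm : P₀ ∈ Submodule.span F (Set.range fun c : Q => (g c).val) := heq ▸ ⟨_, rfl⟩
    refine Submodule.span_induction (p := fun M _ => (x.1 : Matrix ι ι F) * M = M * x.1) ?_ ?_ ?_ ?_ hm
    · rintro _ ⟨c, rfl⟩; exact hxA _ (hgS c)
    · simp
    · intro p r _ _ hp hr; rw [mul_add, add_mul, hp, hr]
    · intro c p _ hp; rw [Matrix.mul_smul, Matrix.smul_mul, hp]
  obtain ⟨t, ht⟩ := hP₀ ((x.1 : Matrix ι ι F) *ᵥ v)
  refine hx ?_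
  have : (x.1 : Matrix ι ι F) *ᵥ v = t • v := by
    conv_lhs => rw [← hPv, Matrix.mulVec_mulVec, hcommP, ← Matrix.mulVec_mulVec, ht]
  rw [this, hf.bilinear.smul_right, hf.alternating, mul_zero]

/-- Every element outside the centre is inverted by an outer or inner automorphism moving it. -/
theorem IsExtra.exists_sq_neg_anti [Finite F] (h : IsExtra f N) {a : GL ι F} (ha : a ∈ N)
    (hns : a ∉ Geo.scalars ι F) : ∃ x ∈ N, x * x = -1 ∧ x * a = -(a * x) := by
  by_contra hcon
  push Not at hcon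
  have : Nonempty ι := Fintype.card_pos_iff.1 (by have := h.two_le; omega)
  obtain ⟨y, hy, hya⟩ : ∃ y ∈ N, y * a = -(a * y) := by
    by_contra hall
    push Not at hall
    exact hns (mem_scalars_of_commute h.absIrred fun y hy =>
      ((h.comm_or hy ha).resolve_right (hall y hy)).symm)
  have hinvol : ∀ z ∈ N, z * a = -(a * z) → z * z = 1 := fun z hz e =>
    (h.sq hz).resolve_right fun e' => hcon z hz e' e
  let C : Subgroup N := Subgroup.centralizer {(⟨a, ha⟩ : N)}
  have hC : ∀ z : N, z ∈ C ↔ z.1 * a = a * z.1 := fun z => by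
    rw [Subgroup.mem_centralizer_singleton_iff]
    exact Subtype.ext_iff
  have hyy := hinvol y hy hya
  have hconjinv : ∀ z : N, z ∈ C → y * z.1 * y = z.1⁻¹ := fun z hz => by
    have hz' := (hC z).1 hz
    have e : y * z.1 * a = -(a * (y * z.1)) := by
      rw [mul_assoc, hz', ← mul_assoc, hya, neg_mul, mul_assoc]
    exact eq_inv_of_mul_eq_one_left (by
      have := hinvol _ (mul_mem hy z.2) e
      rwa [← mul_assoc] at this)
  have hCab : ∀ z w : N, z ∈ C → w ∈ C → z * w = w * z := by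
    intro z w hz hw
    refine Subtype.ext (inv_injective ?_)
    rw [Subgroup.coe_mul, Subgroup.coe_mul, _root_.mul_inv_rev w.1, ← hconjinv z hz, ← hconjinv w hw,
      ← Subgroup.coe_mul, ← hconjinv (z * w) (mul_mem hz hw), Subgroup.coe_mul]
    have : ∀ p r : GL ι F, y * p * y * (y * r * y) = y * (p * (y * y) * r) * y := fun p r => by
      simp only [mul_assoc]
    rw [this, hyy, mul_one]
  obtain ⟨j, hj0, hj, hcard⟩ := h.card
  have hmin := h.minus hj
  -- elements of `C` squaring to one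
  let K : Subgroup N :=
    { carrier := {z | z ∈ C ∧ z * z = 1}
      mul_mem' := fun {p r} hp hr => ⟨mul_mem hp.1 hr.1, by
        rw [mul_assoc, ← mul_assoc r, ← hCab p r hp.1 hr.1, mul_assoc p, hr.2, mul_one, hp.2]⟩
      one_mem' := ⟨one_mem _, mul_one 1⟩
      inv_mem' := fun {p} hp => ⟨inv_mem hp.1, by rw [← _root_.mul_inv_rev, hp.2, inv_one]⟩ }
  have hK := hmin K ⟨⟨fun p r => Subtype.ext (hCab p.1 r.1 p.2.1 r.2.1)⟩⟩ fun z hz => hz.2
  -- the index bounds
  have hcov : ∀ z : N, z ∈ C ∨ (⟨y, hy⟩ : N) * z ∈ C := fun z => by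
    rcases h.comm_or z.2 ha with e | e
    · exact Or.inl ((hC z).2 e)
    · refine Or.inr ((hC _).2 ?_)
      show y * z.1 * a = a * (y * z.1)
      rw [mul_assoc, e, mul_neg, ← mul_assoc, hya, neg_mul, neg_neg, mul_assoc]
  have hN2 : Nat.card N ≤ 2 * Nat.card C := by
    classical
    let φ : N → C ⊕ C := fun z => if hz : z ∈ C then Sum.inl ⟨z, hz⟩ else
      Sum.inr ⟨_, (hcov z).resolve_left hz⟩
    have : Finite N := Nat.finite_of_card_ne_zero (by rw [hcard]; positivity)
    have hφ : Function.Injective φ := fun p r e => by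
      simp only [φ] at e
      split_ifs at e <;> simp_all
    calc Nat.card N ≤ Nat.card (C ⊕ C) := Nat.card_le_card_of_injective φ hφ
      _ = 2 * Nat.card C := by rw [Nat.card_sum]; ring
  have hC2 : Nat.card C ≤ 2 * Nat.card K := by
    classical
    have : Finite N := Nat.finite_of_card_ne_zero (by rw [hcard]; positivity)
    by_cases he : ∃ w : N, w ∈ C ∧ w * w ≠ 1
    · obtain ⟨w, hw, hw1⟩ := he
      have hsq : ∀ z : N, z * z ≠ 1 → (z * z).1 = -1 := fun z hz =>
        (h.sq z.2).resolve_left fun e => hz (Subtype.ext e)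
      let φ : C → K ⊕ K := fun z => if hz : (z.1 : N) * z.1 = 1 then Sum.inl ⟨z.1, z.2, hz⟩ else
        Sum.inr ⟨w * z.1, mul_mem hw z.2, by
          rw [mul_assoc, ← mul_assoc z.1, hCab z.1 w z.2 hw, mul_assoc w, ← mul_assoc w]
          refine Subtype.ext ?_
          rw [Subgroup.coe_mul, hsq w hw1, hsq z.1 hz]
          simp⟩
      have hφ : Function.Injective φ := fun p r e => by
        simp only [φ] at e
        split_ifs at e <;> simp_all
      calc Nat.card C ≤ Nat.card (K ⊕ K) := Nat.card_le_card_of_injective φ hφ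
        _ = 2 * Nat.card K := by rw [Nat.card_sum]; ring
    · push Not at he
      calc Nat.card C ≤ Nat.card K :=
            Nat.card_le_card_of_injective (fun z : C => (⟨z.1, z.2, he z.1 z.2⟩ : K))
              fun p r e => Subtype.ext (congrArg (fun z => z.1) e)
        _ ≤ 2 * Nat.card K := Nat.le_mul_of_pos_left _ two_pos
  rcases Nat.lt_or_ge 1 j with hj2 | hj1
  · have h3 : 2 ^ (1 + 2 * j) ≤ 4 * Nat.card K := by rw [← hcard]; omega
    have h4 : 4 * 2 ^ (j + 1) ≤ 2 ^ (1 + 2 * j) := by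
      rw [show (4 : ℕ) = 2 ^ 2 from rfl, ← pow_add]
      exact Nat.pow_le_pow_right two_pos (by omega)
    omega
  · -- the square group generated by `y` and minus one
    obtain rfl : j = 1 := by omega
    have hyne : y ≠ 1 ∧ y ≠ -1 := by
      constructor <;> rintro rfl <;> simp at hya
      · exact h.neg_ne a hya.symm
      · exact h.neg_ne a hya
    let Y : N := ⟨y, hy⟩
    let M : N := ⟨-1, h.neg_one_mem⟩
    have hY : Y * Y = 1 := Subtype.ext hyy
    have hM : M * M = 1 := Subtype.ext (by simp [M])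
    have hMc : ∀ z : N, M * z = z * M := fun z => Subtype.ext (by simp [M])
    let E : Subgroup N :=
      { carrier := {z | z = 1 ∨ z = M ∨ z = Y ∨ z = M * Y}
        one_mem' := Or.inl rfl
        mul_mem' := by
          have e1 : Y * (M * Y) = M := by rw [← mul_assoc, ← hMc, mul_assoc, hY, mul_one]
          have e2 : M * (M * Y) = Y := by rw [← mul_assoc, hM, one_mul]
          have e3 : M * Y * Y = M := by rw [mul_assoc, hY, mul_one]
          have e4 : M * Y * M = Y := by rw [← hMc, e2]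
          have e5 : M * Y * (M * Y) = 1 := by rw [← mul_assoc, e4, hY]
          rintro p r (rfl | rfl | rfl | rfl) (rfl | rfl | rfl | rfl) <;>
            simp [hY, hM, e1, e2, e3, e4, e5, ← hMc Y]
        inv_mem' := by
          rintro p (rfl | rfl | rfl | rfl)
          · simp
          · exact Or.inr (Or.inl (inv_eq_of_mul_eq_one_right hM))
          · exact Or.inr (Or.inr (Or.inl (inv_eq_of_mul_eq_one_right hY)))
          · refine Or.inr (Or.inr (Or.inr (inv_eq_of_mul_eq_one_right ?_)))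
            rw [← mul_assoc, ← hMc, ← mul_assoc, hM, one_mul, hY] }
    have hcomm : ∀ p ∈ E, ∀ r ∈ E, p * r = r * p := by
      rintro p (rfl | rfl | rfl | rfl) r (rfl | rfl | rfl | rfl) <;>
        simp [hMc, mul_assoc] <;> simp [← mul_assoc, hMc]
    have hE := hmin E ⟨⟨fun p r => Subtype.ext (hcomm p.1 p.2 r.1 r.2)⟩⟩ (by
      rintro p (rfl | rfl | rfl | rfl)
      · exact mul_one 1
      · exact hM
      · exact hY
      · rw [← mul_assoc, mul_assoc M Y M, ← hMc, ← mul_assoc, hM, one_mul, hY])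
    have : Finite N := Nat.finite_of_card_ne_zero (by rw [hcard]; positivity)
    have h4 : 4 ≤ Nat.card E := by
      let φ : Fin 4 → E := ![⟨1, Or.inl rfl⟩, ⟨M, Or.inr (Or.inl rfl)⟩,
        ⟨Y, Or.inr (Or.inr (Or.inl rfl))⟩, ⟨M * Y, Or.inr (Or.inr (Or.inr rfl))⟩]
      have hφ : Function.Injective φ := by
        have n1 : (-1 : GL ι F) ≠ 1 := h.neg_one_ne
        have n2 : -y ≠ y := h.neg_ne y
        have n3 : -y ≠ 1 := fun e => hyne.2 (neg_eq_iff_eq_neg.1 e)
        have n4 : -y ≠ -1 := fun e => hyne.1 (neg_injective e)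
        intro p r e
        have e' := congrArg (fun z : E => z.1.1) e
        fin_cases p <;> fin_cases r <;>
          simp [φ, M, Y, hyne.1, hyne.2, n1, n1.symm, n2, n2.symm, n3, n3.symm, n4, n4.symm,
            hyne.1.symm, hyne.2.symm] at e' ⊢
      simpa using Nat.card_le_card_of_injective φ hφ
    omega

/-- The group is of symplectic type. -/
theorem IsExtra.symplecticType [Finite F] (h : IsExtra f N) : Geo.IsSymplecticTypeGroup 2 N := by
  refine ⟨Nat.prime_two, fun g => ⟨2, h.pow_four g⟩, fun A hA hAc => ?_, ?_⟩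
  · have hle : A ≤ Subgroup.center N := by
      intro a ha
      rw [h.center_eq]
      by_contra hns
      obtain ⟨x, hx, hxx, hxa⟩ := h.exists_sq_neg_anti a.2 hns
      have hxx' : (x : Matrix ι ι F) * x = -1 := by
        have := congrArg Units.val hxx
        simpa using this
      set U : Matrix ι ι F := 1 + x
      set V : Matrix ι ι F := (2 : F)⁻¹ • (1 - x)
      have hUV : U * V = 1 := by
        have e : U * (1 - (x : Matrix ι ι F)) = (2 : F) • 1 := by
          simp only [U]
          rw [mul_sub, mul_one, add_mul, one_mul, hxx', two_smul]; abel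
        rw [Matrix.mul_smul, e, smul_smul, inv_mul_cancel₀ h.two_ne, one_smul]
      have hVU : V * U = 1 := mul_eq_one_comm.1 hUV
      let u : GL ι F := ⟨U, V, hUV, hVU⟩
      -- conjugation by the unit
      have hcomm : ∀ z : GL ι F, x * z = z * x → u * z * u⁻¹ = z := fun z e => by
        rw [mul_inv_eq_iff_eq_mul]
        refine Units.ext ?_
        have e' := congrArg Units.val e
        simp only [Units.val_mul] at e' ⊢
        show (1 + (x : Matrix ι ι F)) * z = z * (1 + x)
        rw [add_mul, one_mul, mul_add, mul_one, e']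
      have hanti : ∀ z : GL ι F, x * z = -(z * x) → u * z * u⁻¹ = x * z := fun z e => by
        rw [mul_inv_eq_iff_eq_mul]
        refine Units.ext ?_
        have e' := congrArg Units.val e
        simp only [Units.val_mul, Units.val_neg] at e' ⊢
        show (1 + (x : Matrix ι ι F)) * z = x * z * (1 + x)
        rw [add_mul, one_mul, mul_add, mul_one, mul_assoc (x : Matrix ι ι F), show (z : Matrix ι ι F) * x =
          -((x : Matrix ι ι F) * z) by rw [e', neg_neg], mul_neg, ← mul_assoc, hxx', neg_one_mul, neg_neg,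
          add_comm]
      have hmem : ∀ z ∈ N, u * z * u⁻¹ ∈ N := fun z hz => by
        rcases h.comm_or hx hz with e | e
        · rw [hcomm z e]; exact hz
        · rw [hanti z e]; exact mul_mem hx hz
      let φ₀ : N →* N :=
        { toFun := fun z => ⟨u * z.1 * u⁻¹, hmem _ z.2⟩
          map_one' := Subtype.ext (by simp)
          map_mul' := fun p r => Subtype.ext (by simp [mul_assoc]) }
      have hφi : Function.Injective φ₀ := fun p r e => Subtype.ext (by
        have := congrArg Subtype.val e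
        simpa [φ₀] using this)
      have : Finite N := by
        obtain ⟨j, -, -, hc⟩ := h.card
        exact Nat.finite_of_card_ne_zero (by rw [hc]; positivity)
      let φ : N ≃* N := MulEquiv.ofBijective φ₀ ⟨hφi, Finite.injective_iff_surjective.1 hφi⟩
      have hxaA : (⟨x, hx⟩ : N) * a ∈ A := by
        have h1 : φ a ∈ A := Subgroup.mem_comap.1 ((hA.fixed φ).symm ▸ ha : a ∈ A.comap φ.toMonoidHom)
        rwa [show φ a = (⟨x, hx⟩ : N) * a from Subtype.ext (hanti a.1 hxa)] at h1
      have e := congrArg (fun t : A => t.1.1) (hAc.is_comm.comm (⟨_, hxaA⟩ : A) ⟨a, ha⟩)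
      simp only [Subgroup.coe_mul] at e
      refine h.neg_ne (a.1 * (x * a.1)) ?_
      rw [← neg_mul, ← mul_assoc, ← mul_assoc] at *
      rw [hxa, neg_mul] at e
      rw [neg_mul]
      exact e
    have hcyc : IsCyclic (Subgroup.center N) := by
      have : Fact (Nat.Prime 2) := ⟨Nat.prime_two⟩
      exact isCyclic_of_prime_card (p := 2) (by rw [h.center_eq, h.card_scalars])
    exact isCyclic_of_injective (Subgroup.inclusion hle) (Subgroup.inclusion_injective _)
  · show Monoid.exponent N = 4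
    refine Nat.dvd_antisymm (Monoid.exponent_dvd_of_forall_pow_eq_one h.pow_four) ?_
    obtain ⟨x, hx, hxx⟩ := h.exists_sq_neg
    have : orderOf (⟨x, hx⟩ : N) = 4 := by
      have : Fact (Nat.Prime 2) := ⟨Nat.prime_two⟩
      refine orderOf_eq_prime_pow (p := 2) (n := 1) (fun e => h.neg_one_ne ?_) (h.pow_four _)
      rw [← hxx]
      simpa [pow_two] using congrArg Subtype.val e
    exact this ▸ Monoid.order_dvd_exponent _

theorem IsExtra.le_similarity (h : IsExtra f N) : N ≤ Geo.similarityGroup f := fun g hg =>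
  ⟨1, fun u v => by rw [Units.val_one, one_mul]; exact h.iso g hg u v⟩

theorem IsExtra.card_center (h : IsExtra f N) : Nat.card (Subgroup.center N) = 2 := by
  rw [h.center_eq, h.card_scalars]

/-- All the numbers of class six, and realisability over the prime field. -/
theorem IsExtra.classSix [Fintype F] (h : IsExtra f N) {H : Subgroup (GL ι F)}
    (hnorm : ∀ g ∈ H, ∀ x ∈ N, g * x * g⁻¹ ∈ N) :
    (∃ (p k : ℕ), Geo.IsSymplecticTypeGroup 2 N ∧ Geo.ActsAbsolutelyIrreducibly (Geo.matrixSet N) ∧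
      N ≤ Geo.similarityGroup f ∧ p.Prime ∧ Odd p ∧ Fintype.card F = p ∧ Fintype.card ι = 2 ^ k ∧
      Nat.card N = 2 ^ (1 + 2 * k) ∧ Nat.card (Subgroup.center N) = 2 ∧ Geo.IsOfMinusType k N) ∨
    ∃ (F₁ : Subfield F) (r : ℕ) (B : GL ι F) (ζ : F), r.Prime ∧ Fintype.card F = Nat.card F₁ ^ r ∧
      F₁ ≠ ⊤ ∧ ζ ≠ 0 ∧ Geo.IsFormRationalStructure f F₁ ζ B ∧ H ≤ Geo.subfieldSubgroup F₁ B := by
  classical
  have : Nonempty ι := Fintype.card_pos_iff.1 (by have := h.two_le; omega)
  by_cases hbot : (⊥ : Subfield F) = ⊤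
  · left
    obtain ⟨p, hchar⟩ := CharP.exists F
    obtain ⟨e, hp, hcard⟩ := FiniteField.card F p
    have := Fact.mk hp
    obtain ⟨j, -, hj, hcardN⟩ := h.card
    have hodd : Odd p := hp.odd_of_ne_two fun e2 => h.two_ne (by
      subst e2; exact_mod_cast CharP.cast_eq_zero F 2)
    have hpF : Fintype.card F = p := by
      rw [← Nat.card_eq_fintype_card, ← Nat.card_congr (Equiv.Set.univ F)]
      rw [show (Set.univ : Set F) = ((⊥ : Subfield F) : Set F) by rw [hbot]; rfl]
      show Nat.card (⊥ : Subfield F) = p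
      exact Subfield.card_bot F p
    exact ⟨p, j, h.symplecticType, h.absIrred, h.le_similarity, hp, hodd, hpF, hj, hcardN,
      h.card_center, h.minus hj⟩
  · right
    obtain ⟨F₁, r, -, hr, hcard, h1⟩ := exists_subfield_prime_index hbot
    refine subfield_form h.symplectic h.two_le h.absIrred hnorm
      (fun _ ⟨g, hg, e⟩ u v => e ▸ h.iso g hg u v) h1
      (realisableOver_of_scalars_mem h.absIrred h.comm F₁ hr hcard fun c hc => ?_)
    rcases h.scalar_sign hc ⟨c, rfl⟩ with e | e
    · have : c = 1 := scalarGL_injective (ι := ι) (e.trans (map_one _).symm)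
      rw [this, Units.val_one]; exact F₁.one_mem
    · have : c = -1 := scalarGL_injective (ι := ι) (e.trans (Units.ext (by simp [scalarGL])))
      rw [this, Units.val_neg, Units.val_one]; exact F₁.neg_mem F₁.one_mem

end CfsgLib.Aschbacher.Symp
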