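import Cfsg.Agent.Aschbacher.SympComposite
import Cfsg.Agent.Aschbacher.SympTensorPower
import Cfsg.Agent.Aschbacher.BinaryTensorPower
import Cfsg.Agent.Aschbacher.NormalCases
import Cfsg.Agent.Aschbacher.CoverGroup

/-!
Aschbacher's structure theorem for the subgroups of the symplectic group: containment in a member of a
geometric class, or the residual class.
-/

set_option autoImplicit false
set_option linter.unusedSectionVars false

namespace CfsgLib.Aschbacher.SympStructure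

open Matrix Cfsg Module CfsgLib.Aschbacher CfsgLib.Aschbacher.Centre CfsgLib.Aschbacher.Forms
  CfsgLib.Aschbacher.Symp CfsgLib.SympFormStd

open scoped Kronecker MatrixGroups

variable {F : Type*} [Field F] [Fintype F] {m : ℕ}
variable {H : Subgroup (GL (Fin m ⊕ Fin m) F)}

local notation "ι" => (Fin m ⊕ Fin m)

/-- Containment in a member of a geometric class. -/
def InMember (H : Subgroup (GL (Fin m ⊕ Fin m) F)) : Prop :=
  ∃ M, Geo.InSymplecticClass m F M ∧ H ≤ M

theorem iso_of_le (hH : H ≤ Cfsg.spGL m F) :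
    ∀ g ∈ H, ∀ u v, Cfsg.sympForm m F ((g : Matrix ι ι F) *ᵥ u) ((g : Matrix ι ι F) *ᵥ v) =
      Cfsg.sympForm m F u v :=
  fun _ hg => hH hg

theorem quad_member (hH : H ≤ Cfsg.spGL m F) (h2 : (2 : F) = 0) {Q : (ι → F) → F}
    (hQ : Geo.IsNondegenerateQuadraticForm Q)
    (hpol : ∀ u v, QuadraticMap.polar Q u v = Cfsg.sympForm m F u v)
    (hle : H ≤ Geo.quadSimilarityGroup Q) : InMember H := by
  refine ⟨_, ?_, le_inf hle hH⟩
  unfold Geo.InSymplecticClass Geo.InSymplecticPartialClass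
  exact .inl <| .inr <| .inr <| .inr <| .inr <| .inr <| .inr
    ⟨Q, fun ho => two_ne_zero_of_odd_card ho h2, hQ, hpol, rfl⟩

/-- A reducible group lies in a member of the first two classes. -/
theorem reducible_case (hm : 2 ≤ m) (hH : H ≤ Cfsg.spGL m F)
    {W : Submodule F (ι → F)} (h0 : W ≠ ⊥) (h1 : W ≠ ⊤)
    (hW : ∀ g ∈ H, ∀ v ∈ W, (g : Matrix ι ι F) *ᵥ v ∈ W) : InMember H := by
  have hf := isSymplecticForm m F
  have hcard : Fintype.card ι = 2 * m := by simp; omega
  have : Nonempty ι := ⟨Sum.inl ⟨0, by omega⟩⟩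
  have hO : ∀ g ∈ H, ∀ v ∈ orth hf W, (g : Matrix ι ι F) *ᵥ v ∈ orth hf W := by
    intro g hg v hv
    rw [mem_orth] at hv ⊢
    intro w hw
    rw [← iso_of_le hH g⁻¹ (H.inv_mem hg), inv_mulVec_mulVec]
    exact hv _ (hW _ (H.inv_mem hg) w hw)
  have hstab : ∀ {U : Submodule F (ι → F)}, (∀ g ∈ H, ∀ v ∈ U, (g : Matrix ι ι F) *ᵥ v ∈ U) →
      H ≤ Geo.subspaceStabilizer U :=
    fun hU g hg => mem_subspaceStabilizer_of_mapsTo fun v hv => hU g hg v hv
  by_cases hR : W ⊓ orth hf W = ⊥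
  swap
  · refine ⟨_, ?_, le_inf (hstab (U := W ⊓ orth hf W) fun g hg v hv => ⟨hW g hg v hv.1, hO g hg v hv.2⟩) hH⟩
    unfold Geo.InSymplecticClass Geo.InSymplecticPartialClass
    exact .inl <| .inl ⟨_, hR, fun u hu v hv => (mem_orth hf).1 hv.2 u hu.1, rfl⟩
  obtain ⟨hWn, hOn, hsum, htop⟩ := orth_spec hf hR
  rw [hcard] at hsum
  have hWpos : finrank F W ≠ 0 := fun h => h0 (Submodule.finrank_eq_zero.1 h)
  have hOpos : finrank F (orth hf W) ≠ 0 := fun h => h1 (by
    rw [← htop, Submodule.finrank_eq_zero.1 h, sup_bot_eq])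
  rcases lt_trichotomy (finrank F W) m with h | h | h
  · refine ⟨_, ?_, le_inf (hstab hW) hH⟩
    unfold Geo.InSymplecticClass Geo.InSymplecticPartialClass
    exact .inl <| .inr <| .inl ⟨W, h0, hWn, h, rfl⟩
  · have hO' : finrank F (orth hf W) = m := by omega
    let D : Fin 2 → Submodule F (ι → F) := ![W, orth hf W]
    have hD : Geo.IsNondegenerateMDecomposition (Cfsg.sympForm m F) m D := by
      refine ⟨⟨le_rfl, by omega, Fin.forall_fin_two.2 ⟨h, hO'⟩, ?_, ?_⟩,
        Fin.forall_fin_two.2 ⟨hWn, hOn⟩, ?_⟩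
      · rw [iSupIndep_pair (i := (0 : Fin 2)) (j := 1) (by decide) (fun k => by omega)]
        exact disjoint_iff.2 hR
      · rw [eq_top_iff, ← htop]
        exact sup_le (le_iSup D 0) (le_iSup D 1)
      · intro i j hij
        fin_cases i <;> fin_cases j <;> first | exact absurd rfl hij | skip
        · exact fun u hu v hv => (mem_orth hf).1 hv u hu
        · exact fun u hu v hv => CfsgLib.AltFormTransv.orth_comm hf ((mem_orth hf).1 hu v hv)
    refine ⟨Geo.decompositionStabilizer D ⊓ Cfsg.spGL m F, ?_, le_inf ?_ hH⟩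
    · unfold Geo.InSymplecticClass Geo.InSymplecticPartialClass
      exact .inl <| .inr <| .inr <| .inl ⟨2, m, D, hD, rfl⟩
    · intro g hg
      refine ⟨1, Fin.forall_fin_two.2 ⟨?_, ?_⟩⟩
      · exact Submodule.eq_of_le_of_finrank_eq (by
          rintro _ ⟨v, hv, rfl⟩; rw [Matrix.toLin'_apply]; exact hW g hg v hv) (finrank_map_gl g W)
      · exact Submodule.eq_of_le_of_finrank_eq (by
          rintro _ ⟨v, hv, rfl⟩; rw [Matrix.toLin'_apply]; exact hO g hg v hv) (finrank_map_gl g _)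
  · refine ⟨_, ?_, le_inf (hstab hO) hH⟩
    unfold Geo.InSymplecticClass Geo.InSymplecticPartialClass
    exact .inl <| .inr <| .inl ⟨_, fun h' => hOpos (by rw [h', finrank_bot]), hOn, by omega, rfl⟩

/-- A closed commutative algebra normalised by the group and larger than the scalars. -/
theorem comm_case (hm : 2 ≤ m) (hH : H ≤ Cfsg.spGL m F)
    (hirr : Geo.ActsIrreducibly (Geo.matrixSet H))
    {Z : Subalgebra F (Matrix ι ι F)} (hc : ∀ x ∈ Z, ∀ y ∈ Z, x * y = y * x)
    (hcl : Closed (Cfsg.sympForm m F) Z) (hN : Normalises H Z) (hbot : Z ≠ ⊥) : InMember H := by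
  have : Nonempty ι := ⟨Sum.inl ⟨0, by omega⟩⟩
  have hf := isSymplecticForm m F
  have hr := rform_of_symplectic hf
  have hG : ∀ g ∈ H, ∃ c : F, c ≠ 0 ∧ ∀ u v, Cfsg.sympForm m F ((g : Matrix ι ι F) *ᵥ u)
      ((g : Matrix ι ι F) *ᵥ v) = c * Cfsg.sympForm m F u v :=
    fun g hg => ⟨1, one_ne_zero, fun u v => by rw [one_mul]; exact hH hg u v⟩
  rcases fieldLike_or_idemSystem hirr hN hc with hfl | ⟨t, ⟨S⟩⟩
  · obtain ⟨r, hrp, -, -, hK, hle⟩ := exists_prime_subfield hN hc hfl hbot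
    have hKc := closed_powFixed hr hc hcl r
    by_cases hsa : Geo.IsSelfAdjointFor (Cfsg.sympForm m F) (powFixed Z hc r)
    · refine ⟨_, ?_, le_inf hle hH⟩
      unfold Geo.InSymplecticClass
      exact .inr <| .inl ⟨r, _, hrp, hK, hsa, alternating_of_selfAdjoint hf hK hsa, rfl⟩
    · have hr2 : r = 2 := hrp.eq_two_or_odd'.resolve_right fun ho => hsa (selfAdjoint_of_odd hr ho hK hKc)
      subst hr2
      by_cases ho : Odd (Fintype.card F)
      · refine ⟨_, ?_, le_inf hle hH⟩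
        unfold Geo.InSymplecticClass
        exact .inr <| .inr <| .inl ⟨_, ho, hK, hKc.isAdjointClosedFor, hsa, rfl⟩
      · obtain ⟨Q, hQ, hpol, hpres⟩ :=
          quad_of_not_selfAdjoint (two_eq_zero_of_not_odd ho) hf hK hKc hsa
        exact quad_member hH (two_eq_zero_of_not_odd ho) hQ hpol fun g hg => hpres g (hle hg) (hH hg)
  · rcases frame_form_cases hr hG S.toFrame (idemSystem_adj hr hc hcl S) with
      ⟨s, k, D, hD, -, hle⟩ | ⟨k, D, hD, hk, hts, hle⟩
    · refine ⟨_, ?_, le_inf hle hH⟩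
      unfold Geo.InSymplecticClass Geo.InSymplecticPartialClass
      exact .inl <| .inr <| .inr <| .inl ⟨s, k, D, hD, rfl⟩
    · obtain rfl : k = m := by simp at hk; omega
      by_cases ho : Odd (Fintype.card F)
      · refine ⟨_, ?_, le_inf hle hH⟩
        unfold Geo.InSymplecticClass Geo.InSymplecticPartialClass
        exact .inl <| .inr <| .inr <| .inr <| .inl ⟨D, ho, hD, hts, rfl⟩
      · obtain ⟨Q, hQ, hpol, hpres⟩ := pair_quad (two_eq_zero_of_not_odd ho) hf hD hts
        exact quad_member hH (two_eq_zero_of_not_odd ho) hQ hpol fun g hg => hpres g (hle hg) (hH hg)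

/-- A tensor decomposition with alternating first and symmetric second factor, in odd characteristic. -/
theorem tensor_member (hm : 2 ≤ m) (hH : H ≤ Cfsg.spGL m F)
    (hirr : Geo.ActsIrreducibly (Geo.matrixSet H)) (ho : Odd (Fintype.card F)) {a b : ℕ}
    {e : ι ≃ Fin a × Fin b} {P : GL ι F} (ha : 2 ≤ a) (hb : 2 ≤ b) {X : Matrix (Fin a) (Fin a) F}
    {C : Matrix (Fin b) (Fin b) F} (hX : IsUnit X) (hC : IsUnit C) (hXs : ∀ i j, X i j = - X j i)
    (hCs : ∀ k l, C k l = C l k) (hΓ : pullGram (Cfsg.sympForm m F) e P = X ⊗ₖ C)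
    (hle : H ≤ Geo.tensorProductSubgroup a b e P) : InMember H := by
  haveI : NeZero a := ⟨by omega⟩
  haveI : NeZero b := ⟨by omega⟩
  have h2 := two_ne_zero_of_odd_card ho
  have hr := rform_of_symplectic (isSymplecticForm m F)
  by_cases hb2 : b = 2
  · subst hb2
    obtain ⟨Z, hZc, hZcl, hZn, hZb⟩ := comm_of_plane hr h2 hX hC hCs hΓ hle (iso_of_le hH)
    exact comm_case hm hH hirr hZc hZcl hZn hZb
  have hsX : ∀ i j, X i j = (-1) * (RingHom.id F) (X j i) := fun i j => by simp [← hXs i j]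
  have hsC : ∀ i j, C i j = 1 * (RingHom.id F) (C j i) := fun i j => by simp [← hCs i j]
  have hbil : ∀ {n : ℕ} (G : Matrix (Fin n) (Fin n) F), Geo.IsBilinearForm (Geo.formOfGram (RingHom.id F) G) :=
    fun G => ⟨(isSesquiForm_formOfGram _ G).add_left, (isSesquiForm_formOfGram _ G).smul_left,
      (isSesquiForm_formOfGram _ G).add_right, fun c v x => (isSesquiForm_formOfGram _ G).smul_right c v x⟩
  have hskew : ∀ v w, Geo.formOfGram (RingHom.id F) X v w = - Geo.formOfGram (RingHom.id F) X w v :=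
    fun v w => by rw [formOfGram_refl _ (fun _ => rfl) hsX v w]; simp
  have h1 : Geo.IsSymplecticForm (Geo.formOfGram (RingHom.id F) X) :=
    ⟨hbil X, hskew, fun v => (mul_eq_zero.1 (show (2 : F) * Geo.formOfGram (RingHom.id F) X v v = 0 by
      linear_combination hskew v v)).resolve_left h2,
      nondegenerate_formOfGram _ (fun _ => rfl) (by simp) hsX hX⟩
  have h2' : Geo.IsSymmetricForm (Geo.formOfGram (RingHom.id F) C) :=
    ⟨hbil C, fun v w => by rw [formOfGram_refl _ (fun _ => rfl) hsC v w]; simp,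
      nondegenerate_formOfGram _ (fun _ => rfl) one_ne_zero hsC hC⟩
  have hid : (RingHom.id F : F → F) = id := rfl
  refine ⟨_, ?_, le_inf hle hH⟩
  unfold Geo.InSymplecticClass
  exact .inr <| .inr <| .inr <| .inl ⟨a, b, e, P, _, _, ho, by omega, h1, h2',
    hid ▸ isTensorFormStructure_of_pullGram hr.sesq hΓ, rfl⟩

/-- The tensor configuration of a normal subgroup. -/
theorem tensor_case (hm : 2 ≤ m) (hH : H ≤ Cfsg.spGL m F)
    (hirr : Geo.ActsIrreducibly (Geo.matrixSet H)) {N : Subgroup (GL ι F)} (hNH : N ≤ H) {d k : ℕ}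
    {e : ι ≃ Fin d × Fin k} {P : GL ι F} (hT : TensorData H N d k e P) : InMember H := by
  have hd := hT.two_le_left
  have hk := hT.two_le_right
  haveI : NeZero d := ⟨by omega⟩
  haveI : NeZero k := ⟨by omega⟩
  have : Nonempty ι := ⟨Sum.inl ⟨0, by omega⟩⟩
  have hf := isSymplecticForm m F
  have hr := rform_of_symplectic hf
  have hcl : Closed (Cfsg.sympForm m F) (envAlg N) :=
    closed_adjoin hr fun g hg => hH (hNH hg)
  obtain ⟨X, C, hX, hC, hΓ⟩ := exists_pullGram_eq_kronecker hr (e := e) (P := P) fun M => by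
    obtain ⟨Y, hY, hadj⟩ := hcl _ ((hT.mem_iff _).2 ⟨M, rfl⟩)
    obtain ⟨M', rfl⟩ := (hT.mem_iff _).1 hY
    exact ⟨M', hadj⟩
  obtain ⟨δ₁, δ₂, hδ, hδ₁, hX', hC'⟩ := factor_refl hr hX.ne_zero hC.ne_zero hΓ
  simp only [RingHom.id_apply] at hδ₁ hX' hC'
  have hle := hT.le_tensor
  by_cases ho : Odd (Fintype.card F)
  · rcases mul_self_eq_one_iff.1 hδ₁ with rfl | rfl
    · rw [one_mul] at hδ
      exact tensor_member hm hH hirr ho hk hd hC hX
        (fun i j => by rw [hC' i j, hδ, neg_one_mul]) (fun i j => by simpa using hX' i j)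
        (pullGram_swap hΓ) (hle.trans (tensorProductSubgroup_comm e P))
    · have hδ2 : δ₂ = 1 := by linear_combination -hδ
      exact tensor_member hm hH hirr ho hd hk hX hC
        (fun i j => by simpa using hX' i j) (fun i j => by simpa [hδ2] using hC' i j) hΓ hle
  · have h2 := two_eq_zero_of_not_odd ho
    have hδ₁1 : δ₁ = 1 := by
      rcases mul_self_eq_one_iff.1 hδ₁ with h | h
      · exact h
      · rw [h]; linear_combination -h2
    have hδ₂1 : δ₂ = 1 := by rw [hδ₁1, one_mul] at hδ; rw [hδ]; linear_combination -h2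
    have hXs : ∀ i j, X i j = X j i := fun i j => by simpa [hδ₁1] using hX' i j
    have hCs : ∀ i j, C i j = C j i := fun i j => by simpa [hδ₂1] using hC' i j
    have hsim : ∀ g ∈ H, ∃ c : F, c ≠ 0 ∧ ∀ u v, Cfsg.sympForm m F ((g : Matrix ι ι F) *ᵥ u)
        ((g : Matrix ι ι F) *ᵥ v) = c * Cfsg.sympForm m F u v :=
      fun g hg => ⟨1, one_ne_zero, fun u v => by rw [one_mul]; exact hH hg u v⟩
    by_cases hCd : ∃ i, C i i ≠ 0
    · obtain ⟨W, hW0, hW1, hW⟩ := exists_invariant_of_symm_factor h2 hk hX hC hr hΓ hCs hCd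
      exact absurd (eq_top_of_invariant hirr hW0 fun g hg v hv => hW g (hle hg) (hsim g hg) v hv) hW1
    by_cases hXd : ∃ i, X i i ≠ 0
    · obtain ⟨W, hW0, hW1, hW⟩ := exists_invariant_of_symm_factor h2 hd hC hX hr (pullGram_swap hΓ) hXs hXd
      exact absurd (eq_top_of_invariant hirr hW0 fun g hg v hv =>
        hW g (tensorProductSubgroup_comm e P (hle hg)) (hsim g hg) v hv) hW1
    push Not at hCd hXd
    obtain ⟨Q, hQ, hpol, -, hpres⟩ := exists_quad_of_alt_factors h2 hX hC hf hΓ hXs hXd hCs hCd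
    exact quad_member hH h2 hQ hpol fun g hg => hpres g (hle hg) (hsim g hg)

/-- A normalised extraspecial group lies in a member of the fifth or sixth class. -/
theorem extra_case (hH : H ≤ Cfsg.spGL m F) {R : Subgroup (GL ι F)}
    (hR : IsExtra (Cfsg.sympForm m F) R) (hnorm : ∀ g ∈ H, ∀ x ∈ R, g * x * g⁻¹ ∈ R) : InMember H := by
  rcases hR.classSix hnorm with ⟨p, k, hst, hai, hsim, hp, hodd, hF, -, hcard, hz, hminus⟩ |
    ⟨F₁, r, B, ζ, hr, hF, -, hζ, hrat, hle⟩
  · refine ⟨_, ?_, le_inf (le_normalizer_of_forall_conj hnorm) hH⟩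
    unfold Geo.InSymplecticClass Geo.InSymplecticPartialClass
    exact .inl <| .inr <| .inr <| .inr <| .inr <| .inr <| .inl
      ⟨R, p, k, hst, hai, hsim, hp, hodd, hF, hcard, hz, hminus, rfl⟩
  · refine ⟨_, ?_, le_inf hle hH⟩
    unfold Geo.InSymplecticClass Geo.InSymplecticPartialClass
    exact .inl <| .inr <| .inr <| .inr <| .inr <| .inl ⟨F₁, r, B, ζ, hr, hF, hζ, hrat, rfl⟩

/-- The tensor-induced configuration. -/
theorem commuting_case (hm : 2 ≤ m) (hH : H ≤ Cfsg.spGL m F) {d : ℕ}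
    {S : Finset (Subalgebra F (Matrix ι ι F))} (h : CommutingData H d S) : InMember H := by
  have : Nonempty ι := ⟨Sum.inl ⟨0, by omega⟩⟩
  have hd := h.two_le
  have hS := h.two_le_card
  haveI : NeZero d := ⟨by omega⟩
  obtain ⟨e, P, hle, hfac⟩ := h.exists_le_tensorWreath_factors
  have hf := isSymplecticForm m F
  have hr := rform_of_symplectic hf
  have hHH : ⁅H, H⁆ ≤ H := Subgroup.commutator_le.2 fun a ha b hb => by
    rw [commutatorElement_def]
    exact H.mul_mem (H.mul_mem (H.mul_mem ha hb) (H.inv_mem ha)) (H.inv_mem hb)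
  rcases hd.eq_or_lt with rfl | hd3
  · have htop : Algebra.adjoin F (Geo.matrixSet (⁅H, H⁆ : Subgroup (GL ι F))) = ⊤ := by
      rw [eq_top_iff, ← h.sup_eq_top]
      refine iSup₂_le fun A hA => ?_
      obtain ⟨D, hD, rfl⟩ := h.generated A hA
      exact Algebra.adjoin_mono (Set.image_mono hD)
    obtain ⟨c, hc, hΓ⟩ := powGram_eq_det hf hle (iso_of_le hH) (absIrred_of_adjoin_eq_top htop)
    by_cases h2 : (2 : F) = 0
    · obtain ⟨Q, hQ, hpol, hpres⟩ := binary_quad hf hS h2 hΓ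
      exact quad_member hH h2 hQ hpol fun g hg => hpres g (hle hg) (hH hg)
    by_cases h3 : Fintype.card F = 3
    · obtain ⟨R, hR, hnorm⟩ := binary_three hf h3 (by omega) hΓ
      exact extra_case hH hR fun g hg => hnorm g (hle hg)
    obtain ⟨f₁, hf₁, hst⟩ := binary_member hf h2 hc hΓ
    have hodd : Odd S.card := Nat.not_even_iff_odd.1 fun hev => h2 (by
      have h1 : powGram (Cfsg.sympForm m F) e P (fun _ => 0) (fun _ => 1) =
          - powGram (Cfsg.sympForm m F) e P (fun _ => 1) (fun _ => 0) := hf.skew _ _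
      rw [hΓ] at h1
      simp [kroneckerPow, detForm, hev.neg_one_pow] at h1
      exact (mul_eq_zero.1 (show (2 : F) * c = 0 by linear_combination h1)).resolve_right hc)
    refine ⟨_, ?_, le_inf hle hH⟩
    unfold Geo.InSymplecticClass
    exact .inr <| .inr <| .inr <| .inr ⟨2, S.card, e, P, f₁, odd_card_of_two_ne_zero h2, hodd,
      by obtain ⟨j, hj⟩ := hodd; omega, fun hh => h3 hh.1, hf₁, hst, rfl⟩
  have hcl : FactorClosed (Cfsg.sympForm m F) e P := by
    intro i M
    obtain ⟨A, hA, hmem⟩ := hfac i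
    obtain ⟨D, hD, rfl⟩ := h.generated A hA
    obtain ⟨Y, hY, hadj⟩ := closed_adjoin hr (fun g hg => hH (hHH (hD hg))) _ ((hmem _).2 ⟨M, rfl⟩)
    obtain ⟨M', rfl⟩ := (hmem Y).1 hY
    exact ⟨M', hadj⟩
  rcases induced_cases hf (iso_of_le hH) h hle hfac hcl with
    ⟨h2, Q, hQ, hpol, hQle⟩ | ⟨h2, hodd, P', f₁, hle', hf₁, hst⟩
  · exact quad_member hH h2 hQ hpol hQle
  · refine ⟨_, ?_, le_inf hle' hH⟩
    unfold Geo.InSymplecticClass
    exact .inr <| .inr <| .inr <| .inr ⟨d, S.card, e, P', f₁, odd_card_of_two_ne_zero h2, hodd,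
      by obtain ⟨j, hj⟩ := hodd; omega, fun hh => by omega, hf₁, hst, rfl⟩

/-- Aschbacher's theorem for subgroups of the symplectic group. -/
theorem structure_theorem (hm : 2 ≤ m) (hH : H ≤ Cfsg.spGL m F) :
    InMember H ∨ Geo.InSymplecticResidualClass H := by
  have : Nonempty ι := ⟨Sum.inl ⟨0, by omega⟩⟩
  have hf := isSymplecticForm m F
  have hr := rform_of_symplectic hf
  have hn : 2 ≤ Fintype.card ι := by simp; omega
  by_cases hirr : Geo.ActsIrreducibly (Geo.matrixSet H)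
  swap
  · simp only [Geo.ActsIrreducibly, not_forall, not_or] at hirr
    obtain ⟨W, hW, h0, h1⟩ := hirr
    exact Or.inl (reducible_case hm hH h0 h1 fun g hg v hv =>
      hW _ ⟨g, hg, rfl⟩ ⟨v, hv, Matrix.toLin'_apply _ _⟩)
  have hcomm : ∀ {N : Subgroup (GL ι F)}, IsNonscalarNormal H N →
      centreAlg (envAlg N) ≠ ⊥ → InMember H := fun {N} hN hbot =>
    comm_case hm hH hirr (centreAlg_comm_all _)
      ((closed_adjoin hr (N := N) fun g hg => hH (hN.le hg)).centre hr)
      (normalises_envAlg hN.normal).centreAlg hbot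
  rcases CfsgLib.Aschbacher.normal_cases hirr with
    ⟨N, hN, t, ⟨S⟩⟩ | ⟨N, hN, hfl, hbot⟩ | ⟨N, d, k, e, P, hN, hT⟩ | hall
  · refine Or.inl (hcomm hN fun hb => ?_)
    have h0 : (0 : ℕ) < t := by have := S.two_le; omega
    obtain ⟨c, hc⟩ := Algebra.mem_bot.1 (hb.le (S.mem ⟨0, h0⟩))
    have hid := S.idem ⟨0, h0⟩
    rw [← hc, ← map_mul] at hid
    rcases eq_or_ne c 0 with rfl | hc0
    · exact S.ne_zero _ (by rw [← hc, map_zero])
    · have h1 : c = 1 := mul_left_cancel₀ hc0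
        (((algebraMap F (Matrix ι ι F)).injective hid).trans (mul_one c).symm)
      have := S.ortho ⟨0, h0⟩ ⟨1, S.two_le⟩ (by simp [Fin.ext_iff])
      rw [← hc, h1, map_one, one_mul] at this
      exact S.ne_zero _ this
  · exact Or.inl (hcomm hN hbot)
  · exact Or.inl (tensor_case hm hH hirr hN.le hT)
  rcases normal_structure hall (CfsgLib.Aschbacher.not_le_scalars_of_irreducible hirr hn) with
    ⟨N, r, hA⟩ | ⟨d, S, hC⟩ | ⟨P, hP⟩
  · exact Or.inl (extra_case hH
      ⟨hf, fun g hg => hH (hA.le hg), hA.absIrred, fun x hx y hy => hA.comm y hy x hx, hn⟩ hA.normal)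
  · exact Or.inl (commuting_case hm hH hC)
  have hfix : Geo.FixesForm (Geo.matrixSet P) (Cfsg.sympForm m F) := by
    rintro _ ⟨x, hx, rfl⟩ u v
    exact hH (hP.le hx) u v
  by_cases hreal : ∃ F₀ : Subfield F, F₀ ≠ ⊤ ∧ Geo.RealisableOver F₀ (Geo.matrixSet P)
  · obtain ⟨F₀, h0, hre⟩ := hreal
    obtain ⟨F₁, r, B, ζ, hrp, hF, -, hζ, hrat, hle⟩ :=
      subfield_form hf hn hP.absIrred hP.normal hfix h0 hre
    refine Or.inl ⟨_, ?_, le_inf hle hH⟩
    unfold Geo.InSymplecticClass Geo.InSymplecticPartialClass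
    exact .inl <| .inr <| .inr <| .inr <| .inr <| .inl ⟨F₁, r, B, ζ, hrp, hF, hζ, hrat, rfl⟩
  by_cases hQ : ∃ Q : (ι → F) → F, Geo.IsNondegenerateQuadraticForm Q ∧
      Geo.FixesQuadForm (Geo.matrixSet P) Q
  · obtain ⟨Q, hQ, hQfix⟩ := hQ
    obtain ⟨ho, Q', hQ', hpol, hle⟩ :=
      quad_of_fixed hf (iso_of_le hH) hn hP.absIrred hP.normal hfix hQ hQfix
    exact Or.inl (quad_member hH (two_eq_zero_of_not_odd ho) hQ' hpol hle)
  refine Or.inr ⟨P, hP.isResidualCore fun F₀ h0 h => hreal ⟨F₀, h0, h⟩, hQ, ?_⟩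
  rintro ⟨σ, h, hh, hfixh⟩
  exact hreal (realisable_of_unitary hf hP.absIrred hfix hh hfixh)

end CfsgLib.Aschbacher.SympStructure
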