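import Cfsg.Agent.Aschbacher.TensorSquare
import Cfsg.Agent.Aschbacher.Proper

/-!
The stabiliser of a tensor square does not contain the special linear group.
-/

set_option autoImplicit false

namespace CfsgLib.Aschbacher.TensorSquare

open Matrix Module

variable {ι : Type} [Fintype ι] [DecidableEq ι] {F : Type*} [Field F] {d : ℕ}

theorem not_le_wreath (hd : 3 ≤ d) (e : ι ≃ (Fin 2 → Fin d)) (P : GL ι F) :
    ¬ Cfsg.Geo.specialLinear ι F ≤ Cfsg.Geo.tensorWreathSubgroup d 2 e P := by
  obtain ⟨e₀, rfl⟩ := exists_sqEquiv_eq e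
  intro hle
  let o : Fin d := ⟨0, by omega⟩
  let l : Fin d := ⟨1, by omega⟩
  let i := e₀.symm (o, o)
  let j := e₀.symm (l, l)
  have hij : i ≠ j := fun h => by
    have := congrArg Prod.fst (e₀.symm.injective h)
    simp [o, l, Fin.ext_iff] at this
  have hd0 : (Pi.single j (1 : F)) ⬝ᵥ (Pi.single i 1) = 0 := by simp [hij.symm, Pi.single_apply]
  set T := tv (Pi.single i 1) (Pi.single j (1 : F)) hd0 with hTdef
  let φ : (ι → F) →ₗ[F] F := LinearMap.proj j
  have hTx : ∀ x, (T : Matrix ι ι F) *ᵥ x = x + φ x • Pi.single i 1 := fun x => by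
    rw [hTdef, tv_mulVec]; simp [φ]
  have hfix : ∀ x, φ x = 0 → (T : Matrix ι ι F) *ᵥ x = x := fun x hx => by rw [hTx, hx, zero_smul, add_zero]
  have hmem := RankArgument.tensorProductSubgroup_le_normalizer e₀ P
    (mem_tensor_of_fixes e₀ P hd (hle (tv_mem_specialLinear _ _ hd0)) φ hfix)
  have hn := card_eq_of_equiv e₀
  have hker : Fintype.card ι ≤ finrank F (LinearMap.ker φ) + 1 := by
    have h1 := LinearMap.finrank_range_add_finrank_ker φ
    have h2 := Submodule.finrank_le (LinearMap.range φ)
    rw [Module.finrank_pi] at h1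
    rw [Module.finrank_self] at h2
    omega
  have hcomm := RankArgument.commute_of_fixes hmem (U := LinearMap.ker φ) (fun x hx => hfix x hx)
    (fun Y hY hY0 => by
      have := RankArgument.finrank_ker_factor e₀ P hY hY0
      omega)
  refine RankArgument.not_eigen_factor e₀ P (by omega) (v := Pi.single i (1 : F)) (by simp) fun Z hZ =>
    RankArgument.exists_eigen_of_commute φ hTx ?_ (hcomm Z hZ)
  intro h
  have := LinearMap.congr_fun h (Pi.single j 1)
  simp [φ] at this

end CfsgLib.Aschbacher.TensorSquare
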