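import Cfsg.Agent.Aschbacher.UnitaryMaximal
import Cfsg.Agent.Aschbacher.TensorInduced
import Cfsg.Agent.Aschbacher.TensorPower

/-!
Tensor-induced configurations of two-dimensional factors in the special unitary group: the group
fixes a bilinear form up to scalars, so it is a subfield group.
-/

set_option autoImplicit false

namespace CfsgLib.Aschbacher.Unitary

open Cfsg.Geo Module CfsgLib.AschPrime
open scoped Matrix MatrixGroups

variable {F : Type*} [Field F] [Fintype F] {q n : ℕ}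
variable (hF : Fintype.card F = q ^ 2)
include hF

theorem binary_tensor_induced (hn : 3 ≤ n) {H : Subgroup (GL (Fin n) F)}
    {S : Finset (Subalgebra F (Matrix (Fin n) (Fin n) F))}
    (hH : IsMaximalIn (Cfsg.GU n F q ⊓ specialLinear (Fin n) F) H) (hS : CommutingData H 2 S) :
    (∃ (F₀ : Subfield F) (r : ℕ) (P : GL (Fin n) F), r.Prime ∧ Odd r ∧
        Fintype.card F = Nat.card F₀ ^ r ∧ IsFormRationalStructure (Cfsg.hermForm n F q) F₀ 1 P ∧
        H = subfieldSubgroup F₀ P ⊓ (Cfsg.GU n F q ⊓ specialLinear (Fin n) F)) ∨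
    (Odd q ∧ ∃ (F₀ : Subfield F) (P : GL (Fin n) F), Fintype.card F = Nat.card F₀ ^ 2 ∧
        IsFormRationalStructure (Cfsg.hermForm n F q) F₀ 1 P ∧
        H = subfieldSubgroup F₀ P ⊓ (Cfsg.GU n F q ⊓ specialLinear (Fin n) F)) ∨
    (∃ (F₀ : Subfield F) (P : GL (Fin n) F) (ζ : F), Fintype.card F = Nat.card F₀ ^ 2 ∧ ζ ≠ 0 ∧
        ζ + ζ ^ q = 0 ∧ IsFormRationalStructure (Cfsg.hermForm n F q) F₀ ζ P ∧
        (∀ u : Fin n → F, (∀ i, u i ∈ F₀) → Cfsg.hermForm n F q
          ((P : Matrix (Fin n) (Fin n) F) *ᵥ u) ((P : Matrix (Fin n) (Fin n) F) *ᵥ u) = 0) ∧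
        H = subfieldSubgroup F₀ P ⊓ (Cfsg.GU n F q ⊓ specialLinear (Fin n) F)) := by
  classical
  have : Nonempty (Fin n) := ⟨⟨0, by omega⟩⟩
  obtain ⟨e, P, hle⟩ := hS.exists_le_tensorWreath
  have ht : 0 < S.card := by have := hS.two_le_card; omega
  -- a bilinear form preserved up to scalars
  obtain ⟨f, hb, hnd, hsim⟩ : ∃ f : (Fin n → F) → (Fin n → F) → F, IsBilinearForm f ∧
      IsNondegenerateForm f ∧ H ≤ similarityGroup f := by
    rcases tensorWreath_two_le_similarity ht e P with ⟨-, Q, hQ, hW⟩ | ⟨f, hf, hW⟩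
    · refine ⟨QuadraticMap.polar Q, hQ.polar_bilinear, hQ.nondegenerate, fun g hg => ?_⟩
      obtain ⟨c, hc⟩ := hW (hle hg)
      refine ⟨c, fun u v => ?_⟩
      simp only [QuadraticMap.polar, ← Matrix.mulVec_add, hc]
      ring
    · exact ⟨f, hf.bilinear, hf.nondegenerate, hle.trans hW⟩
  set D : Subgroup (GL (Fin n) F) := ⁅H, H⁆ with hD
  have hDH : D ≤ H := Subgroup.commutator_le.2 fun a ha b hb => by
    rw [commutatorElement_def]
    exact H.mul_mem (H.mul_mem (H.mul_mem ha hb) (H.inv_mem ha)) (H.inv_mem hb)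
  have hfix : FixesForm (matrixSet D) f := by
    let K : Subgroup (GL (Fin n) F) :=
      { carrier := {g | ∀ u v, f (g.val *ᵥ u) (g.val *ᵥ v) = f u v}
        mul_mem' := fun {a b} ha hb u v => by
          rw [Units.val_mul, ← Matrix.mulVec_mulVec, ← Matrix.mulVec_mulVec, ha, hb]
        one_mem' := fun u v => by simp
        inv_mem' := fun {a} ha u v => by
          rw [← ha ((a⁻¹ : GL (Fin n) F).val *ᵥ u) ((a⁻¹ : GL (Fin n) F).val *ᵥ v)]
          simp [Matrix.mulVec_mulVec] }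
    have hDK : D ≤ K := Subgroup.commutator_le.2 fun a ha b hb u v => by
      obtain ⟨c, hc⟩ := hsim ha
      obtain ⟨d, hd⟩ := hsim hb
      have hinv : ∀ (x : GL (Fin n) F) (k : Fˣ), (∀ u v, f (x.val *ᵥ u) (x.val *ᵥ v) = (k : F) * f u v) →
          ∀ u v, f ((x⁻¹ : GL (Fin n) F).val *ᵥ u) ((x⁻¹ : GL (Fin n) F).val *ᵥ v) =
            ((k⁻¹ : Fˣ) : F) * f u v := by
        intro x k hk u v
        have h := hk ((x⁻¹ : GL (Fin n) F).val *ᵥ u) ((x⁻¹ : GL (Fin n) F).val *ᵥ v)
        simp only [Matrix.mulVec_mulVec, ← Units.val_mul, mul_inv_cancel, Units.val_one,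
          Matrix.one_mulVec] at h
        rw [h, ← mul_assoc, ← Units.val_mul, inv_mul_cancel, Units.val_one, one_mul]
      simp only [commutatorElement_def, Units.val_mul, ← Matrix.mulVec_mulVec, hc, hd, hinv a c hc,
        hinv b d hd]
      rw [← mul_assoc, ← mul_assoc, ← mul_assoc, ← Units.val_mul, ← Units.val_mul, ← Units.val_mul,
        show c * d * c⁻¹ * d⁻¹ = 1 by rw [mul_comm c d, mul_inv_cancel_right, mul_inv_cancel],
        Units.val_one, one_mul]
    rintro _ ⟨x, hx, rfl⟩ u v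
    exact hDK hx u v
  have hirr : ActsAbsolutelyIrreducibly (matrixSet D) := by
    refine absIrred_of_adjoin_eq_top (eq_top_iff.2 ?_)
    rw [← hS.sup_eq_top]
    refine iSup₂_le fun A hA => ?_
    obtain ⟨E, hE, hEA⟩ := hS.generated A hA
    rw [← hEA]
    exact Algebra.adjoin_mono (Set.image_mono hE)
  exact subfield_case hF hn hH hDH
    (fun h hh x hx => by
      have : (Subgroup.map (MulAut.conj h).toMonoidHom D) ≤ D := by
        rw [hD, Subgroup.map_commutator]
        refine Subgroup.commutator_mono ?_ ?_ <;>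
          (rintro _ ⟨y, hy, rfl⟩; exact H.mul_mem (H.mul_mem hh hy) (H.inv_mem hh))
      exact this ⟨x, hx, rfl⟩)
    hirr (fixedField_ne_top hF)
    (realisableOver_fixed_of_bilinear hF (by omega) hirr ((hDH.trans hH.1.le).trans inf_le_left) hb hnd hfix)

end CfsgLib.Aschbacher.Unitary
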