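import Cfsg.Agent.AschPrime.UnitaryFrameField
import Cfsg.Agent.Aschbacher.RankArgument

/-!
The geometric members are proper in the special unitary group in any dimension, and the reducible case
of the reduction in any dimension.
-/

set_option autoImplicit false
set_option linter.unusedSectionVars false

namespace CfsgLib.Aschbacher.Unitary

open Cfsg.Geo Module CfsgLib.AschPrime
open scoped Matrix MatrixGroups

variable {F : Type*} [Field F] [Fintype F] {q n : ℕ}
variable (hF : Fintype.card F = q ^ 2)
include hF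

/-- Members of dimension at least two: one isotropic vector outside a member it pairs with suffices. -/
theorem not_le_stab_of_vector {t m : ℕ} {D : Fin t → Submodule F (Fin n → F)} (hD : IsMDecomposition m D)
    (hm : 2 ≤ m) {v x : Fin n → F} (hv : Cfsg.hermForm n F q v v = 0) {i : Fin t} (hx : x ∈ D i)
    (hxv : Cfsg.hermForm n F q x v ≠ 0) (hvi : v ∉ D i) :
    ¬ Cfsg.GU n F q ⊓ specialLinear (Fin n) F ≤ decompositionStabilizer D := by
  intro hle
  obtain ⟨c, hc0, hc⟩ := exists_trace_zero hF
  obtain ⟨σ, hσ⟩ := hle (utransv_mem hF hv hc)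
  by_cases h : σ i = i
  · have hT : utransv hv c *ᵥ x ∈ D i := by
      rw [← h, ← hσ i]
      exact ⟨x, hx, by simp⟩
    rw [utransv_mulVec, (D i).add_mem_iff_right hx, (D i).smul_mem_iff (mul_ne_zero hc0 hxv)] at hT
    exact hvi hT
  · obtain ⟨y, ⟨hy, hyv⟩, hy0⟩ : ∃ y, (y ∈ D i ∧ Cfsg.hermForm n F q y v = 0) ∧ y ≠ 0 := by
      have hker : LinearMap.ker ((hermDual q v).comp (D i).subtype) ≠ ⊥ := by
        intro hb
        have h1 := LinearMap.finrank_range_add_finrank_ker ((hermDual q v).comp (D i).subtype)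
        have h2 := Submodule.finrank_le (LinearMap.range ((hermDual q v).comp (D i).subtype))
        rw [hb, finrank_bot, hD.finrank_eq i] at h1
        rw [Module.finrank_self] at h2
        omega
      obtain ⟨z, hz, hz0⟩ := Submodule.exists_mem_ne_zero_of_ne_bot hker
      exact ⟨z, ⟨z.2, hz⟩, fun h' => hz0 (Subtype.ext h')⟩
    have hT : utransv hv c *ᵥ y ∈ D (σ i) := by
      rw [← hσ i]
      exact ⟨y, hy, by simp⟩
    rw [utransv_mulVec, hyv, mul_zero, zero_smul, add_zero] at hT
    exact hy0 (Submodule.disjoint_def.1 (hD.indep.pairwiseDisjoint (Ne.symm h)) y hy hT)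

/-- The special unitary group stabilises no orthogonal decomposition into members of dimension two or more. -/
theorem not_le_decomposition {t m : ℕ} {D : Fin t → Submodule F (Fin n → F)}
    (hD : IsNondegenerateMDecomposition (Cfsg.hermForm n F q) m D) (hm : 2 ≤ m) :
    ¬ Cfsg.GU n F q ⊓ specialLinear (Fin n) F ≤ decompositionStabilizer D := by
  have hne : ∀ i, D i ≠ ⊥ := fun i h => by
    have := hD.decomp.finrank_eq i
    rw [h, finrank_bot] at this
    omega
  have ht := hD.decomp.two_le
  set i : Fin t := ⟨0, by omega⟩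
  set j : Fin t := ⟨1, by omega⟩
  have hij : i ≠ j := by simp [i, j]
  obtain ⟨a, ha, haa⟩ := exists_anisotropic hF (hD.nondegenerate i) (hne i)
  obtain ⟨b, hb, hbb⟩ := exists_anisotropic hF (hD.nondegenerate j) (hne j)
  have hab := hD.orthogonal i j hij a ha b hb
  obtain ⟨s, hs, hv⟩ := exists_isotropic_combination hF hab haa hbb
  refine not_le_stab_of_vector hF hD.decomp hm hv ha ?_ fun hmem => ?_
  · rwa [herm_add_right hF, herm_smul_right hF, hab, mul_zero, add_zero]
  · rw [(D i).add_mem_iff_right ha, (D i).smul_mem_iff hs] at hmem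
    exact hbb (hD.orthogonal i j hij b hmem b hb)

/-- The special unitary group stabilises no pair of totally isotropic subspaces of dimension two or more. -/
theorem not_le_pair {m : ℕ} {D : Fin 2 → Submodule F (Fin n → F)} (hD : IsMDecomposition m D) (hm : 2 ≤ m)
    (hts : ∀ i, IsTotallySingularFor (Cfsg.hermForm n F q) (D i)) :
    ¬ Cfsg.GU n F q ⊓ specialLinear (Fin n) F ≤ decompositionStabilizer D := by
  obtain ⟨a, ha, ha0⟩ := Submodule.exists_mem_ne_zero_of_ne_bot (p := D 0) fun h => by
    have := hD.finrank_eq 0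
    rw [h, finrank_bot] at this
    omega
  obtain ⟨b, hb, hab⟩ : ∃ b ∈ D 1, Cfsg.hermForm n F q a b ≠ 0 := by
    by_contra h
    push Not at h
    refine ha0 (herm_nondeg hF fun y => ?_)
    have hy : y ∈ D 0 ⊔ D 1 := by
      have h2 : iSup D ≤ D 0 ⊔ D 1 := iSup_le fun k => by fin_cases k <;> simp
      rw [hD.iSup_eq_top] at h2
      exact h2 trivial
    obtain ⟨u, hu, w, hw, rfl⟩ := Submodule.mem_sup.1 hy
    rw [herm_add_right hF, hts 0 a ha u hu, h w hw, add_zero]
  obtain ⟨c, hc0, hc⟩ := exists_trace_zero hF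
  set b' := (c / Cfsg.hermForm n F q a b) ^ q • b with hb'
  have hab' : Cfsg.hermForm n F q a b' = c := by
    rw [hb', herm_smul_right hF, q_pow_pow hF, div_mul_cancel₀ _ hab]
  have hb'D : b' ∈ D 1 := (D 1).smul_mem _ hb
  have hv : Cfsg.hermForm n F q (a + b') (a + b') = 0 := by
    rw [herm_add_left, herm_add_right hF, herm_add_right hF, hts 0 a ha a ha, hts 1 b' hb'D b' hb'D,
      herm_symm hF b' a, hab', zero_add, add_zero, hc]
  refine not_le_stab_of_vector hF hD hm hv ha ?_ fun hmem => ?_
  · rwa [herm_add_right hF, hts 0 a ha a ha, zero_add, hab']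
  · rw [(D 0).add_mem_iff_right ha] at hmem
    exact hc0 (hab' ▸ hts 0 a ha b' hmem)

/-- A transvection normalising an algebra with small kernels makes the algebra have a common eigenvector. -/
theorem exists_common_eigen {A : Subalgebra F (Matrix (Fin n) (Fin n) F)} (hn : 2 ≤ n)
    (hle : Cfsg.GU n F q ⊓ specialLinear (Fin n) F ≤ subalgebraNormalizer A)
    (hbig : ∀ Y ∈ A, Y ≠ 0 → finrank F (LinearMap.ker (Matrix.toLin' Y)) + 2 < n) :
    ∃ v : Fin n → F, v ≠ 0 ∧ ∀ X ∈ A, ∃ c : F, X *ᵥ v = c • v := by
  obtain ⟨c, hc0, hc⟩ := exists_trace_zero hF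
  obtain ⟨v, hv0, hv⟩ := AschPrime.exists_isotropic hF (n := n) hn
  set T := utransv hv c
  have hker : n ≤ finrank F (LinearMap.ker (hermDual q v)) + 1 := by
    have h1 := LinearMap.finrank_range_add_finrank_ker (hermDual q v)
    have h2 := Submodule.finrank_le (LinearMap.range (hermDual q v))
    rw [finrank_fin_fun] at h1
    rw [Module.finrank_self] at h2
    omega
  have hcomm := RankArgument.commute_of_fixes (hle (utransv_mem hF hv hc)) (U := LinearMap.ker (hermDual q v))
    (fun x hx => by
      rw [utransv_mulVec, show Cfsg.hermForm n F q x v = 0 from hx]; simp)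
    (fun Y hY hY0 => by
      have := hbig Y hY hY0
      rw [Fintype.card_fin]
      omega)
  refine ⟨v, hv0, fun X hX => RankArgument.exists_eigen_of_commute (c • hermDual q v)
    (T := (T : Matrix (Fin n) (Fin n) F)) (fun x => by simp [T, utransv_mulVec]) ?_ (hcomm X hX)⟩
  intro h
  rcases smul_eq_zero.1 h with h | h
  · exact hc0 h
  · exact hv0 (herm_nondeg' hF fun y => LinearMap.congr_fun h y)

/-- The special unitary group normalises no field of matrices of degree two or more. -/
theorem not_le_field (hn : 3 ≤ n) {r : ℕ} (hr : 2 ≤ r) {K : Subalgebra F (Matrix (Fin n) (Fin n) F)}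
    (hK : IsFieldSubalgebra r K) :
    ¬ Cfsg.GU n F q ⊓ specialLinear (Fin n) F ≤ subalgebraNormalizer K := by
  intro hle
  obtain ⟨v, hv, h⟩ := exists_common_eigen hF (by omega) hle fun Y hY hY0 => by
    rw [RankArgument.finrank_ker_field hK hY hY0]; omega
  have := RankArgument.finrank_le_one_of_eigen hK hv h
  omega

/-- The special unitary group preserves no tensor decomposition. -/
theorem not_le_tensor {d k : ℕ} (hd : 2 ≤ d) (hk : 2 ≤ k) (h5 : 3 ≤ d ∨ 3 ≤ k) (e : Fin n ≃ Fin d × Fin k)
    (P : GL (Fin n) F) :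
    ¬ Cfsg.GU n F q ⊓ specialLinear (Fin n) F ≤ tensorProductSubgroup d k e P := by
  have key : ∀ {a b : ℕ}, 2 ≤ a → 3 ≤ b → ∀ (e : Fin n ≃ Fin a × Fin b) (P : GL (Fin n) F),
      ¬ Cfsg.GU n F q ⊓ specialLinear (Fin n) F ≤ tensorProductSubgroup a b e P := by
    intro a b ha hb e P hle
    have hn : n = a * b := by simpa using Fintype.card_congr e
    obtain ⟨v, hv, h⟩ := exists_common_eigen hF (by nlinarith)
      (hle.trans (RankArgument.tensorProductSubgroup_le_normalizer e P)) fun Y hY hY0 => by
        have := RankArgument.finrank_ker_factor e P hY hY0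
        rw [Fintype.card_fin] at this
        omega
    exact RankArgument.not_eigen_factor e P ha hv h
  intro hle
  rcases h5 with h | h
  · exact key hk h _ P (hle.trans (tensorProductSubgroup_comm e P))
  · exact key hd h e P hle

/-- The reducible case of the reduction in any dimension. -/
theorem maximal_reducible (hn : 3 ≤ n) {H : Subgroup (GL (Fin n) F)}
    (hH : IsMaximalIn (Cfsg.GU n F q ⊓ specialLinear (Fin n) F) H) {W : Submodule F (Fin n → F)}
    (h0 : W ≠ ⊥) (htop : W ≠ ⊤) (hinv : H ≤ subspaceStabilizer W) :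
    (∃ W : Submodule F (Fin n → F), W ≠ ⊥ ∧ IsTotallySingularFor (Cfsg.hermForm n F q) W ∧
      H = subspaceStabilizer W ⊓ (Cfsg.GU n F q ⊓ specialLinear (Fin n) F)) ∨
    (∃ W : Submodule F (Fin n → F), W ≠ ⊥ ∧ IsNondegenerateOn (Cfsg.hermForm n F q) W ∧
      2 * finrank F W < n ∧ H = subspaceStabilizer W ⊓ (Cfsg.GU n F q ⊓ specialLinear (Fin n) F)) ∨
    (∃ (m : ℕ) (D : Fin 2 → Submodule F (Fin n → F)),
      IsNondegenerateMDecomposition (Cfsg.hermForm n F q) m D ∧ 2 * m = n ∧
      H = decompositionStabilizer D ⊓ (Cfsg.GU n F q ⊓ specialLinear (Fin n) F)) := by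
  have hperpinv : H ≤ subspaceStabilizer (hperp q W) := fun g hg =>
    subspaceStabilizer_le_hperp hF (hH.1.le hg).1 (hinv hg)
  by_cases hrad : W ⊓ hperp q W = ⊥
  · have hnd := isNondegenerateOn_of_inf_eq_bot hF hrad
    have hdim := finrank_hperp hF W
    have hp0 : hperp q W ≠ ⊥ := fun h => htop (by rw [← sup_hperp_of_nondeg hF hnd, h, sup_bot_eq])
    have hptop : hperp q W ≠ ⊤ := fun h => h0 (by rw [← hrad, h, inf_top_eq])
    rcases Nat.lt_trichotomy (2 * finrank F W) n with hlt | heq | hgt
    · exact Or.inr (Or.inl ⟨W, h0, hnd, hlt, eq_inf_of_isMaximalIn hH hinv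
        (not_le_subspaceStabilizer hF h0 htop (Or.inr hnd))⟩)
    · have hdimp : finrank F (hperp q W) = finrank F W := by omega
      have hpair : IsNondegenerateMDecomposition (Cfsg.hermForm n F q) (finrank F W) ![W, hperp q W] := by
        refine ⟨⟨le_rfl, by omega, fun i => by fin_cases i; exacts [rfl, hdimp], ?_, ?_⟩, fun i => ?_,
          fun i j hij => ?_⟩
        · rw [iSupIndep_pair (i := (0 : Fin 2)) (j := 1) (by simp) (fun k => by fin_cases k <;> simp)]
          exact disjoint_iff.2 hrad
        · refine top_le_iff.1 ?_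
          rw [← sup_hperp_of_nondeg hF hnd]
          exact sup_le (le_iSup_of_le 0 (by simp)) (le_iSup_of_le 1 (by simp))
        · fin_cases i
          · simpa using hnd
          · simpa using hperp_nondeg hF hnd
        · fin_cases i <;> fin_cases j <;> simp at hij ⊢
          · exact fun u hu v hv => (mem_hperp' hF).1 hv u hu
          · exact fun u hu v hv => mem_hperp.1 hu v hv
      refine Or.inr (Or.inr ⟨finrank F W, ![W, hperp q W], hpair, heq, ?_⟩)
      have hstab : ∀ {g : GL (Fin n) F} {U : Submodule F (Fin n → F)}, g ∈ subspaceStabilizer U →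
          U.map (Matrix.toLin' (g : Matrix (Fin n) (Fin n) F)) = U := by
        intro g U hg
        refine Submodule.eq_of_le_of_finrank_eq ?_ ?_
        · rintro _ ⟨x, hx, rfl⟩
          exact (hg x).1 hx
        · exact (Submodule.equivMapOfInjective (Matrix.toLin' (g : Matrix (Fin n) (Fin n) F))
            (Matrix.mulVec_injective_iff_isUnit.2 g.isUnit) U).finrank_eq.symm
      refine eq_inf_of_isMaximalIn hH (fun g hg => ⟨1, fun i => ?_⟩) (not_le_decomposition hF hpair (by omega))
      fin_cases i
      · simpa using hstab (hinv hg)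
      · simpa using hstab (hperpinv hg)
    · exact Or.inr (Or.inl ⟨hperp q W, hp0, hperp_nondeg hF hnd, by omega, eq_inf_of_isMaximalIn hH hperpinv
        (not_le_subspaceStabilizer hF hp0 hptop (Or.inr (hperp_nondeg hF hnd)))⟩)
  · left
    have hts : IsTotallySingularFor (Cfsg.hermForm n F q) (W ⊓ hperp q W) :=
      fun u hu v hv => mem_hperp.1 hu.2 v hv.1
    have hinv' : H ≤ subspaceStabilizer (W ⊓ hperp q W) := fun g hg v =>
      and_congr (hinv hg v) (hperpinv hg v)
    exact ⟨_, hrad, hts, eq_inf_of_isMaximalIn hH hinv' (not_le_subspaceStabilizer hF hrad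
      (fun h => htop (top_le_iff.1 (h ▸ inf_le_left))) (Or.inl hts))⟩

end CfsgLib.Aschbacher.Unitary
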