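import Mathlib
import Cfsg.Agent.Aschbacher.Basic
import Cfsg.Agent.AschPrime.UnitaryBasic
import Cfsg.Agent.Aschbacher.FormsTensor

/-!
Over the field with four elements a hermitian plane has a single orthonormal frame: decompositions into
planes refine to lines, and tensor decompositions with a plane factor split into two halves.
-/

set_option autoImplicit false
set_option linter.unusedSectionVars false

namespace CfsgLib.Aschbacher.UnitarySmall

open Cfsg.Geo Module CfsgLib.AschPrime CfsgLib.Aschbacher.Forms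
open scoped Matrix MatrixGroups Kronecker

variable {F : Type*} [Field F] [Fintype F]

section general

variable {ι : Type} [Fintype ι] [DecidableEq ι]

omit [Fintype F] in
/-- A matrix carrying each member of a decomposition into some member permutes the members. -/
theorem mem_decompositionStabilizer_of_maps {t m : ℕ} {D : Fin t → Submodule F (ι → F)}
    (hD : IsMDecomposition m D) {g : GL ι F}
    (h : ∀ i, ∃ j, ∀ v ∈ D i, (g : Matrix ι ι F) *ᵥ v ∈ D j) : g ∈ decompositionStabilizer D := by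
  classical
  choose π hπ using h
  have hmap : ∀ i, (D i).map (Matrix.toLin' (g : Matrix ι ι F)) = D (π i) := fun i => by
    refine Submodule.eq_of_le_of_finrank_eq ?_
      ((finrank_map_gl g (D i)).trans ((hD.finrank_eq i).trans (hD.finrank_eq (π i)).symm))
    rintro _ ⟨v, hv, rfl⟩
    rw [Matrix.toLin'_apply]; exact hπ i v hv
  have hne : ∀ i, D i ≠ ⊥ := fun i h => by
    have := hD.finrank_eq i
    rw [h, finrank_bot] at this
    exact absurd this.symm hD.pos.ne'
  have hinj : Function.Injective π := by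
    intro i j hij
    by_contra hne'
    obtain ⟨v, hv, hv0⟩ := (D i).exists_mem_ne_zero_of_ne_bot (hne i)
    have h1 : (g : Matrix ι ι F) *ᵥ v ∈ (D j).map (Matrix.toLin' (g : Matrix ι ι F)) := by
      rw [hmap j, ← hij]; exact hπ i v hv
    obtain ⟨w, hw, hwv⟩ := h1
    have hwv' : w = v := mulVec_inj g (by simpa using hwv)
    exact hv0 (Submodule.disjoint_def.1 (hD.indep.pairwiseDisjoint hne') v hv (hwv' ▸ hw))
  exact ⟨Equiv.ofBijective π (Finite.injective_iff_bijective.1 hinj), hmap⟩

end general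

variable {q : ℕ} (hF : Fintype.card F = q ^ 2) (hq : q = 2)
include hF hq

theorem eq_one_of_fixed {a : F} (ha : a ^ q = a) (h0 : a ≠ 0) : a = 1 := by
  subst hq
  apply mul_left_cancel₀ h0
  rw [mul_one, ← pow_two, ha]

theorem pow_three {a : F} (h0 : a ≠ 0) : a * a ^ q = 1 := by
  subst hq
  have := FiniteField.pow_card_sub_one_eq_one a h0
  rw [hF] at this
  rw [← this]; ring

section plane

variable {ι : Type} [Fintype ι] [DecidableEq ι] {f : (ι → F) → (ι → F) → F}

/-- In a non-degenerate plane over the field with four elements the vectors of value one lie on two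
orthogonal lines. -/
theorem plane_frame (hf : IsUnitaryFormPow q f) {W : Submodule F (ι → F)}
    (hW : IsNondegenerateOn f W) (h2 : finrank F W = 2) :
    ∃ v : Fin 2 → (ι → F), (∀ i, v i ∈ W) ∧ (∀ i, f (v i) (v i) = 1) ∧
      (∀ i j, i ≠ j → f (v i) (v j) = 0) ∧ Submodule.span F (Set.range v) = W ∧
      ∀ x ∈ W, f x x = 1 → ∃ i, x ∈ Submodule.span F {v i} := by
  have hadd : ∀ x y z, f z (x + y) = f z x + f z y := fun x y z => by
    rw [hf.herm, hf.add_left, q_add_pow hF, ← hf.herm, ← hf.herm]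
  have hsmul : ∀ (c : F) x z, f z (c • x) = c ^ q * f z x := fun c x z => by
    rw [hf.herm, hf.smul_left, mul_pow, ← hf.herm]
  have hfix : ∀ x, f x x ^ q = f x x := fun x => (hf.herm x x).symm
  have hz : ∀ x, f x 0 = 0 := fun x => by simpa [zero_pow (q_pos hF).ne'] using hsmul 0 0 x
  have hz' : ∀ x, f 0 x = 0 := fun x => by simpa using hf.smul_left 0 0 x
  -- an anisotropic vector
  obtain ⟨a, ha, ha1⟩ : ∃ a ∈ W, f a a = 1 := by
    obtain ⟨w, hw, hw0⟩ := W.exists_mem_ne_zero_of_ne_bot (fun h => by rw [h, finrank_bot] at h2; omega)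
    by_contra! hno
    have hiso : ∀ x ∈ W, f x x = 0 := fun x hx => by
      by_contra h
      exact hno x hx (eq_one_of_fixed hF hq (hfix x) h)
    obtain ⟨x, hx, hxw⟩ := (hW w hw hw0).1
    obtain ⟨t, ht⟩ := exists_pow_ne_self hF
    have key : ∀ c : F, c * f x w + c ^ q * f x w ^ q = 0 := fun c => by
      have h := hiso (c • x + w) (W.add_mem (W.smul_mem c hx) hw)
      rw [hf.add_left, hadd, hadd, hf.smul_left, hf.smul_left, hsmul, hsmul, hiso x hx, hiso w hw,
        hf.herm w x] at h
      linear_combination h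
    have h1 := key 1
    have h2' := key t
    rw [one_pow, one_mul, one_mul] at h1
    have h3 : (t - t ^ q) * f x w = 0 := by linear_combination h2' - t ^ q * h1
    exact hxw ((mul_eq_zero.1 h3).resolve_left (sub_ne_zero.2 (Ne.symm ht)))
  obtain ⟨b, hb, hba, hb1⟩ : ∃ b ∈ W, f b a = 0 ∧ f b b = 1 := by
    obtain ⟨y, hy, hya⟩ : ∃ y ∈ W, y ∉ Submodule.span F {a} := by
      by_contra! h
      have := Submodule.finrank_mono (fun y hy => h y hy : W ≤ Submodule.span F {a})
      rw [h2, finrank_span_singleton (fun h0 => by rw [h0, hz] at ha1; exact zero_ne_one ha1)] at this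
      omega
    set b := y + (-f y a) • a with hb
    have hbW : b ∈ W := W.add_mem hy (W.smul_mem _ ha)
    have hba : f b a = 0 := by rw [hb, hf.add_left, hf.smul_left, ha1]; ring
    have hb0 : b ≠ 0 := fun h0 => hya (Submodule.mem_span_singleton.2 ⟨f y a, by
      rw [hb, neg_smul, ← sub_eq_add_neg, sub_eq_zero] at h0
      exact h0.symm⟩)
    refine ⟨b, hbW, hba, eq_one_of_fixed hF hq (hfix b) fun hbb => ?_⟩
    obtain ⟨x, hx, hxb⟩ := (hW b hbW hb0).1
    have hspan : W ≤ Submodule.span F (Set.range ![a, b]) := by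
      refine le_of_eq (Submodule.eq_of_le_of_finrank_eq (Submodule.span_le.2 ?_) ?_).symm
      · rintro _ ⟨i, rfl⟩; fin_cases i
        · exact ha
        · exact hbW
      · rw [finrank_span_eq_card, h2, Fintype.card_fin]
        rw [LinearIndependent.pair_iff' (fun h0 => by rw [h0, hz] at ha1; exact zero_ne_one ha1)]
        intro c hc
        have : f b a = c := by rw [← hc, hf.smul_left, ha1, mul_one]
        rw [hba] at this
        exact hb0 (by rw [← hc, ← this, zero_smul])
    obtain ⟨c, hc⟩ := (Submodule.mem_span_range_iff_exists_fun F).1 (hspan hx)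
    apply hxb
    rw [← hc, Fin.sum_univ_two]
    simp [hf.add_left, hf.smul_left, hbb, hf.herm a b, hba, zero_pow (q_pos hF).ne']
  have hab : f a b = 0 := by rw [hf.herm, hba, zero_pow (q_pos hF).ne']
  let v : Fin 2 → (ι → F) := ![a, b]
  have hli : LinearIndependent F v := by
    rw [LinearIndependent.pair_iff' (fun h0 => by rw [h0, hz] at ha1; exact zero_ne_one ha1)]
    intro c hc
    have : f b a = c := by rw [← hc, hf.smul_left, ha1, mul_one]
    rw [hba] at this
    rw [← hc, ← this, zero_smul, hz'] at hb1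
    exact zero_ne_one hb1
  have hspan : Submodule.span F (Set.range v) = W := by
    refine Submodule.eq_of_le_of_finrank_eq (Submodule.span_le.2 ?_) ?_
    · rintro _ ⟨i, rfl⟩; fin_cases i
      · exact ha
      · exact hb
    · rw [finrank_span_eq_card hli, h2, Fintype.card_fin]
  refine ⟨v, Fin.forall_fin_two.2 ⟨ha, hb⟩, Fin.forall_fin_two.2 ⟨ha1, hb1⟩, ?_, hspan, fun x hx hxx => ?_⟩
  · intro i j hij
    fin_cases i <;> fin_cases j <;> first | exact absurd rfl hij | exact hab | exact hba
  · obtain ⟨c, hc⟩ := (Submodule.mem_span_range_iff_exists_fun F).1 (hspan.symm ▸ hx)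
    rw [Fin.sum_univ_two] at hc
    rw [← hc] at hxx ⊢
    simp only [v, Matrix.cons_val_zero, Matrix.cons_val_one, hf.add_left, hadd, hf.smul_left, hsmul, ha1,
      hb1, hab, hba] at hxx
    by_cases h0 : c 0 = 0
    · exact ⟨1, Submodule.mem_span_singleton.2 ⟨c 1, by simp [v, h0]⟩⟩
    by_cases h1 : c 1 = 0
    · exact ⟨0, Submodule.mem_span_singleton.2 ⟨c 0, by simp [v, h1]⟩⟩
    exfalso
    apply one_ne_zero (α := F)
    linear_combination hxx - pow_three hF hq h0 - pow_three hF hq h1

end plane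

variable {n : ℕ}

/-- Orthogonal planes refine to orthogonal lines preserved by the isometries of the decomposition. -/
theorem planes_lines {t : ℕ} (hn : t * 2 = n) {D : Fin t → Submodule F (Fin n → F)}
    (hD : IsNondegenerateMDecomposition (Cfsg.hermForm n F q) 2 D) :
    ∃ D' : Fin n → Submodule F (Fin n → F),
      IsNondegenerateMDecomposition (Cfsg.hermForm n F q) 1 D' ∧
      ∀ g ∈ decompositionStabilizer D, g ∈ Cfsg.GU n F q → g ∈ decompositionStabilizer D' := by
  classical
  have hf : IsUnitaryFormPow q (Cfsg.hermForm n F q) :=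
    ⟨herm_add_left, herm_smul_left, herm_symm hF, fun x hx =>
      ⟨by by_contra h; push Not at h; exact hx (herm_nondeg' hF h),
        by by_contra h; push Not at h; exact hx (herm_nondeg hF h)⟩⟩
  choose v hvm hv1 hv0 hvs hvu using fun i =>
    plane_frame hF hq hf (hD.nondegenerate i) (hD.decomp.finrank_eq i)
  let e : Fin n ≃ Fin t × Fin 2 := (finCongr hn.symm).trans finProdFinEquiv.symm
  let b : Fin n → (Fin n → F) := fun k => v (e k).1 (e k).2
  have hb1 : ∀ k, Cfsg.hermForm n F q (b k) (b k) = 1 := fun k => hv1 _ _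
  have hb0 : ∀ k l, k ≠ l → Cfsg.hermForm n F q (b k) (b l) = 0 := by
    intro k l hkl
    by_cases h : (e k).1 = (e l).1
    · have h' : (e k).2 ≠ (e l).2 := fun h2 => hkl (e.injective (Prod.ext h h2))
      simp only [b, ← h]
      exact hv0 _ _ _ h'
    · exact hD.orthogonal _ _ h _ (hvm _ _) _ (hvm _ _)
  have hli : LinearIndependent F b := by
    rw [Fintype.linearIndependent_iff]
    intro c hc k
    have h := congrArg (fun x => Cfsg.hermForm n F q x (b k)) hc
    have hsum : Cfsg.hermForm n F q (∑ l, c l • b l) (b k) = ∑ l, c l * Cfsg.hermForm n F q (b l) (b k) := by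
      rw [show Cfsg.hermForm n F q (∑ l, c l • b l) (b k) = hermDual q (b k) (∑ l, c l • b l) from rfl, map_sum]
      exact Finset.sum_congr rfl fun l _ => by simp [hermDual, herm_smul_left]
    simp only [hsum, herm_zero_left] at h
    rw [Finset.sum_eq_single k (fun l _ hl => by rw [hb0 l k hl, mul_zero]) (by simp), hb1, mul_one] at h
    exact h
  have hb_ne : ∀ k, b k ≠ 0 := fun k => hli.ne_zero k
  let D' : Fin n → Submodule F (Fin n → F) := fun k => Submodule.span F {b k}
  have hn2 : 2 ≤ n := by have := hD.decomp.two_le; omega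
  have hdec : IsMDecomposition 1 D' :=
    ⟨hn2, one_pos, fun k => finrank_span_singleton (hb_ne k), hli.iSupIndep_span_singleton,
      by
        simp only [D', ← Submodule.span_range_eq_iSup]
        exact hli.span_eq_top_of_card_eq_finrank' (by simp)⟩
  refine ⟨D', ⟨hdec, fun k x hx hx0 => ?_, fun k l hkl x hx y hy => ?_⟩, fun g hg hgU => ?_⟩
  · obtain ⟨c, rfl⟩ := Submodule.mem_span_singleton.1 hx
    have hc : c ≠ 0 := fun h => hx0 (by rw [h, zero_smul])
    refine ⟨⟨b k, Submodule.mem_span_singleton_self _, ?_⟩, ⟨b k, Submodule.mem_span_singleton_self _, ?_⟩⟩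
    · rw [herm_smul_right hF, hb1, mul_one]; exact pow_ne_zero _ hc
    · rw [herm_smul_left, hb1, mul_one]; exact hc
  · obtain ⟨c, rfl⟩ := Submodule.mem_span_singleton.1 hx
    obtain ⟨d, rfl⟩ := Submodule.mem_span_singleton.1 hy
    rw [herm_smul_left, herm_smul_right hF, hb0 k l hkl, mul_zero, mul_zero]
  · obtain ⟨π, hπ⟩ := hg
    refine mem_decompositionStabilizer_of_maps hdec fun k => ?_
    have hm : (g : Matrix (Fin n) (Fin n) F) *ᵥ b k ∈ D (π (e k).1) := by
      rw [← hπ]; exact ⟨b k, hvm _ _, Matrix.toLin'_apply _ _⟩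
    obtain ⟨i, hi⟩ := hvu _ _ hm (by rw [mem_GU.1 hgU, hb1])
    refine ⟨e.symm (π (e k).1, i), fun x hx => ?_⟩
    obtain ⟨c, rfl⟩ := Submodule.mem_span_singleton.1 hx
    rw [Matrix.mulVec_smul]
    refine Submodule.smul_mem _ _ ?_
    simpa [D', b] using hi

/-- A tensor decomposition with a plane factor splits into two orthogonal halves preserved by the
isometries. -/
theorem tensor_halves {k : ℕ} (hk : 0 < k) {e : Fin n ≃ Fin 2 × Fin k} {P : GL (Fin n) F}
    {f₁ : (Fin 2 → F) → (Fin 2 → F) → F} {f₂ : (Fin k → F) → (Fin k → F) → F}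
    (h₁ : IsUnitaryFormPow q f₁) (h₂ : IsUnitaryFormPow q f₂)
    (hT : IsTensorFormStructure (fun x : F => x ^ q) (Cfsg.hermForm n F q) f₁ f₂ e P) :
    ∃ D : Fin 2 → Submodule F (Fin n → F),
      IsNondegenerateMDecomposition (Cfsg.hermForm n F q) k D ∧
      ∀ g ∈ tensorProductSubgroup 2 k e P, g ∈ Cfsg.GU n F q → g ∈ decompositionStabilizer D := by
  classical
  set σ := (qFrob hF : F ≃+* F).toRingHom
  have hsq : ∀ {d : ℕ} {f : (Fin d → F) → (Fin d → F) → F}, IsUnitaryFormPow q f →
      CfsgLib.Aschbacher.IsSesquiForm σ f := fun {d f} hf =>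
    ⟨hf.add_left, hf.smul_left,
      fun z x y => by rw [hf.herm, hf.add_left, q_add_pow hF, ← hf.herm, ← hf.herm],
      fun c z x => by rw [hf.herm, hf.smul_left, mul_pow, ← hf.herm]; rfl⟩
  obtain ⟨c, hc, hT⟩ := hT
  have hpure : ∀ (x₁ y₁ : Fin 2 → F) (x₂ y₂ : Fin k → F),
      Cfsg.hermForm n F q (emb e P fun p => x₁ p.1 * x₂ p.2) (emb e P fun p => y₁ p.1 * y₂ p.2) =
        c * (f₁ x₁ y₁ * f₂ x₂ y₂) := by
    intro x₁ y₁ x₂ y₂
    simp only [emb]
    rw [hT]
    congr 1
    rw [(hsq h₁).eq_dot x₁ y₁, (hsq h₂).eq_dot x₂ y₂]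
    simp only [formOfGram, dotProduct, Matrix.mulVec, Fintype.sum_prod_type, Finset.sum_mul, Finset.mul_sum,
      Matrix.kroneckerMap_apply]
    rw [Finset.sum_comm]
    refine Finset.sum_congr rfl fun kk _ => ?_
    refine (Finset.sum_congr rfl fun i _ => Finset.sum_comm).trans ?_
    rw [Finset.sum_comm]
    refine Finset.sum_congr rfl fun l _ => Finset.sum_congr rfl fun i _ => Finset.sum_congr rfl fun j _ => ?_
    rw [show σ (y₁ j) = y₁ j ^ q from rfl, show σ (y₂ l) = y₂ l ^ q from rfl]
    ring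
  have hntop : IsNondegenerateOn f₁ ⊤ := fun w _ hw => by
    obtain ⟨⟨x, hx⟩, ⟨y, hy⟩⟩ := h₁.nondegenerate w hw
    exact ⟨⟨x, trivial, hx⟩, ⟨y, trivial, hy⟩⟩
  obtain ⟨w, -, hw1, hw0, hws, hwu⟩ := plane_frame hF hq h₁ hntop (by rw [finrank_top]; simp)
  let L : Fin 2 → ((Fin k → F) →ₗ[F] (Fin n → F)) := fun i =>
    { toFun := fun z => emb e P fun p => w i p.1 * z p.2
      map_add' := fun x y => by
        simp only [emb, ← Matrix.mulVec_add]
        congr 1; funext p; simp [mul_add]
      map_smul' := fun a x => by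
        simp only [emb, RingHom.id_apply, ← Matrix.mulVec_smul]
        congr 1; funext p; simp [mul_left_comm] }
  let D : Fin 2 → Submodule F (Fin n → F) := fun i => LinearMap.range (L i)
  have hdiag : ∀ i x y, Cfsg.hermForm n F q (L i x) (L i y) = c * f₂ x y := fun i x y => by
    show Cfsg.hermForm n F q (emb e P _) (emb e P _) = _
    rw [hpure, hw1, one_mul]
  have hinjL : ∀ i, Function.Injective (L i) := fun i x y h => by
    by_contra hne
    obtain ⟨z, hz⟩ := (h₂.nondegenerate (x - y) (sub_ne_zero.2 hne)).2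
    have h' : Cfsg.hermForm n F q (L i (x - y)) (L i z) = 0 := by
      rw [map_sub, h, sub_self, herm_zero_left]
    rw [hdiag] at h'
    exact hz ((mul_eq_zero.1 h').resolve_left hc)
  have horth : ∀ i j, i ≠ j → AreOrthogonalFor (Cfsg.hermForm n F q) (D i) (D j) := by
    rintro i j hij _ ⟨x, rfl⟩ _ ⟨y, rfl⟩
    show Cfsg.hermForm n F q (emb e P _) (emb e P _) = _
    rw [hpure, hw0 i j hij, zero_mul, mul_zero]
  have hnd : ∀ i, IsNondegenerateOn (Cfsg.hermForm n F q) (D i) := by
    rintro i _ ⟨x, rfl⟩ hx0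
    have hx : x ≠ 0 := fun h => hx0 (by rw [h, map_zero])
    obtain ⟨⟨y, hy⟩, ⟨z, hz⟩⟩ := h₂.nondegenerate x hx
    exact ⟨⟨_, ⟨y, rfl⟩, by rw [hdiag]; exact mul_ne_zero hc hy⟩,
      ⟨_, ⟨z, rfl⟩, by rw [hdiag]; exact mul_ne_zero hc hz⟩⟩
  have hfin : ∀ i, finrank F (D i) = k := fun i => by
    rw [LinearMap.finrank_range_of_inj (hinjL i), Module.finrank_pi, Fintype.card_fin]
  have hdisj : Disjoint (D 0) (D 1) := Submodule.disjoint_def.2 fun x h0 h1 => by
    by_contra hx
    obtain ⟨y, hy, hyx⟩ := (hnd 0 x h0 hx).1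
    exact hyx (horth 0 1 (by decide) y hy x h1)
  have hn : n = 2 * k := by simpa using Fintype.card_congr e
  have hdec : IsMDecomposition k D := by
    refine ⟨le_rfl, hk, hfin, ?_, ?_⟩
    · rw [iSupIndep_pair (i := (0 : Fin 2)) (j := 1) (by decide) (fun k => by omega)]
      exact hdisj
    · refine Submodule.eq_top_of_finrank_eq ?_
      have h := Submodule.finrank_sup_add_finrank_inf_eq (D 0) (D 1)
      rw [hdisj.eq_bot, finrank_bot, hfin, hfin] at h
      have hle : D 0 ⊔ D 1 ≤ iSup D := sup_le (le_iSup D 0) (le_iSup D 1)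
      have := Submodule.finrank_mono hle
      have := Submodule.finrank_le (iSup D)
      rw [Module.finrank_pi, Fintype.card_fin] at this ⊢
      omega
  refine ⟨D, ⟨hdec, hnd, horth⟩, fun g hg hgU => mem_decompositionStabilizer_of_maps hdec fun i => ?_⟩
  obtain ⟨A, B, hAB⟩ := (CfsgLib.Aschbacher.mem_tensorProductSubgroup_iff e P g).1 hg
  have himg : ∀ z, (g : Matrix (Fin n) (Fin n) F) *ᵥ L i z =
      emb e P (fun p => ((A : Matrix (Fin 2) (Fin 2) F) *ᵥ w i) p.1 *
        ((B : Matrix (Fin k) (Fin k) F) *ᵥ z) p.2) := fun z => by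
    show (g : Matrix (Fin n) (Fin n) F) *ᵥ emb e P _ = _
    rw [hAB, tconj_mulVec_emb]
    congr 1
    funext ⟨a, b⟩
    simp only [Matrix.mulVec, dotProduct, Fintype.sum_prod_type, Matrix.kroneckerMap_apply,
      Finset.sum_mul, Finset.mul_sum]
    rw [Finset.sum_comm]
    exact Finset.sum_congr rfl fun _ _ => Finset.sum_congr rfl fun _ _ => by ring
  have h1 : f₁ ((A : Matrix (Fin 2) (Fin 2) F) *ᵥ w i) ((A : Matrix (Fin 2) (Fin 2) F) *ᵥ w i) = 1 := by
    refine eq_one_of_fixed hF hq (h₁.herm _ _).symm fun h0 => ?_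
    obtain ⟨z, hz0⟩ : ∃ z : Fin k → F, z ≠ 0 := ⟨Pi.single ⟨0, hk⟩ 1, by simp⟩
    obtain ⟨y, hy⟩ := (h₂.nondegenerate z hz0).2
    have h := mem_GU.1 hgU (L i z) (L i y)
    rw [himg, himg, hpure, h0, zero_mul, mul_zero, hdiag] at h
    exact mul_ne_zero hc hy h.symm
  obtain ⟨j, hj⟩ := hwu _ trivial h1
  obtain ⟨a, ha⟩ := Submodule.mem_span_singleton.1 hj
  refine ⟨j, ?_⟩
  rintro _ ⟨z, rfl⟩
  refine ⟨a • ((B : Matrix (Fin k) (Fin k) F) *ᵥ z), ?_⟩
  rw [himg, ← ha]
  show emb e P _ = _
  congr 1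
  funext p
  simp [mul_left_comm, mul_comm, mul_assoc]

end CfsgLib.Aschbacher.UnitarySmall
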