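import Mathlib
import Cfsg.Agent.Aschbacher.UnitarySmall
import Cfsg.Agent.Aschbacher.Proper
import Cfsg.Agent.Aschbacher.SympComposite

/-!
Over the field with four elements the normaliser in `SU_6` of an adjoint-closed cubic field lies in a
subfield group of symplectic type.
-/

set_option autoImplicit false
set_option linter.unusedSectionVars false
set_option linter.style.haveILetI false

namespace CfsgLib.Aschbacher.UnitarySix

open Cfsg.Geo Module CfsgLib.AschPrime CfsgLib.Aschbacher.UnitarySmall CfsgLib.Aschbacher.Forms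
open scoped Matrix MatrixGroups

variable {F : Type*} [Field F] [Fintype F] {q : ℕ} (hF : Fintype.card F = q ^ 2) (hq : q = 2)
include hF hq

section cubic

variable {L : Type*} [Field L] [Algebra F L] [FiniteDimensional F L] (h3 : finrank F L = 3)
  {τ : L ≃+* L} (hττ : ∀ x, τ (τ x) = x) (hτc : ∀ c : F, τ (algebraMap F L c) = algebraMap F L (c ^ q))
include h3 hττ hτc

/-- A cubic extension has a basis fixed by a semilinear involution. -/
theorem exists_fixed_basis : ∃ b : Basis (Fin 3) F L, (∀ i, τ (b i) = b i) ∧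
    ∀ z, τ z = z → ∀ i, b.repr z i ^ q = b.repr z i := by
  classical
  haveI : Finite L := Module.finite_of_finite F
  haveI := Fintype.ofFinite L
  have hcardL : Fintype.card L = 64 := by
    rw [Module.card_eq_pow_finrank (K := F), h3, hF, hq]; rfl
  obtain ⟨l, hl, hlF⟩ : ∃ l : L, τ l = l ∧ l ∉ Set.range (algebraMap F L) := by
    by_contra hall
    push Not at hall
    have h01 : ∀ z : L, τ z = z → z = 0 ∨ z = 1 := by
      intro z hz
      obtain ⟨a, rfl⟩ := hall z hz
      rw [hτc] at hz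
      by_cases ha : a = 0
      · exact Or.inl (by rw [ha, map_zero])
      · exact Or.inr (by rw [eq_one_of_fixed hF hq ((algebraMap F L).injective hz) ha, map_one])
    have h2 : (2 : L) = 0 := by
      have h := Nat.cast_card_eq_zero L
      rw [hcardL] at h
      exact eq_zero_of_pow_eq_zero (n := 6)
        (by rw [show (2 : L) ^ 6 = ((64 : ℕ) : L) by norm_num]; exact h)
    have h4 : ∀ x : L, x ^ 4 = x := by
      intro x
      have hs := h01 (x + τ x) (by rw [map_add, hττ, add_comm])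
      have hp := h01 (x * τ x) (by rw [map_mul, hττ, mul_comm])
      have hx : x ^ 2 = (x + τ x) * x - x * τ x := by ring
      rcases hs with hs | hs <;> rcases hp with hp | hp <;> rw [hs, hp] at hx
      · have : x = 0 := sq_eq_zero_iff.1 (by linear_combination hx)
        simp [this]
      · have : x = 1 := by
          have : (x - 1) ^ 2 = 0 := by linear_combination hx - x * h2
          linear_combination sq_eq_zero_iff.1 this
        simp [this]
      · linear_combination (x ^ 2 + x + 1) * hx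
      · linear_combination (x ^ 2 + x) * hx - x * h2
    have hle : Fintype.card L ≤ 4 := by
      have hp0 : (Polynomial.X ^ 4 - Polynomial.X : Polynomial L) ≠ 0 :=
        FiniteField.X_pow_card_sub_X_ne_zero L (by norm_num)
      have hsub : (Finset.univ : Finset L) ⊆ (Polynomial.X ^ 4 - Polynomial.X : Polynomial L).roots.toFinset := by
        intro x _
        simp [Polynomial.mem_roots hp0, h4 x]
      refine (Finset.card_le_card hsub).trans ((Multiset.toFinset_card_le _).trans ?_)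
      refine (Polynomial.card_roots' _).trans ?_
      rw [FiniteField.X_pow_card_sub_X_natDegree_eq L (by norm_num)]
    omega
  have hdeg : (minpoly F l).natDegree = 3 := by
    have hint : IsIntegral F l := IsIntegral.of_finite F l
    have hd := minpoly.degree_dvd hint
    rw [h3] at hd
    refine ((Nat.dvd_prime Nat.prime_three).1 hd).resolve_left fun h1 => hlF ?_
    exact minpoly.mem_range_of_degree_eq_one F l (by
      rw [Polynomial.degree_eq_natDegree (minpoly.ne_zero hint), h1]; rfl)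
  have hli : LinearIndependent F fun i : Fin 3 => l ^ (i : ℕ) :=
    (linearIndependent_pow l).comp (Fin.cast hdeg.symm) (Fin.cast_injective _)
  let b := basisOfLinearIndependentOfCardEqFinrank hli (by rw [h3]; rfl)
  have hb : ∀ i, b i = l ^ (i : ℕ) := fun i =>
    congrFun (coe_basisOfLinearIndependentOfCardEqFinrank hli _) i
  have hτb : ∀ i, τ (b i) = b i := fun i => by rw [hb, map_pow, hl]
  refine ⟨b, hτb, fun z hz i => ?_⟩
  have hsum : τ z = ∑ j, b.repr z j ^ q • b j := by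
    conv_lhs => rw [← b.sum_repr z]
    rw [map_sum]
    exact Finset.sum_congr rfl fun j _ => by rw [Algebra.smul_def, Algebra.smul_def, map_mul, hτc, hτb]
  rw [hz] at hsum
  have := congrArg (fun y => b.repr y i) hsum
  simp only [b.repr_sum_self] at this
  exact this.symm

/-- An automorphism commuting with the involution has determinant one. -/
theorem det_eq_one (θ : L ≃ₐ[F] L) (hθ : ∀ x, τ (θ x) = θ (τ x)) :
    LinearMap.det θ.toLinearMap = 1 := by
  classical
  obtain ⟨b, hb, hfix⟩ := exists_fixed_basis hF hq h3 hττ hτc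
  rw [← LinearMap.det_toMatrix b]
  refine eq_one_of_fixed hF hq ?_ ?_
  · have : (LinearMap.toMatrix b b θ.toLinearMap).map (qFrob hF : F ≃+* F).toRingHom =
        LinearMap.toMatrix b b θ.toLinearMap := by
      ext i j
      rw [Matrix.map_apply, LinearMap.toMatrix_apply]
      exact hfix _ (by rw [AlgEquiv.toLinearMap_apply, hθ, hb]) i
    conv_rhs => rw [← this]
    exact RingHom.map_det (qFrob hF : F ≃+* F).toRingHom _
  · rw [LinearMap.det_toMatrix]
    exact (LinearEquiv.isUnit_det' θ.toLinearEquiv).ne_zero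

end cubic

/-- The normaliser of an adjoint-closed cubic field lies in a subfield group of symplectic type. -/
theorem field_subfield {H : Subgroup (GL (Fin 6) F)}
    (hH : H ≤ Cfsg.GU 6 F q ⊓ specialLinear (Fin 6) F) {K : Subalgebra F (Matrix (Fin 6) (Fin 6) F)}
    (hK : IsFieldSubalgebra 3 K) (hcl : IsAdjointClosedFor (Cfsg.hermForm 6 F q) K)
    (hle : H ≤ subalgebraNormalizer K) :
    ∃ P : GL (Fin 6) F, IsFormRationalStructure (Cfsg.hermForm 6 F q) (fixedField hF) 1 P ∧
      (∀ u : Fin 6 → F, (∀ i, u i ∈ fixedField hF) → Cfsg.hermForm 6 F q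
        ((P : Matrix (Fin 6) (Fin 6) F) *ᵥ u) ((P : Matrix (Fin 6) (Fin 6) F) *ᵥ u) = 0) ∧
      H ≤ subfieldSubgroup (fixedField hF) P := by
  classical
  have h2 : (2 : F) = 0 := by
    have h := Nat.cast_card_eq_zero F
    rw [hF, hq] at h
    exact (mul_self_eq_zero).1 (by rw [show (2 : F) * 2 = ((2 ^ 2 : ℕ) : F) by norm_num]; exact h)
  set h := Cfsg.hermForm 6 F q
  have hf : RForm (qFrob hF : F ≃+* F).toRingHom 1 h := rform_of_unitary
    { ne_refl := fun h' => by
        obtain ⟨t, ht⟩ := exists_pow_ne_self hF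
        exact ht (RingEquiv.congr_fun h' t)
      involutive := q_pow_pow hF
      add_left := herm_add_left
      smul_left := herm_smul_left
      herm := herm_symm hF
      nondegenerate := fun x hx =>
        ⟨by by_contra h; push Not at h; exact hx (herm_nondeg' hF h),
          by by_contra h; push Not at h; exact hx (herm_nondeg hF h)⟩ }
  obtain ⟨τ, hτ, hττ, hτc⟩ := exists_adjointHom hf hK.comm hcl
  replace hτc : ∀ c : F, τ (algebraMap F K c) = algebraMap F K (c ^ q) := hτc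
  letI := (isField_of_isFieldSubalgebra hK).toField
  haveI : Finite K := Finite.of_injective (fun x : K => (x : Matrix (Fin 6) (Fin 6) F)) Subtype.val_injective
  haveI := Fintype.ofFinite K
  have h3 : finrank F K = 3 := hK.finrank_eq
  have hcardK : Fintype.card K = 64 := by
    rw [Module.card_eq_pow_finrank (K := F), h3, hF, hq]; rfl
  have h2K : (2 : K) = 0 := by rw [← map_ofNat (algebraMap F K) 2, h2, map_zero]
  -- the first line
  let e₁ : Fin 6 → F := Pi.single 0 1
  have he₁ : h e₁ e₁ = 1 := by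
    simp [h, e₁, Cfsg.hermForm, Pi.single_apply, zero_pow (q_pos hF).ne', ite_pow]
  let φ : (Fin 6 → F) → K →ₗ[F] F := fun v =>
    { toFun := fun k => h ((k : Matrix (Fin 6) (Fin 6) F) *ᵥ v) v
      map_add' := fun x y => by simp [h, Matrix.add_mulVec, herm_add_left]
      map_smul' := fun c x => by simp [h, Matrix.smul_mulVec, herm_smul_left] }
  have hφτ : ∀ v k, φ v (τ k) = φ v k ^ q := fun v k => by
    show h ((τ k : Matrix (Fin 6) (Fin 6) F) *ᵥ v) v = h ((k : Matrix (Fin 6) (Fin 6) F) *ᵥ v) v ^ q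
    rw [hτ (τ k), hττ]
    exact herm_symm hF _ _
  have hmove : ∀ (a b : K) (v w : Fin 6 → F), h ((a : Matrix (Fin 6) (Fin 6) F) *ᵥ v)
      ((b : Matrix (Fin 6) (Fin 6) F) *ᵥ w) = h (((τ b * a : K) : Matrix (Fin 6) (Fin 6) F) *ᵥ v) w := by
    intro a b v w
    rw [Subalgebra.coe_mul, ← Matrix.mulVec_mulVec, hτ (τ b), hττ]
  have hφ1 : φ e₁ 1 = 1 := by
    show h ((1 : Matrix (Fin 6) (Fin 6) F) *ᵥ e₁) e₁ = 1
    rw [Matrix.one_mulVec, he₁]
  have hzero : ∀ a : K, (∀ k, φ e₁ (k * a) = 0) → a = 0 := by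
    intro a ha
    by_contra ha0
    have := ha a⁻¹
    rw [inv_mul_cancel₀ ha0, hφ1] at this
    exact one_ne_zero this
  let W : Submodule F (Fin 6 → F) := LinearMap.range
    ({ toFun := fun k => (k : Matrix (Fin 6) (Fin 6) F) *ᵥ e₁
       map_add' := fun x y => by simp [Matrix.add_mulVec]
       map_smul' := fun c x => by simp [Matrix.smul_mulVec] } : K →ₗ[F] (Fin 6 → F))
  have hWmem : ∀ k : K, (k : Matrix (Fin 6) (Fin 6) F) *ᵥ e₁ ∈ W := fun k => ⟨k, rfl⟩
  have hWnd : IsNondegenerateOn h W := by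
    rintro _ ⟨a, rfl⟩ ha0
    have ha : a ≠ 0 := fun h' => ha0 (by rw [h', map_zero])
    refine ⟨⟨_, hWmem (τ a)⁻¹, ?_⟩, ⟨_, hWmem (τ a⁻¹), ?_⟩⟩
    · show h _ ((a : Matrix (Fin 6) (Fin 6) F) *ᵥ e₁) ≠ 0
      rw [hmove, mul_inv_cancel₀ (fun h' => ha (τ.injective (h'.trans (map_zero τ).symm)))]
      exact fun h' => one_ne_zero (α := F) (hφ1.symm.trans h')
    · show h ((a : Matrix (Fin 6) (Fin 6) F) *ᵥ e₁) _ ≠ 0
      rw [hmove, hττ, inv_mul_cancel₀ ha]
      exact fun h' => one_ne_zero (α := F) (hφ1.symm.trans h')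
  have hPinv : ∀ (k : K), ∀ x ∈ hperp q W, (k : Matrix (Fin 6) (Fin 6) F) *ᵥ x ∈ hperp q W := by
    intro k x hx
    rw [mem_hperp] at hx ⊢
    rintro _ ⟨b, rfl⟩
    show h _ _ = 0
    rw [hτ k]
    refine hx _ ?_
    show (τ k : Matrix (Fin 6) (Fin 6) F) *ᵥ ((b : Matrix (Fin 6) (Fin 6) F) *ᵥ e₁) ∈ W
    rw [Matrix.mulVec_mulVec]
    exact hWmem (τ k * b)
  have hperp0 : hperp q W ≠ ⊥ := by
    intro h'
    have h1 := finrank_hperp hF W
    rw [h', finrank_bot, zero_add] at h1
    have h2' : finrank F W ≤ finrank F K := LinearMap.finrank_range_le _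
    omega
  obtain ⟨e', he'W, he'0⟩ := exists_anisotropic hF (hperp_nondeg hF hWnd) hperp0
  -- normalising the second line
  obtain ⟨α, hα⟩ : ∃ α : K, ∀ k, φ e₁ (k * α) = φ e' k := by
    let Φ : K →ₗ[F] Module.Dual F K :=
      { toFun := fun α => (φ e₁).comp (LinearMap.mulRight F α)
        map_add' := fun a b => LinearMap.ext fun k => by simp [mul_add]
        map_smul' := fun c a => LinearMap.ext fun k => by simp }
    have hinj : Function.Injective Φ := by
      rw [← LinearMap.ker_eq_bot, LinearMap.ker_eq_bot']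
      exact fun a ha => hzero a fun k => LinearMap.congr_fun ha k
    obtain ⟨α, hα⟩ := (LinearMap.injective_iff_surjective_of_finrank_eq_finrank
      Subspace.dual_finrank_eq.symm).1 hinj (φ e')
    exact ⟨α, fun k => LinearMap.congr_fun hα k⟩
  have hατ : τ α = α := by
    refine sub_eq_zero.1 (hzero _ fun k => ?_)
    rw [mul_sub, map_sub, hα]
    have := hφτ e₁ (τ k * α)
    rw [map_mul, hττ, hα, hφτ e', q_pow_pow hF] at this
    rw [this, sub_self]
  set μ : K := α ^ 32
  have hμμ : μ * μ = α := by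
    rw [← pow_add]
    conv_rhs => rw [← FiniteField.pow_card α, hcardK]
  have hμτ : τ μ = μ := by rw [map_pow, hατ]
  have hμ0 : μ ≠ 0 := by
    intro h'
    have h1 := hα 1
    rw [one_mul, ← hμμ, h', mul_zero, map_zero] at h1
    apply he'0
    rw [h1]
    show h e' e' = h ((1 : Matrix (Fin 6) (Fin 6) F) *ᵥ e') e'
    rw [Matrix.one_mulVec]
  set e₂ : Fin 6 → F := ((μ⁻¹ : K) : Matrix (Fin 6) (Fin 6) F) *ᵥ e'
  have hφ2 : ∀ k, φ e₂ k = φ e₁ k := by
    intro k
    show h ((k : Matrix (Fin 6) (Fin 6) F) *ᵥ e₂) e₂ = _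
    rw [Matrix.mulVec_mulVec, ← Subalgebra.coe_mul, hmove, map_inv₀, hμτ]
    show φ e' _ = _
    rw [← hα, ← hμμ]
    congr 1
    field_simp
  have he₂W : e₂ ∈ hperp q W := hPinv _ _ he'W
  -- coordinates
  let ψ : (K × K) →ₗ[F] (Fin 6 → F) :=
    { toFun := fun x => (x.1 : Matrix (Fin 6) (Fin 6) F) *ᵥ e₁ + (x.2 : Matrix (Fin 6) (Fin 6) F) *ᵥ e₂
      map_add' := fun x y => by simp [Matrix.add_mulVec]; abel
      map_smul' := fun c x => by simp [Matrix.smul_mulVec, smul_add] }
  have hform : ∀ x y : K × K, h (ψ x) (ψ y) = φ e₁ (x.1 * τ y.1 + x.2 * τ y.2) := by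
    intro x y
    show h ((x.1 : Matrix (Fin 6) (Fin 6) F) *ᵥ e₁ + (x.2 : Matrix (Fin 6) (Fin 6) F) *ᵥ e₂)
      ((y.1 : Matrix (Fin 6) (Fin 6) F) *ᵥ e₁ + (y.2 : Matrix (Fin 6) (Fin 6) F) *ᵥ e₂) = _
    have h12 : ∀ a b : K, h ((a : Matrix (Fin 6) (Fin 6) F) *ᵥ e₂) ((b : Matrix (Fin 6) (Fin 6) F) *ᵥ e₁) = 0 :=
      fun a b => (mem_hperp.1 (hPinv a _ he₂W)) _ (hWmem b)
    have h21 : ∀ a b : K, h ((a : Matrix (Fin 6) (Fin 6) F) *ᵥ e₁) ((b : Matrix (Fin 6) (Fin 6) F) *ᵥ e₂) = 0 :=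
      fun a b => (mem_hperp' hF).1 (hPinv b _ he₂W) _ (hWmem a)
    rw [map_add, mul_comm x.1, mul_comm x.2, ← hφ2 (τ y.2 * x.2)]
    show h _ _ = h _ e₁ + h _ e₂
    rw [← hmove, ← hmove]
    simp only [h, herm_add_left, herm_add_right hF] at h12 h21 ⊢
    rw [h12, h21]; ring
  have hψinj : Function.Injective ψ := by
    rw [← LinearMap.ker_eq_bot, LinearMap.ker_eq_bot']
    intro x hx
    have h1 := hzero x.1 fun k => by
      have := hform x (τ k, 0)
      rw [hx] at this
      simpa [h, herm_zero_left, hττ, mul_comm] using this.symm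
    have h2' := hzero x.2 fun k => by
      have := hform x (0, τ k)
      rw [hx] at this
      simpa [h, herm_zero_left, hττ, mul_comm] using this.symm
    exact Prod.ext h1 h2'
  let Ψ : (K × K) ≃ₗ[F] (Fin 6 → F) :=
    LinearMap.linearEquivOfInjective ψ hψinj (by simp [Module.finrank_prod, h3])
  have hΨ : ∀ x, Ψ x = ψ x := fun x => rfl
  have hmulψ : ∀ (k : K) (x : K × K),
      (k : Matrix (Fin 6) (Fin 6) F) *ᵥ ψ x = ψ (k * x.1, k * x.2) := by
    intro k x
    show (k : Matrix (Fin 6) (Fin 6) F) *ᵥ ((x.1 : Matrix (Fin 6) (Fin 6) F) *ᵥ e₁ +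
      (x.2 : Matrix (Fin 6) (Fin 6) F) *ᵥ e₂) = ((k * x.1 : K) : Matrix (Fin 6) (Fin 6) F) *ᵥ e₁ +
      ((k * x.2 : K) : Matrix (Fin 6) (Fin 6) F) *ᵥ e₂
    rw [Matrix.mulVec_add, Matrix.mulVec_mulVec, Matrix.mulVec_mulVec]
    rfl
  -- the involution is the eighth power
  have hne : τ ≠ RingEquiv.refl K := fun h' => by
    obtain ⟨t, ht⟩ := exists_pow_ne_self hF
    apply ht
    apply (algebraMap F K).injective
    rw [← hτc, h']
    rfl
  obtain ⟨Q, hQ, hτQ⟩ := CfsgLib.Aschbacher.Symp.exists_q hne hττ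
  have hQ8 : Q = 8 := (Nat.pow_left_injective two_ne_zero (by simpa using hcardK.symm.trans hQ)).symm
  subst hQ8
  -- a fixed frame
  obtain ⟨b, hb, hfix⟩ := exists_fixed_basis hF hq h3 hττ hτc
  obtain ⟨w, hw⟩ := exists_pow_ne_self hF
  have hfinF : ∀ c : F, c ∈ fixedField hF ↔ c ^ q = c := fun c => mem_fixedField hF
  let pr : (Fin 3 × Fin 2) → K × K := fun s =>
    if s.2 = 0 then (b s.1, b s.1) else (w • b s.1, (w ^ q) • b s.1)
  let ei : Fin 6 ≃ Fin 3 × Fin 2 := (finProdFinEquiv (m := 3) (n := 2)).symm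
  let Pm : Matrix (Fin 6) (Fin 6) F := Matrix.of fun i j => ψ (pr (ei j)) i
  have hPm : ∀ u, Pm *ᵥ u = ψ (∑ j, u j • pr (ei j)) := fun u => by
    rw [map_sum]
    funext i
    simp [Pm, Matrix.mulVec, dotProduct, Finset.sum_apply, mul_comm]
  have hpr : ∀ u : Fin 6 → F, ∑ j, u j • pr (ei j) =
      (∑ s, (u (ei.symm (s, 0)) + u (ei.symm (s, 1)) * w) • b s,
        ∑ s, (u (ei.symm (s, 0)) + u (ei.symm (s, 1)) * w ^ q) • b s) := by
    intro u
    rw [← Equiv.sum_comp ei.symm, Fintype.sum_prod_type]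
    simp only [Equiv.apply_symm_apply, Fin.sum_univ_two, pr]
    refine Prod.ext ?_ ?_ <;>
      simp [Prod.fst_sum, Prod.snd_sum, add_smul, Finset.sum_add_distrib, smul_smul]
  have hPinj : ∀ u, Pm *ᵥ u = 0 → u = 0 := by
    intro u hu
    rw [hPm, ← map_zero ψ] at hu
    have hu' := hψinj hu
    rw [hpr, Prod.mk_eq_zero] at hu'
    have ha := Fintype.linearIndependent_iff.1 b.linearIndependent _ hu'.1
    have hb' := Fintype.linearIndependent_iff.1 b.linearIndependent _ hu'.2
    funext j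
    obtain ⟨⟨s, t⟩, rfl⟩ := ei.symm.surjective j
    have h1 : u (ei.symm (s, 1)) * (w - w ^ q) = 0 := by linear_combination ha s - hb' s
    have h1' := (mul_eq_zero.1 h1).resolve_right (sub_ne_zero.2 (Ne.symm hw))
    have h0 := ha s
    rw [h1', zero_mul, add_zero] at h0
    fin_cases t
    · exact h0
    · exact h1'
  have hdetP : Pm.det ≠ 0 := fun h0 => by
    obtain ⟨u, hu0, hu⟩ := Matrix.exists_mulVec_eq_zero_iff.2 h0
    exact hu0 (hPinj u hu)
  set P := Matrix.GeneralLinearGroup.mkOfDetNeZero Pm hdetP with hPdef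
  have hPval : (P : Matrix (Fin 6) (Fin 6) F) = Pm := rfl
  have hτsum : ∀ r : Fin 3 → F, τ (∑ s, r s • b s) = ∑ s, r s ^ q • b s := fun r => by
    rw [map_sum]
    exact Finset.sum_congr rfl fun s _ => by rw [Algebra.smul_def, Algebra.smul_def, map_mul, hτc, hb]
  have hPfix : ∀ u, (∀ i, u i ^ q = u i) → ∃ a : K, Pm *ᵥ u = ψ (a, τ a) := by
    intro u hu
    refine ⟨∑ s, (u (ei.symm (s, 0)) + u (ei.symm (s, 1)) * w) • b s, ?_⟩
    rw [hPm, hpr]
    refine congrArg ψ (Prod.ext rfl ?_)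
    simp only [hτsum]
    exact Finset.sum_congr rfl fun s _ => by rw [q_add_pow hF, mul_pow, hu, hu]
  have hfixP : ∀ u (a : K), Pm *ᵥ u = ψ (a, τ a) → ∀ i, u i ^ q = u i := by
    intro u a hu
    rw [hPm, hpr] at hu
    have hu' := hψinj hu
    have h1 := congrArg Prod.fst hu'
    have h2' := congrArg Prod.snd hu'
    simp only at h1 h2'
    rw [← h1, hτsum] at h2'
    have hs := Fintype.linearIndependent_iff.1 b.linearIndependent
      (fun s => (u (ei.symm (s, 0)) + u (ei.symm (s, 1)) * w ^ q) -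
        (u (ei.symm (s, 0)) + u (ei.symm (s, 1)) * w) ^ q)
      (by simp only [sub_smul, Finset.sum_sub_distrib, h2', sub_self])
    intro j
    obtain ⟨⟨s, t⟩, rfl⟩ := ei.symm.surjective j
    have he : u (ei.symm (s, 0)) - u (ei.symm (s, 0)) ^ q +
        (u (ei.symm (s, 1)) - u (ei.symm (s, 1)) ^ q) * w ^ q = 0 := by
      have := hs s
      rw [q_add_pow hF, mul_pow] at this
      linear_combination this
    have he' : (u (ei.symm (s, 0)) - u (ei.symm (s, 0)) ^ q +
        (u (ei.symm (s, 1)) - u (ei.symm (s, 1)) ^ q) * w ^ q) ^ q = 0 := by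
      rw [he, zero_pow (q_pos hF).ne']
    rw [q_add_pow hF, mul_pow, q_sub_pow hF, q_sub_pow hF, q_pow_pow hF, q_pow_pow hF, q_pow_pow hF] at he'
    have h1' : (u (ei.symm (s, 1)) - u (ei.symm (s, 1)) ^ q) * (w ^ q - w) = 0 := by
      linear_combination he + he'
    have h1'' := sub_eq_zero.1 ((mul_eq_zero.1 h1').resolve_right (sub_ne_zero.2 hw))
    rw [← h1'', sub_self, zero_mul, add_zero, sub_eq_zero] at he
    fin_cases t
    · exact he.symm
    · exact h1''.symm
  refine ⟨P, ?_, ?_, ?_⟩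
  · intro u v hu hv
    obtain ⟨a, ha⟩ := hPfix u fun i => (hfinF _).1 (hu i)
    obtain ⟨a', ha'⟩ := hPfix v fun i => (hfinF _).1 (hv i)
    rw [hfinF, one_mul, hPval, ha, ha']
    show h (ψ _) (ψ _) ^ q = h (ψ _) (ψ _)
    rw [hform, ← hφτ]
    congr 1
    simp [hττ]; ring
  · intro u hu
    obtain ⟨a, ha⟩ := hPfix u fun i => (hfinF _).1 (hu i)
    rw [hPval, ha]
    show h (ψ _) (ψ _) = 0
    rw [hform]
    have : a * τ a + τ a * τ (τ a) = 0 := by rw [hττ]; linear_combination (a * τ a) * h2K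
    rw [this, map_zero]
  intro g hg
  have hgU : g ∈ Cfsg.GU 6 F q := (hH hg).1
  have hgS : g ∈ specialLinear (Fin 6) F := (hH hg).2
  have hgn := hle hg
  -- the automorphism induced on the field
  let θ₀ : K →ₐ[F] K :=
    { toFun := fun k => ⟨_, (hgn k).1 k.2⟩
      map_one' := Subtype.ext (by simp)
      map_mul' := fun x y => Subtype.ext (by simp [mul_assoc])
      map_zero' := Subtype.ext (by simp)
      map_add' := fun x y => Subtype.ext (by simp [mul_add, add_mul])
      commutes' := fun c => Subtype.ext (by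
        show (g : Matrix (Fin 6) (Fin 6) F) * algebraMap F _ c * _ = algebraMap F _ c
        rw [← Algebra.commutes, mul_assoc, Units.mul_inv, mul_one]) }
  let θ : K ≃ₐ[F] K := AlgEquiv.ofBijective θ₀
    (Finite.injective_iff_bijective.1 θ₀.toRingHom.injective)
  have hθval : ∀ k : K, (θ k : Matrix (Fin 6) (Fin 6) F) = Centre.conjMat g (k : Matrix (Fin 6) (Fin 6) F) :=
    fun k => rfl
  have hθτ : ∀ x, τ (θ x) = θ (τ x) := by
    intro x
    refine Subtype.ext (IsAdj.unique hf (hτ (θ x)) ?_)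
    rw [hθval, hθval]
    exact (hτ x).conj one_ne_zero (fun u v => by rw [one_mul]; exact mem_GU.1 hgU u v)
  set p₁ := Ψ.symm ((g : Matrix (Fin 6) (Fin 6) F) *ᵥ e₁)
  set p₂ := Ψ.symm ((g : Matrix (Fin 6) (Fin 6) F) *ᵥ e₂)
  obtain ⟨a, b', hp₁⟩ : ∃ a b' : K, p₁ = (a, b') := ⟨_, _, rfl⟩
  obtain ⟨c, d, hp₂⟩ : ∃ c d : K, p₂ = (c, d) := ⟨_, _, rfl⟩
  have hg1 : (g : Matrix (Fin 6) (Fin 6) F) *ᵥ e₁ = ψ (a, b') := by
    rw [← hp₁, ← hΨ, LinearEquiv.apply_symm_apply]
  have hg2 : (g : Matrix (Fin 6) (Fin 6) F) *ᵥ e₂ = ψ (c, d) := by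
    rw [← hp₂, ← hΨ, LinearEquiv.apply_symm_apply]
  have hgψ : ∀ x : K × K, (g : Matrix (Fin 6) (Fin 6) F) *ᵥ ψ x =
      ψ (θ x.1 * a + θ x.2 * c, θ x.1 * b' + θ x.2 * d) := by
    intro x
    show (g : Matrix (Fin 6) (Fin 6) F) *ᵥ ((x.1 : Matrix (Fin 6) (Fin 6) F) *ᵥ e₁ +
      (x.2 : Matrix (Fin 6) (Fin 6) F) *ᵥ e₂) = _
    rw [Matrix.mulVec_add, ← Centre.mulVec_conjMat, ← Centre.mulVec_conjMat, ← hθval, ← hθval, hg1, hg2,
      hmulψ, hmulψ, ← map_add]
    rfl
  have hiso : ∀ x y : K × K, φ e₁ ((θ x.1 * a + θ x.2 * c) * τ (θ y.1 * a + θ y.2 * c) +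
      (θ x.1 * b' + θ x.2 * d) * τ (θ y.1 * b' + θ y.2 * d)) = φ e₁ (x.1 * τ y.1 + x.2 * τ y.2) := by
    intro x y
    have h' : h ((g : Matrix (Fin 6) (Fin 6) F) *ᵥ ψ x) ((g : Matrix (Fin 6) (Fin 6) F) *ᵥ ψ y) =
        h (ψ x) (ψ y) := mem_GU.1 hgU _ _
    rwa [hgψ, hgψ, hform, hform] at h'
  have hcross : a * τ c + b' * τ d = 0 := by
    refine hzero _ fun k => ?_
    obtain ⟨k, rfl⟩ := θ.surjective k
    have := hiso (k, 0) (0, 1)
    simpa [mul_add, mul_assoc] using this
  have hcross' : τ a * c + τ b' * d = 0 := by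
    have := congrArg τ hcross
    rwa [map_add, map_mul, map_mul, hττ, hττ, map_zero] at this
  set N := a * τ a + b' * τ b' with hNdef
  have hN1 : ∀ k, φ e₁ (θ k * N) = φ e₁ k := by
    intro k
    have := hiso (k, 0) (1, 0)
    simpa [hNdef, mul_add, mul_assoc] using this
  have hN2 : c * τ c + d * τ d = N := by
    refine sub_eq_zero.1 (hzero _ fun k => ?_)
    obtain ⟨k, rfl⟩ := θ.surjective k
    have := hiso (0, k) (0, 1)
    rw [mul_sub, map_sub, hN1, sub_eq_zero]
    simpa [mul_add, mul_assoc] using this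
  have hN0 : N ≠ 0 := fun h' => by
    have := hN1 1
    rw [h', mul_zero, map_zero, hφ1] at this
    exact zero_ne_one this
  have hNτ : τ N = N := by simp [hNdef, hττ]; ring
  set δ := (a * d + b' * c) / N with hδdef
  have hδN : δ * N = a * d + b' * c := by rw [hδdef, div_mul_cancel₀ _ hN0]
  clear_value δ
  have hc : c = δ * τ b' := by
    apply mul_right_cancel₀ hN0
    linear_combination (-τ b') * hδN + a * hcross' + (-(a * (τ a * c + τ b' * d)) + a * τ a * c) * h2K + c * hNdef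
  have hd : d = δ * τ a := by
    apply mul_right_cancel₀ hN0
    linear_combination (-τ a) * hδN + b' * hcross' + (-(b' * (τ a * c + τ b' * d)) + b' * τ b' * d) * h2K + d * hNdef
  have hδδ : δ * τ δ = 1 := by
    apply mul_right_cancel₀ hN0
    rw [one_mul]
    conv_rhs => rw [← hN2, hc, hd, map_mul, map_mul, hττ, hττ, ]
    rw [hNdef]; ring
  have hδ9 : δ ^ 9 = 1 := by
    rw [hτQ] at hδδ
    rw [← hδδ, show (qFrob hQ δ : K) = δ ^ 8 from rfl]
    ring
  -- the determinant
  have hδ21 : δ ^ 21 = 1 := by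
    let M : (K × K) →ₗ[K] (K × K) :=
      { toFun := fun x => (x.1 * a + x.2 * c, x.1 * b' + x.2 * d)
        map_add' := fun x y => Prod.ext (by simp; ring) (by simp; ring)
        map_smul' := fun s x => Prod.ext (by simp; ring) (by simp; ring) }
    have hconj : (Ψ.symm : (Fin 6 → F) →ₗ[F] (K × K)) ∘ₗ Matrix.toLin' (g : Matrix (Fin 6) (Fin 6) F) ∘ₗ
        (Ψ : (K × K) →ₗ[F] (Fin 6 → F)) =
        (M.restrictScalars F) ∘ₗ (θ.toLinearMap.prodMap θ.toLinearMap) := by
      refine LinearMap.ext fun x => ?_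
      show Ψ.symm (Matrix.toLin' (g : Matrix (Fin 6) (Fin 6) F) (Ψ x)) = M (θ x.1, θ x.2)
      rw [Matrix.toLin'_apply, hΨ, hgψ, ← hΨ, LinearEquiv.symm_apply_apply]
      rfl
    have hdet := congrArg LinearMap.det hconj
    rw [LinearMap.det_comp (M.restrictScalars F), LinearMap.det_prodMap,
      det_eq_one hF hq h3 hττ hτc θ hθτ, mul_one, mul_one, LinearMap.det_restrictScalars] at hdet
    have hcj : LinearMap.det ((Ψ.symm : (Fin 6 → F) →ₗ[F] (K × K)) ∘ₗ
        Matrix.toLin' (g : Matrix (Fin 6) (Fin 6) F) ∘ₗ (Ψ : (K × K) →ₗ[F] (Fin 6 → F))) = 1 := by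
      have := LinearMap.det_conj (Matrix.toLin' (g : Matrix (Fin 6) (Fin 6) F)) Ψ.symm
      rw [LinearEquiv.symm_symm] at this
      rw [this, LinearMap.det_toLin', ← Matrix.GeneralLinearGroup.val_det_apply,
        MonoidHom.mem_ker.1 hgS, Units.val_one]
    rw [hcj] at hdet
    have hMdet : LinearMap.det M = a * d - c * b' := by
      rw [← LinearMap.det_toMatrix (Module.Basis.finTwoProd K), Matrix.det_fin_two]
      simp [LinearMap.toMatrix_apply, M]
    have hnorm := congrArg (algebraMap F K) hdet.symm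
    rw [FiniteField.algebraMap_norm_eq_pow, map_one, Nat.card_eq_fintype_card, Nat.card_eq_fintype_card,
      hcardK, hF, hMdet, hq] at hnorm
    norm_num at hnorm
    have hNpow : N ^ 21 = 1 := by
      obtain ⟨r, hr⟩ : ∃ r : F, algebraMap F K r = N ^ 21 := ⟨Algebra.norm F N, by
        rw [FiniteField.algebraMap_norm_eq_pow, Nat.card_eq_fintype_card, Nat.card_eq_fintype_card,
          hcardK, hF, hq]
        norm_num⟩
      have hrq : r ^ q = r := (algebraMap F K).injective (by rw [← hτc, hr, map_pow, hNτ])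
      have hr0 : r ≠ 0 := fun h' => pow_ne_zero 21 hN0 (by rw [← hr, h', map_zero])
      rw [← hr, eq_one_of_fixed hF hq hrq hr0, map_one]
    have hsub : a * d - c * b' = δ * N := by rw [hδN]; linear_combination -(c * b') * h2K
    rw [hsub, mul_pow, hNpow, mul_one] at hnorm
    exact hnorm
  have hδ3 : δ ^ 3 = 1 := by
    have h45 : δ ^ 45 = (δ ^ 9) ^ 5 := by rw [← pow_mul]
    rw [hδ9, one_pow, show δ ^ 45 = (δ ^ 21) ^ 2 * δ ^ 3 by ring, hδ21, one_pow, one_mul] at h45
    exact h45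
  -- the multiplier is a scalar
  obtain ⟨δ₀, hδ₀⟩ : ∃ δ₀ : F, algebraMap F K δ₀ = δ := by
    have hw0 : w ≠ 0 := fun h' => hw (by rw [h', zero_pow (q_pos hF).ne'])
    have hw1 : w ≠ 1 := fun h' => hw (by rw [h', one_pow])
    have hw3 : w ^ 3 = 1 := by
      have := pow_three hF hq hw0
      rw [hq] at this; linear_combination this
    have hsum : w ^ 2 + w + 1 = 0 := by
      have : (w - 1) * (w ^ 2 + w + 1) = 0 := by linear_combination hw3
      exact (mul_eq_zero.1 this).resolve_left (sub_ne_zero.2 hw1)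
    set W' := algebraMap F K w
    have hW3 : W' ^ 3 = 1 := by rw [← map_pow, hw3, map_one]
    have hWsum : W' ^ 2 + W' + 1 = 0 := by
      simpa using congrArg (algebraMap F K) hsum
    have hfac : (δ - 1) * ((δ - W') * (δ - W' ^ 2)) = 0 := by
      linear_combination hδ3 - δ ^ 2 * hWsum + δ * W' * hWsum - hW3 + δ * (hW3 - hW3)
    rcases mul_eq_zero.1 hfac with h' | h'
    · exact ⟨1, by rw [map_one]; exact (sub_eq_zero.1 h').symm⟩
    · rcases mul_eq_zero.1 h' with h' | h'
      · exact ⟨w, (sub_eq_zero.1 h').symm⟩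
      · exact ⟨w ^ 2, by rw [map_pow]; exact (sub_eq_zero.1 h').symm⟩
  have hδ0 : δ ≠ 0 := fun h' => by rw [h', zero_pow (by norm_num)] at hδ3; exact zero_ne_one hδ3
  have hδ₀0 : δ₀ ≠ 0 := fun h' => hδ0 (by rw [← hδ₀, h', map_zero])
  have hτδ : τ δ = δ ^ 2 := by
    apply mul_left_cancel₀ hδ0
    rw [hδδ, ← pow_succ', hδ3]
  -- the normalised element is rational
  set Z : Matrix (Fin 6) (Fin 6) F :=
    ((P⁻¹ : GL (Fin 6) F) : Matrix (Fin 6) (Fin 6) F) * (δ₀ • (g : Matrix (Fin 6) (Fin 6) F)) * Pm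
  have hPP : Pm * ((P⁻¹ : GL (Fin 6) F) : Matrix (Fin 6) (Fin 6) F) = 1 := hPval ▸ Units.mul_inv P
  have hZ : ∀ i j, Z i j ∈ fixedField hF := by
    intro i j
    obtain ⟨a₀, ha₀⟩ := hPfix (Pi.single j 1) fun l => by
      by_cases hl : l = j
      · simp [hl]
      · simp [hl, zero_pow (q_pos hF).ne']
    have hPZ : Pm *ᵥ (fun l => Z l j) = ψ (δ * (θ a₀ * a + θ (τ a₀) * c), τ (δ * (θ a₀ * a + θ (τ a₀) * c))) := by
      have h1 : (fun l => Z l j) = Z *ᵥ Pi.single j 1 := by rw [Matrix.mulVec_single_one]; rfl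
      rw [h1, Matrix.mulVec_mulVec, show Pm * Z = (δ₀ • (g : Matrix (Fin 6) (Fin 6) F)) * Pm by
        simp only [Z, ← mul_assoc, hPP, one_mul], ← Matrix.mulVec_mulVec, ha₀, Matrix.smul_mulVec, hgψ,
        ← map_smul]
      refine congrArg ψ (Prod.ext ?_ ?_)
      · simp [Algebra.smul_def, hδ₀]
      · simp only [Prod.smul_mk]
        simp only [Algebra.smul_def, hδ₀, map_mul, map_add, hθτ, hττ, hτδ, hc, hd]
        linear_combination (-(θ a₀ * δ * b')) * hδ3
    exact (hfinF _).2 (hfixP _ _ hPZ i)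
  let Z₀ : Matrix (Fin 6) (Fin 6) (fixedField hF) := fun i j => ⟨Z i j, hZ i j⟩
  have hmapZ : Z₀.map (fixedField hF).subtype = Z := rfl
  have hdetZ : Z₀.det ≠ 0 := fun h0 => by
    have h1 := RingHom.map_det (fixedField hF).subtype Z₀
    rw [h0, map_zero, RingHom.mapMatrix_apply, hmapZ] at h1
    have : Z.det ≠ 0 := by
      simp only [Z, Matrix.det_mul, Matrix.det_smul]
      exact mul_ne_zero (mul_ne_zero ((Matrix.isUnit_iff_isUnit_det _).1 P⁻¹.isUnit).ne_zero
        (mul_ne_zero (pow_ne_zero _ hδ₀0) ((Matrix.isUnit_iff_isUnit_det _).1 g.isUnit).ne_zero)) hdetP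
    exact this h1.symm
  refine CfsgLib.Aschbacher.mem_subfieldSubgroup_iff.2
    ⟨Matrix.GeneralLinearGroup.mkOfDetNeZero Z₀ hdetZ, Units.mk0 δ₀⁻¹ (inv_ne_zero hδ₀0), Units.ext ?_⟩
  show ((P⁻¹ : GL (Fin 6) F) : Matrix (Fin 6) (Fin 6) F) * (g : Matrix (Fin 6) (Fin 6) F) * Pm =
    Z₀.map (fixedField hF).subtype * Matrix.scalar (Fin 6) δ₀⁻¹
  rw [hmapZ, Matrix.scalar_apply, ← Matrix.smul_one_eq_diagonal, Matrix.mul_smul, mul_one]
  simp only [Z, Matrix.mul_smul, Matrix.smul_mul, smul_smul, inv_mul_cancel₀ hδ₀0, one_smul]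

end CfsgLib.Aschbacher.UnitarySix
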