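import Mathlib
import Cfsg.Agent.Aschbacher.UnitarySmall
import Cfsg.Agent.AschPrime.UnitaryFrameField

/-!
Over the field with four elements the stabiliser of six orthogonal lines in `SU_6` is not maximal: it
preserves, with a further transvection, the point set of the Mitchell configuration.
-/

set_option autoImplicit false
set_option linter.unusedSectionVars false

namespace CfsgLib.Aschbacher.UnitarySix

open Cfsg.Geo Module CfsgLib.AschPrime CfsgLib.Aschbacher.UnitarySmall
open scoped Matrix MatrixGroups

/-- Addition in the field with four elements coded by `0, 1, 2, 3`. -/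
def add4 : Fin 4 → Fin 4 → Fin 4 := ![![0, 1, 2, 3], ![1, 0, 3, 2], ![2, 3, 0, 1], ![3, 2, 1, 0]]

/-- Multiplication in the field with four elements coded by `0, 1, 2, 3`. -/
def mul4 : Fin 4 → Fin 4 → Fin 4 := ![![0, 0, 0, 0], ![0, 1, 2, 3], ![0, 2, 3, 1], ![0, 3, 1, 2]]

/-- The number of non-zero codes. -/
def wt4 (a b c d e g : Fin 4) : ℕ :=
  (if a = 0 then 0 else 1) + (if b = 0 then 0 else 1) + (if c = 0 then 0 else 1) +
    (if d = 0 then 0 else 1) + (if e = 0 then 0 else 1) + (if g = 0 then 0 else 1)

/-- Membership in the configuration, on codes. -/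
def good (a b c d e g : Fin 4) : Bool :=
  wt4 a b c d e g == 2 ||
    (wt4 a b c d e g == 6 && mul4 (mul4 (mul4 (mul4 (mul4 a b) c) d) e) g == 1)

/-- Adding the coordinate sum to every coordinate preserves the configuration. -/
theorem good_shift : ∀ a b c d e g : Fin 4, good a b c d e g = true →
    good (add4 a (add4 (add4 (add4 (add4 (add4 a b) c) d) e) g))
      (add4 b (add4 (add4 (add4 (add4 (add4 a b) c) d) e) g))
      (add4 c (add4 (add4 (add4 (add4 (add4 a b) c) d) e) g))
      (add4 d (add4 (add4 (add4 (add4 (add4 a b) c) d) e) g))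
      (add4 e (add4 (add4 (add4 (add4 (add4 a b) c) d) e) g))
      (add4 g (add4 (add4 (add4 (add4 (add4 a b) c) d) e) g)) = true := by
  decide +kernel

variable {F : Type*} [Field F] [Fintype F] {q : ℕ} (hF : Fintype.card F = q ^ 2) (hq : q = 2)

open scoped Classical in
/-- The configuration in orthonormal coordinates. -/
def InConfig (c : Fin 6 → F) : Prop :=
  (Finset.univ.filter fun i => c i ≠ 0).card = 2 ∨ ((∀ i, c i ≠ 0) ∧ ∏ i, c i = 1)

include hF hq

theorem inConfig_shift {c : Fin 6 → F} (hc : InConfig c) : InConfig fun i => c i + ∑ j, c j := by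
  classical
  have hcard : Fintype.card F = 4 := by rw [hF, hq]; rfl
  have h2 : (2 : F) = 0 := by
    have h := Nat.cast_card_eq_zero F
    rw [hcard] at h
    have h4 : (2 : F) * 2 = 0 := by
      rw [show (2 : F) * 2 = ((4 : ℕ) : F) by norm_num]; exact h
    exact (mul_self_eq_zero).1 h4
  obtain ⟨w, hw⟩ := exists_pow_ne_self hF
  have hw0 : w ≠ 0 := fun h => hw (by rw [h, zero_pow (q_pos hF).ne'])
  have hw1 : w ≠ 1 := fun h => hw (by rw [h, one_pow])
  have hw1' : w + 1 ≠ 0 := fun h => hw1 (by linear_combination h - h2)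
  have hw3 : w ^ 3 = 1 := by
    have := pow_three hF hq hw0
    subst hq; linear_combination this
  have hw2 : w * w = w + 1 := by
    have : (w + 1) * (w * w - w - 1 + 2 * (w + 1)) = 0 := by
      linear_combination hw3 + (w + 1) ^ 2 * h2 - h2 * w
    have h' := (mul_eq_zero.1 this).resolve_left hw1'
    linear_combination h' - (w + 1) * h2
  let ψ : Fin 4 → F := ![0, 1, w, w + 1]
  have hinj : Function.Injective ψ := by
    intro a b hab
    fin_cases a <;> fin_cases b <;> simp [ψ, hw0, hw1, hw0.symm, hw1.symm, hw1', hw1'.symm] at hab ⊢ <;>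
      exact one_ne_zero (α := F) (by linear_combination hab)
  have hbij : Function.Bijective ψ :=
    (Fintype.bijective_iff_injective_and_card _).2 ⟨hinj, by rw [Fintype.card_fin, hcard]⟩
  have hadd : ∀ a b, ψ (add4 a b) = ψ a + ψ b := by
    intro a b
    fin_cases a <;> fin_cases b <;> simp [ψ, add4] <;>
      first | ring1 | linear_combination -h2 | linear_combination -w * h2 | linear_combination -(w + 1) * h2 |
        linear_combination h2 | linear_combination w * h2 | linear_combination (w + 1) * h2
  have hmul : ∀ a b, ψ (mul4 a b) = ψ a * ψ b := by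
    intro a b
    fin_cases a <;> fin_cases b <;> simp [ψ, mul4] <;>
      first | ring1 | linear_combination -hw2 | linear_combination -hw2 + h2 | linear_combination -hw2 - h2 |
        linear_combination -hw2 - w * h2 | linear_combination -hw2 + w * h2 |
        linear_combination -hw2 - (w + 1) * h2 | linear_combination -hw2 + (w + 1) * h2
  obtain ⟨v, rfl⟩ : ∃ v : Fin 6 → Fin 4, (fun i => ψ (v i)) = c := by
    choose v hv using fun i => hbij.2 (c i)
    exact ⟨v, funext hv⟩
  have h0 : ∀ a, ψ a = 0 ↔ a = 0 := fun a => ⟨fun h => hinj (h.trans (by simp [ψ])), fun h => by simp [h, ψ]⟩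
  have hiff : ∀ v : Fin 6 → Fin 4, InConfig (fun i => ψ (v i)) ↔
      good (v 0) (v 1) (v 2) (v 3) (v 4) (v 5) = true := by
    intro v
    have hcardeq : (Finset.univ.filter fun i => ψ (v i) ≠ 0).card =
        wt4 (v 0) (v 1) (v 2) (v 3) (v 4) (v 5) := by
      rw [Finset.card_filter, Fin.sum_univ_six]
      simp only [ne_eq, h0, ite_not, wt4]
    have hall : (∀ i, ψ (v i) ≠ 0) ↔ wt4 (v 0) (v 1) (v 2) (v 3) (v 4) (v 5) = 6 := by
      rw [← hcardeq]
      constructor
      · intro h
        rw [Finset.filter_true_of_mem fun i _ => h i]; simp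
      · intro h i
        have := Finset.eq_univ_of_card (Finset.univ.filter fun i => ψ (v i) ≠ 0) (by simpa using h)
        have hi : i ∈ Finset.univ.filter fun i => ψ (v i) ≠ 0 := by rw [this]; exact Finset.mem_univ i
        exact (Finset.mem_filter.1 hi).2
    have hprod : ∏ i, ψ (v i) = 1 ↔ mul4 (mul4 (mul4 (mul4 (mul4 (v 0) (v 1)) (v 2)) (v 3)) (v 4)) (v 5) = 1 := by
      rw [Fin.prod_univ_six, ← hmul, ← hmul, ← hmul, ← hmul, ← hmul]
      exact ⟨fun h => hinj (h.trans (by simp [ψ])), fun h => by simp [h, ψ]⟩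
    simp only [InConfig, good, Bool.or_eq_true, Bool.and_eq_true, beq_iff_eq]
    rw [hall, hprod, ← hcardeq]
  have hsum : ∑ j, ψ (v j) = ψ (add4 (add4 (add4 (add4 (add4 (v 0) (v 1)) (v 2)) (v 3)) (v 4)) (v 5)) := by
    rw [Fin.sum_univ_six]; simp only [hadd]
  simp only [hsum, ← hadd]
  rw [hiff]
  exact good_shift _ _ _ _ _ _ ((hiff v).1 hc)

/-- The stabiliser of six orthogonal lines in `SU_6` over the field with four elements is not maximal. -/
theorem monomial_not_maximal {H : Subgroup (GL (Fin 6) F)}
    (hH : IsMaximalIn (Cfsg.GU 6 F q ⊓ specialLinear (Fin 6) F) H) {D : Fin 6 → Submodule F (Fin 6 → F)}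
    (hD : IsNondegenerateMDecomposition (Cfsg.hermForm 6 F q) 1 D) (hle : H ≤ decompositionStabilizer D) :
    False := by
  classical
  have h2 : (2 : F) = 0 := by
    have h := Nat.cast_card_eq_zero F
    rw [hF, hq] at h
    exact (mul_self_eq_zero).1 (by rw [show (2 : F) * 2 = ((2 ^ 2 : ℕ) : F) by norm_num]; exact h)
  obtain ⟨e, heD, he0, heo⟩ := frame_basis hF hD
  have he1 : ∀ i, Cfsg.hermForm 6 F q (e i) (e i) = 1 := fun i =>
    eq_one_of_fixed hF hq (herm_self_fixed hF _) (he0 i)
  have hspan : ∀ i x, x ∈ D i → ∃ a : F, x = a • e i := by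
    intro i x hx
    obtain ⟨a, ha⟩ := (finrank_eq_one_iff_of_nonzero' (⟨e i, heD i⟩ : D i)
      (fun h => he0 i (by rw [show e i = 0 from congrArg Subtype.val h, herm_zero_left]))).1
      (hD.decomp.finrank_eq i) ⟨x, hx⟩
    exact ⟨a, (congrArg Subtype.val ha).symm⟩
  let co : (Fin 6 → F) → Fin 6 → F := fun x i => Cfsg.hermForm 6 F q x (e i)
  have hcoe : ∀ i j, co (e i) j = if i = j then 1 else 0 := fun i j => by
    by_cases h : i = j
    · subst h; simp [co, he1]
    · simp [co, h, heo i j h]
  have hcoadd : ∀ x y i, co (x + y) i = co x i + co y i := fun x y i => herm_add_left x y _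
  have hcosmul : ∀ (a : F) x i, co (a • x) i = a * co x i := fun a x i => herm_smul_left a x _
  have hcosum : ∀ (s : Fin 6 → F) i, co (∑ j, s j • e j) i = s i := by
    intro s i
    rw [show co (∑ j, s j • e j) i = hermDual q (e i) (∑ j, s j • e j) from rfl, map_sum,
      Finset.sum_eq_single i]
    · show co (s i • e i) i = _
      rw [hcosmul, hcoe, if_pos rfl, mul_one]
    · intro j _ hj
      show co (s j • e j) i = 0
      rw [hcosmul, hcoe, if_neg hj, mul_zero]
    · simp
  -- the stabiliser of the configuration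
  let L : Subgroup (GL (Fin 6) F) :=
    { carrier := {g | ∀ x, InConfig (co x) ↔ InConfig (co ((g : Matrix (Fin 6) (Fin 6) F) *ᵥ x))}
      mul_mem' := fun {g h} hg hh x => by rw [Units.val_mul, ← Matrix.mulVec_mulVec]; exact (hh x).trans (hg _)
      one_mem' := fun x => by rw [Units.val_one, Matrix.one_mulVec]
      inv_mem' := fun {g} hg x => by
        rw [hg (((g⁻¹ : GL (Fin 6) F) : Matrix (Fin 6) (Fin 6) F) *ᵥ x), Matrix.mulVec_mulVec,
          Units.mul_inv, Matrix.one_mulVec] }
  have hHL : H ≤ L := by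
    intro g hg
    obtain ⟨π, hπ⟩ := hle hg
    have hgU : g ∈ Cfsg.GU 6 F q := (hH.1.le hg).1
    have hg1 : g ∈ specialLinear (Fin 6) F := (hH.1.le hg).2
    choose c hc using fun i => hspan (π i) _
      (show (g : Matrix (Fin 6) (Fin 6) F) *ᵥ e i ∈ D (π i) by
        rw [← hπ]; exact ⟨_, heD i, Matrix.toLin'_apply _ _⟩)
    have hc0 : ∀ i, c i * c i ^ q = 1 := fun i => by
      have h := mem_GU.1 hgU (e i) (e i)
      rwa [hc, herm_smul_left, herm_smul_right hF, he1, he1, mul_one] at h
    have hcne : ∀ i, c i ≠ 0 := fun i h => by have := hc0 i; rw [h, zero_mul] at this; exact zero_ne_one this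
    have hco : ∀ x i, co ((g : Matrix (Fin 6) (Fin 6) F) *ᵥ x) (π i) = c i * co x i := by
      intro x i
      have h := mem_GU.1 hgU x (e i)
      rw [hc, herm_smul_right hF] at h
      show Cfsg.hermForm 6 F q _ (e (π i)) = c i * Cfsg.hermForm 6 F q x (e i)
      rw [← h, ← mul_assoc, hc0, one_mul]
    -- the determinant is the product of the multipliers
    have hprod : ∏ i, c i = 1 := by
      let U : Matrix (Fin 6) (Fin 6) F := Matrix.of fun i j => e j i
      let M : Matrix (Fin 6) (Fin 6) F := (Matrix.diagonal c).submatrix π.symm id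
      have hUM : (g : Matrix (Fin 6) (Fin 6) F) * U = U * M := by
        ext a j
        have h : ((g : Matrix (Fin 6) (Fin 6) F) * U) a j = ((g : Matrix (Fin 6) (Fin 6) F) *ᵥ e j) a := by
          simp [U, Matrix.mul_apply, Matrix.mulVec, dotProduct]
        rw [h, hc, Pi.smul_apply, smul_eq_mul, Matrix.mul_apply, Finset.sum_eq_single (π j)]
        · simp [M, U, mul_comm]
        · intro b _ hb
          have hne : π.symm b ≠ j := fun h => hb (by rw [← h, π.apply_symm_apply])
          simp [M, Matrix.diagonal_apply_ne _ hne]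
        · simp
      have hU : U.det ≠ 0 := fun h0 => by
        obtain ⟨s, hs0, hs⟩ := Matrix.exists_mulVec_eq_zero_iff.2 h0
        apply hs0
        funext i
        have hsum : ∑ j, s j • e j = 0 := by
          rw [← hs]; funext a; simp [U, Matrix.mulVec, dotProduct, Finset.sum_apply, mul_comm]
        have := hcosum s i
        rw [hsum] at this
        rw [← this]; exact herm_zero_left _
      have hdet := congrArg Matrix.det hUM
      have hker : Matrix.GeneralLinearGroup.det g = 1 := MonoidHom.mem_ker.1 hg1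
      have hgdet : (g : Matrix (Fin 6) (Fin 6) F).det = 1 := by
        rw [← Matrix.GeneralLinearGroup.val_det_apply, hker, Units.val_one]
      rw [Matrix.det_mul, Matrix.det_mul, hgdet, one_mul, Matrix.det_permute, Matrix.det_diagonal] at hdet
      rcases Int.units_eq_one_or (Equiv.Perm.sign π.symm) with h | h
      · rw [h] at hdet; simp at hdet
        apply mul_left_cancel₀ hU
        rw [mul_one]
        linear_combination -hdet
      · rw [h] at hdet; simp at hdet
        apply mul_left_cancel₀ hU
        rw [mul_one]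
        linear_combination -hdet + (U.det * ∏ i, c i) * h2
    intro x
    have hfil : (Finset.univ.filter fun i => co ((g : Matrix (Fin 6) (Fin 6) F) *ᵥ x) i ≠ 0) =
        (Finset.univ.filter fun i => co x i ≠ 0).map π.toEmbedding := by
      ext i
      obtain ⟨j, rfl⟩ := π.surjective i
      simp [hco, hcne]
    have hall : (∀ i, co ((g : Matrix (Fin 6) (Fin 6) F) *ᵥ x) i ≠ 0) ↔ ∀ i, co x i ≠ 0 := by
      refine ⟨fun h i => ?_, fun h i => ?_⟩
      · have := h (π i); rw [hco] at this; exact right_ne_zero_of_mul this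
      · obtain ⟨j, rfl⟩ := π.surjective i; rw [hco]; exact mul_ne_zero (hcne j) (h j)
    have hP : ∏ i, co ((g : Matrix (Fin 6) (Fin 6) F) *ᵥ x) i = ∏ i, co x i := by
      rw [← Equiv.prod_comp π, Finset.prod_congr rfl fun i _ => hco x i, Finset.prod_mul_distrib, hprod, one_mul]
    simp only [InConfig, hfil, Finset.card_map, hall, hP]
  -- the extra transvection
  let u : Fin 6 → F := ∑ j, (1 : F) • e j
  have hu1 : ∀ i, co u i = 1 := fun i => hcosum _ i
  have hhu : ∀ x, Cfsg.hermForm 6 F q x u = ∑ j, co x j := by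
    intro x
    simp only [u, one_smul]
    exact herm_sum_right hF _ _ _
  have hu : Cfsg.hermForm 6 F q u u = 0 := by
    rw [hhu, Fin.sum_univ_six]
    simp only [hu1]
    linear_combination 3 * h2
  have hone : (1 : F) + 1 ^ q = 0 := by rw [one_pow, one_add_one_eq_two, h2]
  have hT := utransv_mem hF hu hone
  set T := utransv hu 1
  have hTco : ∀ x, co ((T : Matrix (Fin 6) (Fin 6) F) *ᵥ x) = fun i => co x i + ∑ j, co x j := by
    intro x
    funext i
    rw [utransv_mulVec hu, hcoadd, hcosmul, hu1, hhu, one_mul, mul_one]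
  have hTL : T ∈ L := by
    have hfwd : ∀ x, InConfig (co x) → InConfig (co ((T : Matrix (Fin 6) (Fin 6) F) *ᵥ x)) :=
      fun x hx => by rw [hTco]; exact inConfig_shift hF hq hx
    intro x
    refine ⟨hfwd x, fun h => ?_⟩
    have h' := hfwd _ h
    rw [hTco, hTco] at h'
    convert h' using 1
    funext i
    simp only [Fin.sum_univ_six]
    linear_combination -4 * (co x 0 + co x 1 + co x 2 + co x 3 + co x 4 + co x 5) * h2
  rcases hH.2 (L ⊓ (Cfsg.GU 6 F q ⊓ specialLinear (Fin 6) F)) (le_inf hHL hH.1.le) inf_le_right with h | h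
  · -- the transvection is not monomial
    have hTH : T ∈ H := h ▸ ⟨hTL, hT⟩
    obtain ⟨π, hπ⟩ := hle hTH
    obtain ⟨a, ha⟩ := hspan (π 0) _ (show (T : Matrix (Fin 6) (Fin 6) F) *ᵥ e 0 ∈ D (π 0) by
      rw [← hπ]; exact ⟨_, heD 0, Matrix.toLin'_apply _ _⟩)
    have hv : ∀ j, j ≠ 0 → a * co (e (π 0)) j = 1 := fun j hj => by
      rw [← hcosmul, ← ha, hTco]
      simp [hcoe, hj, Ne.symm hj]
    have h1 := hv 1 (by decide)
    have h3 := hv 2 (by decide)
    simp only [hcoe] at h1 h3
    split_ifs at h1 h3 with ha1 ha2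
    · exact absurd (ha1.symm.trans ha2) (by decide)
    all_goals simp at h1 h3
  · -- a transvection outside the configuration stabiliser
    obtain ⟨w, hw⟩ := exists_pow_ne_self hF
    have hw0 : w ≠ 0 := fun h => hw (by rw [h, zero_pow (q_pos hF).ne'])
    have hw1 : w ≠ 1 := fun h => hw (by rw [h, one_pow])
    let u' : Fin 6 → F := ∑ j, (![1, 1, 1, 1, 0, 0] : Fin 6 → F) j • e j
    have hu'c : ∀ i, co u' i = (![1, 1, 1, 1, 0, 0] : Fin 6 → F) i := fun i => hcosum _ i
    have hhu' : ∀ x, Cfsg.hermForm 6 F q x u' = co x 0 + co x 1 + co x 2 + co x 3 := by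
      intro x
      simp only [u', herm_sum_right hF, herm_smul_right hF, Fin.sum_univ_six]
      simp [co, zero_pow (q_pos hF).ne', herm_add_right hF]
    have hu' : Cfsg.hermForm 6 F q u' u' = 0 := by
      rw [hhu']; simp [hu'c]; linear_combination 2 * h2
    have hT' := utransv_mem hF hu' hone
    have hTL' : utransv hu' 1 ∈ L := by
      have := (h.symm.le hT').1
      exact this
    let x : Fin 6 → F := ∑ j, (![1, w, 0, 0, 0, 0] : Fin 6 → F) j • e j
    have hx : InConfig (co x) := by
      left
      have : co x = ![1, w, 0, 0, 0, 0] := funext fun i => hcosum _ i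
      rw [this, Finset.card_filter, Fin.sum_univ_six]
      simp [hw0]
    have h' := (hTL' x).1 hx
    have hval : co ((utransv hu' 1 : Matrix (Fin 6) (Fin 6) F) *ᵥ x) =
        ![1 + (1 + w), w + (1 + w), 1 + w, 1 + w, 0, 0] := by
      funext i
      rw [utransv_mulVec hu', hcoadd, hcosmul, hu'c, hhu', hcosum, one_mul]
      have e : ∀ j, co x j = (![1, w, 0, 0, 0, 0] : Fin 6 → F) j := fun j => hcosum _ j
      simp only [e]
      fin_cases i <;> simp
    rw [hval] at h'
    have n1 : 1 + (1 + w) ≠ 0 := fun h => hw0 (by linear_combination h - h2)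
    have n2 : w + (1 + w) ≠ 0 := fun h => one_ne_zero (α := F) (by linear_combination h - w * h2)
    have n3 : 1 + w ≠ 0 := fun h => hw1 (by linear_combination h - h2)
    rcases h' with h' | ⟨h', -⟩
    · rw [Finset.card_filter, Fin.sum_univ_six] at h'
      simp [n1, n2, n3] at h'
    · exact h' 5 rfl

end CfsgLib.Aschbacher.UnitarySix
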