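import Cfsg.Agent.Aschbacher.TensorSquare
import Cfsg.Agent.Aschbacher.UnitaryMaximal
import Cfsg.Agent.LinAlg.Witt.Bases

/-!
The tensor square configuration inside the special unitary group.
-/

set_option autoImplicit false
set_option linter.unusedSectionVars false

namespace CfsgLib.Aschbacher.Unitary

open Cfsg.Geo Module CfsgLib.AschPrime
open scoped Matrix MatrixGroups Kronecker

variable {F : Type*} [Field F] [Fintype F] {q n : ℕ}
variable (hF : Fintype.card F = q ^ 2)
include hF

/-- An invertible hermitian matrix is congruent to the identity. -/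
theorem exists_congr_one {m : ℕ} {X : Matrix (Fin m) (Fin m) F} (hX : IsUnit X)
    (hh : ∀ i j, X i j = (qFrob hF : F ≃+* F).toRingHom (X j i)) :
    ∃ A : GL (Fin m) F,
      A.valᵀ * X * A.val.map (qFrob hF : F ≃+* F).toRingHom = 1 := by
  classical
  set σ := (qFrob hF : F ≃+* F).toRingHom with hσ
  have hs := Forms.isSesquiForm_formOfGram σ X
  have h1 : ∀ i j, X i j = (1 : F) * σ (X j i) := fun i j => by rw [one_mul]; exact hh i j
  have hnd := Forms.nondegenerate_formOfGram σ (q_pow_pow hF) one_ne_zero h1 hX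
  let B : (Fin m → F) →ₛₗ[σ] (Fin m → F) →ₗ[F] F :=
    LinearMap.mk₂'ₛₗ σ (RingHom.id F) (fun v w => formOfGram σ X w v)
      (fun a b w => hs.add_right w a b) (fun c a w => hs.smul_right c w a)
      (fun v a b => hs.add_left a b v) (fun c v a => hs.smul_left c a v)
  have hS : ∀ u v, σ (B u v) = B v u := fun u v => by
    show σ (formOfGram σ X v u) = formOfGram σ X u v
    rw [Forms.formOfGram_refl σ (q_pow_pow hF) h1 u v, one_mul]
  have hker : LinearMap.ker B = ⊥ := by
    rw [Submodule.eq_bot_iff]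
    intro v hv
    by_contra hne
    obtain ⟨⟨x, hx⟩, -⟩ := hnd v hne
    exact hx (LinearMap.congr_fun (LinearMap.mem_ker.1 hv) x)
  obtain ⟨b, hb⟩ := CfsgLib.LinAlg.Witt.exists_orthonormal_basis σ (qFrob_ne_id hF) (q_pow_pow hF) B hS hker
  let eb : Fin m ≃ Fin (finrank F (Fin m → F)) := finCongr (finrank_fin_fun F).symm
  let M : Matrix (Fin m) (Fin m) F := Matrix.of fun i j => b (eb j) i
  have hM : IsUnit M := by
    rw [← Matrix.linearIndependent_cols_iff_isUnit]
    exact b.linearIndependent.comp eb eb.injective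
  refine ⟨hM.unit, ?_⟩
  ext i j
  have h2 : formOfGram σ X (b (eb i)) (b (eb j)) = (1 : Matrix (Fin m) (Fin m) F) i j := by
    show B (b (eb j)) (b (eb i)) = _
    rw [hb, Matrix.one_apply]
    simp [eq_comm]
  rw [← h2, Forms.formOfGram_eq, IsUnit.unit_spec, Matrix.mul_assoc, Matrix.mul_apply, dotProduct]
  refine Finset.sum_congr rfl fun a _ => ?_
  rw [Matrix.mul_apply]
  rfl

/-- The tensor square configuration: the stabiliser of a standard tensor square structure. -/
theorem square_structure {H : Subgroup (GL (Fin n) F)}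
    (hH : IsMaximalIn (Cfsg.GU n F q ⊓ specialLinear (Fin n) F) H) {d : ℕ} (hd : 3 ≤ d)
    (e : Fin n ≃ Fin d × Fin d) (P : GL (Fin n) F)
    {X C : Matrix (Fin d) (Fin d) F} (hX : IsUnit X) (hC : IsUnit C)
    (hpull : Forms.pullGram (Cfsg.hermForm n F q) e P = X ⊗ₖ C)
    (hle : ∀ P' : GL (Fin n) F, RankArgument.factorAlg e P' = RankArgument.factorAlg e P →
      H ≤ tensorWreathSubgroup d 2 (TensorSquare.sqEquiv e) P') :
    ∃ P' : GL (Fin n) F,
      (∀ x y : Fin d × Fin d → F, Cfsg.hermForm n F q (Forms.emb e P' x) (Forms.emb e P' y) =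
        ∑ p, x p * y p ^ q) ∧
      IsUnitaryFormPow q (formOfGram (fun x : F => x ^ q) (1 : Matrix (Fin d) (Fin d) F)) ∧
      IsTensorPowerFormStructure (fun x : F => x ^ q) (Cfsg.hermForm n F q)
        (formOfGram (fun x : F => x ^ q) (1 : Matrix (Fin d) (Fin d) F)) (TensorSquare.sqEquiv e) P' ∧
      H = tensorWreathSubgroup d 2 (TensorSquare.sqEquiv e) P' ⊓
        (Cfsg.GU n F q ⊓ specialLinear (Fin n) F) := by
  classical
  have : NeZero d := ⟨by omega⟩
  have hf := herm_rform (n := n) hF
  set σ := (qFrob hF : F ≃+* F).toRingHom with hσ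
  obtain ⟨X', C', hX', hC', hpull', hXh, hCh⟩ :=
    Forms.exists_hermitian_factors hf (qFrob_ne_id hF) hX hC hpull
  obtain ⟨A, hA⟩ := exists_congr_one hF hX' hXh
  obtain ⟨B, hB⟩ := exists_congr_one hF hC' hCh
  have hu : IsUnit (tconj e P ((A : Matrix (Fin d) (Fin d) F) ⊗ₖ (B : Matrix (Fin d) (Fin d) F))) := by
    refine IsUnit.map _ ((Matrix.isUnit_iff_isUnit_det _).2 ?_)
    rw [Matrix.det_kronecker]
    exact (((Matrix.isUnit_iff_isUnit_det _).1 A.isUnit).pow _).mul
      (((Matrix.isUnit_iff_isUnit_det _).1 B.isUnit).pow _)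
  obtain ⟨Q, hQ⟩ := hu
  have hQmem : Q ∈ tensorProductSubgroup d d e P := (mem_tensorProductSubgroup_iff e P Q).2 ⟨A, B, hQ⟩
  have hemb : ∀ x, Forms.emb e (Q * P) x =
      Forms.emb e P (((A : Matrix (Fin d) (Fin d) F) ⊗ₖ (B : Matrix (Fin d) (Fin d) F)) *ᵥ x) := fun x => by
    rw [← Forms.tconj_mulVec_emb, ← hQ, Forms.emb, Forms.emb, Units.val_mul, Matrix.mulVec_mulVec]
  have hfac : RankArgument.factorAlg e (Q * P) = RankArgument.factorAlg e P := by
    have hN := RankArgument.tensorProductSubgroup_le_normalizer e P hQmem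
    have ht : ∀ Z, tconj e (Q * P) Z = (Q : Matrix _ _ F) * tconj e P Z * ((Q⁻¹ : GL (Fin n) F) : Matrix _ _ F) := by
      intro Z
      rw [tconj_apply, tconj_apply, _root_.mul_inv_rev, Units.val_mul, Units.val_mul]
      simp only [mul_assoc]
    ext Z
    constructor
    · rintro ⟨Y, rfl⟩
      rw [ht]
      exact (hN _).1 ⟨Y, rfl⟩
    · intro hZ
      have h' : ((Q⁻¹ : GL (Fin n) F) : Matrix _ _ F) * Z * (Q : Matrix _ _ F) ∈ RankArgument.factorAlg e P := by
        refine (hN _).2 ?_
        simpa [mul_assoc] using hZ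
      obtain ⟨Y, hY⟩ := (RankArgument.mem_factorAlg e P).1 h'
      refine ⟨Y, ?_⟩
      rw [ht, ← hY]
      simp [mul_assoc]
  have hform : ∀ x y : Fin d × Fin d → F,
      Cfsg.hermForm n F q (Forms.emb e (Q * P) x) (Forms.emb e (Q * P) y) = ∑ p, x p * y p ^ q := by
    intro x y
    rw [hemb, hemb, Forms.form_emb hf.sesq, Forms.formOfGram_eq, hpull']
    set M := (A : Matrix (Fin d) (Fin d) F) ⊗ₖ (B : Matrix (Fin d) (Fin d) F)
    have h1 : (fun c => σ ((M *ᵥ y) c)) = M.map σ *ᵥ fun c => σ (y c) := by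
      funext c
      exact RingHom.map_mulVec σ M y c
    have h2 : Mᵀ * (X' ⊗ₖ C') * M.map σ = 1 := by
      have h3 : M.map σ = (A : Matrix (Fin d) (Fin d) F).map σ ⊗ₖ (B : Matrix (Fin d) (Fin d) F).map σ := by
        ext p r
        simp [M, Matrix.kroneckerMap_apply]
      rw [h3, ← Matrix.kroneckerMap_transpose, ← Matrix.mul_kronecker_mul, ← Matrix.mul_kronecker_mul, hA, hB,
        Matrix.one_kronecker_one]
    rw [h1, ← Matrix.vecMul_transpose, ← Matrix.dotProduct_mulVec, Matrix.mulVec_mulVec, Matrix.mulVec_mulVec,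
      h2, Matrix.one_mulVec]
    rfl
  have hst : IsUnitaryFormPow q (formOfGram (fun x : F => x ^ q) (1 : Matrix (Fin d) (Fin d) F)) := by
    have h1 : ∀ i j, (1 : Matrix (Fin d) (Fin d) F) i j = (1 : F) * σ ((1 : Matrix (Fin d) (Fin d) F) j i) := by
      intro i j
      rcases eq_or_ne i j with rfl | h
      · simp
      · simp [h, h.symm]
    exact ⟨(Forms.isSesquiForm_formOfGram σ 1).add_left, (Forms.isSesquiForm_formOfGram σ 1).smul_left,
      fun v w => (Forms.formOfGram_refl σ (q_pow_pow hF) h1 v w).trans (one_mul _),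
      Forms.nondegenerate_formOfGram σ (q_pow_pow hF) one_ne_zero h1 isUnit_one⟩
  have hgram : gramMatrix (formOfGram (fun x : F => x ^ q) (1 : Matrix (Fin d) (Fin d) F)) = 1 :=
    Forms.gramMatrix_formOfGram σ 1
  refine ⟨Q * P, hform, hst, ⟨1, one_ne_zero, fun x y => ?_⟩, eq_inf_of_isMaximalIn hH (hle _ hfac) fun hsu => ?_⟩
  · have he : ∀ z : (Fin 2 → Fin d) → F, z ∘ (TensorSquare.sqEquiv e) = (z ∘ (finTwoArrowEquiv (Fin d)).symm) ∘ e :=
      fun z => rfl
    rw [one_mul, he, he]
    show Cfsg.hermForm n F q (Forms.emb e (Q * P) _) (Forms.emb e (Q * P) _) = _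
    rw [hform, hgram, ← (finTwoArrowEquiv (Fin d)).sum_comp]
    refine Finset.sum_congr rfl fun a _ => ?_
    rw [Finset.sum_eq_single a]
    · have ha : ![a 0, a 1] = a := by funext i; fin_cases i <;> rfl
      simp [ha]
    · intro b _ hb
      have : ∃ i, a i ≠ b i := by
        by_contra! h
        exact hb (funext h).symm
      obtain ⟨i, hi⟩ := this
      have hz : (1 : Matrix (Fin d) (Fin d) F) (a i) (b i) = 0 := Matrix.one_apply_ne hi
      simp [Finset.prod_eq_zero (f := fun i => (1 : Matrix (Fin d) (Fin d) F) (a i) (b i)) (Finset.mem_univ i) hz]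
    · simp
  · obtain ⟨c, hc0, hc⟩ := exists_trace_zero hF
    have hn : n = d * d := by simpa using Fintype.card_congr e
    obtain ⟨v, hv0, hv⟩ := AschPrime.exists_isotropic hF (n := n) (by nlinarith)
    set T := utransv hv c with hT
    have hfix : ∀ x, hermDual q v x = 0 → (T : Matrix (Fin n) (Fin n) F) *ᵥ x = x := fun x hx => by
      rw [hT, utransv_mulVec, show Cfsg.hermForm n F q x v = 0 from hx]; simp
    have hmem := RankArgument.tensorProductSubgroup_le_normalizer e (Q * P)
      (TensorSquare.mem_tensor_of_fixes e (Q * P) hd (hsu (utransv_mem hF hv hc)) (hermDual q v) hfix)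
    have hker : n ≤ finrank F (LinearMap.ker (hermDual q v)) + 1 := by
      have h1 := LinearMap.finrank_range_add_finrank_ker (hermDual q v)
      have h2 := Submodule.finrank_le (LinearMap.range (hermDual q v))
      rw [finrank_fin_fun] at h1
      rw [Module.finrank_self] at h2
      omega
    have hcomm := RankArgument.commute_of_fixes hmem (U := LinearMap.ker (hermDual q v))
      (fun x hx => hfix x hx)
      (fun Y hY hY0 => by
        have := RankArgument.finrank_ker_factor e (Q * P) hY hY0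
        rw [Fintype.card_fin] at this ⊢
        omega)
    refine RankArgument.not_eigen_factor e (Q * P) (by omega) hv0 fun Z hZ =>
      RankArgument.exists_eigen_of_commute (c • hermDual q v) (T := (T : Matrix (Fin n) (Fin n) F))
        (fun x => by simp [hT, utransv_mulVec]) ?_ (hcomm Z hZ)
    intro h
    rcases smul_eq_zero.1 h with h | h
    · exact hc0 h
    · exact hv0 (herm_nondeg' hF fun y => LinearMap.congr_fun h y)

end CfsgLib.Aschbacher.Unitary
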